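import Mathlib
import Cfsg.Agent.Base
import Cfsg.Agent.Lib.ClassMax.Basic

/-!
Tensor structures on a vector space, contractions, and the stabiliser of a tensor decomposition.
-/

set_option autoImplicit false
set_option linter.unusedSectionVars false

namespace H11.Ten

open Module Cfsg H97

/-- A tensor decomposition `V = U ⊗ W`. -/
structure TS (F U W V : Type*) [Field F] [AddCommGroup U] [Module F U] [AddCommGroup W]
    [Module F W] [AddCommGroup V] [Module F V] where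
  τ : U →ₗ[F] W →ₗ[F] V
  h : IsTensorProduct τ

namespace TS

variable {F U W V : Type*} [Field F] [AddCommGroup U] [Module F U] [AddCommGroup W]
  [Module F W] [AddCommGroup V] [Module F V] (T : TS F U W V)

theorem ind {p : V → Prop} (x : V) (h0 : p 0) (h1 : ∀ u w, p (T.τ u w))
    (h2 : ∀ x y, p x → p y → p (x + y)) : p x := T.h.inductionOn x h0 h1 h2

theorem lext {M : Type*} [AddCommGroup M] [Module F M] {f g : V →ₗ[F] M}
    (h : ∀ u w, f (T.τ u w) = g (T.τ u w)) : f = g :=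
  LinearMap.ext fun x => T.ind (p := fun x => f x = g x) x (by simp) h
    fun x y hx hy => by rw [map_add, map_add, hx, hy]

theorem eq_top {p : Submodule F V} (h : ∀ u w, T.τ u w ∈ p) : p = ⊤ :=
  eq_top_iff.2 fun x _ => T.ind x p.zero_mem h fun _ _ => p.add_mem

/-- The same decomposition with the factors exchanged. -/
def flip : TS F W U V where
  τ := T.τ.flip
  h := IsTensorProduct.of_equiv ((TensorProduct.comm F W U).trans T.h.equiv) fun x y => by
    change T.h.equiv (y ⊗ₜ x) = _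
    rw [← LinearEquiv.coe_coe, IsTensorProduct.equiv_toLinearMap]
    rfl

theorem flip_τ (w : W) (u : U) : T.flip.τ w u = T.τ u w := rfl

/-- Contraction with a linear form on `W`. -/
noncomputable def cW : Dual F W →ₗ[F] V →ₗ[F] U where
  toFun φ := T.h.lift (LinearMap.mk₂ F (fun u w => φ w • u) (fun _ _ _ => smul_add _ _ _)
    (fun _ _ _ => smul_comm _ _ _) (fun _ _ _ => by rw [map_add, add_smul])
    (fun _ _ _ => by rw [map_smul, smul_eq_mul, mul_smul]))
  map_add' φ ψ := T.lext fun u w => by simp [IsTensorProduct.lift_eq, add_smul]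
  map_smul' c φ := T.lext fun u w => by simp [IsTensorProduct.lift_eq, mul_smul]

@[simp] theorem cW_τ (φ : Dual F W) (u : U) (w : W) : T.cW φ (T.τ u w) = φ w • u :=
  T.h.lift_eq _ _ _

/-- Contraction with a linear form on `U`. -/
noncomputable def cU : Dual F U →ₗ[F] V →ₗ[F] W := T.flip.cW

@[simp] theorem cU_τ (ψ : Dual F U) (u : U) (w : W) : T.cU ψ (T.τ u w) = ψ u • w :=
  T.flip.cW_τ ψ w u

theorem cW_cU (ψ : Dual F U) (φ : Dual F W) (x : V) : ψ (T.cW φ x) = φ (T.cU ψ x) := by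
  have : ψ ∘ₗ T.cW φ = φ ∘ₗ T.cU ψ := T.lext fun u w => by simp [mul_comm]
  exact LinearMap.congr_fun this x

/-- The tensor product of two endomorphisms. -/
noncomputable def op (s : U →ₗ[F] U) (E : W →ₗ[F] W) : V →ₗ[F] V := T.h.map T.h s E

@[simp] theorem op_τ (s : U →ₗ[F] U) (E : W →ₗ[F] W) (u : U) (w : W) :
    T.op s E (T.τ u w) = T.τ (s u) (E w) := T.h.map_eq T.h s E u w

/-- The tensor product of two automorphisms. -/
noncomputable def opE (α : U ≃ₗ[F] U) (β : W ≃ₗ[F] W) : V ≃ₗ[F] V :=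
  LinearEquiv.ofLinearMap (T.op α β) (T.op α.symm β.symm) (T.lext fun u w => by simp)
    (T.lext fun u w => by simp)

@[simp] theorem opE_τ (α : U ≃ₗ[F] U) (β : W ≃ₗ[F] W) (u : U) (w : W) :
    T.opE α β (T.τ u w) = T.τ (α u) (β w) := T.op_τ _ _ u w

theorem opE_coe (α : U ≃ₗ[F] U) (β : W ≃ₗ[F] W) : (T.opE α β : V →ₗ[F] V) = T.op α β := rfl

/-- The stabiliser of the tensor decomposition. -/
def TG : Subgroup (V ≃ₗ[F] V) where
  carrier := {g | ∃ (α : U ≃ₗ[F] U) (β : W ≃ₗ[F] W), ∀ u w, g (T.τ u w) = T.τ (α u) (β w)}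
  one_mem' := ⟨1, 1, fun _ _ => rfl⟩
  mul_mem' := by
    rintro g h ⟨α, β, e⟩ ⟨α', β', e'⟩
    exact ⟨α * α', β * β', fun u w => by rw [le_mul_apply, e', e]; rfl⟩
  inv_mem' := by
    rintro g ⟨α, β, e⟩
    exact ⟨α⁻¹, β⁻¹, fun u w => by
      rw [le_inv_apply, LinearEquiv.symm_apply_eq, e, le_apply_inv, le_apply_inv]⟩

theorem mem_TG {g : V ≃ₗ[F] V} :
    g ∈ T.TG ↔ ∃ (α : U ≃ₗ[F] U) (β : W ≃ₗ[F] W), ∀ u w, g (T.τ u w) = T.τ (α u) (β w) := Iff.rfl

theorem opE_mem (α : U ≃ₗ[F] U) (β : W ≃ₗ[F] W) : T.opE α β ∈ T.TG := ⟨α, β, T.opE_τ α β⟩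

theorem flip_TG : T.flip.TG = T.TG := by
  ext g
  exact ⟨fun ⟨β, α, e⟩ => ⟨α, β, fun u w => e w u⟩, fun ⟨α, β, e⟩ => ⟨β, α, fun w u => e u w⟩⟩

theorem τ_eq_zero {u : U} {w : W} : T.τ u w = 0 ↔ u = 0 ∨ w = 0 := by
  refine ⟨fun h => ?_, by rintro (rfl | rfl) <;> simp⟩
  by_contra hc
  push Not at hc
  obtain ⟨φ, hφ⟩ := exists_dual_of_ne_zero (F := F) hc.2 1
  have := congrArg (T.cW φ) h
  simp [hφ, hc.1] at this

/-- The subspace `U ⊗ w`. -/
def col (w : W) : Submodule F V := LinearMap.range (T.τ.flip w)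

theorem mem_col {w : W} {x : V} : x ∈ T.col w ↔ ∃ u, T.τ u w = x := Iff.rfl

theorem τ_mem_col (u : U) (w : W) : T.τ u w ∈ T.col w := ⟨u, rfl⟩

theorem col_injective {w : W} (hw : w ≠ 0) : Function.Injective (T.τ.flip w) := by
  rw [injective_iff_map_eq_zero]
  intro u hu
  exact (T.τ_eq_zero.1 hu).resolve_right hw

theorem finrank_col {w : W} (hw : w ≠ 0) : finrank F (T.col w) = finrank F U :=
  LinearMap.finrank_range_of_inj (T.col_injective hw)

theorem col_smul {w : W} {c : F} (hc : c ≠ 0) : T.col (c • w) = T.col w := by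
  ext x
  constructor
  · rintro ⟨u, rfl⟩
    exact ⟨c • u, by simp⟩
  · rintro ⟨u, rfl⟩
    exact ⟨c⁻¹ • u, by simp [smul_smul, hc]⟩

theorem eq_sum {ι : Type*} [Fintype ι] (b : Basis ι F W) (x : V) :
    x = ∑ j, T.τ (T.cW (b.coord j) x) (b j) := by
  have : LinearMap.id = ∑ j, T.τ.flip (b j) ∘ₗ T.cW (b.coord j) := T.lext fun u w => by
    conv_lhs => rw [← b.sum_repr w, LinearMap.id_apply, map_sum]
    simp
  simpa using LinearMap.congr_fun this x

theorem eq_sum' {ι : Type*} [Fintype ι] (b : Basis ι F U) (x : V) :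
    x = ∑ j, T.τ (b j) (T.cU (b.coord j) x) := T.flip.eq_sum b x

theorem mem_col_of {w : W} {x : V} [FiniteDimensional F U]
    (h : ∀ φ : Dual F W, φ w = 0 → T.cW φ x = 0) : x ∈ T.col w := by
  rw [T.eq_sum' (Module.finBasis F U) x]
  refine Submodule.sum_mem _ fun i _ => ?_
  have h1 : T.cU ((Module.finBasis F U).coord i) x ∈ F ∙ w := by
    by_contra hc
    obtain ⟨φ, h2, h3⟩ := exists_dual_of_notMem_span hc 1
    rw [← cW_cU, h φ h2] at h3
    simp at h3
  obtain ⟨c, hc⟩ := Submodule.mem_span_singleton.1 h1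
  rw [← hc]
  exact ⟨c • (Module.finBasis F U) i, by simp⟩

theorem eq_zero_of_cW [FiniteDimensional F U] {x : V} (h : ∀ φ : Dual F W, T.cW φ x = 0) : x = 0 := by
  obtain ⟨u, hu⟩ := T.mem_col_of (w := 0) (x := x) fun φ _ => h φ
  simpa using hu.symm

include T in
theorem finite [FiniteDimensional F U] [FiniteDimensional F W] : FiniteDimensional F V :=
  LinearEquiv.finiteDimensional T.h.equiv

include T in
theorem finrank_eq [FiniteDimensional F U] [FiniteDimensional F W] :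
    finrank F V = finrank F U * finrank F W := by
  rw [← T.h.equiv.finrank_eq, Module.finrank_tensorProduct]

/-- An automorphism permuting the subspaces `U ⊗ w` stabilises the tensor decomposition. -/
theorem mem_TG_of_col [FiniteDimensional F U] [FiniteDimensional F W] [Nontrivial U]
    [Nontrivial W] {g : V ≃ₗ[F] V} {ι : Type*} [Fintype ι] (b : Basis ι F W) (i₀ : ι)
    (h : ∀ i, ∃ w', ∀ u, g (T.τ u (b i)) ∈ T.col w')
    (h' : ∀ i, i ≠ i₀ → ∃ w', ∀ u, g (T.τ u (b i₀ + b i)) ∈ T.col w') : g ∈ T.TG := by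
  classical
  have key : ∀ w, w ≠ 0 → (∃ w', ∀ u, g (T.τ u w) ∈ T.col w') →
      ∃ (w' : W) (α : U ≃ₗ[F] U), w' ≠ 0 ∧ ∀ u, g (T.τ u w) = T.τ (α u) w' := by
    rintro w hw ⟨w', h1⟩
    have hw' : w' ≠ 0 := by
      rintro rfl
      obtain ⟨u, hu⟩ := exists_ne (0 : U)
      obtain ⟨v, hv⟩ := h1 u
      have : T.τ u w = 0 := by simpa using hv.symm
      exact (T.τ_eq_zero.1 this).elim hu hw
    obtain ⟨φ, hφ⟩ := exists_dual_of_ne_zero (F := F) hw' 1
    let s : U →ₗ[F] U := T.cW φ ∘ₗ (g : V →ₗ[F] V) ∘ₗ T.τ.flip w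
    have hs : ∀ u, g (T.τ u w) = T.τ (s u) w' := fun u => by
      obtain ⟨v, hv⟩ := h1 u
      change T.τ v w' = _ at hv
      change _ = T.τ (T.cW φ (g (T.τ u w))) w'
      rw [← hv]; simp [hφ]
    have hinj : Function.Injective s := by
      rw [injective_iff_map_eq_zero]
      intro u hu
      have := hs u
      rw [hu] at this
      simp only [map_zero, LinearMap.zero_apply, EmbeddingLike.map_eq_zero_iff] at this
      exact (T.τ_eq_zero.1 this).resolve_right hw
    exact ⟨w', LinearEquiv.ofInjectiveEndo s hinj, hw', hs⟩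
  obtain ⟨w₀, α, hw₀, hα⟩ := key _ (b.ne_zero i₀) (h i₀)
  have h2 : ∀ i, ∃ w', ∀ u, g (T.τ u (b i)) = T.τ (α u) w' := by
    intro i
    by_cases hi : i = i₀
    · exact ⟨w₀, hi ▸ hα⟩
    obtain ⟨w₁, α₁, hw₁, hα₁⟩ := key _ (b.ne_zero i) (h i)
    have hne : b i₀ + b i ≠ 0 := fun h0 => by
      have := congrArg (b.coord i) h0
      simp [hi] at this
    obtain ⟨w₂, α₂, hw₂, hα₂⟩ := key _ hne (h' i hi)
    have hind : w₀ ∉ F ∙ w₁ := fun hc => by
      obtain ⟨c, rfl⟩ := Submodule.mem_span_singleton.1 hc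
      obtain ⟨u, hu⟩ := exists_ne (0 : U)
      have h3 : g (T.τ u (b i₀)) = g (T.τ (α₁.symm (c • α u)) (b i)) := by
        rw [hα, hα₁]; simp
      have h4 := congrArg (T.cW (b.coord i₀)) (g.injective h3)
      simp [hi, hu] at h4
    have hsum : ∀ u, T.τ (α u) w₀ + T.τ (α₁ u) w₁ = T.τ (α₂ u) w₂ := fun u => by
      rw [← hα, ← hα₁, ← hα₂, map_add, map_add]
    obtain ⟨φ, hφ1, hφ0⟩ := exists_dual_of_notMem_span hind 1
    have hind' : w₁ ∉ F ∙ w₀ := fun hc => by
      obtain ⟨c, rfl⟩ := Submodule.mem_span_singleton.1 hc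
      have hc0 : c = 0 := by simpa [hφ0] using hφ1
      exact hw₁ (by simp [hc0])
    obtain ⟨φ', hφ0', hφ1'⟩ := exists_dual_of_notMem_span hind' 1
    have e1 : ∀ u, α u = φ w₂ • α₂ u := fun u => by
      simpa [hφ0, hφ1] using congrArg (T.cW φ) (hsum u)
    have e2 : ∀ u, α₁ u = φ' w₂ • α₂ u := fun u => by
      simpa [hφ0', hφ1'] using congrArg (T.cW φ') (hsum u)
    have hc : φ w₂ ≠ 0 := fun h0 => by
      obtain ⟨u, hu⟩ := exists_ne (0 : U)
      exact hu (by simpa [h0] using e1 u)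
    refine ⟨(φ' w₂ * (φ w₂)⁻¹) • w₁, fun u => ?_⟩
    rw [hα₁, e1, e2]
    simp [smul_smul, hc]
  choose w' hw' using h2
  let β : W →ₗ[F] W := b.constr F w'
  have hβ : ∀ u w, g (T.τ u w) = T.τ (α u) (β w) := fun u w => by
    have : (g : V →ₗ[F] V) ∘ₗ T.τ u = T.τ (α u) ∘ₗ β := b.ext fun i => by simp [β, hw']
    exact LinearMap.congr_fun this w
  have hinj : Function.Injective β := by
    rw [injective_iff_map_eq_zero]
    intro w hw
    obtain ⟨u, hu⟩ := exists_ne (0 : U)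
    have := hβ u w
    rw [hw] at this
    simp only [map_zero, EmbeddingLike.map_eq_zero_iff] at this
    exact (T.τ_eq_zero.1 this).resolve_left hu
  exact ⟨α, LinearEquiv.ofInjectiveEndo β hinj, hβ⟩

end TS

theorem det_one_add_comp {F V X : Type*} [Field F] [AddCommGroup V] [Module F V] [AddCommGroup X]
    [Module F X] [FiniteDimensional F V] [FiniteDimensional F X] (A : X →ₗ[F] V) (B : V →ₗ[F] X) :
    LinearMap.det (1 + A ∘ₗ B : V →ₗ[F] V) = LinearMap.det (1 + B ∘ₗ A : X →ₗ[F] X) := by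
  classical
  let b := Module.finBasis F V
  let c := Module.finBasis F X
  rw [← LinearMap.det_toMatrix b, ← LinearMap.det_toMatrix c, map_add, map_add,
    LinearMap.toMatrix_comp b c b, LinearMap.toMatrix_comp c b c, LinearMap.toMatrix_one,
    LinearMap.toMatrix_one, Matrix.det_one_add_mul_comm]

end H11.Ten
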