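import Mathlib
import Cfsg.Agent.Base
import Cfsg.Agent.Lib.Tensor.Basic

/-!
The stabiliser of a tensor decomposition `U ⊗ W`, `2 ≤ dim U < dim W`, is maximal in `SL`.
-/

set_option autoImplicit false
set_option linter.unusedSectionVars false

namespace H11.Ten

open Module Cfsg H97

section Gen

variable {F V : Type*} [Field F] [AddCommGroup V] [Module F V] {M : Subgroup (V ≃ₗ[F] V)}

theorem has_neg {A : V →ₗ[F] V} (h : Has M fun x => x + A x) (hA : ∀ x, A (A x) = 0) :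
    Has M fun x => x - A x := h.inv fun x => by simp [hA]

theorem has_comm {A B : V →ₗ[F] V} (h : Has M fun x => x + A x) (h' : Has M fun x => x + B x)
    (hA : ∀ x, A (A x) = 0) (hB : ∀ x, B (B x) = 0) (hBA : ∀ x, B (A x) = 0) :
    Has M fun x => x + A (B x) :=
  (h.comp (h'.comp ((has_neg h hA).comp (has_neg h' hB)))).congr fun x => by
    simp only [map_add, map_sub, hA, hB, hBA, map_zero]
    abel

theorem finrank_ker_dual [FiniteDimensional F V] (X : Submodule F V) (φ : Dual F V) :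
    finrank F X ≤ finrank F ↥(X ⊓ LinearMap.ker φ) + 1 := by
  have h1 := Submodule.finrank_sup_add_finrank_inf_eq X (LinearMap.ker φ)
  have h2 := LinearMap.finrank_range_add_finrank_ker φ
  have h3 : finrank F (LinearMap.range φ) ≤ 1 := by
    simpa using Submodule.finrank_le (LinearMap.range φ)
  have h4 := Submodule.finrank_le (X ⊔ LinearMap.ker φ)
  omega

theorem exists_ker_two [FiniteDimensional F V] (h : 3 ≤ finrank F V) (φ ψ : Dual F V) :
    ∃ w, w ≠ 0 ∧ φ w = 0 ∧ ψ w = 0 := by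
  have h1 := finrank_ker_dual ⊤ φ
  have h2 := finrank_ker_dual (⊤ ⊓ LinearMap.ker φ) ψ
  rw [finrank_top] at h1
  obtain ⟨w, hw, hw0⟩ := Submodule.exists_mem_ne_zero_of_ne_bot
    (p := ⊤ ⊓ LinearMap.ker φ ⊓ LinearMap.ker ψ) (fun h0 => by rw [h0, finrank_bot] at h2; omega)
  exact ⟨w, hw0, hw.1.2, hw.2⟩

theorem exists_dual_two [FiniteDimensional F V] (h : 3 ≤ finrank F V) (x y : V) :
    ∃ φ : Dual F V, φ ≠ 0 ∧ φ x = 0 ∧ φ y = 0 :=
  exists_ker_two (by rwa [Subspace.dual_finrank_eq]) (Dual.eval F V x) (Dual.eval F V y)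

theorem exists_notMem_span [FiniteDimensional F V] (h : 2 ≤ finrank F V) (x : V) :
    ∃ y, y ∉ F ∙ x := by
  by_contra hc
  push Not at hc
  have h1 : (F ∙ x) = ⊤ := eq_top_iff.2 fun y _ => hc y
  have h2 := finrank_span_le_card (R := F) ({x} : Set V)
  rw [h1, finrank_top] at h2
  simp at h2
  omega

theorem exists_apply_eq_one {φ : Dual F V} (h : φ ≠ 0) : ∃ x, φ x = 1 := by
  obtain ⟨x, hx⟩ := DFunLike.ne_iff.1 h
  exact ⟨(φ x)⁻¹ • x, by simpa using inv_mul_cancel₀ hx⟩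

theorem exists_ker_apply_eq_one {φ ψ : Dual F V} (h : ψ ∉ F ∙ φ) : ∃ x, φ x = 0 ∧ ψ x = 1 := by
  by_contra hc
  push Not at hc
  refine h (Submodule.mem_span_singleton.2 ?_)
  have h1 : ∀ x, φ x = 0 → ψ x = 0 := fun x hx => by
    by_contra h2
    exact hc ((ψ x)⁻¹ • x) (by simp [hx]) (by simp [h2])
  by_cases h0 : φ = 0
  · exact ⟨0, by ext x; simp [h1 x (by simp [h0])]⟩
  obtain ⟨x, hx⟩ := exists_apply_eq_one h0
  refine ⟨ψ x, LinearMap.ext fun y => ?_⟩
  have := h1 (y - φ y • x) (by simp [hx])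
  simp only [map_sub, map_smul, smul_eq_mul] at this
  simp only [LinearMap.smul_apply, smul_eq_mul]
  linear_combination -this

theorem exists_notMem_of_not_scalar {s : V →ₗ[F] V} (hs : ∀ c : F, s ≠ c • LinearMap.id) :
    ∃ u, s u ∉ F ∙ u := by
  by_contra hc
  push Not at hc
  obtain ⟨c, hc'⟩ := LinearMap.exists_eq_smul_id_of_forall_notLinearIndependent (f := s) fun u => by
    obtain ⟨c, hc⟩ := Submodule.mem_span_singleton.1 (hc u)
    rw [LinearIndependent.pair_iff]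
    push Not
    exact ⟨c, -1, by simp [hc], by simp⟩
  exact hs c hc'

end Gen

namespace TS

variable {F U W V : Type*} [Field F] [AddCommGroup U] [Module F U] [AddCommGroup W]
  [Module F W] [AddCommGroup V] [Module F V] (T : TS F U W V) {M : Subgroup (V ≃ₗ[F] V)}

theorem det_op [FiniteDimensional F U] [FiniteDimensional F W] (s : U →ₗ[F] U) (E : W →ₗ[F] W) :
    LinearMap.det (T.op s E) =
      LinearMap.det s ^ finrank F W * LinearMap.det E ^ finrank F U := by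
  classical
  change LinearMap.det ((T.h.equiv : _ →ₗ[F] V) ∘ₗ TensorProduct.map s E ∘ₗ
    (T.h.equiv.symm : V →ₗ[F] _)) = _
  rw [LinearMap.det_conj, ← LinearMap.det_toMatrix
    ((Module.finBasis F U).tensorProduct (Module.finBasis F W)), TensorProduct.toMatrix_map,
    Matrix.det_kronecker, LinearMap.det_toMatrix, LinearMap.det_toMatrix]
  simp

theorem opE_mem_SLV [FiniteDimensional F U] [FiniteDimensional F W] {α : U ≃ₗ[F] U}
    {β : W ≃ₗ[F] W} (hα : α ∈ SLV F U) (hβ : β ∈ SLV F W) : T.opE α β ∈ SLV F V := by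
  rw [mem_SLV] at *
  rw [opE_coe, det_op, hα, hβ]; simp

/-- The map `s ⊗ w φ`. -/
noncomputable def nS (s : U →ₗ[F] U) (w : W) (φ : Dual F W) : V →ₗ[F] V :=
  T.τ.flip w ∘ₗ s ∘ₗ T.cW φ

theorem nS_apply (s : U →ₗ[F] U) (w : W) (φ : Dual F W) (x : V) :
    T.nS s w φ x = T.τ (s (T.cW φ x)) w := rfl

/-- `M` contains `1 + s ⊗ w φ`. -/
def HasS (M : Subgroup (V ≃ₗ[F] V)) (s : U →ₗ[F] U) (w : W) (φ : Dual F W) : Prop :=
  Has M fun x => x + T.τ (s (T.cW φ x)) w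

variable {T}

theorem HasS.add_s {s s' : U →ₗ[F] U} {w : W} {φ : Dual F W} (h : T.HasS M s w φ)
    (h' : T.HasS M s' w φ) (hw : φ w = 0) : T.HasS M (s + s') w φ :=
  (Has.comp h h').congr fun x => by simp [hw]; abel

theorem HasS.sub_φ {s : U →ₗ[F] U} {w : W} {φ φ' : Dual F W} (h : T.HasS M s w φ)
    (h' : T.HasS M s w φ') (hw : φ w = 0) (hw' : φ' w = 0) : T.HasS M s w (φ - φ') :=
  (Has.comp h (has_neg (A := T.nS s w φ') h' fun x => by simp [nS_apply, hw'])).congr fun x => by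
    simp [hw, nS_apply]; abel

theorem HasS.comm {s s' : U →ₗ[F] U} {w w' : W} {φ φ' : Dual F W} (h : T.HasS M s w φ)
    (h' : T.HasS M s' w' φ') (hw : φ w = 0) (hw' : φ' w' = 0) (h0 : φ' w = 0) (h1 : φ w' = 1) :
    T.HasS M (s ∘ₗ s') w φ' :=
  (has_comm (A := T.nS s w φ) (B := T.nS s' w' φ') h h' (fun x => by simp [nS_apply, hw])
    (fun x => by simp [nS_apply, hw']) fun x => by simp [nS_apply, h0]).congr fun x => by
    simp [nS_apply, h1]

theorem HasS.conj {s : U →ₗ[F] U} {w : W} {φ : Dual F W} (h : T.HasS M s w φ) {α : U ≃ₗ[F] U}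
    (hα : T.opE α 1 ∈ M) : T.HasS M (α ∘ₗ s ∘ₗ α.symm) w φ :=
  (Has.conj h hα).congr fun x => by
    have h1 : T.cW φ ∘ₗ (T.opE α 1).symm = α.symm ∘ₗ T.cW φ := T.lext fun u w => by
      have : (T.opE α 1).symm (T.τ u w) = T.τ (α.symm u) w := by
        rw [LinearEquiv.symm_apply_eq]; simp
      simp [this]
    have h2 := LinearMap.congr_fun h1 x
    simp only [LinearMap.comp_apply, LinearEquiv.coe_coe] at h2
    simp [h2]

theorem hasS_zero_w (s : U →ₗ[F] U) (φ : Dual F W) : T.HasS M s 0 φ :=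
  has_id.congr fun x => by simp

theorem hasS_zero_φ (s : U →ₗ[F] U) (w : W) : T.HasS M s w 0 :=
  has_id.congr fun x => by simp

theorem HasS.smul_w {s : U →ₗ[F] U} {w : W} {φ : Dual F W} {c : F} (h : T.HasS M s w (c • φ)) :
    T.HasS M s (c • w) φ := Has.congr h fun x => by simp

theorem HasS.smul_s {s : U →ₗ[F] U} {w : W} {φ : Dual F W} {c : F} (h : T.HasS M s w (c • φ)) :
    T.HasS M (c • s) w φ := Has.congr h fun x => by simp

theorem HasS.hasT {u : U} {ψ : Dual F U} {w : W} {φ : Dual F W}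
    (h : T.HasS M (ψ.smulRight u) w φ) : HasT M (T.τ u w) (ψ ∘ₗ T.cW φ) :=
  Has.congr h fun x => by simp

variable [FiniteDimensional F U] [FiniteDimensional F W]

theorem hasS_one (hM : T.TG ⊓ SLV F V ≤ M) {w : W} {φ : Dual F W} (h : φ w = 0) :
    T.HasS M LinearMap.id w φ := by
  obtain ⟨β, hβ, e⟩ := (hasT_SLV h).elim
  refine ⟨T.opE 1 β, hM ⟨T.opE_mem _ _, T.opE_mem_SLV (Subgroup.one_mem _) hβ⟩, fun x => ?_⟩
  have : (T.opE 1 β : V →ₗ[F] V) = 1 + T.nS LinearMap.id w φ :=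
    T.lext fun u w => by simp [e, nS_apply]
  exact LinearMap.congr_fun this x

/-- One element `1 + s ⊗ w φ` gives all of them. -/
theorem HasS.all (hM : T.TG ⊓ SLV F V ≤ M) (hb : 3 ≤ finrank F W) {s : U →ₗ[F] U} {w : W}
    {φ : Dual F W} (h : T.HasS M s w φ) (hw0 : w ≠ 0) (hφ0 : φ ≠ 0) (hw : φ w = 0) (w' : W)
    (φ' : Dual F W) (hw' : φ' w' = 0) : T.HasS M s w' φ' := by
  have step1 : ∀ (w : W) (φ : Dual F W), T.HasS M s w φ → φ ≠ 0 → φ w = 0 → ∀ φ' : Dual F W,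
      φ' w = 0 → T.HasS M s w φ' := by
    intro w φ h hφ0 hw
    have key : ∀ φ' : Dual F W, φ' w = 0 → φ ∉ F ∙ φ' → T.HasS M s w φ' := fun φ' h1 h2 => by
      obtain ⟨x, hx, hx'⟩ := exists_ker_apply_eq_one h2
      exact h.comm (hasS_one hM hx) hw hx h1 hx'
    intro φ' h1
    obtain ⟨x, hx⟩ := exists_apply_eq_one hφ0
    obtain ⟨χ, hχ0, hχ1, hχ2⟩ := exists_dual_two hb w x
    have h3 : ∀ c : F, φ ∉ F ∙ (c • φ + χ) := fun c hc => by
      obtain ⟨d, hd⟩ := Submodule.mem_span_singleton.1 hc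
      have h4 : d * c = 1 := by simpa [hx, hχ2] using LinearMap.congr_fun hd x
      rw [smul_add, smul_smul, h4, one_smul, add_eq_left, smul_eq_zero] at hd
      exact hχ0 (hd.resolve_left (left_ne_zero_of_mul_eq_one h4))
    by_cases h2 : φ ∈ F ∙ φ'
    · obtain ⟨d, hd⟩ := Submodule.mem_span_singleton.1 h2
      have hd0 : d ≠ 0 := by rintro rfl; exact hφ0 (by simpa using hd.symm)
      have h5 := (key _ (by simp [hw, hχ1]) (h3 d⁻¹)).sub_φ (key _ (by simp [hχ1]) (h3 0))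
        (by simp [hw, hχ1]) (by simp [hχ1])
      convert h5 using 1
      rw [← hd]; simp [smul_smul, hd0]
    · exact key φ' h1 h2
  have step2 : ∀ (w : W), w ≠ 0 → (∀ φ : Dual F W, φ w = 0 → T.HasS M s w φ) → ∀ (w' : W)
      (φ : Dual F W), φ w = 0 → φ w' = 0 → T.HasS M s w' φ := by
    intro w _ h w' φ h1 h2
    by_cases h3 : w ∈ F ∙ w'
    · obtain ⟨d, rfl⟩ := Submodule.mem_span_singleton.1 h3
      have hd0 : d ≠ 0 := by rintro rfl; simp at *
      have := (h (d⁻¹ • φ) (by simp [h2])).smul_w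
      simpa [smul_smul, hd0] using this
    · obtain ⟨χ, hχ, hχ'⟩ := exists_dual_of_notMem_span h3 1
      exact (hasS_one hM hχ).comm (h φ h1) hχ h1 h2 hχ'
  obtain ⟨χ, hχ0, hχ1, hχ2⟩ := exists_dual_two hb w w'
  exact step1 w' χ (step2 w hw0 (step1 w φ h hφ0 hw) w' χ hχ1 hχ2) hχ0 hχ2 φ' hw'

variable (T) in
/-- The level algebra of `M`. -/
def lev (M : Subgroup (V ≃ₗ[F] V)) : Submodule F (U →ₗ[F] U) where
  carrier := {s | ∀ (w : W) (φ : Dual F W), φ w = 0 → T.HasS M s w φ}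
  zero_mem' _ _ _ := has_id.congr fun x => by simp
  add_mem' h h' w φ hw := (h w φ hw).add_s (h' w φ hw) hw
  smul_mem' c s h w φ hw := (h w (c • φ) (by simp [hw])).smul_s

theorem lev_comp (hM : T.TG ⊓ SLV F V ≤ M) (hb : 3 ≤ finrank F W) {s s' : U →ₗ[F] U}
    (h : s ∈ T.lev M) (h' : s' ∈ T.lev M) : s ∘ₗ s' ∈ T.lev M := by
  have : Nontrivial W := Module.nontrivial_of_finrank_pos (R := F) (by omega)
  obtain ⟨w, hw⟩ := exists_ne (0 : W)
  obtain ⟨w', hw'⟩ := exists_notMem_span (F := F) (by omega) w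
  obtain ⟨φ, hφ, hφ'⟩ := exists_dual_of_notMem_span hw' 1
  obtain ⟨χ, hχ0, hχ1, hχ2⟩ := exists_dual_two hb w w'
  exact ((h w φ hφ).comm (h' w' χ hχ2) hφ hχ2 hχ1 hφ').all hM hb hw hχ0 hχ1

theorem lev_conj (hM : T.TG ⊓ SLV F V ≤ M) {s : U →ₗ[F] U} (h : s ∈ T.lev M) {u : U}
    {ψ : Dual F U} (hu : ψ u = 0) :
    (ψ ∘ₗ s).smulRight u - ψ.smulRight (s u) - ψ (s u) • ψ.smulRight u ∈ T.lev M := by
  have h1 : (LinearEquiv.transvection hu : U →ₗ[F] U) ∘ₗ s ∘ₗ
      ((LinearEquiv.transvection hu).symm : U →ₗ[F] U) ∈ T.lev M := fun w φ hw =>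
    (h w φ hw).conj (hM ⟨T.opE_mem _ _, T.opE_mem_SLV (by
      rw [SLV, MonoidHom.mem_ker]; exact LinearEquiv.transvection.det_eq_one hu)
      (Subgroup.one_mem _)⟩)
  convert (T.lev M).sub_mem h1 h using 1
  ext x
  have : (LinearEquiv.transvection hu).symm x = x - ψ x • u := by
    rw [LinearEquiv.symm_apply_eq, LinearEquiv.transvection.apply]; simp [hu]
  simp only [LinearMap.sub_apply, LinearMap.smulRight_apply, LinearMap.comp_apply,
    LinearMap.smul_apply, LinearEquiv.coe_coe, this, LinearEquiv.transvection.apply, map_sub,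
    map_smul]
  module

theorem lev_rank_one (hM : T.TG ⊓ SLV F V ≤ M)
    (hex : 3 ≤ finrank F U ∨ ∃ c : F, c ≠ 0 ∧ c ≠ 1) {s : U →ₗ[F] U} (h : s ∈ T.lev M)
    (hs : ∀ c : F, s ≠ c • LinearMap.id) :
    ∃ (u : U) (ψ : Dual F U), u ≠ 0 ∧ ψ ≠ 0 ∧ ψ u = 0 ∧ ψ.smulRight u ∈ T.lev M := by
  obtain ⟨u, hu⟩ := exists_notMem_of_not_scalar hs
  obtain ⟨ψ, hψ, hψ'⟩ := exists_dual_of_notMem_span hu 1
  have hu0 : u ≠ 0 := by rintro rfl; simp at hψ'
  have hψ0 : ψ ≠ 0 := by rintro rfl; simp at hψ'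
  have h1 := lev_conj hM h hψ
  rcases hex with ha | ⟨c, hc0, hc1⟩
  · obtain ⟨u', hu', h2, h3⟩ := exists_ker_two ha ψ (ψ ∘ₗ s)
    have h4 : s u ∉ (F ∙ u) ⊔ F ∙ u' := fun hc => by
      have : (F ∙ u) ⊔ (F ∙ u') ≤ LinearMap.ker ψ := by
        simp [Submodule.span_singleton_le_iff_mem, hψ, h2]
      have := this hc
      simp [hψ'] at this
    obtain ⟨ψ', h5, h6, h7⟩ := exists_dual_of_notMem_sup _ h4 1
    have h8 := h5 u (Submodule.mem_span_singleton_self u)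
    refine ⟨u', ψ, hu', hψ0, h2, ?_⟩
    convert (T.lev M).neg_mem (lev_conj hM h1 h6) using 1
    have h3' : ψ (s u') = 0 := h3
    ext x
    simp [h2, h3', h7, h8]
  · refine ⟨u, ψ, hu0, hψ0, hψ, ?_⟩
    have h2 := lev_conj hM h (u := c • u) (ψ := ψ) (by simp [hψ])
    have h3 : c - c * c ≠ 0 := fun h0 => by
      have : c * (1 - c) = 0 := by linear_combination h0
      exact hc1 (sub_eq_zero.1 ((mul_eq_zero.1 this).resolve_left hc0)).symm
    convert (T.lev M).smul_mem (c - c * c)⁻¹ ((T.lev M).sub_mem h2 ((T.lev M).smul_mem c h1))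
      using 1
    ext x
    simp only [LinearMap.sub_apply, LinearMap.smulRight_apply, LinearMap.comp_apply,
      LinearMap.smul_apply, map_smul, smul_eq_mul, hψ']
    match_scalars
    · field_simp; ring
    · ring

/-- A non-scalar element of the level algebra forces `SL ≤ M`. -/
theorem SLV_le_of_lev (hM : T.TG ⊓ SLV F V ≤ M) (hb : 3 ≤ finrank F W)
    (hex : 3 ≤ finrank F U ∨ ∃ c : F, c ≠ 0 ∧ c ≠ 1) {s : U →ₗ[F] U} (h : s ∈ T.lev M)
    (hs : ∀ c : F, s ≠ c • LinearMap.id) : SLV F V ≤ M := by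
  have := T.finite
  obtain ⟨u, ψ, hu0, hψ0, hψ, h1⟩ := lev_rank_one hM hex h hs
  have h2 : ∀ ψ' : Dual F U, ψ' u = 1 → ψ'.smulRight u ∈ T.lev M := fun ψ' hψ' => by
    obtain ⟨u', h3, h4⟩ := exists_ker_apply_eq_one (φ := ψ') (ψ := ψ) fun hc => by
      obtain ⟨d, rfl⟩ := Submodule.mem_span_singleton.1 hc
      have : d = 0 := by simpa [hψ'] using hψ
      exact hψ0 (by simp [this])
    convert (T.lev M).sub_mem h1 (lev_comp hM hb h1 (lev_conj hM h1 h3)) using 1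
    ext x
    simp only [LinearMap.sub_apply, LinearMap.smulRight_apply, LinearMap.comp_apply,
      LinearMap.smul_apply, map_smul, map_sub, smul_eq_mul, hψ', hψ, h4]
    module
  have h3 : ∀ ψ' : Dual F U, ψ'.smulRight u ∈ T.lev M := fun ψ' => by
    obtain ⟨χ, hχ⟩ := exists_dual_of_ne_zero (F := F) hu0 1
    convert (T.lev M).add_mem (h2 (ψ' + (1 - ψ' u) • χ) (by simp [hχ]))
      ((T.lev M).smul_mem (ψ' u - 1) (h2 χ hχ)) using 1
    ext x
    simp only [LinearMap.add_apply, LinearMap.smulRight_apply, LinearMap.smul_apply, smul_eq_mul]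
    module
  have h4 : ∀ (w : W) (ψ' : Dual F U) (φ : Dual F W), ψ' u = 0 →
      HasT M (T.τ u w) (ψ' ∘ₗ T.cW φ) := fun w ψ' φ hψ' => by
    by_cases hφ : φ w = 0
    · exact (h3 ψ' w φ hφ).hasT
    obtain ⟨w', hw', h5, -⟩ := exists_ker_two hb φ φ
    have h6 : w' ∉ F ∙ w := fun hc => by
      obtain ⟨d, rfl⟩ := Submodule.mem_span_singleton.1 hc
      have : d = 0 := by simpa [hφ] using h5
      exact hw' (by simp [this])
    obtain ⟨φ₁, h7, h8⟩ := exists_dual_of_notMem_span h6 1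
    obtain ⟨χ, hχ⟩ := exists_dual_of_ne_zero (F := F) hu0 1
    simpa [h8, hχ] using (h3 χ w φ₁ h7).hasT.comm (h3 ψ' w' φ h5).hasT (by simp [h7])
      (by simp [h5]) (by simp [hψ'])
  have h5 : ∀ w, T.τ u w ∈ cen M := fun w θ hθ => by
    obtain ⟨χ, hχ⟩ := exists_dual_of_ne_zero (F := F) hu0 1
    let b := Module.finBasis F W
    let θ' : Dual F V := θ - χ ∘ₗ T.cW (θ ∘ₗ T.τ u)
    have h6 : θ' = ∑ j, (θ' ∘ₗ T.τ.flip (b j)) ∘ₗ T.cW (b.coord j) := by
      ext x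
      conv_lhs => rw [T.eq_sum b x, map_sum]
      simp
    have h7 : ∀ w', θ' (T.τ u w') = 0 := fun w' => by simp [θ', hχ]
    have h8 : HasT M (T.τ u w) θ' := by
      rw [h6]
      refine (Finset.sum_induction _ (fun θ : Dual F V => HasT M (T.τ u w) θ ∧ θ (T.τ u w) = 0)
        (fun x y hx hy => ⟨hx.1.add_right hy.1 hx.2, by simp [hx.2, hy.2]⟩)
        ⟨hasT_zero_right _, rfl⟩ fun j _ => ⟨h4 _ _ _ (h7 _), by simp [h7]⟩).1
    simpa [θ'] using h8.add_right (h3 χ w (θ ∘ₗ T.τ u) hθ).hasT (h7 w)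
  refine SLV_le_of_cen (T.eq_top fun u' w => ?_)
  by_cases h6 : u' ∈ F ∙ u
  · obtain ⟨d, rfl⟩ := Submodule.mem_span_singleton.1 h6
    simpa using (cen M).smul_mem d (h5 w)
  have h7 : u ∉ F ∙ (u' - u) := fun hc => by
    obtain ⟨d, hd⟩ := Submodule.mem_span_singleton.1 hc
    have hd0 : d ≠ 0 := by rintro rfl; exact hu0 (by simpa using hd.symm)
    refine h6 (Submodule.mem_span_singleton.2 ⟨d⁻¹ * (1 + d), ?_⟩)
    have : u' = d⁻¹ • (d • (u' - u)) + u := by simp [smul_smul, hd0]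
    rw [this, hd]
    match_scalars
    field_simp
  obtain ⟨χ, hχ, hχ'⟩ := exists_dual_of_notMem_span h7 1
  obtain ⟨α, hα, e⟩ := (hasT_SLV hχ).elim
  have := cen_apply (h5 w) (hM ⟨T.opE_mem α 1, T.opE_mem_SLV hα (Subgroup.one_mem _)⟩)
  simpa [e, hχ'] using this

end TS

end H11.Ten
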