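import Mathlib
import Cfsg.Agent.Base
import Cfsg.Agent.Lib.Tensor.SL

/-!
The stabiliser of a tensor decomposition `U ⊗ W`, `2 ≤ dim U < dim W`, is maximal in `SL`.
-/

set_option autoImplicit false
set_option linter.unusedSectionVars false

namespace H11.Ten

open Module Cfsg H97

namespace TS

variable {F U W V : Type*} [Field F] [AddCommGroup U] [Module F U] [AddCommGroup W]
  [Module F W] [AddCommGroup V] [Module F V] {T : TS F U W V} {M : Subgroup (V ≃ₗ[F] V)}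
  [FiniteDimensional F U] [FiniteDimensional F W]

variable (T) in
/-- The `M`-orbit of the subspaces `U ⊗ w`. -/
def Orb (M : Subgroup (V ≃ₗ[F] V)) (X : Submodule F V) : Prop :=
  ∃ g ∈ M, ∃ w, w ≠ 0 ∧ X = (T.col w).map (g : V →ₗ[F] V)

theorem Orb.map {X : Submodule F V} (h : T.Orb M X) {g : V ≃ₗ[F] V} (hg : g ∈ M) :
    T.Orb M (X.map (g : V →ₗ[F] V)) := by
  obtain ⟨k, hk, w, hw, rfl⟩ := h
  exact ⟨g * k, M.mul_mem hg hk, w, hw, (Submodule.map_comp _ _ _).symm⟩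

theorem orb_col {w : W} (hw : w ≠ 0) : T.Orb M (T.col w) :=
  ⟨1, M.one_mem, w, hw, (Submodule.map_id _).symm⟩

theorem Orb.rank_eq {X : Submodule F V} (h : T.Orb M X) : finrank F X = finrank F U := by
  obtain ⟨k, -, w, hw, rfl⟩ := h
  rw [LinearEquiv.finrank_map_eq, T.finrank_col hw]

theorem Orb.eq_of_le {X Y : Submodule F V} (h : T.Orb M X) (h' : T.Orb M Y) (hle : X ≤ Y) :
    X = Y := by
  have := T.finite
  exact Submodule.eq_of_le_of_finrank_eq hle (h.rank_eq.trans h'.rank_eq.symm)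

theorem mem_map_iff {X : Submodule F V} {g : V ≃ₗ[F] V} {x : V} :
    x ∈ X.map (g : V →ₗ[F] V) ↔ g⁻¹ x ∈ X := Submodule.mem_map_equiv X

theorem map_inv_map (X : Submodule F V) (g : V ≃ₗ[F] V) :
    (X.map (g : V →ₗ[F] V)).map ((g⁻¹ : V ≃ₗ[F] V) : V →ₗ[F] V) = X := by
  ext x
  rw [mem_map_iff, mem_map_iff, inv_inv, le_inv_apply_apply]

theorem col_eq_of_mem {w w' : W} (hw : w ≠ 0) {x : V} (hx : x ≠ 0) (h : x ∈ T.col w)
    (h' : x ∈ T.col w') : T.col w = T.col w' := by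
  obtain ⟨u, rfl⟩ := T.mem_col.1 h
  obtain ⟨u', hu'⟩ := T.mem_col.1 h'
  have hu : u ≠ 0 := by rintro rfl; simp at hx
  obtain ⟨ψ, hψ⟩ := exists_dual_of_ne_zero (F := F) hu 1
  have h1 : ψ u' • w' = w := by simpa [hψ] using congrArg (T.cU ψ) hu'
  rw [← h1, T.col_smul]
  rintro h0
  exact hw (by simpa [h0] using h1.symm)

variable (hM : T.TG ⊓ SLV F V ≤ M) (ha : 2 ≤ finrank F U) (hab : finrank F U < finrank F W)
  (hsc : ∀ s ∈ T.lev M, ∃ c : F, s = c • LinearMap.id)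
include hM ha hab hsc

theorem ext_ker {N : V →ₗ[F] V} (h : Has M fun x => x + N x) {φ : Dual F W} (hφ : φ ≠ 0)
    (h1 : ∀ x, T.cW φ x = 0 → N x = 0) (hN : ∀ x, N (N x) = 0) :
    ∃ w, ∀ x, N x = T.τ (T.cW φ x) w := by
  obtain ⟨w₀, hw₀⟩ := exists_apply_eq_one hφ
  have h3 : ∀ x, N x = N (T.τ (T.cW φ x) w₀) := fun x => by
    rw [← sub_eq_zero, ← map_sub]
    exact h1 _ (by simp [hw₀])
  have h4 : ∀ φ₁ : Dual F W, ∃ c : F, T.cW φ₁ ∘ₗ N ∘ₗ T.τ.flip w₀ = c • LinearMap.id := fun φ₁ => by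
    obtain ⟨w₁, hw₁, h5, h6⟩ := exists_ker_two (F := F) (V := W) (by omega) φ φ₁
    refine hsc _ (HasS.all hM (by omega) (w := w₁) (φ := φ) ?_ hw₁ hφ h5)
    refine (has_comm (A := T.nS LinearMap.id w₁ φ₁) (hasS_one hM h6) h
      (fun x => by simp [nS_apply, h6]) hN fun x => h1 _ (by simp [nS_apply, h5])).congr
      fun x => ?_
    rw [h3 x]; rfl
  choose c hc using h4
  let b := Module.finBasis F W
  refine ⟨∑ j, c (b.coord j) • b j, fun x => ?_⟩
  rw [h3, T.eq_sum b (N _), map_sum]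
  refine Finset.sum_congr rfl fun j _ => ?_
  have := LinearMap.congr_fun (hc (b.coord j)) (T.cW φ x)
  simp only [LinearMap.comp_apply, LinearMap.flip_apply] at this
  simp [this]

theorem Orb.std_of_ker {X : Submodule F V} (hX : T.Orb M X) {φ : Dual F W} (hφ : φ ≠ 0)
    (h : ∀ x ∈ X, T.cW φ x = 0) : ∃ w, w ≠ 0 ∧ X = T.col w := by
  obtain ⟨w, hw0, hw, -⟩ := exists_ker_two (F := F) (V := W) (by omega) φ φ
  by_cases h1 : T.col w ≤ X
  · exact ⟨w, hw0, ((orb_col hw0).eq_of_le hX h1).symm⟩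
  obtain ⟨g, hg, w', hw', rfl⟩ := id hX
  obtain ⟨_, ⟨u₀, rfl⟩, h2⟩ := SetLike.not_le_iff_exists.1 h1
  rw [mem_map_iff] at h2
  obtain ⟨φ', h3, h4⟩ : ∃ φ' : Dual F W, φ' w' = 0 ∧ T.cW φ' (g⁻¹ (T.τ u₀ w)) ≠ 0 := by
    by_contra hc
    push Not at hc
    exact h2 (T.mem_col_of hc)
  let N' : V →ₗ[F] V := (g : V →ₗ[F] V) ∘ₗ T.nS LinearMap.id w' φ' ∘ₗ (g⁻¹ : V ≃ₗ[F] V)
  have hN' : ∀ x, N' x = g (T.τ (T.cW φ' (g⁻¹ x)) w') := fun x => rfl
  have h5 : ∀ x, N' x ∈ (T.col w').map (g : V →ₗ[F] V) := fun x =>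
    Submodule.mem_map_of_mem (T.τ_mem_col _ _)
  have h6 : ∀ x, N' (N' x) = 0 := fun x => by
    rw [hN', hN', le_inv_apply_apply]; simp [h3]
  have h7 : Has M fun x => x + N' x := (Has.conj (hasS_one hM h3) hg).congr fun x => by
    rw [map_add, le_apply_inv]; rfl
  have h8 : ∀ x, T.nS LinearMap.id w φ (N' x) = 0 := fun x => by simp [nS_apply, h _ (h5 x)]
  obtain ⟨w'', h9⟩ := ext_ker hM ha hab hsc (N := N' ∘ₗ T.nS LinearMap.id w φ)
    (has_comm h7 (hasS_one hM hw) h6 (fun x => by simp [nS_apply, hw]) h8) hφ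
    (fun x hx => by simp [nS_apply, hx])
    (fun x => by simp only [LinearMap.comp_apply, h8, map_zero])
  obtain ⟨w₀, hw₀⟩ := exists_apply_eq_one hφ
  have h10 : ∀ u, T.τ u w'' = N' (T.τ u w) := fun u => by
    simpa [nS_apply, hw₀] using (h9 (T.τ u w₀)).symm
  have h11 : w'' ≠ 0 := by
    rintro rfl
    have := h10 u₀
    rw [hN', map_zero, eq_comm, EmbeddingLike.map_eq_zero_iff, T.τ_eq_zero] at this
    exact this.elim h4 hw'
  refine ⟨w'', h11, ((orb_col h11).eq_of_le hX ?_).symm⟩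
  rintro _ ⟨u, rfl⟩
  exact (h10 u).symm ▸ h5 _

theorem Orb.std_of_inv {X : Submodule F V} (hX : T.Orb M X) {φ : Dual F W} (hφ : φ ≠ 0)
    (h : ∀ w, φ w = 0 → ∀ x ∈ X, T.τ (T.cW φ x) w ∈ X) : ∃ w, w ≠ 0 ∧ X = T.col w := by
  refine hX.std_of_ker hM ha hab hsc hφ fun x hx => ?_
  by_contra h1
  have := T.finite
  have h2 : (LinearMap.ker φ).map (T.τ (T.cW φ x)) ≤ X := by
    rintro _ ⟨w, hw, rfl⟩
    exact h w hw x hx
  have h3 : finrank F ((LinearMap.ker φ).map (T.τ (T.cW φ x))) = finrank F (LinearMap.ker φ) :=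
    (Submodule.equivMapOfInjective _ (T.flip.col_injective h1) _).finrank_eq.symm
  have h4 := finrank_ker_dual ⊤ φ
  rw [top_inf_eq, finrank_top] at h4
  have h5 := Submodule.eq_of_le_of_finrank_le h2 (by rw [hX.rank_eq]; omega)
  rw [← h5] at hx
  obtain ⟨w, hw, hx⟩ := hx
  have h6 := congrArg (T.cW φ) hx
  rw [cW_τ, LinearMap.mem_ker.1 hw, zero_smul] at h6
  exact h1 h6.symm

theorem full_rank {m : ℕ}
    (hmax : ∀ X Y, T.Orb M X → T.Orb M Y → m < finrank F ↥(X ⊓ Y) → X = Y) {D X : Submodule F V}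
    (hD : finrank F D = m) {w : W} (hw : w ≠ 0) (hDw : D ≤ T.col w) (hD0 : D ≠ ⊥)
    (hX : T.Orb M X) (hDX : D ≤ X) {z : V} (hz : z ∈ X) (hz' : z ∉ T.col w) {φ : Dual F W}
    (h1 : φ w = 0) (h2 : T.cW φ z = 0) : φ = 0 := by
  by_contra hφ
  have := T.finite
  obtain ⟨w', -, rfl⟩ := hX.std_of_inv hM ha hab hsc hφ fun w₁ hw₁ x hx => by
    obtain ⟨k, hk, e⟩ := hasS_one hM hw₁
    have h3 : D ⊔ (F ∙ z) ≤ X.map (k : V →ₗ[F] V) ⊓ X := by
      refine sup_le (fun d hd => ⟨⟨d, hDX hd, ?_⟩, hDX hd⟩)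
        ((Submodule.span_singleton_le_iff_mem _ _).2 ⟨⟨z, hz, by simp [e, h2]⟩, hz⟩)
      obtain ⟨u, rfl⟩ := T.mem_col.1 (hDw hd)
      simp [e, h1]
    have h4 : D < D ⊔ (F ∙ z) := left_lt_sup.2 fun hc =>
      hz' (hDw ((Submodule.span_singleton_le_iff_mem _ _).1 hc))
    have h5 := hmax _ _ (hX.map hk) hX
      (hD ▸ (Submodule.finrank_lt_finrank_of_lt h4).trans_le (Submodule.finrank_mono h3))
    have h6 : k x ∈ X := h5 ▸ Submodule.mem_map_of_mem hx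
    rw [e] at h6
    simpa using X.sub_mem h6 hx
  obtain ⟨d, hd, hd0⟩ := Submodule.exists_mem_ne_zero_of_ne_bot hD0
  exact hz' (col_eq_of_mem hw hd0 (hDw hd) (hDX hd) ▸ hz)

theorem orb_step {m : ℕ} (hm : 0 < m)
    (hmax : ∀ X Y, T.Orb M X → T.Orb M Y → m < finrank F ↥(X ⊓ Y) → X = Y) {w : W} (hw : w ≠ 0)
    {X : Submodule F V} (hX : T.Orb M X) (h : finrank F ↥(T.col w ⊓ X) = m) : T.col w = X := by
  by_contra hne
  have := T.finite
  set D := T.col w ⊓ X with hD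
  have hD0 : D ≠ ⊥ := fun h0 => by rw [h0, finrank_bot] at h; omega
  obtain ⟨y, hy, hy'⟩ := SetLike.not_le_iff_exists.1 fun hle => hne (hX.eq_of_le (orb_col hw) hle).symm
  obtain ⟨w₁, hw₁⟩ := exists_notMem_span (F := F) (V := W) (by omega) w
  obtain ⟨φ, hφ, hφw, hφ₁⟩ := exists_dual_two (F := F) (V := W) (by omega) w w₁
  have FR := fun {X : Submodule F V} (hX : T.Orb M X) (hDX : D ≤ X) {z : V} (hz : z ∈ X)
    (hz' : z ∉ T.col w) (h2 : T.cW φ z = 0) =>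
    hφ (full_rank hM ha hab hsc hmax h hw inf_le_left hD0 hX hDX hz hz' hφw h2)
  set z := T.τ (T.cW φ y) w₁ with hz
  have hz0 : T.cW φ z = 0 := by simp [hz, hφ₁]
  have hzw : z ∉ T.col w := by
    rintro ⟨u, hu⟩
    obtain ⟨χ, hχ, hχ'⟩ := exists_dual_of_notMem_span hw₁ 1
    have := congrArg (T.cW χ) hu
    simp only [LinearMap.flip_apply, cW_τ, hχ, zero_smul, hz, hχ', one_smul] at this
    exact FR hX inf_le_right hy hy' this.symm
  have hzX : z ∉ X := fun hc => FR hX inf_le_right hc hzw hz0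
  obtain ⟨k, hk, e⟩ := hasS_one hM hφ₁
  have hX₂ := hX.map hk
  have hD₂ : D ≤ X.map (k : V →ₗ[F] V) := fun d hd => ⟨d, hd.2, by
    obtain ⟨u, rfl⟩ := T.mem_col.1 hd.1
    simp [e, hφw]⟩
  have hyz : y + z ∈ X.map (k : V →ₗ[F] V) := ⟨y, hy, e y⟩
  obtain ⟨g, hg, w', hw', rfl⟩ := hX
  obtain ⟨u', hu'⟩ := T.mem_col.1 (mem_map_iff.1 hy)
  let K := LinearMap.ker (Dual.eval F W w')
  let L : K →ₗ[F] U := T.cW.flip (g⁻¹ z) ∘ₗ K.subtype
  have hL : Function.Injective L := by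
    rw [injective_iff_map_eq_zero]
    rintro ⟨φ', hφ'⟩ h0
    have h1 : φ' w' = 0 := hφ'
    have h2 : T.cW φ' (g⁻¹ z) = 0 := h0
    refine Subtype.ext (full_rank hM ha hab hsc hmax (D := D.map ((g⁻¹ : V ≃ₗ[F] V) : V →ₗ[F] V))
      (by rw [LinearEquiv.finrank_map_eq, h]) hw' ?_ (fun h0 => hD0 ?_) (hX₂.map (M.inv_mem hg))
      (Submodule.map_mono hD₂) (Submodule.mem_map_of_mem hyz) (fun hc => hzX ?_) h1 ?_)
    · exact (Submodule.map_mono inf_le_right).trans (map_inv_map _ _).le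
    · simpa using (Submodule.map_eq_bot_iff (e := g⁻¹)).1 h0
    · simpa using Submodule.sub_mem _ (mem_map_iff.2 hc) hy
    · simp only [LinearEquiv.coe_coe, map_add, h2, ← hu', cW_τ, h1, zero_smul, add_zero]
  have h3 := finrank_ker_dual ⊤ (Dual.eval F W w')
  rw [top_inf_eq, finrank_top, Subspace.dual_finrank_eq] at h3
  have h4 := LinearMap.finrank_le_finrank_of_injective hL
  have h4' : finrank F K = finrank F U := by change finrank F W ≤ finrank F K + 1 at h3; omega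
  obtain ⟨⟨φ', hφ'⟩, h5⟩ := LinearMap.range_eq_top.1
    (Submodule.eq_top_of_finrank_eq ((LinearMap.finrank_range_of_inj hL).trans h4')) (-u')
  have h6 : φ' w' = 0 := hφ'
  have h7 : T.cW φ' (g⁻¹ z) = -u' := h5
  obtain ⟨k', hk', e'⟩ := Has.conj (hasS_one hM h6) hg
  have e'' : ∀ x, k' x = x + g (T.τ (T.cW φ' (g⁻¹ x)) w') := fun x => by
    rw [e']; dsimp only; rw [map_add, le_apply_inv]; rfl
  refine FR (hX₂.map hk') (fun d hd => ⟨d, hD₂ hd, ?_⟩) ⟨y + z, hyz, ?_⟩ hzw hz0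
  · obtain ⟨u, hu⟩ := T.mem_col.1 (mem_map_iff.1 hd.2)
    rw [LinearEquiv.coe_coe, e'', ← hu]
    simp [h6]
  · rw [LinearEquiv.coe_coe, e'', map_add, map_add, h7, ← hu', cW_τ, h6, zero_smul, zero_add,
      map_neg, LinearMap.neg_apply, hu', map_neg, le_apply_inv]
    abel

theorem Orb.eq_of_inf {X Y : Submodule F V} (hX : T.Orb M X) (hY : T.Orb M Y)
    (h : 0 < Module.finrank F ↥(X ⊓ Y)) : X = Y := by
  have := T.finite
  have key : ∀ k m : ℕ, m + k = Module.finrank F U → ∀ X Y, T.Orb M X → T.Orb M Y →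
      m < Module.finrank F ↥(X ⊓ Y) → X = Y := by
    intro k
    induction k with
    | zero =>
      intro m hm X Y hX _ h
      have := Submodule.finrank_mono (inf_le_left : X ⊓ Y ≤ X)
      rw [hX.rank_eq] at this
      omega
    | succ k ih =>
      intro m hm X Y hX hY h
      rcases (Nat.succ_le_of_lt h).lt_or_eq with h | h
      · exact ih (m + 1) (by omega) X Y hX hY h
      obtain ⟨g, hg, w, hw, rfl⟩ := hX
      have h1 := orb_step hM ha hab hsc (Nat.succ_pos m) (ih (m + 1) (by omega)) hw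
        (hY.map (M.inv_mem hg)) (by
          rw [h, ← LinearEquiv.finrank_map_eq g⁻¹ (_ ⊓ Y), Submodule.map_inf _ (g⁻¹).injective,
            map_inv_map])
      rw [h1]
      simpa using map_inv_map Y g⁻¹
  exact key _ 0 (zero_add _) X Y hX hY h

theorem Orb.std {X : Submodule F V} (hX : T.Orb M X) : ∃ w, w ≠ 0 ∧ X = T.col w := by
  have := T.finite
  obtain ⟨x, hx, hx0⟩ := Submodule.exists_mem_ne_zero_of_ne_bot (p := X) fun h0 => by
    have := hX.rank_eq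
    rw [h0, finrank_bot] at this
    omega
  obtain ⟨φ, hφ, hφ0⟩ := Submodule.exists_mem_ne_zero_of_ne_bot
    (LinearMap.ker_ne_bot_of_finrank_lt (f := T.cW.flip x)
      (by rwa [Subspace.dual_finrank_eq]))
  have hφ' : T.cW φ x = 0 := hφ
  refine hX.std_of_inv hM ha hab hsc hφ0 fun w hw y hy => ?_
  obtain ⟨k, hk, e⟩ := hasS_one hM hw
  have h1 := (hX.map hk).eq_of_inf hM ha hab hsc hX (Module.finrank_pos_iff_exists_ne_zero.2
    ⟨⟨x, ⟨x, hx, by simp [e, hφ']⟩, hx⟩, fun h0 => hx0 (congrArg Subtype.val h0)⟩)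
  have h6 : k y ∈ X := h1 ▸ Submodule.mem_map_of_mem hy
  rw [e] at h6
  simpa using X.sub_mem h6 hy

theorem le_TG : M ≤ T.TG := by
  intro g hg
  have : Nontrivial U := Module.nontrivial_of_finrank_pos (R := F) (by omega)
  have : Nontrivial W := Module.nontrivial_of_finrank_pos (R := F) (by omega)
  have key : ∀ w, ∃ w', ∀ u, g (T.τ u w) ∈ T.col w' := fun w => by
    by_cases hw : w = 0
    · exact ⟨0, fun u => by simp [hw]⟩
    obtain ⟨w', -, h⟩ := Orb.std hM ha hab hsc ⟨g, hg, w, hw, rfl⟩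
    exact ⟨w', fun u => h ▸ Submodule.mem_map_of_mem (T.τ_mem_col u w)⟩
  exact T.mem_TG_of_col (Module.finBasis F W) ⟨0, by omega⟩ (fun i => key _) fun i _ => key _

omit hM hsc in
theorem not_SLV_le : ¬ SLV F V ≤ T.TG := by
  intro h
  have := T.finite
  have : Nontrivial U := Module.nontrivial_of_finrank_pos (R := F) (by omega)
  have : Nontrivial W := Module.nontrivial_of_finrank_pos (R := F) (by omega)
  obtain ⟨u, hu⟩ := exists_ne (0 : U)
  obtain ⟨w, hw⟩ := exists_ne (0 : W)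
  obtain ⟨u', hu'⟩ := exists_notMem_span ha u
  obtain ⟨w', hw'⟩ := exists_notMem_span (F := F) (by omega) w
  obtain ⟨ψ, hψ, hψ'⟩ := exists_dual_of_notMem_span hu' 1
  obtain ⟨φ, hφ, hφ'⟩ := exists_dual_of_notMem_span hw' 1
  obtain ⟨g, hg, e⟩ := (hasT_SLV (u := T.τ u w) (φ := ψ ∘ₗ T.cW φ) (by simp [hφ])).elim
  obtain ⟨α, β, e'⟩ := h hg
  have h1 := (e _).symm.trans (e' u' w')
  have h2 := congrArg (T.cW φ) h1
  obtain ⟨χ, hχ⟩ := exists_dual_of_ne_zero (F := F) hw 1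
  have h3 := congrArg (T.cW (χ - χ w' • φ)) h1
  simp [hφ, hφ', hψ', hχ] at h2 h3
  rw [smul_smul, ← sub_smul] at h3
  have h4 : φ (β w') ≠ 0 := by
    intro h0
    rw [h2, h0] at hu'
    simp at hu'
  refine hu' (Submodule.mem_span_singleton.2 ?_)
  have h5 : χ (β w') - χ w' * φ (β w') ≠ 0 := by
    intro h0
    exact hu (by simpa [h0] using h3)
  refine ⟨φ (β w') * (χ (β w') - χ w' * φ (β w'))⁻¹, ?_⟩
  rw [h2]
  conv_lhs => rw [h3]
  simp [smul_smul, h5]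

omit hM hsc in
theorem isMaximalIn_SL (hex : 3 ≤ finrank F U ∨ ∃ c : F, c ≠ 0 ∧ c ≠ 1) :
    Geo.IsMaximalIn (SLV F V) (T.TG ⊓ SLV F V) := by
  refine isMaximalIn_of inf_le_right (fun h => not_SLV_le ha hab (h.trans inf_le_left)) ?_
  rintro M hM hM' ⟨g, hg, hg'⟩
  by_contra hc
  refine hg' ⟨le_TG hM ha hab (fun s hs => ?_) hg, hM' hg⟩
  by_contra h1
  push Not at h1
  exact hc (SLV_le_of_lev hM (by omega) hex hs h1)

end TS

end H11.Ten
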