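import Mathlib
import Cfsg.Agent.Base
import Cfsg.Agent.Lib.ClassMax.Gen
import Cfsg.Agent.Lib.Tensor.SLMax

/-!
Tensor decompositions compatible with forms: basic formulas, unipotent radicals.
-/

set_option autoImplicit false
set_option linter.unusedSectionVars false

namespace H11.Ten

open Module Cfsg H97 H28

section Unip

variable {F V : Type*} [Field F] [AddCommGroup V] [Module F V] {σ : F →+* F} {P : PQ F V σ}

theorem B_isom {g : V ≃ₗ[F] V} (hg : g ∈ P.Isom) (x y : V) : P.B (g x) (g y) = P.B x y := hg.1 x y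

theorem B_isom_inv {g : V ≃ₗ[F] V} (hg : g ∈ P.Isom) (x y : V) :
    P.B (g⁻¹ x) y = P.B x (g y) := by
  rw [← B_isom hg, le_apply_inv]

theorem B_isom_inv' {g : V ≃ₗ[F] V} (hg : g ∈ P.Isom) (x y : V) :
    P.B x (g⁻¹ y) = P.B (g x) y := by
  rw [← B_isom hg, le_apply_inv]

theorem sep_right (hP : P.B.SeparatingLeft) {y : V} (h : ∀ x, P.B x y = 0) : y = 0 :=
  hP y fun x => P.eq_zero_symm (h x)

theorem exists_B_ne (hP : P.B.SeparatingLeft) {d : V} (hd : d ≠ 0) : ∃ x, P.B d x ≠ 0 := by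
  by_contra hc
  push Not at hc
  exact hd (hP d hc)

theorem exists_B_eq (hP : P.B.SeparatingLeft) {d : V} (hd : d ≠ 0) (c : F) :
    ∃ x, P.B d x = c := by
  obtain ⟨x, hx⟩ := exists_B_ne hP hd
  exact ⟨(c * (P.B d x)⁻¹) • x, by simp [hx]⟩

variable [FiniteDimensional F V]

theorem mem_span_of_perp (hP : P.B.SeparatingLeft) {x w : V}
    (h : ∀ y, P.B w y = 0 → P.B x y = 0) : x ∈ F ∙ w := by
  rw [← perp_perp hP (F ∙ w), mem_perp']
  intro y hy
  exact h y (mem_perp_singleton.1 hy)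

theorem exists_perp_ne (hP : P.B.SeparatingLeft) {x w : V} (h : x ∉ F ∙ w) (c : F) :
    ∃ y, P.B w y = 0 ∧ P.B x y = c := by
  have : ∃ y, P.B w y = 0 ∧ P.B x y ≠ 0 := by
    by_contra hc
    push Not at hc
    exact h (mem_span_of_perp hP hc)
  obtain ⟨y, h1, h2⟩ := this
  exact ⟨(c * (P.B x y)⁻¹) • y, by simp [h1], by simp [h2]⟩

theorem exists_adj (hP : P.B.SeparatingLeft) (s : V →ₗ[F] V) :
    ∃ s' : V →ₗ[F] V, ∀ x y, P.B (s x) y = P.B x (s' y) := by
  have h : ∀ y, ∃ z, ∀ x, P.B (s x) y = P.B x z := fun y => by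
    obtain ⟨z, hz⟩ := exists_repr_dual P.σσ P.B hP (P.B y ∘ₗ s)
    refine ⟨z, fun x => ?_⟩
    rw [P.symm z x, hz, P.symm y (s x)]
    rfl
  choose f hf using h
  refine ⟨⟨⟨f, fun y y' => ?_⟩, fun c y => ?_⟩, fun x y => hf y x⟩
  · rw [← sub_eq_zero]
    refine sep_right hP fun x => ?_
    simp [← hf]
  · rw [← sub_eq_zero]
    refine sep_right hP fun x => ?_
    simp [← hf]

/-- An isometry in the unipotent radical of the stabiliser of a totally singular subspace is a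
product of Eichler elements. -/
theorem mem_of_unip (hP : P.B.SeparatingLeft) {X Y : Submodule F V}
    (hX : ∀ d ∈ X, P.q d ∈ P.Λ) (hXY : X ≤ Y) (hY : Y ≤ perp P X) {K : Subgroup (V ≃ₗ[F] V)}
    (hK : ∀ d ∈ X, ∀ z ∈ Y, ∀ c, c - P.q z ∈ P.Λ → Has K (eu P d z c)) {g : V ≃ₗ[F] V}
    (hg : g ∈ P.Isom) (h1 : ∀ d ∈ X, g d = d) (h2 : ∀ x ∈ perp P X, g x - x ∈ X)
    (h3 : ∀ x, g x - x ∈ Y) : g ∈ K := by
  suffices H : ∀ (n : ℕ) (g : V ≃ₗ[F] V) (S : Submodule F V), g ∈ P.Isom → (∀ d ∈ X, g d = d) →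
      (∀ x ∈ perp P X, g x - x ∈ X) → (∀ x, g x - x ∈ Y) → (∀ s ∈ S, g s = s) →
      finrank F V ≤ finrank F S + n → g ∈ K from
    H _ g ⊥ hg h1 h2 h3 (fun s hs => by simp [(Submodule.mem_bot F).1 hs]) le_add_self
  have hone : ∀ g : V ≃ₗ[F] V, (∀ x, g x = x) → g ∈ K := fun g h => by
    rw [show g = 1 from LinearEquiv.ext h]; exact K.one_mem
  intro n
  induction n with
  | zero =>
    intro g S _ _ _ _ hS hn
    have : S = ⊤ := Submodule.eq_top_of_finrank_eq (le_antisymm S.finrank_le hn)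
    exact hone g fun x => hS x (this ▸ trivial)
  | succ n ih =>
    intro g S hg h1 h2 h3 hS hn
    have hperp : ∀ x, ∀ s ∈ S, P.B (g x - x) s = 0 := fun x s hs => by
      have := B_isom hg x s
      rw [hS s hs] at this
      simp [this]
    by_cases hd : X ⊓ perp P S = ⊥
    · have htop : S ⊔ perp P X = ⊤ := by
        rw [← perp_perp hP (S ⊔ perp P X), perp_sup, perp_perp hP, inf_comm, hd]
        exact eq_top_iff.2 fun x _ u hu => by simp [(Submodule.mem_bot F).1 hu]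
      refine hone g fun x => ?_
      obtain ⟨s, hs, y, hy, rfl⟩ := Submodule.mem_sup.1 (htop ▸ Submodule.mem_top : x ∈ _)
      have : g y - y ∈ X ⊓ perp P S := ⟨h2 y hy, mem_perp'.2 (hperp y)⟩
      rw [hd, Submodule.mem_bot, sub_eq_zero] at this
      rw [map_add, hS s hs, this]
    obtain ⟨d, ⟨hdX, hdS⟩, hd0⟩ := Submodule.exists_mem_ne_zero_of_ne_bot hd
    obtain ⟨x, hx⟩ := exists_B_ne hP hd0
    have hdS' : ∀ s ∈ S, P.B d s = 0 := mem_perp'.1 hdS
    have hq : P.q (g x) - P.q x ∈ P.Λ := hg.2 x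
    have hB : P.B d (g x) = P.B d x := by rw [← B_isom hg d x, h1 d hdX]
    obtain ⟨a, c, e1, e2, e3⟩ := exists_eu_apply_eq (hX d hdX) hq hB (hB ▸ hx)
    set z := a • (g x - x) with hz
    have hzY : z ∈ Y := Y.smul_mem _ (h3 x)
    obtain ⟨e, heK, he⟩ := hK d hdX z hzY c e2
    have heI : e ∈ P.Isom := (has_eu_isom (hX d hdX) e1 e2).mem he
    have hdd : ∀ d' ∈ X, P.B d d' = 0 := fun d' hd' => mem_perp.1 (hY (hXY hd')) d hdX
    have hzd : ∀ d' ∈ X, P.B z d' = 0 := fun d' hd' => mem_perp'.1 (hY hzY) d' hd'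
    have heY : ∀ y, e y - y ∈ Y := fun y => by
      rw [he, eu_apply]
      convert Y.sub_mem (Y.smul_mem (P.B z y - P.ε * c * P.B d y) (hXY hdX))
        (Y.smul_mem (P.ε * P.B d y) hzY) using 1
      abel
    have := ih (e * g) (S ⊔ F ∙ x) (P.Isom.mul_mem heI hg)
      (fun d' hd' => by rw [le_mul_apply, h1 d' hd', he, eu_fix c (hdd d' hd') (hzd d' hd')])
      (fun y hy => by
        have h4 : P.B d (g y) = 0 := by
          rw [← h1 d hdX, B_isom hg]; exact mem_perp.1 hy d hdX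
        rw [le_mul_apply, he, eu_apply, h4]
        convert X.add_mem (h2 y hy) (X.smul_mem (P.B z (g y)) hdX) using 1
        simp; abel)
      (fun y => by
        rw [le_mul_apply]
        convert Y.add_mem (heY (g y)) (h3 y) using 1
        abel)
      (fun s' hs' => by
        obtain ⟨s, hs, y, hy, e4⟩ := Submodule.mem_sup.1 hs'
        obtain ⟨b, e5⟩ := Submodule.mem_span_singleton.1 hy
        rw [← e4, ← e5]
        rw [le_mul_apply, map_add, map_add, map_smul, map_smul, hS s hs, he, he, e3,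
          eu_fix c (hdS' s hs) (by rw [hz, B_smul_left, hperp x s hs, mul_zero])])
      (by
        have : finrank F S < finrank F ↥(S ⊔ F ∙ x) := Submodule.finrank_lt_finrank_of_lt
          (lt_of_le_of_ne le_sup_left fun h => hx (hdS' x
            (h ▸ Submodule.mem_sup_right (Submodule.mem_span_singleton_self x))))
        omega)
    simpa using K.mul_mem (K.inv_mem heK) this

end Unip

/-- A tensor decomposition in which the form on `V` is the product of forms on the factors. -/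
structure TF {F U W V : Type*} [Field F] [AddCommGroup U] [Module F U] [AddCommGroup W]
    [Module F W] [AddCommGroup V] [Module F V] {σ : F →+* F} (T : TS F U W V) (PU : PQ F U σ)
    (PW : PQ F W σ) (P : PQ F V σ) : Prop where
  ndU : PU.B.SeparatingLeft
  ndW : PW.B.SeparatingLeft
  nd : P.B.SeparatingLeft
  B_τ : ∀ u w u' w', P.B (T.τ u w) (T.τ u' w') = PU.B u u' * PW.B w w'
  ε_eq : P.ε = PU.ε * PW.ε
  isom : ∀ g ∈ T.TG, (∀ x y, P.B (g x) (g y) = P.B x y) → g ∈ P.Isom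
  sing : ∀ u w, PU.B u u * PW.B w w = 0 → P.q (T.τ u w) ∈ P.Λ
  maxU : ∀ u, PU.B u u = 0 → PU.q u ∈ PU.Λ
  maxW : ∀ w, PW.B w w = 0 → PW.q w ∈ PW.Λ
  hΛ : ∀ l ∈ P.Λ, ∃ a, l = a - P.ε * σ a

variable {F U W V : Type*} [Field F] [AddCommGroup U] [Module F U] [AddCommGroup W]
  [Module F W] [AddCommGroup V] [Module F V] {σ : F →+* F} {T : TS F U W V} {PU : PQ F U σ}
  {PW : PQ F W σ} {P : PQ F V σ}

namespace TS

variable (T PW) in
/-- Contraction with `B(y, ·)`. -/
noncomputable def cB (y : W) : V →ₗ[F] U := T.cW (PW.B y)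

@[simp] theorem cB_τ (y : W) (u : U) (w : W) : T.cB PW y (T.τ u w) = PW.B y w • u :=
  T.cW_τ _ u w

theorem cB_add (y y' : W) : T.cB PW (y + y') = T.cB PW y + T.cB PW y' := by
  simp [cB]

theorem cB_sub (y y' : W) : T.cB PW (y - y') = T.cB PW y - T.cB PW y' := by
  simp [cB]

theorem cB_smul (c : F) (y : W) : T.cB PW (c • y) = σ c • T.cB PW y := by
  simp [cB]

theorem cB_zero : T.cB PW 0 = 0 := by simp [cB]

theorem op_eu (w v : W) (c : F) (x : V) : T.op LinearMap.id (eu PW w v c) x =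
    x + T.τ (T.cB PW v x - (PW.ε * c) • T.cB PW w x) w - T.τ (PW.ε • T.cB PW w x) v := by
  have : T.op LinearMap.id (eu PW w v c) = LinearMap.id + T.τ.flip w ∘ₗ
      (T.cB PW v - (PW.ε * c) • T.cB PW w) - T.τ.flip v ∘ₗ (PW.ε • T.cB PW w) :=
    T.lext fun u y => by
      simp [eu_apply, smul_smul, sub_smul]
  exact LinearMap.congr_fun this x

theorem opE_one_mul (β β' : W ≃ₗ[F] W) : T.opE 1 (β * β') = T.opE 1 β * T.opE 1 β' := by
  refine LinearEquiv.toLinearMap_injective (T.lext fun u w => ?_)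
  simp [le_mul_apply]

theorem opE_one_one : T.opE 1 1 = 1 := by
  refine LinearEquiv.toLinearMap_injective (T.lext fun u w => ?_)
  simp

theorem opE_inv (α : U ≃ₗ[F] U) (β : W ≃ₗ[F] W) : (T.opE α β)⁻¹ = T.opE α⁻¹ β⁻¹ := by
  rw [inv_eq_iff_mul_eq_one]
  refine LinearEquiv.toLinearMap_injective (T.lext fun u w => ?_)
  simp [le_mul_apply]

theorem opE_flip (α : U ≃ₗ[F] U) (β : W ≃ₗ[F] W) : T.flip.opE β α = T.opE α β := by
  refine LinearEquiv.toLinearMap_injective (T.lext fun u w => ?_)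
  exact (T.flip.opE_τ β α w u).trans (T.opE_τ α β u w).symm

variable (T) in
/-- `β ↦ 1 ⊗ β`. -/
noncomputable def homW : (W ≃ₗ[F] W) →* (V ≃ₗ[F] V) where
  toFun β := T.opE 1 β
  map_one' := T.opE_one_one
  map_mul' := T.opE_one_mul

theorem homW_apply (β : W ≃ₗ[F] W) : T.homW β = T.opE 1 β := rfl

/-- A linear map killing `U ⊗ ker φ` kills the kernel of the contraction with `φ`. -/
theorem eq_zero_of_ker {M : Type*} [AddCommGroup M] [Module F M] {f : V →ₗ[F] M} {φ : Dual F W}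
    (h : ∀ u y, φ y = 0 → f (T.τ u y) = 0) {x : V} (hx : T.cW φ x = 0) : f x = 0 := by
  by_cases hφ : φ = 0
  · have : f = 0 := T.lext fun u y => h u y (by simp [hφ])
    simp [this]
  obtain ⟨w', hw'⟩ := exists_apply_eq_one hφ
  have : f = f ∘ₗ T.τ.flip w' ∘ₗ T.cW φ := T.lext fun u y => by
    have := h u (y - φ y • w') (by simp [hw'])
    simpa [sub_eq_zero] using this
  rw [this]
  simp [hx]

end TS

namespace TF

variable (h : TF T PU PW P)
include h

theorem flip : TF T.flip PW PU P where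
  ndU := h.ndW
  ndW := h.ndU
  nd := h.nd
  B_τ w u w' u' := (h.B_τ u w u' w').trans (mul_comm _ _)
  ε_eq := h.ε_eq.trans (mul_comm _ _)
  isom g hg := h.isom g (T.flip_TG ▸ hg)
  sing w u e := h.sing u w ((mul_comm _ _).trans e)
  maxU := h.maxW
  maxW := h.maxU
  hΛ := h.hΛ

theorem B_left (u : U) (y : W) (x : V) : P.B (T.τ u y) x = PU.B u (T.cB PW y x) := by
  have : P.B (T.τ u y) = PU.B u ∘ₗ T.cB PW y := T.lext fun u' y' => by
    simp [h.B_τ, mul_comm]
  exact LinearMap.congr_fun this x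

theorem singW (u : U) {w : W} (hw : PW.q w ∈ PW.Λ) : P.q (T.τ u w) ∈ P.Λ :=
  h.sing u w (by rw [PW.self_eq_zero hw, mul_zero])

theorem mem_perp_col {w : W} {x : V} : x ∈ perp P (T.col w) ↔ T.cB PW w x = 0 := by
  constructor
  · intro hx
    refine sep_right h.ndU fun u => ?_
    rw [← h.B_left]
    exact mem_perp.1 hx _ (T.τ_mem_col u w)
  · rintro hx _ ⟨u, rfl⟩
    change P.B (T.τ u w) x = 0
    rw [h.B_left, hx, map_zero]

theorem col_le_perp {w : W} (hw : PW.q w ∈ PW.Λ) : T.col w ≤ perp P (T.col w) := by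
  rintro _ ⟨u, rfl⟩
  rw [h.mem_perp_col]
  change T.cB PW w (T.τ u w) = 0
  simp [PW.self_eq_zero hw]

/-- A product of maps which preserves the form on pure tensors preserves it everywhere. -/
theorem B_of_pure {f : V →ₗ[F] V}
    (e : ∀ u w u' w', P.B (f (T.τ u w)) (f (T.τ u' w')) = PU.B u u' * PW.B w w') (x y : V) :
    P.B (f x) (f y) = P.B x y := by
  have h1 : ∀ u w, P.B (f (T.τ u w)) ∘ₗ f = P.B (T.τ u w) := fun u w =>
    T.lext fun u' w' => by simp [e, h.B_τ]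
  refine T.ind (p := fun x => P.B (f x) (f y) = P.B x y) x (by simp)
    (fun u w => LinearMap.congr_fun (h1 u w) y) fun x x' hx hx' => ?_
  simp [hx, hx']

theorem opE_isom {α : U ≃ₗ[F] U} {β : W ≃ₗ[F] W} (hα : ∀ x y, PU.B (α x) (α y) = PU.B x y)
    (hβ : ∀ x y, PW.B (β x) (β y) = PW.B x y) : T.opE α β ∈ P.Isom :=
  h.isom _ (T.opE_mem α β) (h.B_of_pure (f := T.opE α β) fun u w u' w' => by
    simp [h.B_τ, hα, hβ])

/-- An isometry fixing `U ⊗ w` pointwise preserves the contraction with `w`. -/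
theorem cB_apply {g : V ≃ₗ[F] V} (hg : g ∈ P.Isom) {w : W} (h1 : ∀ u, g (T.τ u w) = T.τ u w)
    (x : V) : T.cB PW w (g x) = T.cB PW w x := by
  rw [← sub_eq_zero]
  refine sep_right h.ndU fun u => ?_
  rw [map_sub, ← h.B_left, ← h.B_left, ← B_isom hg (T.τ u w) x, h1, sub_self]

variable [FiniteDimensional F U] [FiniteDimensional F W]

theorem eq_zero_of_cB {x : V} (e : ∀ y, T.cB PW y x = 0) : x = 0 :=
  T.eq_zero_of_cW fun φ => by
    obtain ⟨y, hy⟩ := exists_repr_dual PW.σσ PW.B h.ndW φ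
    rw [← show PW.B y = φ from LinearMap.ext hy]
    exact e y

theorem mem_col_of_cB {x : V} {w : W} (e : ∀ y, PW.B y w = 0 → T.cB PW y x = 0) :
    x ∈ T.col w :=
  T.mem_col_of fun φ hφ => by
    obtain ⟨y, hy⟩ := exists_repr_dual PW.σσ PW.B h.ndW φ
    rw [← show PW.B y = φ from LinearMap.ext hy]
    exact e y ((hy w).trans hφ)

theorem mem_EG_of_unip {w : W} (hw : PW.q w ∈ PW.Λ) {g : V ≃ₗ[F] V} (hg : g ∈ P.Isom)
    (h1 : ∀ u, g (T.τ u w) = T.τ u w) (h2 : ∀ x, T.cB PW w x = 0 → g x - x ∈ T.col w) :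
    g ∈ EG P := by
  have := T.finite
  refine mem_of_unip h.nd (X := T.col w) (Y := perp P (T.col w)) ?_ (h.col_le_perp hw) le_rfl
    (fun d hd z hz c hc => has_eu_EG ?_ (mem_perp.1 hz d hd) hc) hg ?_
    (fun x hx => h2 x (h.mem_perp_col.1 hx)) fun x => ?_
  · rintro _ ⟨u, rfl⟩; exact h.singW u hw
  · obtain ⟨u, rfl⟩ := hd; exact h.singW u hw
  · rintro _ ⟨u, rfl⟩; exact h1 u
  · rw [h.mem_perp_col, map_sub, h.cB_apply hg h1, sub_self]

theorem opW_mem {β : W ≃ₗ[F] W} (hβ : β ∈ EG PW) : T.opE 1 β ∈ T.TG ⊓ EG P := by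
  refine ⟨T.opE_mem _ _, ?_⟩
  refine (EG_le (M := (EG P).comap T.homW) fun w v c hw hv hc => ?_) hβ
  obtain ⟨e, he, he'⟩ := has_eu_isom hw hv hc
  refine ⟨e, ?_, he'⟩
  have h3 : ∀ x, T.opE 1 e x = T.op LinearMap.id (eu PW w v c) x := fun x => by
    rw [← show (e : W →ₗ[F] W) = eu PW w v c from LinearMap.ext he']; rfl
  refine h.mem_EG_of_unip hw (h.opE_isom (fun _ _ => rfl) he.1) (fun u => ?_) fun x hx => ?_
  · rw [TS.homW_apply, TS.opE_τ, he', eu_fix c (PW.self_eq_zero hw) (PW.eq_zero_symm hv)]; rfl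
  · rw [TS.homW_apply, h3, TS.op_eu, hx]
    exact ⟨T.cB PW v x, by simp⟩

theorem opU_mem {α : U ≃ₗ[F] U} (hα : α ∈ EG PU) : T.opE α 1 ∈ T.TG ⊓ EG P := by
  have := h.flip.opW_mem hα
  rwa [TS.opE_flip, TS.flip_TG] at this

theorem has_op_eu {w v : W} {c : F} (hw : PW.q w ∈ PW.Λ) (hv : PW.B w v = 0)
    (hc : c - PW.q v ∈ PW.Λ) : Has (T.TG ⊓ EG P) (T.op LinearMap.id (eu PW w v c)) := by
  obtain ⟨e, he, he'⟩ := has_eu_EG hw hv hc
  refine ⟨_, h.opW_mem he, fun x => ?_⟩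
  rw [← show (e : W →ₗ[F] W) = eu PW w v c from LinearMap.ext he']; rfl

end TF

end H11.Ten
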