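import Mathlib
import Cfsg.Agent.Base
import Cfsg.Agent.Lib.Tensor.Form

/-!
Subalgebras of `End U` invariant under a classical group are the scalars or everything.
-/

set_option autoImplicit false
set_option linter.unusedSectionVars false
set_option linter.unusedSimpArgs false

namespace H11.Ten

open Module Cfsg H97 H28

variable {F U : Type*} [Field F] [AddCommGroup U] [Module F U]

/-- `A` is invariant under conjugation by `Γ`. -/
def InvA (Γ : Subgroup (U ≃ₗ[F] U)) (A : Subalgebra F (Module.End F U)) : Prop :=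
  ∀ γ ∈ Γ, ∀ s ∈ A, ((γ : U →ₗ[F] U) ∘ₗ s ∘ₗ ((γ⁻¹ : U ≃ₗ[F] U) : U →ₗ[F] U)) ∈ A

/-- The only `Γ`-invariant subalgebras are the scalars and everything. -/
def Good (Γ : Subgroup (U ≃ₗ[F] U)) : Prop :=
  ∀ A : Subalgebra F (Module.End F U), InvA Γ A → ∀ s ∈ A, (∀ c : F, s ≠ c • LinearMap.id) → A = ⊤

theorem Good.mono {Γ Γ' : Subgroup (U ≃ₗ[F] U)} (h : Good Γ) (hle : Γ ≤ Γ') : Good Γ' :=
  fun A hA => h A fun γ hγ => hA γ (hle hγ)

theorem mem_of_eq {A : Subalgebra F (Module.End F U)} {s t : Module.End F U} (hs : s ∈ A)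
    (e : ∀ z, t z = s z) : t ∈ A := by
  rwa [show t = s from LinearMap.ext e]

theorem mem_of_smul {A : Subalgebra F (Module.End F U)} {s t : Module.End F U} (hs : s ∈ A)
    {c : F} (hc : c ≠ 0) (e : ∀ z, c • t z = s z) : t ∈ A :=
  mem_of_eq (A.smul_mem hs c⁻¹) fun z => by
    rw [LinearMap.smul_apply, ← e, smul_smul, inv_mul_cancel₀ hc, one_smul]

section General

variable {σ : F →+* F} {P : PQ F U σ}

variable (P) in
/-- The map `z ↦ B(y, z) x`. -/
def r1 (x y : U) : Module.End F U := (P.B y).smulRight x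

@[simp] theorem r1_apply (x y z : U) : r1 P x y z = P.B y z • x := rfl

variable [FiniteDimensional F U] {Γ : Subgroup (U ≃ₗ[F] U)} {A : Subalgebra F (Module.End F U)}

theorem exists_pair (hP : P.B.SeparatingLeft) {u : U} (hu0 : u ≠ 0) (hu : P.q u ∈ P.Λ) :
    ∃ f, P.q f ∈ P.Λ ∧ P.B u f = 1 := by
  obtain ⟨w, h1, h2, -⟩ := P.exists_partner hP ⊥ (by simpa using hu0) hu (by simp)
  refine ⟨P.ε • w, P.q_smul_mem h1 _, ?_⟩
  rw [map_smul, P.symm w u, h2]
  simp [P.εε]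

theorem InvA.conj_eu (hA : InvA Γ A) (hE : EG P ≤ Γ) {u v : U} {c : F} (hu : P.q u ∈ P.Λ)
    (hv : P.B u v = 0) (hc : c - P.q v ∈ P.Λ) {s : Module.End F U} (hs : s ∈ A) :
    eu P u v c * s * eu P u (-v) (P.B v v - c) ∈ A := by
  obtain ⟨e, he, he'⟩ := has_eu_EG hu hv hc
  refine mem_of_eq (hA e (hE he) s hs) fun z => ?_
  have : eu P u (-v) (P.B v v - c) z = e⁻¹ z := by
    rw [le_inv_apply, eq_comm, LinearEquiv.symm_apply_eq, he',
      eu_comp (P.self_eq_zero hu) hv (by simp [hv])]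
    simp [eu_zero]
  simp [this, he']

theorem InvA.conj_r1 (hA : InvA Γ A) {γ : U ≃ₗ[F] U} (hγ : γ ∈ Γ) (hI : γ ∈ P.Isom)
    {a b c d : U} (hs : r1 P a b + r1 P c d ∈ A) : r1 P (γ a) (γ b) + r1 P (γ c) (γ d) ∈ A :=
  mem_of_eq (hA γ hγ _ hs) fun z => by simp [← B_isom_inv' hI]

theorem exists_nonsing (hP : P.B.SeparatingLeft) (hmax : ∀ u, P.B u u = 0 → P.q u ∈ P.Λ)
    (hΛ : ∀ l ∈ P.Λ, l = 0) (ha : 3 ≤ finrank F U) {u f : U} (hu : P.q u ∈ P.Λ)
    (hf : P.q f ∈ P.Λ) (huf : P.B u f = 1) : ∃ v, P.B u v = 0 ∧ P.B f v = 0 ∧ P.B v v ≠ 0 := by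
  by_contra hc
  push Not at hc
  obtain ⟨v, hv0, h1, h2⟩ := exists_ker_two ha (P.B u) (P.B f)
  refine hv0 (hP v fun x => ?_)
  have hfu : P.B f u = P.ε := by rw [P.symm, huf]; simp
  set y := x - P.B u x • f - (P.ε * P.B f x) • u with hy
  have h3 : P.B u y = 0 := by simp [hy, huf, P.self_eq_zero hu]
  have h4 : P.B f y = 0 := by
    simp [hy, hfu, P.self_eq_zero hf]; linear_combination (-P.B f x) * P.εε
  have h5 := hΛ _ (P.q_add v y)
  rw [hΛ _ (hmax _ (hc _ h1 h2)), hΛ _ (hmax _ (hc _ h3 h4)),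
    hΛ _ (hmax _ (hc (v + y) (by simp [h1, h3]) (by simp [h2, h4])))] at h5
  have h6 : P.B v y = 0 := by linear_combination -h5
  simpa [hy, P.eq_zero_symm h1, P.eq_zero_symm h2] using h6

theorem self_add_or_sub (h2 : (2 : F) ≠ 0) {v v₀ : U} (hv : P.B v v = 0) (h0 : P.B v₀ v₀ ≠ 0) :
    P.B (v + v₀) (v + v₀) ≠ 0 ∨ P.B (v - v₀) (v - v₀) ≠ 0 := by
  by_contra hc
  push Not at hc
  obtain ⟨e1, e2⟩ := hc
  simp only [map_add, map_sub, LinearMap.add_apply, LinearMap.sub_apply, hv] at e1 e2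
  exact mul_ne_zero h2 h0 (by linear_combination e1 + e2)

theorem span_top (hP : P.B.SeparatingLeft) (hmax : ∀ u, P.B u u = 0 → P.q u ∈ P.Λ)
    (hyp : (∃ l ∈ P.Λ, l ≠ 0) ∨ (3 ≤ finrank F U ∧ (2 : F) ≠ 0)) {u f : U} (hu : P.q u ∈ P.Λ)
    (hf : P.q f ∈ P.Λ) (huf : P.B u f = 1) {L : Submodule F U} (huL : u ∈ L)
    (hL : ∀ v c, P.B u v = 0 → P.B f v = 0 → c - P.q v ∈ P.Λ → c ≠ 0 → u - c • f - v ∈ L) :
    L = ⊤ := by
  have key : f ∈ L ∧ ∀ v, P.B u v = 0 → P.B f v = 0 → v ∈ L := by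
    by_cases hΛ : ∃ l ∈ P.Λ, l ≠ 0
    · obtain ⟨l, hl, hl0⟩ := hΛ
      have hfL : f ∈ L := by
        have := L.smul_mem l⁻¹ (L.sub_mem huL (hL 0 l (by simp) (by simp)
          (P.Λ.sub_mem hl P.q_zero) hl0))
        simpa [smul_smul, hl0] using this
      refine ⟨hfL, fun v h1 h2 => ?_⟩
      obtain ⟨c, hc, hc0⟩ : ∃ c, c - P.q v ∈ P.Λ ∧ c ≠ 0 := by
        by_cases hq : P.q v = 0
        · exact ⟨l, by simpa [hq] using hl, hl0⟩
        · exact ⟨P.q v, by simp, hq⟩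
      have := L.sub_mem (L.sub_mem huL (L.smul_mem c hfL)) (hL v c h1 h2 hc hc0)
      simpa using this
    obtain ⟨ha, h2⟩ := hyp.resolve_left hΛ
    push Not at hΛ
    have hq : ∀ v, P.B v v ≠ 0 → P.q v ≠ 0 := fun v hv h0 =>
      hv (P.self_eq_zero (h0 ▸ P.Λ.zero_mem))
    have hns : ∀ v, P.B u v = 0 → P.B f v = 0 → P.B v v ≠ 0 → v ∈ L := fun v e1 e2 e3 => by
      have a1 := hL v (P.q v) e1 e2 (by simp) (hq v e3)
      have a2 := hL (-v) (P.q v) (by simp [e1]) (by simp [e2])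
        (by simpa using P.Λ.neg_mem (P.q_neg v)) (hq v e3)
      have := L.smul_mem (2 : F)⁻¹ (L.sub_mem a2 a1)
      rwa [show u - P.q v • f - -v - (u - P.q v • f - v) = (2 : F) • v by module, smul_smul,
        inv_mul_cancel₀ h2, one_smul] at this
    obtain ⟨v₀, e1, e2, e3⟩ := exists_nonsing hP hmax hΛ ha hu hf huf
    refine ⟨?_, fun v h1 h1' => ?_⟩
    · have := L.smul_mem (P.q v₀)⁻¹ (L.sub_mem (L.sub_mem huL (hns v₀ e1 e2 e3))
        (hL v₀ (P.q v₀) e1 e2 (by simp) (hq v₀ e3)))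
      rwa [show u - v₀ - (u - P.q v₀ • f - v₀) = P.q v₀ • f by module, smul_smul,
        inv_mul_cancel₀ (hq v₀ e3), one_smul] at this
    by_cases hv : P.B v v = 0
    · rcases self_add_or_sub h2 hv e3 with e | e
      · simpa using L.sub_mem (hns _ (by simp [h1, e1]) (by simp [h1', e2]) e) (hns v₀ e1 e2 e3)
      · simpa using L.add_mem (hns _ (by simp [h1, e1]) (by simp [h1', e2]) e) (hns v₀ e1 e2 e3)
    · exact hns v h1 h1' hv
  have hfu : P.B f u = P.ε := by rw [P.symm, huf]; simp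
  refine eq_top_iff.2 fun x _ => ?_
  have := L.add_mem (L.add_mem (key.2 (x - P.B u x • f - (P.ε * P.B f x) • u)
    (by simp [huf, P.self_eq_zero hu])
    (by simp [hfu, P.self_eq_zero hf]; linear_combination (-P.B f x) * P.εε))
    (L.smul_mem (P.B u x) key.1)) (L.smul_mem (P.ε * P.B f x) huL)
  convert this using 1
  abel

theorem eu_pair {u f v : U} (huf : P.B u f = 1) (hv : P.B u v = 0) (c : F) :
    eu P f v c u = u - c • f - v := by
  have hfu : P.B f u = P.ε := by rw [P.symm, huf]; simp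
  rw [eu_apply, P.eq_zero_symm hv, hfu, P.εε, mul_right_comm, P.εε]
  module

theorem exists_sing_notMem (hP : P.B.SeparatingLeft) (hmax : ∀ u, P.B u u = 0 → P.q u ∈ P.Λ)
    (hyp : (∃ l ∈ P.Λ, l ≠ 0) ∨ (3 ≤ finrank F U ∧ (2 : F) ≠ 0))
    (hex : ∃ u, u ≠ 0 ∧ P.q u ∈ P.Λ) {s : Module.End F U} (hs : ∀ c : F, s ≠ c • LinearMap.id) :
    ∃ u, P.q u ∈ P.Λ ∧ s u ∉ F ∙ u := by
  by_contra hc
  push Not at hc
  have hsing : ∀ u f v c, P.q u ∈ P.Λ → P.q f ∈ P.Λ → P.B u f = 1 → P.B u v = 0 → P.B f v = 0 →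
      c - P.q v ∈ P.Λ → P.q (u - c • f - v) ∈ P.Λ := fun u f v c hu hf huf h1 h2 h3 => by
    have := P.Λ.add_mem (eu_q hf h2 h3 u) hu
    rwa [eu_pair huf h1, sub_add_cancel] at this
  have hpair : ∀ (u f : U) (a b : F), P.q u ∈ P.Λ → P.q f ∈ P.Λ → P.B u f = 1 → s u = a • u → s f = b • f →
      a = b := fun u f a b hu hf huf ha hb => by
    have hfu : P.B f u = P.ε := by rw [P.symm, huf]; simp
    by_cases hΛ : ∃ l ∈ P.Λ, l ≠ 0
    · obtain ⟨l, hl, hl0⟩ := hΛ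
      obtain ⟨m, hm⟩ := Submodule.mem_span_singleton.1 (hc _ (hsing u f 0 l hu hf huf (by simp)
        (by simp) (P.Λ.sub_mem hl P.q_zero)))
      have e1 := congrArg (P.B u) hm
      have e2 := congrArg (P.B f) hm
      simp [ha, hb, huf, hfu, P.self_eq_zero hu, P.self_eq_zero hf, P.ε_ne_zero] at e1 e2
      exact e2.symm.trans (mul_right_cancel₀ hl0 (e1.trans (mul_comm _ _)))
    obtain ⟨h3, h2⟩ := hyp.resolve_left hΛ
    push Not at hΛ
    obtain ⟨v, e1, e2, e3⟩ := exists_nonsing hP hmax hΛ h3 hu hf huf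
    have hq : P.q v ≠ 0 := fun h0 => e3 (P.self_eq_zero (h0 ▸ P.Λ.zero_mem))
    obtain ⟨m, hm⟩ := Submodule.mem_span_singleton.1 (hc _ (hsing u f v (P.q v) hu hf huf e1 e2
      (by simp)))
    obtain ⟨m', hm'⟩ := Submodule.mem_span_singleton.1 (hc _ (hsing u f (-v) (P.q v) hu hf huf
      (by simp [e1]) (by simp [e2]) (by simpa using P.Λ.neg_mem (P.q_neg v))))
    have a1 := congrArg (P.B u) hm
    have a2 := congrArg (P.B f) hm
    have a3 := congrArg (P.B u) hm'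
    have a4 := congrArg (P.B f) hm'
    simp only [map_sub, map_smul, map_neg, ha, hb, huf, hfu, P.self_eq_zero hu,
      P.self_eq_zero hf, e1, e2, smul_eq_mul] at a1 a2 a3 a4
    have b1 : m + m' = 2 * b := mul_right_cancel₀ hq (by linear_combination -a1 - a3)
    have b2 : m + m' = 2 * a := mul_right_cancel₀ P.ε_ne_zero (by linear_combination a2 + a4)
    exact mul_left_cancel₀ h2 (b2.symm.trans b1)
  obtain ⟨u, hu0, hu⟩ := hex
  obtain ⟨f, hf, huf⟩ := exists_pair hP hu0 hu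
  obtain ⟨a, ha⟩ := Submodule.mem_span_singleton.1 (hc u hu)
  have := span_top hP hmax hyp hu hf huf (L := LinearMap.ker (s - a • LinearMap.id))
    (by simp [← ha]) fun v c h1 h2 h3 h4 => by
      have h5 := hsing u f v c hu hf huf h1 h2 h3
      obtain ⟨b, hb⟩ := Submodule.mem_span_singleton.1 (hc _ h5)
      have := hpair u ((-c)⁻¹ • (u - c • f - v)) a b hu (P.q_smul_mem h5 _)
        (by simp [huf, h1, P.self_eq_zero hu, h4]) ha.symm (by rw [map_smul, ← hb, smul_comm])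
      rw [LinearMap.mem_ker, LinearMap.sub_apply, ← hb, this]
      simp
  exact hs a (sub_eq_zero.1 (LinearMap.ker_eq_top.1 this))

theorem InvA.top_of_uu (hA : InvA Γ A) (hE : EG P ≤ Γ) (hP : P.B.SeparatingLeft)
    (hmax : ∀ u, P.B u u = 0 → P.q u ∈ P.Λ)
    (hyp : (∃ l ∈ P.Λ, l ≠ 0) ∨ (3 ≤ finrank F U ∧ (2 : F) ≠ 0)) {u : U} (hu0 : u ≠ 0)
    (hu : P.q u ∈ P.Λ) (h : r1 P u u ∈ A) : A = ⊤ := by
  obtain ⟨f, hf, huf⟩ := exists_pair hP hu0 hu
  have h1 : ∀ v c, P.B u v = 0 → P.B f v = 0 → c - P.q v ∈ P.Λ →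
      r1 P (u - c • f - v) (u - c • f - v) ∈ A := fun v c e1 e2 e3 => by
    obtain ⟨e, he, he'⟩ := has_eu_EG hf e2 e3
    have := hA.conj_r1 (hE he) (EG_le_isom he) (a := u) (b := u) (c := 0) (d := 0)
      (mem_of_eq h fun z => by simp)
    rw [he', eu_pair huf e1] at this
    exact mem_of_eq this fun z => by simp
  have h2 : ∀ v c, P.B u v = 0 → P.B u (u - c • f - v) = -c := fun v c e1 => by
    simp [huf, e1, P.self_eq_zero hu]
  let L : Submodule F U :=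
    { carrier := {x | r1 P x u ∈ A}
      zero_mem' := mem_of_eq A.zero_mem fun z => by simp
      add_mem' := fun hx hy => mem_of_eq (A.add_mem hx hy) fun z => by simp
      smul_mem' := fun c x hx => mem_of_eq (A.smul_mem hx c) fun z => by
        simp [smul_smul, mul_comm] }
  let L' : Submodule F U :=
    { carrier := {x | r1 P u x ∈ A}
      zero_mem' := mem_of_eq A.zero_mem fun z => by simp
      add_mem' := fun hx hy => mem_of_eq (A.add_mem hx hy) fun z => by simp [add_smul]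
      smul_mem' := fun c x hx => mem_of_eq (A.smul_mem hx (σ c)) fun z => by
        simp [smul_smul] }
  have hL : L = ⊤ := span_top hP hmax hyp hu hf huf h fun v c e1 e2 e3 e4 =>
    mem_of_smul (A.mul_mem (h1 v c e1 e2 e3) h)
      (B_ne_zero_symm (P := P) (x := u) (by rw [h2 v c e1]; simpa using e4)) fun z => by
      simp only [r1_apply, Module.End.mul_apply, map_smul]; rw [smul_comm]
  have hL' : L' = ⊤ := span_top hP hmax hyp hu hf huf h fun v c e1 e2 e3 e4 =>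
    mem_of_smul (A.mul_mem h (h1 v c e1 e2 e3)) (c := P.B u (u - c • f - v))
      (by rw [h2 v c e1]; simpa using e4) fun z => by
      simp only [r1_apply, Module.End.mul_apply, map_smul]; rw [smul_comm]
  have hx : ∀ x, r1 P x u ∈ A := fun x => (hL ▸ Submodule.mem_top : x ∈ L)
  have hy : ∀ y, r1 P u y ∈ A := fun y => (hL' ▸ Submodule.mem_top : y ∈ L')
  have hff : r1 P f f ∈ A := by
    obtain ⟨v, c, e1, e2, e3, e4⟩ : ∃ v c, P.B u v = 0 ∧ P.B f v = 0 ∧ c - P.q v ∈ P.Λ ∧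
        c ≠ 0 := by
      by_contra hc
      push Not at hc
      have := span_top hP hmax hyp hu hf huf (L := F ∙ u) (Submodule.mem_span_singleton_self u)
        fun v c e1 e2 e3 e4 => (e4 (hc v c e1 e2 e3)).elim
      obtain ⟨a, ha⟩ := Submodule.mem_span_singleton.1 (this ▸ Submodule.mem_top : f ∈ F ∙ u)
      simp [← ha, P.self_eq_zero hu] at huf
    have e5 : P.B u (u - c • f - v) ≠ 0 := by rw [h2 v c e1]; simpa using e4
    exact mem_of_smul (A.mul_mem (A.mul_mem (hx f) (h1 v c e1 e2 e3)) (hy f))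
      (mul_ne_zero e5 (B_ne_zero_symm e5)) fun z => by
      simp only [r1_apply, Module.End.mul_apply, map_smul, smul_smul, smul_eq_mul]; congr 1; ring
  have hxy : ∀ x y, r1 P x y ∈ A := fun x y =>
    mem_of_smul (A.mul_mem (A.mul_mem (hx x) hff) (hy y)) (B_ne_zero_symm (P := P) (x := u)
      (y := f) (by simp [huf])) fun z => by
      simp only [r1_apply, Module.End.mul_apply, map_smul, smul_smul, smul_eq_mul, huf]
      congr 1; ring
  refine eq_top_iff.2 fun s _ => ?_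
  let b := Module.finBasis F U
  choose y hy using fun i => exists_repr_dual P.σσ P.B hP (b.coord i)
  refine mem_of_eq (A.sum_mem fun i (_ : i ∈ Finset.univ) => hxy (s (b i)) (y i)) fun z => ?_
  conv_lhs => rw [← b.sum_repr z, map_sum]
  simp [hy]

theorem InvA.uu_of_d (hA : InvA Γ A) (hE : EG P ≤ Γ) (hP : P.B.SeparatingLeft) {u : U}
    (hu : P.q u ∈ P.Λ)
    (hB : σ ≠ RingHom.id F ∨ ∀ p, P.B u p = 0 → p ∉ F ∙ u → P.B p p = 0 →
      ∃ γ ∈ Γ, γ ∈ P.Isom ∧ γ u = u ∧ P.B p (γ p) ≠ 0)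
    {p p' : U} (hp : P.B u p = 0) (hp' : P.B u p' = 0) (hn : p' ∉ F ∙ u)
    (hd : r1 P u p + r1 P p' u ∈ A) : r1 P u u ∈ A := by
  have huu := P.self_eq_zero hu
  by_cases h1 : ∃ v, P.B u v = 0 ∧ σ (P.B v p) + P.B v p' ≠ 0
  · obtain ⟨v, e1, e2⟩ := h1
    obtain ⟨e, he, he'⟩ := has_eu_EG hu e1 (c := P.q v) (by simp)
    have := hA.conj_r1 (hE he) (EG_le_isom he) hd
    refine mem_of_smul (A.sub_mem this hd) e2 fun z => ?_
    simp [he', eu_apply, hp, hp', huu, P.eq_zero_symm e1]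
    module
  push Not at h1
  by_cases hσ : σ = RingHom.id F
  · subst hσ
    have h2 : p' + p ∈ F ∙ u := mem_span_of_perp hP fun y hy => P.eq_zero_symm (by
      simpa [add_comm] using h1 y hy)
    obtain ⟨k, hk⟩ := Submodule.mem_span_singleton.1 h2
    have h3 : p' = k • u - p := by rw [hk]; abel
    have hn' : p ∉ F ∙ u := fun hc => hn (h3 ▸ Submodule.sub_mem _
      (Submodule.smul_mem _ _ (Submodule.mem_span_singleton_self u)) hc)
    obtain ⟨γ, hγ, hI, e1, e2⟩ : ∃ γ ∈ Γ, γ ∈ P.Isom ∧ γ u = u ∧ P.B p (γ p) ≠ 0 := by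
      by_cases hpp : P.B p p = 0
      · exact (hB.resolve_left (by simp)) p hp hn' hpp
      · exact ⟨1, Γ.one_mem, P.Isom.one_mem, rfl, hpp⟩
    have e3 : P.B u (γ p) = 0 := by rw [← e1, B_isom hI, hp]
    refine mem_of_smul (A.mul_mem hd (hA.conj_r1 hγ hI hd)) (neg_ne_zero.2 e2) fun z => ?_
    simp [h3, e1, e3, huu, P.eq_zero_symm hp, smul_smul, mul_comm]
  · exfalso
    obtain ⟨m, hm⟩ : ∃ m, σ m ≠ m := by
      by_contra hc
      push Not at hc
      exact hσ (RingHom.ext hc)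
    refine hn (mem_span_of_perp hP fun y hy => P.eq_zero_symm ?_)
    have a1 := h1 y hy
    have a2 := h1 (m • y) (by simp [hy])
    simp only [B_smul_left, map_mul, P.σσ] at a2
    exact (mul_eq_zero.1 (show (σ m - m) * P.B y p' = 0 by
      linear_combination a2 - m * a1)).resolve_left (sub_ne_zero.2 hm)

theorem good_of_lambda (hE : EG P ≤ Γ) (hP : P.B.SeparatingLeft)
    (hmax : ∀ u, P.B u u = 0 → P.q u ∈ P.Λ) (hex : ∃ u, u ≠ 0 ∧ P.q u ∈ P.Λ)
    {l : F} (hl : l ∈ P.Λ) (hl0 : l ≠ 0) (ha : 3 ≤ finrank F U ∨ ∃ l' ∈ P.Λ, l' ≠ 0 ∧ l' ≠ l)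
    (hB : σ ≠ RingHom.id F ∨ ∀ u, P.q u ∈ P.Λ) : Good Γ := by
  intro A hA s hsA hs
  obtain ⟨u, hu, hsu⟩ := exists_sing_notMem hP hmax (Or.inl ⟨l, hl, hl0⟩) hex hs
  have hu0 : u ≠ 0 := by rintro rfl; simp at hsu
  have huu := P.self_eq_zero hu
  refine hA.top_of_uu hE hP hmax (Or.inl ⟨l, hl, hl0⟩) hu0 hu ?_
  have hB' : σ ≠ RingHom.id F ∨ ∀ p, P.B u p = 0 → p ∉ F ∙ u → P.B p p = 0 →
      ∃ γ ∈ Γ, γ ∈ P.Isom ∧ γ u = u ∧ P.B p (γ p) ≠ 0 := hB.imp_right fun hB p h1 h2 h3 => by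
    obtain ⟨y, e1, e2⟩ := exists_perp_ne hP h2 1
    obtain ⟨e, he, he'⟩ := has_eu_EG (hB y) (w := 0) (by simp) (P.Λ.sub_mem hl P.q_zero)
    refine ⟨e, hE he, EG_le_isom he, ?_, ?_⟩
    · rw [he', eu_fix _ (P.eq_zero_symm e1) (by simp)]
    · have := B_ne_zero_symm (P := P) (x := p) (y := y) (by simp [e2])
      simp [he', eu_apply, h3, e2, P.ε_ne_zero, hl0, this]
  obtain ⟨p, hp⟩ := exists_repr_dual P.σσ P.B hP (P.B u ∘ₗ s)
  simp only [LinearMap.comp_apply] at hp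
  have hd : ∀ c ∈ P.Λ, c ≠ 0 →
      r1 P u p + r1 P ((P.ε * c * P.B u (s u)) • u - s u) u ∈ A := fun c hc hc0 => by
    have := hA.conj_eu hE hu (v := 0) (by simp) (P.Λ.sub_mem hc P.q_zero) hsA
    refine mem_of_smul (A.sub_mem this hsA) (neg_ne_zero.2 (mul_ne_zero P.ε_ne_zero hc0))
      fun z => ?_
    simp [eu_apply, hp]
    module
  by_cases hβ : P.B u (s u) = 0
  · refine hA.uu_of_d hE hP hu hB' (P.eq_zero_symm ((hp u).trans hβ)) (by simp [hβ]) ?_
      (hd l hl hl0)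
    simpa [hβ] using hsu
  rcases ha with ha | ⟨l', hl', hl0', hne⟩
  · obtain ⟨f, hf, huf⟩ := exists_pair hP hu0 hu
    obtain ⟨v, hv0, e1, e2⟩ := exists_ker_two ha (P.B u) (P.B f)
    obtain ⟨e, he, he'⟩ := has_eu_EG hu e1 (c := P.q v) (by simp)
    have e3 : e u = u := by rw [he', eu_fix _ huu (P.eq_zero_symm e1)]
    have e4 : ∀ x, P.B u (e x - x) = 0 := fun x => by
      rw [map_sub, ← B_isom (EG_le_isom he) u x, e3, sub_self]
    have hd1 := hd l hl hl0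
    obtain ⟨p', hp'⟩ : ∃ p', p' = (P.ε * l * P.B u (s u)) • u - s u := ⟨_, rfl⟩
    rw [← hp'] at hd1
    refine hA.uu_of_d hE hP hu hB' (e4 p) (e4 p') (fun hc => ?_)
      (mem_of_eq (A.sub_mem (hA.conj_r1 (hE he) (EG_le_isom he) hd1) hd1)
        fun z => by simp [e3, sub_smul, smul_sub]; abel)
    have e5 : P.B u p' = -P.B u (s u) := by simp [hp', huu]
    have e6 : (P.ε * P.B u (s u)) • v ∈ F ∙ u := by
      have := Submodule.sub_mem _ hc (Submodule.smul_mem _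
        (P.B v p' - P.ε * P.q v * P.B u p') (Submodule.mem_span_singleton_self u))
      rw [he', eu_apply, e5] at this
      convert this using 1
      module
    obtain ⟨k, hk⟩ := Submodule.mem_span_singleton.1 e6
    have e7 := congrArg (P.B f) hk
    have hfu : P.B f u = P.ε := by rw [P.symm, huf]; simp
    simp [hfu, e2, P.ε_ne_zero] at e7
    rw [e7, zero_smul, eq_comm] at hk
    simp [P.ε_ne_zero, hβ, hv0] at hk
  · refine mem_of_smul (A.sub_mem (hd l' hl' hl0') (hd l hl hl0))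
      (mul_ne_zero (mul_ne_zero P.ε_ne_zero (sub_ne_zero.2 hne)) hβ) fun z => ?_
    simp
    module

end General

section Orth

variable {P : PQ F U (RingHom.id F)} [FiniteDimensional F U] {Γ : Subgroup (U ≃ₗ[F] U)}
  {A : Subalgebra F (Module.End F U)}

/-- A symmetric form in odd characteristic. -/
structure IsOrth (P : PQ F U (RingHom.id F)) : Prop where
  ε : P.ε = 1
  two : (2 : F) ≠ 0
  nd : P.B.SeparatingLeft
  max : ∀ u, P.B u u = 0 → P.q u ∈ P.Λ

namespace IsOrth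

variable (h : IsOrth P)
include h

theorem symm (x y : U) : P.B x y = P.B y x := by rw [P.symm, h.ε]; simp

theorem Λ_eq {l : F} (hl : l ∈ P.Λ) : l = 0 := by
  have := P.tr_mem l hl
  rw [h.ε] at this
  exact (mul_eq_zero.1 (show 2 * l = 0 by simpa [two_mul] using this)).resolve_left h.two

theorem self (x : U) : P.B x x = 2 * P.q x := by rw [P.self, h.ε]; simp [two_mul]

theorem q_ne {x : U} (hx : P.B x x ≠ 0) : P.q x ≠ 0 := fun e => hx (by rw [h.self, e, mul_zero])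

theorem exists_nonsing_perp (ha : 3 ≤ finrank F U) {u x : U} (hu0 : u ≠ 0) (hu : P.q u ∈ P.Λ)
    (hx : x ∉ F ∙ u) : ∃ v, P.B u v = 0 ∧ P.B v v ≠ 0 ∧ P.B x v ≠ 0 := by
  obtain ⟨y, e1, e2⟩ := exists_perp_ne h.nd hx 1
  by_cases hy : P.B y y = 0
  swap
  · exact ⟨y, e1, hy, by simp [e2]⟩
  obtain ⟨f, hf, huf⟩ := exists_pair h.nd hu0 hu
  obtain ⟨v, a1, -, a3⟩ := exists_nonsing h.nd h.max (fun _ => h.Λ_eq) ha hu hf huf
  by_cases hv : P.B x v = 0
  swap
  · exact ⟨v, a1, a3, hv⟩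
  rcases self_add_or_sub h.two hy a3 with e | e
  · exact ⟨_, by simp [e1, a1], e, by simp [e2, hv]⟩
  · exact ⟨_, by simp [e1, a1], e, by simp [e2, hv]⟩

theorem good (hE : EG P ≤ Γ) (hex : ∃ u, u ≠ 0 ∧ P.q u ∈ P.Λ) (ha : 3 ≤ finrank F U)
    (hμ : 4 ≤ finrank F U ∨ ∃ μ : F, μ ≠ 0 ∧ μ ^ 2 ≠ 1)
    (hB : ∀ u p, u ≠ 0 → P.q u ∈ P.Λ → P.B u p = 0 → p ∉ F ∙ u → P.B p p = 0 →
      ∃ γ ∈ Γ, γ ∈ P.Isom ∧ γ u = u ∧ P.B p (γ p) ≠ 0) : Good Γ := by
  intro A hA s hsA hs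
  obtain ⟨u, hu, hsu⟩ := exists_sing_notMem h.nd h.max (Or.inr ⟨ha, h.two⟩) hex hs
  have hu0 : u ≠ 0 := by rintro rfl; simp at hsu
  have huu := P.self_eq_zero hu
  refine hA.top_of_uu hE h.nd h.max (Or.inr ⟨ha, h.two⟩) hu0 hu ?_
  have hB' := fun p p' => hA.uu_of_d hE h.nd hu (Or.inr fun p => hB u p hu0 hu) (p := p) (p' := p')
  obtain ⟨p, hp⟩ := exists_repr_dual P.σσ P.B h.nd (P.B u ∘ₗ s)
  simp only [LinearMap.comp_apply] at hp
  choose y hy using fun v => exists_repr_dual P.σσ P.B h.nd (P.B v ∘ₗ s)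
  simp only [LinearMap.comp_apply] at hy
  set β := P.B u (s u) with hβ'
  -- the conjugate of `s` by the Eichler element `eu u (μ v)`, as a polynomial in `μ`
  have hc : ∀ v, P.B u v = 0 → ∀ μ : F,
      s + μ • (r1 P u (y v) - r1 P v p - r1 P (s u) v + r1 P (s v) u) +
      μ ^ 2 • (-(P.q v • (r1 P u p + r1 P (s u) u)) - P.B v (s u) • r1 P u v +
        P.B v (s v) • r1 P u u + β • r1 P v v - P.B u (s v) • r1 P v u) +
      μ ^ 3 • (P.q v • (β • (r1 P v u + r1 P u v) - (P.B v (s u) + P.B u (s v)) • r1 P u u)) +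
        μ ^ 4 • (P.q v ^ 2 * β) • r1 P u u ∈ A := fun v hv μ => by
    have := hA.conj_eu hE hu (v := μ • v) (c := μ ^ 2 * P.q v) (by simp [hv])
      (by simpa [pow_two] using valid_smul μ (P := P) (w := v) (c := P.q v) (by simp)) hsA
    refine mem_of_eq this fun z => ?_
    simp [eu_apply, hp, hy, h.ε, h.self v, hβ']
    module
  have he : ∀ v, P.B u v = 0 → ∀ μ : F,
      μ ^ 2 • (-(P.q v • (r1 P u p + r1 P (s u) u)) - P.B v (s u) • r1 P u v +
        P.B v (s v) • r1 P u u + β • r1 P v v - P.B u (s v) • r1 P v u) +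
        μ ^ 4 • (P.q v ^ 2 * β) • r1 P u u ∈ A := fun v hv μ =>
    mem_of_smul (A.sub_mem (A.add_mem (hc v hv μ) (hc v hv (-μ))) (A.smul_mem hsA 2)) h.two
      fun z => by simp; module
  by_cases hβ : β = 0
  · have hd : ∀ v, P.B u v = 0 → P.q v • s u + P.B u (s v) • v ∉ F ∙ u → r1 P u u ∈ A :=
      fun v hv hn => by
      refine hB' (-(P.q v • p) - P.B v (s u) • v)
        (P.B v (s v) • u - (P.q v • s u + P.B u (s v) • v))
        (by simp [hv, h.symm u p, hp, ← hβ', hβ]) (by simp [hv, huu, ← hβ', hβ]) (fun hc => hn ?_)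
        (mem_of_eq (he v hv 1) fun z => by simp [hβ]; module)
      simpa using Submodule.sub_mem _ (Submodule.smul_mem _ (P.B v (s v))
        (Submodule.mem_span_singleton_self u)) hc
    by_cases h1 : ∃ v, P.B u v = 0 ∧ P.B v v ≠ 0 ∧ v ∉ (F ∙ u) ⊔ F ∙ s u
    · obtain ⟨v, e1, e2, e3⟩ := h1
      refine hd v e1 fun hc => ?_
      by_cases e4 : P.B u (s v) = 0
      · rw [e4, zero_smul, add_zero] at hc
        exact hsu ((Submodule.smul_mem_iff _ (h.q_ne e2)).1 hc)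
      · refine e3 ((Submodule.smul_mem_iff _ e4).1 ?_)
        simpa using Submodule.sub_mem _ (Submodule.mem_sup_left hc) (Submodule.mem_sup_right
          (Submodule.smul_mem _ (P.q v) (Submodule.mem_span_singleton_self (s u))))
    push Not at h1
    have h2 : ∀ x, x ∉ F ∙ u → P.B x u = 0 → P.B x (s u) ≠ 0 := fun x e1 e2 e3 => by
      obtain ⟨v, a1, a2, a3⟩ := h.exists_nonsing_perp ha hu0 hu e1
      obtain ⟨b, hb, c, hc, rfl⟩ := Submodule.mem_sup.1 (h1 v a1 a2)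
      obtain ⟨b, rfl⟩ := Submodule.mem_span_singleton.1 hb
      obtain ⟨c, rfl⟩ := Submodule.mem_span_singleton.1 hc
      simp [e2, e3] at a3
    have h3 : P.B (s u) (s u) ≠ 0 := h2 _ hsu (P.eq_zero_symm hβ)
    obtain ⟨μ, hμ0, hμ1⟩ : ∃ μ : F, μ ≠ 0 ∧ μ ^ 2 ≠ 1 := hμ.resolve_left fun h4 => by
      obtain ⟨f, hf, huf⟩ := exists_pair h.nd hu0 hu
      have a1 := finrank_inf_ker (LinearMap.ker (P.B u) ⊓ LinearMap.ker (P.B (s u))) (P.B f)
      have a2 := finrank_inf_ker (LinearMap.ker (P.B u)) (P.B (s u))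
      have a3 := finrank_inf_ker ⊤ (P.B u)
      rw [top_inf_eq, finrank_top] at a3
      obtain ⟨x, ⟨⟨b1, b2⟩, b3⟩, hx0⟩ := Submodule.exists_mem_ne_zero_of_ne_bot
        (p := LinearMap.ker (P.B u) ⊓ LinearMap.ker (P.B (s u)) ⊓ LinearMap.ker (P.B f))
        (fun e => by rw [e, finrank_bot] at a1; omega)
      refine h2 x (fun hc => ?_) (P.eq_zero_symm b1) (P.eq_zero_symm b2)
      obtain ⟨k, rfl⟩ := Submodule.mem_span_singleton.1 hc
      simp [h.symm f u, huf] at b3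
      simp [b3] at hx0
    by_cases h4 : P.B (s u) (s u) + P.B u (s (s u)) = 0
    · refine hd (s u) hβ fun hc => hsu ((Submodule.smul_mem_iff _ (neg_ne_zero.2 (h.q_ne h3))).1 ?_)
      convert hc using 1
      rw [show P.B u (s (s u)) = -(2 * P.q (s u)) by rw [← h.self]; linear_combination h4]
      module
    have h5 := A.sub_mem (A.sub_mem (hc _ hβ μ) (hc _ hβ (-μ)))
      (A.smul_mem (A.sub_mem (hc _ hβ 1) (hc _ hβ (-1))) μ)
    refine mem_of_smul h5 (mul_ne_zero (mul_ne_zero (mul_ne_zero (mul_ne_zero h.two hμ0)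
      (sub_ne_zero.2 hμ1.symm)) (h.q_ne h3)) h4) fun z => ?_
    simp [hβ]
    module
  by_cases hμ' : ∃ μ : F, μ ≠ 0 ∧ μ ^ 2 ≠ 1
  · obtain ⟨μ, hμ0, hμ1⟩ := hμ'
    obtain ⟨v, a1, a2, -⟩ := h.exists_nonsing_perp ha hu0 hu hsu
    refine mem_of_smul (A.sub_mem (he v a1 μ) (A.smul_mem (he v a1 1) (μ ^ 2)))
      (mul_ne_zero (mul_ne_zero (mul_ne_zero (pow_ne_zero 2 hμ0) (sub_ne_zero.2 hμ1))
        (pow_ne_zero 2 (h.q_ne a2))) hβ) fun z => ?_
    simp
    module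
  have h4 := hμ.resolve_right hμ'
  obtain ⟨v, a1, a2, -⟩ := h.exists_nonsing_perp ha hu0 hu hsu
  obtain ⟨f, hf, huf⟩ := exists_pair h.nd hu0 hu
  have b1 := finrank_inf_ker (LinearMap.ker (P.B u) ⊓ LinearMap.ker (P.B v)) (P.B f)
  have b2 := finrank_inf_ker (LinearMap.ker (P.B u)) (P.B v)
  have b3 := finrank_inf_ker ⊤ (P.B u)
  rw [top_inf_eq, finrank_top] at b3
  obtain ⟨x, ⟨⟨c1, c2⟩, c3⟩, hx0⟩ := Submodule.exists_mem_ne_zero_of_ne_bot
    (p := LinearMap.ker (P.B u) ⊓ LinearMap.ker (P.B v) ⊓ LinearMap.ker (P.B f))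
    (fun e => by rw [e, finrank_bot] at b1; omega)
  replace c1 : P.B u x = 0 := c1
  replace c2 : P.B v x = 0 := c2
  replace c3 : P.B f x = 0 := c3
  have d1 := hA.conj_eu hE hu c1 (c := P.q x) (by simp) (he v a1 1)
  refine hB' ((P.q v * β) • x) ((P.q v * β) • x +
      (-(P.q v * (P.B x p + P.B x (s u))) + 2 * P.q v * P.q x * β) • u) (by simp [c1])
    (by simp [c1, huu]) (fun hc => ?_) (mem_of_eq (A.sub_mem d1 (he v a1 1)) fun z => ?_)
  · have := (Submodule.smul_mem_iff _ (mul_ne_zero (h.q_ne a2) hβ)).1 ((Submodule.add_mem_iff_left _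
      (Submodule.smul_mem _ _ (Submodule.mem_span_singleton_self u))).1 hc)
    obtain ⟨k, rfl⟩ := Submodule.mem_span_singleton.1 this
    simp [h.symm f u, huf] at c3
    simp [c3] at hx0
  · simp [eu_apply, h.ε, h.self x, huu, a1, c1, c2, h.symm x u, h.symm x v, h.symm v u, ← hβ',
      h.symm p x, show P.B p u = β from hp u]
    module

theorem exists_nonsing_mem {S : Submodule F U} (hS : 2 * finrank F S < finrank F U) :
    ∃ v ∈ perp P S, P.B v v ≠ 0 := by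
  by_contra hc
  push Not at hc
  have : perp P S ≤ S := by
    conv_rhs => rw [← perp_perp h.nd S]
    intro x hx y hy
    have := hc (x + y) (Submodule.add_mem _ hx hy)
    simp only [map_add, LinearMap.add_apply, hc x hx, hc y hy, h.symm x y] at this
    exact (mul_eq_zero.1 (show 2 * P.B y x = 0 by linear_combination this)).resolve_left h.two
  have h1 := Submodule.finrank_mono this
  have h2 := finrank_le_perp (P := P) S
  omega

theorem good_of_five (hK : IsoK P 3) (hE : EG P ≤ Γ) (ha : 5 ≤ finrank F U) : Good Γ := by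
  refine h.good hE (by simpa using hK ⊤ (by rw [finrank_top]; omega)) (by omega)
    (Or.inl (by omega)) fun u p _ hu h1 h2 h3 => ?_
  obtain ⟨y, e1, e2, e3⟩ := hK.exists_sing_perp h.nd ha h2
  obtain ⟨v, a1, a2⟩ := h.exists_nonsing_mem (S := (F ∙ u) ⊔ F ∙ y) (by
    have := finrank_sup_le' (F ∙ u) (F ∙ y)
    have := finrank_span_singleton_le (F := F) u
    have := finrank_span_singleton_le (F := F) y
    omega)
  rw [perp_sup] at a1
  have a3 := mem_perp_singleton.1 a1.1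
  have a4 := mem_perp_singleton.1 a1.2
  obtain ⟨e, he, he'⟩ := has_eu_EG e1 a4 (c := P.q v) (by simp)
  refine ⟨e, hE he, EG_le_isom he, by rw [he', eu_fix _ e2 (P.eq_zero_symm a3)], ?_⟩
  rw [show P.B p (e p) = -(P.q v * P.B y p ^ 2) by
    simp [he', eu_apply, h3, h.ε, h.symm p y, h.symm p v]; ring]
  exact neg_ne_zero.2 (mul_ne_zero (h.q_ne a2) (pow_ne_zero 2 e3))

theorem has_refl {v : U} (hv : P.B v v ≠ 0) : Has P.Isom (P.qrefl (-(P.q v)⁻¹) v) :=
  has_qrefl_isom h.nd (by simp [h.ε, h.q_ne hv])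

theorem good_isom (hex : ∃ u, u ≠ 0 ∧ P.q u ∈ P.Λ) (ha : 3 ≤ finrank F U)
    (hμ : 4 ≤ finrank F U ∨ ∃ μ : F, μ ≠ 0 ∧ μ ^ 2 ≠ 1) : Good P.Isom := by
  refine h.good EG_le_isom hex ha hμ fun u p hu0 hu h1 h2 h3 => ?_
  obtain ⟨v, a1, a2, a3⟩ := h.exists_nonsing_perp ha hu0 hu h2
  obtain ⟨e, he, he'⟩ := h.has_refl a2
  refine ⟨e, he, he, by simp [he', PQ.qrefl_apply, P.eq_zero_symm a1], ?_⟩
  simp [he', PQ.qrefl_apply, h3, h.symm v p, a3, h.q_ne a2]

end IsOrth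

end Orth

end H11.Ten
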