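import Mathlib
import Cfsg.Agent.Base
import Cfsg.Agent.Lib.Tensor.Alg

/-!
Overgroups of a tensor stabiliser in a classical group: the elements of the unipotent radical of
the stabiliser of `U ⊗ w`.
-/

set_option autoImplicit false
set_option linter.unusedSectionVars false
set_option linter.unusedSimpArgs false

namespace H11.Ten

open Module Cfsg H97 H28

section W

variable {F W : Type*} [Field F] [AddCommGroup W] [Module F W] {σ : F →+* F} {PW : PQ F W σ}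

variable (PW) in
/-- The enveloping ring of the stabiliser of a singular point `w` contains the rank one maps
`c d d^*` on `w^⊥ / w`. -/
def Extr : Prop :=
  ∀ w d, PW.q w ∈ PW.Λ → PW.q d ∈ PW.Λ → PW.B w d = 0 → ∀ E : Subring (Module.End F W),
    (∀ β ∈ EG PW, ∀ c : F, β w = c • w → c⁻¹ • (β : Module.End F W) ∈ E) →
    (∀ f : Module.End F W, (∀ y, PW.B w y = 0 → f y ∈ F ∙ w) → f ∈ E) →
    ∀ c : F, c • r1 PW d d ∈ E

theorem eu_mem_of {w d v : W} {c : F} (hd : PW.q d ∈ PW.Λ) (hwd : PW.B w d = 0)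
    (hv : PW.B d v = 0) (hwv : PW.B w v = 0) (hc : c - PW.q v ∈ PW.Λ)
    {E : Subring (Module.End F W)}
    (hE : ∀ β ∈ EG PW, ∀ c : F, β w = c • w → c⁻¹ • (β : Module.End F W) ∈ E) :
    eu PW d v c ∈ E := by
  obtain ⟨e, he, he'⟩ := has_eu_EG hd hv hc
  have := hE e he 1 (by rw [he', eu_fix _ (PW.eq_zero_symm hwd) (PW.eq_zero_symm hwv), one_smul])
  rwa [inv_one, one_smul, show (e : Module.End F W) = eu PW d v c from LinearMap.ext he'] at this

theorem extr_of_top (h : ∀ c, c ∈ PW.Λ) : Extr PW := fun w d _ hd hwd E hE _ c => by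
  have := E.sub_mem (eu_mem_of hd hwd (v := 0) (c := -(PW.ε * c)) (by simp) (by simp) (h _) hE)
    E.one_mem
  convert this using 1
  ext x
  simp [eu_apply, ← mul_assoc, PW.εε, mul_smul]

theorem extr_of_five [FiniteDimensional F W] (hP : PW.B.SeparatingLeft) (hb : 5 ≤ finrank F W) :
    Extr PW := fun w d hw hd hwd E hE hE' c => by
  obtain ⟨v, hv, v', hv', e⟩ : ∃ v ∈ perp PW ((F ∙ w) ⊔ F ∙ d), ∃ v' ∈ perp PW ((F ∙ w) ⊔ F ∙ d),
      PW.B v v' ≠ 0 := by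
    by_contra hc
    push Not at hc
    have h1 : perp PW ((F ∙ w) ⊔ F ∙ d) ≤ (F ∙ w) ⊔ F ∙ d := by
      conv_rhs => rw [← perp_perp hP ((F ∙ w) ⊔ F ∙ d)]
      exact fun x hx y hy => hc y hy x hx
    have h2 := Submodule.finrank_mono h1
    have := finrank_le_perp (P := PW) ((F ∙ w) ⊔ F ∙ d)
    have := finrank_sup_le' (F ∙ w) (F ∙ d)
    have := finrank_span_singleton_le (F := F) w
    have := finrank_span_singleton_le (F := F) d
    omega
  rw [perp_sup] at hv hv'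
  have a1 := mem_perp_singleton.1 hv.1
  have a2 := mem_perp_singleton.1 hv.2
  have a3 := mem_perp_singleton.1 hv'.1
  have a4 := mem_perp_singleton.1 hv'.2
  set v₂ := (-(PW.ε * c) * (PW.B v v')⁻¹) • v' with hv₂
  have a5 : PW.B v v₂ = -(PW.ε * c) := by simp [hv₂, e]
  have b1 := E.sub_mem (eu_mem_of hd hwd a2 a1 (c := PW.q v) (by simp) hE) E.one_mem
  have b2 := E.sub_mem (eu_mem_of hd hwd (v := v₂) (by simp [hv₂, a4]) (by simp [hv₂, a3])
    (c := PW.q v₂) (by simp) hE) E.one_mem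
  convert E.mul_mem b1 b2 using 1
  ext x
  have a6 : PW.B d v₂ = 0 := by simp [hv₂, a4]
  simp [eu_apply, PW.self_eq_zero hd, PW.eq_zero_symm a2, a5, a6, smul_smul]
  congr 1
  linear_combination (-c * PW.B d x) * PW.εε

variable [FiniteDimensional F W]

theorem perp_le_of_sing (hP : PW.B.SeparatingLeft) {w : W}
    (hs : ∀ x, x ∉ F ∙ w → ∃ d, PW.q d ∈ PW.Λ ∧ PW.B d w = 0 ∧ PW.B d x ≠ 0) {E : Submodule F W}
    (hE : ∀ d, PW.q d ∈ PW.Λ → PW.B w d = 0 → d ∈ E) {y : W} (hy : PW.B w y = 0) : y ∈ E := by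
  by_contra hc
  obtain ⟨x, h1, h2⟩ := exists_orth_of_notMem PW.σσ PW.B hP E hc
  obtain ⟨d, e1, e2, e3⟩ := hs x fun hx => by
    obtain ⟨a, rfl⟩ := Submodule.mem_span_singleton.1 hx
    simp [hy] at h2
  exact e3 (PW.eq_zero_symm (h1 d (hE d e1 (PW.eq_zero_symm e2))))

end W

variable {F U W V : Type*} [Field F] [AddCommGroup U] [Module F U] [AddCommGroup W]
  [Module F W] [AddCommGroup V] [Module F V] {σ : F →+* F} {T : TS F U W V} {PU : PQ F U σ}
  {PW : PQ F W σ} {P : PQ F V σ} {M : Subgroup (V ≃ₗ[F] V)}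

namespace TS

variable (T PW) in
/-- `M` contains an element acting on `(U ⊗ w)^⊥` as `x ↦ x + n x ⊗ w`. -/
def HasN (M : Subgroup (V ≃ₗ[F] V)) (w : W) (n : V →ₗ[F] U) : Prop :=
  (∀ u, n (T.τ u w) = 0) ∧ ∃ k ∈ M, ∀ x, T.cB PW w x = 0 → k x = x + T.τ (n x) w

theorem cB_self {w : W} (hw : PW.q w ∈ PW.Λ) (u : U) : T.cB PW w (T.τ u w) = 0 := by
  simp [PW.self_eq_zero hw]

theorem HasN.congr {w : W} (hw : PW.q w ∈ PW.Λ) {n n' : V →ₗ[F] U} (h : T.HasN PW M w n)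
    (e : ∀ x, T.cB PW w x = 0 → n' x = n x) : T.HasN PW M w n' := by
  obtain ⟨h1, k, hk, h2⟩ := h
  exact ⟨fun u => by rw [e _ (cB_self hw u), h1], k, hk, fun x hx => by rw [e x hx, h2 x hx]⟩

theorem hasN_zero (w : W) : T.HasN PW M w 0 :=
  ⟨fun _ => rfl, 1, M.one_mem, fun x _ => by simp⟩

theorem HasN.add {w : W} (hw : PW.q w ∈ PW.Λ) {n n' : V →ₗ[F] U} (h : T.HasN PW M w n)
    (h' : T.HasN PW M w n') : T.HasN PW M w (n + n') := by
  obtain ⟨h1, k, hk, h2⟩ := h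
  obtain ⟨h1', k', hk', h2'⟩ := h'
  refine ⟨fun u => by simp [h1, h1'], k * k', M.mul_mem hk hk', fun x hx => ?_⟩
  rw [le_mul_apply, h2' x hx, h2 _ (by rw [map_add, hx, cB_self hw, add_zero])]
  simp [h1]
  abel

theorem HasN.neg {w : W} (hw : PW.q w ∈ PW.Λ) {n : V →ₗ[F] U} (h : T.HasN PW M w n) :
    T.HasN PW M w (-n) := by
  obtain ⟨h1, k, hk, h2⟩ := h
  refine ⟨fun u => by simp [h1], k⁻¹, M.inv_mem hk, fun x hx => ?_⟩
  rw [le_inv_apply, LinearEquiv.symm_apply_eq,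
    h2 _ (by rw [map_add, hx, cB_self hw, add_zero])]
  simp [h1]

theorem HasN.fix {w : W} (hw : PW.q w ∈ PW.Λ) {n : V →ₗ[F] U} (h1 : ∀ u, n (T.τ u w) = 0)
    {k : V ≃ₗ[F] V} (h2 : ∀ x, T.cB PW w x = 0 → k x = x + T.τ (n x) w) (u : U) :
    k (T.τ u w) = T.τ u w := by
  simp [h2 _ (cB_self hw u), h1]

/-- Conjugation by an element mapping `U ⊗ w` to `U ⊗ w'`. -/
theorem HasN.conj {w w' : W} {n : V →ₗ[F] U} (h : T.HasN PW M w' n) {g : V ≃ₗ[F] V} (hg : g ∈ M)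
    {α : U ≃ₗ[F] U} (h1 : ∀ u, g (T.τ u w) = T.τ (α u) w')
    (h2 : ∀ x, T.cB PW w x = 0 → T.cB PW w' (g x) = 0) :
    T.HasN PW M w ((α.symm : U →ₗ[F] U) ∘ₗ n ∘ₗ g) := by
  obtain ⟨e1, k, hk, e2⟩ := h
  refine ⟨fun u => by simp [h1, e1], g⁻¹ * k * g, M.mul_mem (M.mul_mem (M.inv_mem hg) hk) hg,
    fun x hx => ?_⟩
  rw [le_mul_apply, le_mul_apply, e2 _ (h2 x hx), le_inv_apply, LinearEquiv.symm_apply_eq]
  simp [h1]

variable (T PW) in
/-- The maps `s` such that `M` contains all elements `x ↦ x + s (y^* x) ⊗ w`. -/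
def levF (M : Subgroup (V ≃ₗ[F] V)) : Submodule F (Module.End F U) where
  carrier := {s | ∀ w y, PW.q w ∈ PW.Λ → PW.B w y = 0 → T.HasN PW M w (s ∘ₗ T.cB PW y)}
  zero_mem' w y _ _ := by simpa using hasN_zero w
  add_mem' h h' w y hw hy := by
    simpa [LinearMap.add_comp] using (h w y hw hy).add hw (h' w y hw hy)
  smul_mem' c s h w y hw hy := by
    have := h w (σ c • y) hw (by simp [hy])
    rwa [cB_smul, PW.σσ, LinearMap.comp_smul, ← LinearMap.smul_comp] at this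

variable (T PW) in
/-- The right multipliers of `levF`. -/
def algF (M : Subgroup (V ≃ₗ[F] V)) : Subalgebra F (Module.End F U) where
  carrier := {a | ∀ s ∈ T.levF PW M, s * a ∈ T.levF PW M}
  mul_mem' ha hb s hs := by rw [← mul_assoc]; exact hb _ (ha s hs)
  add_mem' ha hb s hs := by rw [mul_add]; exact Submodule.add_mem _ (ha s hs) (hb s hs)
  algebraMap_mem' c s hs := by
    rw [Algebra.algebraMap_eq_smul_one, mul_smul_comm, mul_one]; exact Submodule.smul_mem _ c hs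

variable (T) in
/-- The automorphisms `α` of `U` with `α ⊗ 1 ∈ M`. -/
noncomputable def grpU (M : Subgroup (V ≃ₗ[F] V)) : Subgroup (U ≃ₗ[F] U) := M.comap T.flip.homW

theorem mem_grpU {α : U ≃ₗ[F] U} : α ∈ T.grpU M ↔ T.opE α 1 ∈ M := by
  rw [← opE_flip]; rfl

theorem cB_opE (α : U ≃ₗ[F] U) {β : W ≃ₗ[F] W} (hβ : β ∈ PW.Isom) (y : W) (x : V) :
    T.cB PW (β y) (T.opE α β x) = α (T.cB PW y x) := by
  have : T.cB PW (β y) ∘ₗ T.opE α β = α ∘ₗ T.cB PW y := T.lext fun u w => by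
    simp [B_isom hβ]
  exact LinearMap.congr_fun this x

theorem levF_conj {α : U ≃ₗ[F] U} (hα : α ∈ T.grpU M) {s : Module.End F U} (hs : s ∈ T.levF PW M) :
    ((α : U →ₗ[F] U) ∘ₗ s ∘ₗ ((α⁻¹ : U ≃ₗ[F] U) : U →ₗ[F] U)) ∈ T.levF PW M := fun w y hw hy => by
  refine ((hs w y hw hy).conj (w := w) (mem_grpU.1 ((T.grpU M).inv_mem hα)) (α := α⁻¹)
    (fun u => by simp) fun x hx => ?_).congr hw fun x _ => ?_
  · simpa [hx] using T.cB_opE α⁻¹ PW.Isom.one_mem w x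
  · have := T.cB_opE α⁻¹ PW.Isom.one_mem y x
    simp only [LinearEquiv.coe_one, id_eq] at this
    simp [this]
    rfl

theorem invA_algF : InvA (T.grpU M) (T.algF PW M) := fun γ hγ a ha s hs => by
  have := levF_conj hγ (ha _ (levF_conj ((T.grpU M).inv_mem hγ) hs))
  convert this using 1
  ext x
  simp

end TS

/-- The standing hypotheses on an overgroup `M` of the tensor stabiliser. -/
structure Ctx [FiniteDimensional F W] (T : TS F U W V) (PU : PQ F U σ) (PW : PQ F W σ)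
    (P : PQ F V σ) (M : Subgroup (V ≃ₗ[F] V)) : Prop where
  tf : TF T PU PW P
  hM : T.TG ⊓ EG P ≤ M
  hI : M ≤ EG P
  isoK : ∃ k, IsoK PW k ∧ k + 2 ≤ finrank F W
  three : 3 ≤ finrank F W
  extr : Extr PW
  nontriv : ∃ u : U, u ≠ 0

namespace Ctx

open TS

variable [FiniteDimensional F U] [FiniteDimensional F W] (h : Ctx T PU PW P M)
include h

theorem isom {g : V ≃ₗ[F] V} (hg : g ∈ M) : g ∈ P.Isom := EG_le_isom (h.hI hg)

theorem sing_perp {w x : W} (hx : x ∉ F ∙ w) :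
    ∃ d, PW.q d ∈ PW.Λ ∧ PW.B d w = 0 ∧ PW.B d x ≠ 0 := by
  obtain ⟨k, hk, hn⟩ := h.isoK
  exact hk.exists_sing_perp h.tf.ndW hn hx

theorem trans {w w' : W} (h0 : w ≠ 0) (h0' : w' ≠ 0) (hw : PW.q w ∈ PW.Λ)
    (hw' : PW.q w' ∈ PW.Λ) : ∃ β ∈ EG PW, β w = w' := by
  obtain ⟨k, hk, hn⟩ := h.isoK
  exact hk.exists_EG_apply_eq h.tf.ndW hn h0 h0' (PW.Λ.sub_mem hw hw')

theorem exists_sing : ∃ w : W, w ≠ 0 ∧ PW.q w ∈ PW.Λ := by
  obtain ⟨k, hk, hn⟩ := h.isoK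
  simpa using hk ⊤ (by rw [finrank_top]; omega)

/-- a vector of `w^⊥` outside `⟨w⟩` -/
theorem exists_perp_notMem {w : W} (h0 : w ≠ 0) (hw : PW.q w ∈ PW.Λ) :
    ∃ y, PW.B w y = 0 ∧ y ∉ F ∙ w := by
  obtain ⟨f, -, hf⟩ := exists_pair h.tf.ndW h0 hw
  obtain ⟨y, hy, e1, e2⟩ := exists_ker_two h.three (PW.B w) (PW.B f)
  refine ⟨y, e1, fun hc => ?_⟩
  obtain ⟨c, rfl⟩ := Submodule.mem_span_singleton.1 hc
  have := B_ne_zero_symm (P := PW) (x := w) (y := f) (by simp [hf])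
  simp [this] at e2
  simp [e2] at hy

theorem exists_sing_perp_notMem {w : W} (h0 : w ≠ 0) (hw : PW.q w ∈ PW.Λ) :
    ∃ d, PW.q d ∈ PW.Λ ∧ PW.B w d = 0 ∧ d ∉ F ∙ w := by
  obtain ⟨y, e1, e2⟩ := h.exists_perp_notMem h0 hw
  obtain ⟨d, a1, a2, a3⟩ := h.sing_perp e2
  refine ⟨d, a1, PW.eq_zero_symm a2, fun hc => ?_⟩
  obtain ⟨c, rfl⟩ := Submodule.mem_span_singleton.1 hc
  simp [e1] at a3

theorem opW {β : W ≃ₗ[F] W} (hβ : β ∈ EG PW) : T.opE 1 β ∈ M := h.hM (h.tf.opW_mem hβ)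

theorem EG_le_grpU : EG PU ≤ T.grpU M := fun _ hα => mem_grpU.2 (h.hM (h.tf.opU_mem hα))

theorem one_mem_levF : (1 : Module.End F U) ∈ T.levF PW M := fun w y hw hy => by
  obtain ⟨k, hk, e⟩ := (h.tf.has_op_eu hw hy (c := PW.q y) (by simp)).mono h.hM
  exact ⟨fun u => by simp [PW.eq_zero_symm hy], k, hk, fun x hx => by simp [e, op_eu, hx]⟩

theorem algF_le {a : Module.End F U} (ha : a ∈ T.algF PW M) : a ∈ T.levF PW M := by
  simpa using ha 1 h.one_mem_levF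

theorem extract {w d : W} (h0 : w ≠ 0) (hw : PW.q w ∈ PW.Λ) (hd : PW.q d ∈ PW.Λ)
    (hwd : PW.B w d = 0) {n : V →ₗ[F] U} (hn : T.HasN PW M w n) (c : F) :
    T.HasN PW M w (c • (n ∘ₗ T.τ.flip d) ∘ₗ T.cB PW d) := by
  let E : Subring (Module.End F W) :=
    { carrier := {f | ∀ n, T.HasN PW M w n → T.HasN PW M w (n ∘ₗ T.op LinearMap.id f)}
      mul_mem' := fun {f g} hf hg n hn => by
        convert hg _ (hf n hn) using 1
        exact T.lext fun u y => by simp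
      one_mem' := fun n hn => by
        convert hn using 1
        exact T.lext fun u y => by simp
      add_mem' := fun {f g} hf hg n hn => by
        convert (hf n hn).add hw (hg n hn) using 1
        exact T.lext fun u y => by simp
      zero_mem' := fun n hn => by
        convert hasN_zero w using 1
        exact T.lext fun u y => by simp
      neg_mem' := fun {f} hf n hn => by
        convert (hf n hn).neg hw using 1
        exact T.lext fun u y => by simp }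
  have := h.extr w d hw hd hwd E (fun β hβ c hc n hn => ?_) (fun f hf n hn => ?_) c n hn
  · convert this using 1
    exact T.lext fun u y => by simp
  · have hc0 : c ≠ 0 := by
      rintro rfl
      exact h0 (by simpa using hc)
    have := hn.conj (w := w) (h.opW hβ) (α := LinearEquiv.smulOfNeZero F U c hc0)
      (fun u => by simp [hc]) fun x hx => by
        have := T.cB_opE 1 (EG_le_isom hβ) w x
        rw [hc, cB_smul, hx] at this
        simpa [hc0] using this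
    convert this using 1
    exact T.lext fun u y => by simp [Units.smul_def]
  · refine (hasN_zero w).congr hw fun x hx => ?_
    refine T.eq_zero_of_ker (f := n ∘ₗ T.op LinearMap.id f) (fun u y hy => ?_) hx
    obtain ⟨a, ha⟩ := Submodule.mem_span_singleton.1 (hf y hy)
    simp [← ha, hn.1]

theorem mem_levF_of {w y : W} (h0 : w ≠ 0) (hw : PW.q w ∈ PW.Λ) (hy : PW.B w y = 0)
    (hyw : y ∉ F ∙ w) {s : Module.End F U} (hs : T.HasN PW M w (s ∘ₗ T.cB PW y)) :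
    s ∈ T.levF PW M := by
  let E : Submodule F W :=
    { carrier := {y | ∀ c : F, T.HasN PW M w (c • s ∘ₗ T.cB PW y)}
      zero_mem' := fun c => by simpa [cB_zero] using hasN_zero w
      add_mem' := fun ha hb c => by
        simpa [cB_add, LinearMap.comp_add] using (ha c).add hw (hb c)
      smul_mem' := fun a y hy c => by
        have := hy (c * σ a)
        rwa [mul_smul, ← LinearMap.comp_smul, ← cB_smul] at this }
  have h1 : ∀ d, PW.q d ∈ PW.Λ → PW.B w d = 0 → PW.B y d ≠ 0 → d ∈ E := fun d hd hwd hne c => by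
    convert h.extract h0 hw hd hwd hs (c * (PW.B y d)⁻¹) using 1
    ext x
    simp [smul_smul, hne]
  obtain ⟨d, a1, a2, a3⟩ := h.sing_perp hyw
  have h2 : ∀ y', PW.B w y' = 0 → y' ∈ E := fun y' =>
    perp_le_of_sing h.tf.ndW (fun x => h.sing_perp) fun d' hd' hwd' => by
      by_cases e1 : PW.B y d' = 0
      swap
      · exact h1 d' hd' hwd' e1
      have b1 := h1 d a1 (PW.eq_zero_symm a2) (B_ne_zero_symm a3)
      by_cases e2 : PW.B d d' = 0
      · simpa using E.sub_mem (h1 (d + d') (sing_add a1 hd' e2) (by simp [PW.eq_zero_symm a2, hwd'])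
          (by simpa [e1] using B_ne_zero_symm a3)) b1
      · intro c
        convert h.extract h0 hw hd' hwd' (b1 1) (c * (PW.B d d')⁻¹) using 1
        ext x
        simp [smul_smul, e2]
  intro w' y' hw' hy'
  by_cases h0' : w' = 0
  · subst h0'
    exact ⟨fun u => by simp, 1, M.one_mem, fun x _ => by simp⟩
  obtain ⟨β, hβ, rfl⟩ := h.trans h0' h0 hw' hw
  have := h2 (β y') (by rw [B_isom (EG_le_isom hβ), hy']) 1
  rw [one_smul] at this
  refine (this.conj (w := w') (h.opW hβ) (α := 1) (fun u => by simp) fun x hx => ?_).congr hw'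
    fun x _ => ?_
  · rw [T.cB_opE 1 (EG_le_isom hβ), hx, map_zero]
  · simp [T.cB_opE 1 (EG_le_isom hβ)]
    rfl

theorem comp_mem {w y : W} (h0 : w ≠ 0) (hw : PW.q w ∈ PW.Λ) (hy : PW.B w y = 0)
    {n : V →ₗ[F] U} (hn : T.HasN PW M w n) : n ∘ₗ T.τ.flip y ∈ T.levF PW M := by
  refine perp_le_of_sing h.tf.ndW (fun x => h.sing_perp)
    (E := (T.levF PW M).comap ((LinearMap.llcomp F U V U n) ∘ₗ T.τ.flip)) (fun d hd hwd => ?_) hy
  change n ∘ₗ T.τ.flip d ∈ T.levF PW M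
  by_cases e : d ∈ F ∙ w
  · obtain ⟨a, rfl⟩ := Submodule.mem_span_singleton.1 e
    convert (T.levF PW M).zero_mem
    ext u
    simp [hn.1]
  · exact h.mem_levF_of h0 hw hwd e (by simpa using h.extract h0 hw hd hwd hn 1)

/-- Conjugating by an element fixing `U ⊗ w` pointwise. -/
theorem comp_mem' {w y : W} (h0 : w ≠ 0) (hw : PW.q w ∈ PW.Λ) (hy : PW.B w y = 0)
    {n : V →ₗ[F] U} (hn : T.HasN PW M w n) {g : V ≃ₗ[F] V} (hg : g ∈ M)
    (h1 : ∀ u, g (T.τ u w) = T.τ u w) : n ∘ₗ g ∘ₗ T.τ.flip y ∈ T.levF PW M :=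
  h.comp_mem h0 hw hy (hn.conj (w := w) hg (α := 1) h1 fun x hx => by
    rw [h.tf.cB_apply (h.isom hg) h1, hx])

theorem hasS_trans {w w' : W} (h0 : w ≠ 0) (h0' : w' ≠ 0) (hw : PW.q w ∈ PW.Λ)
    (hw' : PW.q w' ∈ PW.Λ) {t : Module.End F U} (ht : T.HasS M t w (PW.B w)) :
    T.HasS M t w' (PW.B w') := by
  obtain ⟨β, hβ, rfl⟩ := h.trans h0 h0' hw hw'
  refine (Has.conj ht (h.opW hβ)).congr fun x => ?_
  have := T.cB_opE 1 (EG_le_isom hβ) w ((T.opE 1 β)⁻¹ x)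
  rw [le_apply_inv] at this
  rw [map_add, le_apply_inv, opE_τ]
  exact congrArg (fun z => x + T.τ (t z) (β w)) this.symm

theorem mem_algF_of_hasS {w : W} (h0 : w ≠ 0) (hw : PW.q w ∈ PW.Λ) {t : Module.End F U}
    (ht : T.HasS M t w (PW.B w)) : t ∈ T.algF PW M := fun s hs => by
  obtain ⟨d, a1, a2, a3⟩ := h.exists_sing_perp_notMem h0 hw
  obtain ⟨y, b1, b2⟩ := exists_perp_ne h.tf.ndW a3 1
  obtain ⟨g, hg, e⟩ := h.hasS_trans h0 (fun e => a3 (by simp [e])) hw a1 ht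
  have hyd := B_ne_zero_symm (P := PW) (x := d) (y := y) (by simp [b2])
  have := Submodule.sub_mem _ (h.comp_mem' h0 hw b1 (hs w y hw b1) hg fun u => by
    simp [e, PW.eq_zero_symm a2]) (h.comp_mem h0 hw b1 (hs w y hw b1))
  refine (Submodule.smul_mem_iff _ hyd).1 ?_
  convert this using 1
  ext u
  simp [e, b2]

theorem levF_le_algF (hb : 5 ≤ finrank F W) {a : Module.End F U} (ha : a ∈ T.levF PW M) :
    a ∈ T.algF PW M := fun s hs => by
  obtain ⟨w, h0, hw⟩ := h.exists_sing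
  obtain ⟨d, a1, a2, a3⟩ := h.exists_sing_perp_notMem h0 hw
  obtain ⟨y, b1, b2⟩ := exists_perp_ne h.tf.ndW a3 1
  obtain ⟨v, hv, v', hv', e⟩ : ∃ v ∈ perp PW ((F ∙ w) ⊔ F ∙ d), ∃ v' ∈ perp PW ((F ∙ w) ⊔ F ∙ d),
      PW.B v v' ≠ 0 := by
    by_contra hc
    push Not at hc
    have h1 : perp PW ((F ∙ w) ⊔ F ∙ d) ≤ (F ∙ w) ⊔ F ∙ d := by
      conv_rhs => rw [← perp_perp h.tf.ndW ((F ∙ w) ⊔ F ∙ d)]
      exact fun x hx y hy => hc y hy x hx
    have h2 := Submodule.finrank_mono h1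
    have := finrank_le_perp (P := PW) ((F ∙ w) ⊔ F ∙ d)
    have := finrank_sup_le' (F ∙ w) (F ∙ d)
    have := finrank_span_singleton_le (F := F) w
    have := finrank_span_singleton_le (F := F) d
    omega
  rw [perp_sup] at hv hv'
  have c1 := mem_perp_singleton.1 hv.1
  have c2 := mem_perp_singleton.1 hv.2
  have c3 := mem_perp_singleton.1 hv'.1
  have c4 := mem_perp_singleton.1 hv'.2
  obtain ⟨-, g, hg, e1⟩ := ha d v a1 c2
  have hyd := B_ne_zero_symm (P := PW) (x := d) (y := y) (by simp [b2])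
  have := Submodule.sub_mem _ (h.comp_mem' h0 hw c3 (hs w y hw b1) hg fun u => by
    rw [e1 _ (by simp [PW.eq_zero_symm a2])]
    simp [PW.eq_zero_symm c1]) (h.comp_mem h0 hw c3 (hs w y hw b1))
  refine (Submodule.smul_mem_iff _ (mul_ne_zero hyd e)).1 ?_
  convert this using 1
  ext u
  simp [e1 (T.τ u v') (by simp [c4]), smul_smul, mul_comm]

theorem hasS_comm {w y₁ y₂ : W} (hw : PW.q w ∈ PW.Λ) (h1 : PW.B w y₁ = 0) (h2 : PW.B w y₂ = 0)
    {s₁ s₂ s₁' s₂' : Module.End F U} (hs₁ : s₁ ∈ T.levF PW M) (hs₂ : s₂ ∈ T.levF PW M)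
    (a₁ : ∀ x y, PU.B (s₁ x) y = PU.B x (s₁' y)) (a₂ : ∀ x y, PU.B (s₂ x) y = PU.B x (s₂' y)) :
    T.HasS M (σ (PW.B y₁ y₂) • s₂ * s₁' - σ (PW.B y₂ y₁) • s₁ * s₂') w (PW.B w) := by
  obtain ⟨n₁, k₁, hk₁, e₁⟩ := hs₁ w y₁ hw h1
  obtain ⟨n₂, k₂, hk₂, e₂⟩ := hs₂ w y₂ hw h2
  have f₁ := HasN.fix hw n₁ e₁
  have f₂ := HasN.fix hw n₂ e₂
  have key : ∀ {k : V ≃ₗ[F] V} {s s' : Module.End F U} {y y' : W}, k ∈ M → PW.B w y = 0 →
      PW.B w y' = 0 → (∀ x y, PU.B (s x) y = PU.B x (s' y)) → (∀ u, k (T.τ u w) = T.τ u w) →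
      (∀ x, T.cB PW w x = 0 → k x = x + T.τ ((s ∘ₗ T.cB PW y) x) w) →
      ∀ x, T.cB PW y' (k x) = T.cB PW y' x - σ (PW.B y y') • s' (T.cB PW w x) :=
    fun {k s s' y y'} hk hy hy' a f e x => by
    rw [← sub_eq_zero]
    refine sep_right h.tf.ndU fun u => ?_
    have e1 := B_isom (h.isom hk) (T.τ u y') x
    rw [e _ (by simp [hy'])] at e1
    rw [map_add, LinearMap.add_apply, h.tf.B_left, h.tf.B_left, h.tf.B_left,
      h.tf.cB_apply (h.isom hk) f, LinearMap.comp_apply, a, cB_τ, B_smul_left] at e1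
    simp only [map_sub, map_smul, smul_eq_mul]
    linear_combination e1
  refine ⟨(k₂ * k₁)⁻¹ * (k₁ * k₂), M.mul_mem (M.inv_mem (M.mul_mem hk₂ hk₁)) (M.mul_mem hk₁ hk₂),
    fun x => ?_⟩
  rw [le_mul_apply, le_inv_apply, LinearEquiv.symm_apply_eq]
  have c1 := e₁ (k₂ x - x) (by rw [map_sub, h.tf.cB_apply (h.isom hk₂) f₂, sub_self])
  have c2 := e₂ (k₁ x - x) (by rw [map_sub, h.tf.cB_apply (h.isom hk₁) f₁, sub_self])
  simp only [map_sub, LinearMap.comp_apply, key hk₂ h2 h1 a₂ f₂ e₂, key hk₁ h1 h2 a₁ f₁ e₁,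
    map_smul, LinearMap.sub_apply, LinearMap.smul_apply] at c1 c2
  simp only [le_mul_apply, map_add, f₁, f₂, LinearMap.sub_apply, Module.End.mul_apply,
    LinearMap.smul_apply, map_sub, map_smul]
  change _ = _ + (σ (PW.B y₁ y₂) • T.τ (s₂ (s₁' (T.cB PW w x))) w -
    σ (PW.B y₂ y₁) • T.τ (s₁ (s₂' (T.cB PW w x))) w)
  rw [sub_eq_iff_eq_add] at c1 c2
  rw [c1, c2]
  abel

theorem comm_mem_algF (c : F) {s₁ s₂ s₁' s₂' : Module.End F U} (hs₁ : s₁ ∈ T.levF PW M)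
    (hs₂ : s₂ ∈ T.levF PW M) (a₁ : ∀ x y, PU.B (s₁ x) y = PU.B x (s₁' y))
    (a₂ : ∀ x y, PU.B (s₂ x) y = PU.B x (s₂' y)) :
    σ c • s₂ * s₁' - (PW.ε * c) • s₁ * s₂' ∈ T.algF PW M := by
  obtain ⟨w, h0, hw⟩ := h.exists_sing
  obtain ⟨y, b1, b2⟩ := h.exists_perp_notMem h0 hw
  obtain ⟨y', c1, c2⟩ := exists_perp_ne h.tf.ndW b2 c
  have := h.mem_algF_of_hasS h0 hw (h.hasS_comm hw b1 c1 hs₁ hs₂ a₁ a₂)
  rwa [PW.symm y y', c2, map_mul, PW.σε, PW.σσ] at this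

end Ctx

end H11.Ten
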