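import Mathlib
import Cfsg.Agent.Base
import Cfsg.Agent.Lib.Tensor.SLMax

/-!
The tensor structure attached to a change of basis, and `tensorProductSubgroup`.
-/

set_option autoImplicit false
set_option linter.unusedSectionVars false

namespace H11.Ten

open Module Cfsg H97
open scoped Matrix MatrixGroups Kronecker

variable {F : Type*} [Field F] {ι : Type} [Fintype ι] [DecidableEq ι] {n₁ n₂ : ℕ}

/-- The pure tensors in coordinates. -/
def pure (n₁ n₂ : ℕ) (F : Type*) [Field F] :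
    (Fin n₁ → F) →ₗ[F] (Fin n₂ → F) →ₗ[F] (Fin n₁ × Fin n₂ → F) :=
  LinearMap.mk₂ F (fun x y a => x a.1 * y a.2) (fun _ _ _ => by ext; simp [add_mul])
    (fun _ _ _ => by ext; simp [mul_assoc]) (fun _ _ _ => by ext; simp [mul_add])
    (fun _ _ _ => by ext; simp [mul_left_comm])

theorem pure_apply (x : Fin n₁ → F) (y : Fin n₂ → F) (a : Fin n₁ × Fin n₂) :
    pure n₁ n₂ F x y a = x a.1 * y a.2 := rfl

theorem pure_single (i : Fin n₁) (j : Fin n₂) :
    pure n₁ n₂ F (Pi.single i 1) (Pi.single j 1) = Pi.single (i, j) 1 := by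
  ext ⟨a, b⟩
  simp only [pure_apply, Pi.single_apply, Prod.mk.injEq]
  by_cases h : a = i <;> by_cases h' : b = j <;> simp [h, h']

theorem isTensorProduct_pure : IsTensorProduct (pure n₁ n₂ F) :=
  IsTensorProduct.of_equiv ((Pi.basisFun F (Fin n₁)).tensorProduct (Pi.basisFun F (Fin n₂))).equivFun
    fun x y => by ext ⟨a, b⟩; simp [pure_apply, mul_comm]

theorem kron_pure (a : Matrix (Fin n₁) (Fin n₁) F) (b : Matrix (Fin n₂) (Fin n₂) F)
    (x : Fin n₁ → F) (y : Fin n₂ → F) :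
    (a ⊗ₖ b) *ᵥ pure n₁ n₂ F x y = pure n₁ n₂ F (a *ᵥ x) (b *ᵥ y) := by
  ext ⟨i, j⟩
  simp only [Matrix.mulVec, dotProduct, pure_apply, Matrix.kroneckerMap_apply,
    Fintype.sum_prod_type, Finset.sum_mul_sum]
  exact Finset.sum_congr rfl fun _ _ => Finset.sum_congr rfl fun _ _ => by ring

/-- The coordinate change `x ↦ P (x ∘ e)`. -/
noncomputable def coordE (e : ι ≃ Fin n₁ × Fin n₂) (P : GL ι F) :
    (Fin n₁ × Fin n₂ → F) ≃ₗ[F] (ι → F) :=
  (LinearEquiv.funCongrLeft F F e).trans (toLE ι F P)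

theorem coordE_apply (e : ι ≃ Fin n₁ × Fin n₂) (P : GL ι F) (x : Fin n₁ × Fin n₂ → F) :
    coordE e P x = (P : Matrix ι ι F) *ᵥ (x ∘ e) := rfl

/-- The tensor structure given by `e` and `P`. -/
noncomputable def tsOf (e : ι ≃ Fin n₁ × Fin n₂) (P : GL ι F) :
    TS F (Fin n₁ → F) (Fin n₂ → F) (ι → F) where
  τ := (pure n₁ n₂ F).compr₂ (coordE e P).toLinearMap
  h := isTensorProduct_pure.compr₂_linearEquiv _

theorem tsOf_τ (e : ι ≃ Fin n₁ × Fin n₂) (P : GL ι F) (x : Fin n₁ → F) (y : Fin n₂ → F) :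
    (tsOf e P).τ x y = (P : Matrix ι ι F) *ᵥ (pure n₁ n₂ F x y ∘ e) := rfl

theorem reindex_mulVec (e : ι ≃ Fin n₁ × Fin n₂) (k : GL (Fin n₁ × Fin n₂) F)
    (x : Fin n₁ × Fin n₂ → F) :
    ((Geo.glReindex e.symm k : GL ι F) : Matrix ι ι F) *ᵥ (x ∘ e) =
      ((k : Matrix _ _ F) *ᵥ x) ∘ e := by
  change (k : Matrix _ _ F).submatrix e e *ᵥ (x ∘ e) = _
  rw [Matrix.submatrix_mulVec_equiv]
  congr 2
  ext a
  simp

theorem tensorProductSubgroup_eq (e : ι ≃ Fin n₁ × Fin n₂) (P : GL ι F) :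
    Geo.tensorProductSubgroup n₁ n₂ e P = pull (tsOf e P).TG := by
  have key : ∀ (k : GL (Fin n₁ × Fin n₂) F) (x : Fin n₁ × Fin n₂ → F),
      toLE ι F (P * Geo.glReindex e.symm k * P⁻¹) ((P : Matrix ι ι F) *ᵥ (x ∘ e)) =
        (P : Matrix ι ι F) *ᵥ (((k : Matrix _ _ F) *ᵥ x) ∘ e) := fun k x => by
    rw [toLE_apply, Matrix.mulVec_mulVec, ← Units.val_mul, inv_mul_cancel_right, Units.val_mul,
      ← Matrix.mulVec_mulVec, reindex_mulVec]
  ext g
  rw [mem_pull, TS.mem_TG]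
  constructor
  · rintro ⟨_, ⟨k, ⟨a, b, hk⟩, rfl⟩, rfl⟩
    refine ⟨toLE _ F a, toLE _ F b, fun u w => ?_⟩
    rw [tsOf_τ, tsOf_τ, toLE_apply a, toLE_apply b, ← kron_pure, ← hk]
    exact key k _
  · rintro ⟨α, β, h⟩
    obtain ⟨a, rfl⟩ := (toLE (Fin n₁) F).surjective α
    obtain ⟨b, rfl⟩ := (toLE (Fin n₂) F).surjective β
    let k : GL (Fin n₁ × Fin n₂) F := (Geo.glReindex e.symm).symm (P⁻¹ * g * P)
    have hk : g = P * Geo.glReindex e.symm k * P⁻¹ := by simp [k, mul_assoc]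
    refine ⟨_, ⟨k, ⟨a, b, ?_⟩, rfl⟩, hk.symm⟩
    ext x ⟨i, j⟩
    have h1 := h (Pi.single i 1) (Pi.single j 1)
    rw [tsOf_τ, tsOf_τ, toLE_apply a, toLE_apply b, ← kron_pure, hk, key, ← coordE_apply,
      ← coordE_apply, pure_single] at h1
    simpa using congrFun ((coordE e P).injective h1) x

theorem card_ne_two {F : Type*} [Field F] [Fintype F] (h : Fintype.card F ≠ 2) :
    ∃ c : F, c ≠ 0 ∧ c ≠ 1 := by
  classical
  by_contra hc
  push Not at hc
  have h1 : (Finset.univ : Finset F) ⊆ {0, 1} := fun c _ => by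
    by_cases h0 : c = 0 <;> simp [h0, hc c]
  have h2 := (Finset.card_le_card h1).trans Finset.card_le_two
  have h3 := Fintype.one_lt_card (α := F)
  rw [Finset.card_univ] at h2
  omega

/-- Tensor stabilisers are maximal in `SL`. -/
theorem isMaximalIn_tensor_SL [Fintype F] (h1 : 2 ≤ n₁) (h12 : n₁ < n₂)
    (hex : ¬ (n₁ = 2 ∧ Fintype.card F = 2)) (e : ι ≃ Fin n₁ × Fin n₂) (P : GL ι F) :
    Geo.IsMaximalIn (Geo.specialLinear ι F)
      (Geo.tensorProductSubgroup n₁ n₂ e P ⊓ Geo.specialLinear ι F) := by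
  rw [tensorProductSubgroup_eq, specialLinear_eq, ← pull_inf]
  refine isMaximalIn_pull (TS.isMaximalIn_SL (by simpa) (by simpa) ?_)
  by_cases h : n₁ = 2
  · exact Or.inr (card_ne_two fun h2 => hex ⟨h, h2⟩)
  · exact Or.inl (by simp; omega)

end H11.Ten
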