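import Mathlib
import Cfsg.Agent.Base
import Cfsg.Agent.Lib.Tensor.Ident

/-!
Over the field with two elements the stabiliser of `F² ⊗ W` normalises a field with four elements.
-/

set_option autoImplicit false
set_option linter.unusedSectionVars false

namespace H11.Ten

open Module Cfsg H97

section

variable {F U W V : Type*} [Field F] [AddCommGroup U] [Module F U] [AddCommGroup W]
  [Module F W] [AddCommGroup V] [Module F V]

theorem TS.not_pure (T : TS F U W V) {u u' : U} {w w' : W} (hu : u ≠ 0) (hw : w ≠ 0)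
    (hu' : u' ∉ F ∙ u) (hw' : w' ∉ F ∙ w) (a : U) (b : W) : T.τ u' w' + T.τ u w ≠ T.τ a b := by
  intro h1
  obtain ⟨φ, hφ, hφ'⟩ := exists_dual_of_notMem_span hw' 1
  obtain ⟨χ, hχ⟩ := exists_dual_of_ne_zero (F := F) hw 1
  have h2 := congrArg (T.cW φ) h1
  have h3 := congrArg (T.cW (χ - χ w' • φ)) h1
  simp [hφ, hφ', hχ] at h2 h3
  rw [smul_smul, ← sub_smul] at h3
  refine hu' (Submodule.mem_span_singleton.2 ?_)
  have h5 : χ b - χ w' * φ b ≠ 0 := by
    intro h0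
    exact hu (by simpa [h0] using h3)
  refine ⟨φ b * (χ b - χ w' * φ b)⁻¹, ?_⟩
  rw [h2]
  conv_lhs => rw [h3]
  simp [smul_smul, h5]

/-- Automorphisms normalising the span of `1` and `J` and acting trivially modulo scalars. -/
def shiftG (J : V →ₗ[F] V) : Subgroup (V ≃ₗ[F] V) where
  carrier := {g | ∃ c : F, ∀ x, g (J x) = J (g x) + c • g x}
  one_mem' := ⟨0, fun x => by simp⟩
  mul_mem' := by
    rintro g h ⟨c, e⟩ ⟨c', e'⟩
    refine ⟨c + c', fun x => ?_⟩
    rw [le_mul_apply, le_mul_apply, e', map_add, e, map_smul, add_smul, add_assoc]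
  inv_mem' := by
    rintro g ⟨c, e⟩
    refine ⟨-c, fun x => ?_⟩
    rw [le_inv_apply, LinearEquiv.symm_apply_eq, map_add, e, map_smul, le_apply_inv]
    simp

theorem exists_unip [FiniteDimensional F V] {N : V →ₗ[F] V} (hN : ∀ x, N (N x) = 0) :
    ∃ g : V ≃ₗ[F] V, ∀ x, g x = x + N x :=
  ⟨LinearEquiv.ofLinearMap (1 + N) (1 - N) (by ext x; simp [hN]) (by ext x; simp [hN]),
    fun _ => rfl⟩

theorem TS.exists_between_shift [FiniteDimensional F U] [FiniteDimensional F W] (T : TS F U W V)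
    (ha : 2 ≤ finrank F U) (hb : 2 ≤ finrank F W) (ω : U →ₗ[F] U)
    (hω : ∀ u, u ≠ 0 → ω u ∉ F ∙ u)
    (hn : ∀ α : U ≃ₗ[F] U, α ∈ shiftG ω) :
    ∃ K, T.TG ⊓ SLV F V < K ∧ K < SLV F V := by
  have := T.finite
  have : Nontrivial U := Module.nontrivial_of_finrank_pos (R := F) (by omega)
  have : Nontrivial W := Module.nontrivial_of_finrank_pos (R := F) (by omega)
  obtain ⟨u, hu⟩ := exists_ne (0 : U)
  obtain ⟨w, hw⟩ := exists_ne (0 : W)
  obtain ⟨w', hw'⟩ := exists_notMem_span hb w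
  obtain ⟨φ, hφ, hφ'⟩ := exists_dual_of_notMem_span hw' 1
  refine exists_between_of (shiftG (T.op ω LinearMap.id) ⊓ SLV F V) ?_ inf_le_right ?_ ?_
  · rintro g ⟨⟨α, β, e⟩, hg⟩
    obtain ⟨c, hc⟩ := hn α
    refine ⟨⟨c, fun x => ?_⟩, hg⟩
    have : (g : V →ₗ[F] V) ∘ₗ T.op ω LinearMap.id = T.op ω LinearMap.id ∘ₗ g + c • (g : V →ₗ[F] V) :=
      T.lext fun u w => by simp [e, hc]
    exact LinearMap.congr_fun this x
  · obtain ⟨g, e⟩ := exists_unip (N := T.nS ω w φ) fun x => by simp [TS.nS_apply, hφ]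
    refine ⟨g, ⟨⟨0, fun x => ?_⟩, ?_⟩, ?_⟩
    · have : (g : V →ₗ[F] V) ∘ₗ T.op ω LinearMap.id = T.op ω LinearMap.id ∘ₗ g :=
        T.lext fun u w => by simp [e, TS.nS_apply]
      simpa using LinearMap.congr_fun this x
    · have h1 : (g : V →ₗ[F] V) = 1 + (T.τ.flip w ∘ₗ ω) ∘ₗ T.cW φ := LinearMap.ext e
      have h2 : T.cW φ ∘ₗ (T.τ.flip w ∘ₗ ω) = 0 := by ext x; simp [hφ]
      refine mem_SLV.2 ?_
      rw [h1, det_one_add_comp, h2]
      simp
    · rintro ⟨⟨α, β, e'⟩, -⟩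
      have h1 := (e _).symm.trans (e' u w')
      have h2 : ω u ≠ 0 := fun h0 => hω u hu (by simp [h0])
      refine T.not_pure h2 hw (fun hc => hω u hu ?_) hw' _ _ (by simpa [TS.nS_apply, hφ'] using h1)
      obtain ⟨c, hc⟩ := Submodule.mem_span_singleton.1 hc
      have hc0 : c ≠ 0 := by rintro rfl; exact hu (by simpa using hc.symm)
      exact Submodule.mem_span_singleton.2 ⟨c⁻¹, (inv_smul_eq_iff₀ hc0).2 hc.symm⟩
  · obtain ⟨ψ, hψ⟩ := exists_dual_of_ne_zero (F := F) hu 1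
    obtain ⟨g, hg, e⟩ := (hasT_SLV (u := T.τ u w) (φ := ψ ∘ₗ T.cW φ) (by simp [hφ])).elim
    refine ⟨g, hg, ?_⟩
    rintro ⟨⟨c, hc⟩, -⟩
    have h1 := hc (T.τ u w)
    simp only [e, TS.op_τ, LinearMap.id_apply, LinearMap.comp_apply, TS.cW_τ, hφ, zero_smul,
      map_zero, add_zero, left_eq_add, smul_eq_zero, T.τ_eq_zero, hu, hw, or_false] at h1
    have h2 := hc (T.τ u w')
    simp only [e, TS.op_τ, LinearMap.id_apply, LinearMap.comp_apply, TS.cW_τ, hφ', one_smul, hψ,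
      map_add, h1, zero_smul, add_zero, add_right_inj] at h2
    refine hω u hu (Submodule.mem_span_singleton.2 ⟨ψ (ω u), T.col_injective hw ?_⟩)
    simpa using h2

end

theorem eq_zero_or_one {F : Type*} [Field F] [Fintype F] (h : Fintype.card F = 2) (c : F) :
    c = 0 ∨ c = 1 := by
  classical
  by_contra hc
  push Not at hc
  have := Finset.card_le_univ ({0, 1, c} : Finset F)
  rw [Finset.card_eq_three.2 ⟨0, 1, c, zero_ne_one, hc.1.symm, hc.2.symm, rfl⟩] at this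
  omega

theorem exists_omega {F : Type*} [Field F] [Fintype F] (h : Fintype.card F = 2) :
    ∃ ω : (Fin 2 → F) →ₗ[F] (Fin 2 → F), (∀ u, u ≠ 0 → ω u ∉ F ∙ u) ∧
      ∀ α : (Fin 2 → F) ≃ₗ[F] (Fin 2 → F), α ∈ shiftG ω := by
  have h2 : (1 : F) + 1 = 0 := by
    rcases eq_zero_or_one h (1 + 1) with h0 | h0
    · exact h0
    · simp at h0
  have ext2 : ∀ x y : Fin 2 → F, x = y ↔ x 0 = y 0 ∧ x 1 = y 1 := fun x y =>
    ⟨fun h => by simp [h], fun h => by ext i; fin_cases i; exacts [h.1, h.2]⟩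
  refine ⟨Matrix.toLin' !![0, 1; 1, 1], fun u hu hc => ?_, fun α => ?_⟩
  · obtain ⟨c, hc⟩ := Submodule.mem_span_singleton.1 hc
    rw [Ne, ext2] at hu
    rw [ext2] at hc
    rcases eq_zero_or_one h c with rfl | rfl <;> rcases eq_zero_or_one h (u 0) with h0 | h0 <;>
      rcases eq_zero_or_one h (u 1) with h1 | h1 <;>
      simp [Matrix.mulVec, dotProduct, h0, h1, h2] at hu hc
  · have key : ∀ c : F, (α ![0, 1] = Matrix.toLin' !![0, 1; 1, 1] (α ![1, 0]) + c • α ![1, 0] ∧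
        α ![1, 0] + α ![0, 1] = Matrix.toLin' !![0, 1; 1, 1] (α ![0, 1]) + c • α ![0, 1]) →
        α ∈ shiftG (Matrix.toLin' !![(0 : F), 1; 1, 1]) := fun c hc => ⟨c, fun x => by
      have hx : x = x 0 • ![1, 0] + x 1 • ![0, 1] := by rw [ext2]; simp
      have h3 : Matrix.toLin' !![(0 : F), 1; 1, 1] x =
          x 0 • ![0, 1] + x 1 • (![1, 0] + ![0, 1]) := by
        rw [ext2]; simp [Matrix.mulVec, dotProduct]
      rw [h3]
      conv_rhs => rw [hx]
      simp only [map_add, map_smul]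
      rw [hc.2]
      nth_rewrite 1 [hc.1]
      module⟩
    have hp : α ![1, 0] ≠ 0 := by simp
    have hr : α ![0, 1] ≠ 0 := by simp
    have hpr : α ![1, 0] ≠ α ![0, 1] := by simp
    suffices h : ∃ c : F, _ from h.elim key
    generalize α ![1, 0] = p at *
    generalize α ![0, 1] = r at *
    rw [Ne, ext2] at hp hr hpr
    simp only [ext2]
    rcases eq_zero_or_one h (p 0) with h0 | h0 <;> rcases eq_zero_or_one h (p 1) with h1 | h1 <;>
      rcases eq_zero_or_one h (r 0) with h3 | h3 <;> rcases eq_zero_or_one h (r 1) with h4 | h4 <;>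
      first
        | (exfalso; simp [h0, h1, h3, h4] at hp hr hpr; done)
        | (refine ⟨0, ?_⟩; simp [dotProduct, h0, h1, h3, h4, h2]; done)
        | (refine ⟨1, ?_⟩; simp [dotProduct, h0, h1, h3, h4, h2])

end H11.Ten
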