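import Mathlib
import Cfsg.Agent.Base
import Cfsg.Agent.Lib.Tensor.Level
import Cfsg.Agent.Lib.Tensor.NonMaxSL

/-!
Overgroups of a tensor stabiliser: either everything, or the stabiliser of `U ⊗ w` is standard.
-/

set_option autoImplicit false
set_option linter.unusedSectionVars false
set_option linter.unusedSimpArgs false

namespace H11.Ten

open Module Cfsg H97 H28

variable {F U W V : Type*} [Field F] [AddCommGroup U] [Module F U] [AddCommGroup W]
  [Module F W] [AddCommGroup V] [Module F V] {σ : F →+* F} {T : TS F U W V} {PU : PQ F U σ}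
  {PW : PQ F W σ} {P : PQ F V σ} {M : Subgroup (V ≃ₗ[F] V)}

theorem TS.exists_alpha [FiniteDimensional F U] (T : TS F U W V) {g : V ≃ₗ[F] V} {w w' : W}
    (hw : w ≠ 0) (h : ∀ u, g (T.τ u w) ∈ T.col w') :
    ∃ α : U ≃ₗ[F] U, ∀ u, g (T.τ u w) = T.τ (α u) w' := by
  by_cases hw' : w' = 0
  · refine ⟨1, fun u => ?_⟩
    obtain ⟨v, hv⟩ := h u
    rw [← hv, hw']; simp
  obtain ⟨φ, hφ⟩ := exists_dual_of_ne_zero (F := F) hw' 1
  let s : U →ₗ[F] U := T.cW φ ∘ₗ (g : V →ₗ[F] V) ∘ₗ T.τ.flip w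
  have hs : ∀ u, g (T.τ u w) = T.τ (s u) w' := fun u => by
    obtain ⟨v, hv⟩ := h u
    change T.τ v w' = _ at hv
    change _ = T.τ (T.cW φ (g (T.τ u w))) w'
    rw [← hv]; simp [hφ]
  have hinj : Function.Injective s := by
    rw [injective_iff_map_eq_zero]
    intro u hu
    have := hs u
    rw [hu] at this
    simp only [map_zero, LinearMap.zero_apply, EmbeddingLike.map_eq_zero_iff] at this
    exact (T.τ_eq_zero.1 this).resolve_right hw
  exact ⟨LinearEquiv.ofInjectiveEndo s hinj, hs⟩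

namespace Ctx

open TS

variable [FiniteDimensional F U] [FiniteDimensional F W] (h : Ctx T PU PW P M)
include h

theorem exists_perp_pair {w : W} (h0 : w ≠ 0) (hw : PW.q w ∈ PW.Λ) :
    ∃ w' y y', PW.q w' ∈ PW.Λ ∧ PW.B w w' = 1 ∧ PW.B w y = 0 ∧ PW.B w' y = 0 ∧ PW.B w y' = 0 ∧
      PW.B w' y' = 0 ∧ PW.B y y' = 1 := by
  obtain ⟨f, hf, e⟩ := exists_pair h.tf.ndW h0 hw
  obtain ⟨y, hy, e1, e2⟩ := exists_ker_two h.three (PW.B w) (PW.B f)
  obtain ⟨x, hx⟩ := exists_B_eq h.tf.ndW hy 1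
  have hfw : PW.B f w = PW.ε := by rw [PW.symm, e]; simp
  refine ⟨f, y, x - PW.B w x • f - (PW.ε * PW.B f x) • w, hf, e, e1, e2, ?_, ?_, ?_⟩
  · simp [e, PW.self_eq_zero hw]
  · simp [hfw, PW.self_eq_zero hf]; linear_combination (-PW.B f x) * PW.εε
  · simp [hx, PW.eq_zero_symm e1, PW.eq_zero_symm e2]

theorem hasN_of_top (ht : ∀ s, s ∈ T.levF PW M) {w : W} (h0 : w ≠ 0) (hw : PW.q w ∈ PW.Λ)
    {n : V →ₗ[F] U} (hn : ∀ u, n (T.τ u w) = 0) : T.HasN PW M w n := by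
  classical
  obtain ⟨φ, hφ⟩ := exists_dual_of_ne_zero (F := F) h0 1
  let b := Module.finBasis F W
  choose y hy using fun j => exists_repr_dual PW.σσ PW.B h.tf.ndW
    (b.coord j - b.coord j w • φ)
  have h1 : n = ∑ j, (n ∘ₗ T.τ.flip (b j)) ∘ₗ T.cB PW (y j) := T.lext fun u x => by
    have e1 : x - φ x • w = ∑ j, PW.B (y j) x • b j := by
      conv_lhs => rw [← b.sum_repr (x - φ x • w)]
      exact Finset.sum_congr rfl fun j _ => by simp [hy, mul_comm]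
    have e2 := congrArg (fun z => n (T.τ u z)) e1
    simpa [hn] using e2
  rw [h1]
  refine Finset.sum_induction _ _ (fun _ _ => HasN.add hw) (hasN_zero w) fun j _ => ?_
  exact ht _ w (y j) hw (PW.eq_zero_symm (by simp [hy, hφ]))

theorem has_eu_of_top (ht : ∀ s, s ∈ T.levF PW M) {w : W} (h0 : w ≠ 0) (hw : PW.q w ∈ PW.Λ)
    (u : U) {z : V} (hz : T.cB PW w z = 0) {c : F} (hc : c - P.q z ∈ P.Λ) :
    Has M (eu P (T.τ u w) z c) := by
  have := T.finite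
  obtain ⟨-, k, hk, e1⟩ := h.hasN_of_top ht h0 hw (n := (P.B z).smulRight u) fun u' => by
    simp [P.eq_zero_symm (show P.B (T.τ u' w) z = 0 by simp [h.tf.B_left, hz])]
  have hd := h.tf.singW u hw
  obtain ⟨e, he, he'⟩ := has_eu_isom hd (by simp [h.tf.B_left, hz]) hc
  have e2 : ∀ x, T.cB PW w x = 0 → (k⁻¹ * e) x = x := fun x hx => by
    rw [le_mul_apply, le_inv_apply, LinearEquiv.symm_apply_eq, e1 x hx, he', eu_apply]
    simp [h.tf.B_left, hx]
  have hI := P.Isom.mul_mem (P.Isom.inv_mem (h.isom hk)) he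
  have : k⁻¹ * e ∈ M := by
    refine mem_of_unip h.tf.nd (X := T.col w) (Y := T.col w) ?_ le_rfl (h.tf.col_le_perp hw) ?_ hI
      ?_ (fun x hx => by simp [e2 x (h.tf.mem_perp_col.1 hx)]) fun x => ?_
    · rintro _ ⟨u, rfl⟩; exact h.tf.singW u hw
    · rintro _ ⟨u₁, rfl⟩ _ ⟨u₂, rfl⟩ c hc
      obtain ⟨a, rfl⟩ := h.tf.hΛ c (by simpa using P.Λ.add_mem hc (h.tf.singW u₂ hw))
      obtain ⟨-, y, y', -, -, b1, -, b2, -, b3⟩ := h.exists_perp_pair h0 hw
      refine (h.hasS_comm hw b1 b2 (ht (PU.ε • r1 PU (u₂ + a • u₁) u₁)) h.one_mem_levF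
        (s₁' := r1 PU u₁ (u₂ + a • u₁)) (s₂' := 1) (fun x y => ?_) fun _ _ => rfl).congr
        fun x => ?_
      · simp only [LinearMap.smul_apply, r1_apply, B_smul_left, map_smul, smul_eq_mul, PU.σε,
          PU.symm u₁ x]
        ring
      · have := eu_add_smul (P := P) (T.τ u₁ w) (T.τ u₂ w) a 0 x
        rw [zero_add] at this
        change _ = eu P (T.τ u₁ w) (T.τ u₂ w) _ x
        rw [← this, eu_apply, PW.symm y y', b3,
          show T.τ u₂ w + a • T.τ u₁ w = T.τ (u₂ + a • u₁) w by simp, h.tf.B_left, h.tf.B_left]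
        simp only [h.tf.ε_eq, map_one, mul_one, PW.σε, LinearMap.sub_apply, Module.End.mul_apply,
          LinearMap.smul_apply, Module.End.one_apply, r1_apply, map_sub, map_smul, cB]
        module
    · rintro _ ⟨u, rfl⟩; exact e2 _ (cB_self hw u)
    · rw [← perp_perp h.tf.nd (T.col w)]
      intro y hy
      have := B_isom hI y x
      rw [e2 y (h.tf.mem_perp_col.1 hy)] at this
      simp only [map_sub, this, sub_self]
  exact ⟨e, by simpa using M.mul_mem hk this, he'⟩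

theorem xle_of_top (ht : ∀ s, s ∈ T.levF PW M) {w : W} (h0 : w ≠ 0) (hw : PW.q w ∈ PW.Λ)
    (u : U) : XLe P M (T.τ u w) := fun z c hz hc => by
  obtain ⟨w', y, y', a1, a2, a3, a4, a5, a6, a7⟩ := h.exists_perp_pair h0 hw
  obtain ⟨u₂, hu₂⟩ := h.nontriv
  obtain ⟨u₃, hu₃⟩ := exists_B_eq h.tf.ndU hu₂ 1
  rw [h.tf.B_left] at hz
  set u' := T.cB PW w z with hu'
  have h0' : w' ≠ 0 := by rintro rfl; simp at a2
  obtain ⟨g, hg, e⟩ := h.has_eu_of_top ht h0' a1 u' (z := T.τ u₂ y) (by simp [a4])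
    (c := P.q (T.τ u₂ y)) (by simp)
  have e1 : g (T.τ u w) = T.τ u w := by
    rw [e, eu_fix] <;> simp [h.tf.B_τ, PU.eq_zero_symm hz, PW.eq_zero_symm a3]
  have e2 : g (T.τ u₃ y') = T.τ u₃ y' + T.τ u' w' := by
    simp [e, eu_apply, h.tf.B_τ, a6, a7, hu₃]
  have b1 := has_eu_conj (h.has_eu_of_top ht h0 hw u (z := T.τ u₃ y') (by simp [a5])
    (c := P.q (T.τ u₃ y')) (by simp)) hg (h.isom hg)
  have b2 := isom_valid (h.isom hg) (w := T.τ u₃ y') (c := P.q (T.τ u₃ y')) (by simp)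
  rw [e1] at b1
  set x := g (T.τ u₃ y') with hx
  have b3 : T.cB PW w (z - x) = 0 := by simp [e2, a5, a2, hu']
  have b4 := h.has_eu_of_top ht h0 hw u b3 (c := c - P.q (T.τ u₃ y') - P.B (z - x) x) (by
    have := P.Λ.sub_mem (P.Λ.add_mem hc (P.q_add (z - x) x)) b2
    rw [sub_add_cancel] at this
    convert this using 1
    ring)
  refine (b4.comp b1).congr fun v => ?_
  rw [eu_comp (P.self_eq_zero (h.tf.singW u hw)) (by simp [h.tf.B_left, b3])
    (by simp [e2, h.tf.B_τ, a5, hz])]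
  congr 2
  · simp
  · ring

theorem EG_le_of_top (ht : ∀ s, s ∈ T.levF PW M) : EG P ≤ M := by
  have := T.finite
  obtain ⟨w, h0, hw⟩ := h.exists_sing
  obtain ⟨w', a1, a2⟩ := exists_pair h.tf.ndW h0 hw
  obtain ⟨u, hu⟩ := h.nontriv
  obtain ⟨u', hu'⟩ := exists_B_eq h.tf.ndU hu 1
  exact EG_le_of_xle h.tf.nd (h.tf.singW u hw) (h.tf.singW u' a1) (h.xle_of_top ht h0 hw u)
    (h.xle_of_top ht (by rintro rfl; simp at a2) a1 u') (by simp [h.tf.B_τ, a2, hu'])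

theorem algF_scalar (hG : Good (T.grpU M)) (hne : ¬ EG P ≤ M) {a : Module.End F U}
    (ha : a ∈ T.algF PW M) : ∃ c : F, a = c • LinearMap.id := by
  by_contra hc
  push Not at hc
  have := hG _ invA_algF a ha hc
  exact hne (h.EG_le_of_top fun s => h.algF_le (this ▸ Algebra.mem_top))

variable (hR : ∀ s ∈ T.levF PW M, ∃ c : F, s = c • LinearMap.id)
include hR

theorem ext_unip {w : W} (h0 : w ≠ 0) (hw : PW.q w ∈ PW.Λ) {k : V ≃ₗ[F] V} (hk : k ∈ M)
    (h1 : ∀ u, k (T.τ u w) = T.τ u w) (h2 : ∀ x, T.cB PW w x = 0 → k x - x ∈ T.col w) :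
    k ∈ T.TG ∧ ∃ v, PW.B w v = 0 ∧ ∀ x, T.cB PW w x = 0 → k x = x + T.τ (T.cB PW v x) w := by
  have := T.finite
  obtain ⟨φ, hφ⟩ := exists_dual_of_ne_zero (F := F) h0 1
  have hc : ∀ {k : V ≃ₗ[F] V} {x : V}, k x - x ∈ T.col w →
      k x = x + T.τ (T.cW φ (k x - x)) w := fun {k x} ⟨u, hu⟩ => by
    change T.τ u w = _ at hu
    rw [← hu, cW_τ, hφ, one_smul, hu, add_sub_cancel]
  let n : V →ₗ[F] U := T.cW φ ∘ₗ ((k : V →ₗ[F] V) - LinearMap.id)
  have hn : T.HasN PW M w n := ⟨fun u => by simp [n, h1], k, hk, fun x hx => hc (h2 x hx)⟩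
  obtain ⟨u₀, hu₀⟩ := h.nontriv
  obtain ⟨ψ, hψ⟩ := exists_dual_of_ne_zero (F := F) hu₀ 1
  obtain ⟨v, hv⟩ := exists_repr_dual PW.σσ PW.B h.tf.ndW (ψ ∘ₗ n ∘ₗ T.τ u₀)
  have hwv : PW.B w v = 0 := PW.eq_zero_symm (by simp [hv, hn.1])
  have hnv : ∀ x, T.cB PW w x = 0 → n x = T.cB PW v x := fun x hx => by
    rw [← sub_eq_zero]
    refine T.eq_zero_of_ker (f := n - T.cB PW v) (fun u y hy => ?_) hx
    obtain ⟨c, e⟩ := hR _ (h.comp_mem h0 hw hy hn)
    have e1 : ∀ u, n (T.τ u y) = c • u := fun u => LinearMap.congr_fun e u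
    simp [hv, e1, hψ]
  have hkv : ∀ x, T.cB PW w x = 0 → k x = x + T.τ (T.cB PW v x) w := fun x hx => by
    rw [← hnv x hx]; exact hc (h2 x hx)
  refine ⟨?_, v, hwv, hkv⟩
  obtain ⟨e, he, he'⟩ := h.tf.has_op_eu hw hwv (c := PW.q v) (by simp)
  have hg := M.mul_mem (M.inv_mem (h.hM he)) hk
  have e2 : ∀ x, T.cB PW w x = 0 → (e⁻¹ * k) x = x := fun x hx => by
    rw [le_mul_apply, le_inv_apply, LinearEquiv.symm_apply_eq, hkv x hx, he', op_eu]
    simp [hx]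
  set g := e⁻¹ * k with hg'
  have e3 : ∀ x, g x - x ∈ T.col w := fun x => by
    rw [← perp_perp h.tf.nd (T.col w)]
    intro y hy
    have := B_isom (h.isom hg) y x
    rw [e2 y (h.tf.mem_perp_col.1 hy)] at this
    simp only [map_sub, this, sub_self]
  obtain ⟨w', -, a2⟩ := exists_pair h.tf.ndW h0 hw
  let t : Module.End F U := T.cW φ ∘ₗ ((g : V →ₗ[F] V) - LinearMap.id) ∘ₗ T.τ.flip w'
  have e4 : ∀ x, g x = x + T.τ (t (T.cB PW w x)) w := fun x => by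
    have a3 := e2 (x - T.τ (T.cB PW w x) w') (by simp [a2])
    have a4 := hc (e3 (T.τ (T.cB PW w x) w'))
    rw [map_sub, sub_eq_iff_eq_add, a4] at a3
    rw [a3]
    simp [t]
    abel
  obtain ⟨c, e5⟩ := hR t (h.algF_le (h.mem_algF_of_hasS h0 hw ⟨g, hg, e4⟩))
  obtain ⟨β, hβ⟩ := exists_unip (N := c • r1 PW w w) fun x => by simp [PW.self_eq_zero hw]
  have e6 : g ∈ T.TG := ⟨1, β, fun u y => by simp [e4, e5, hβ, smul_smul, mul_comm]⟩
  simpa [hg'] using T.TG.mul_mem he.1 e6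

theorem mem_TG_of_stab {w : W} (h0 : w ≠ 0) (hw : PW.q w ∈ PW.Λ) {g : V ≃ₗ[F] V} (hg : g ∈ M)
    (h1 : ∀ u, g (T.τ u w) ∈ T.col w) : g ∈ T.TG := by
  have := T.finite
  obtain ⟨α, hα⟩ := T.exists_alpha h0 h1
  have hI := h.isom hg
  have hα' : ∀ u, g⁻¹ (T.τ u w) = T.τ (α.symm u) w := fun u => by
    rw [le_inv_apply, LinearEquiv.symm_apply_eq, hα]; simp
  have hp : ∀ x, T.cB PW w x = 0 → T.cB PW w (g x) = 0 := fun x hx =>
    sep_right h.tf.ndU fun u => by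
      rw [← h.tf.B_left, ← B_isom_inv hI, hα', h.tf.B_left, hx, map_zero]
  have key : ∀ v, PW.B w v = 0 → ∃ v', ∀ x, T.cB PW w x = 0 →
      T.cB PW v (g x) = α (T.cB PW v' x) := fun v hv => by
    obtain ⟨e, he, he'⟩ := (h.tf.has_op_eu hw hv (c := PW.q v) (by simp)).mono h.hM
    have e1 : ∀ x, T.cB PW w x = 0 →
        (g⁻¹ * e * g) x = x + T.τ (α.symm (T.cB PW v (g x))) w := fun x hx => by
      rw [le_mul_apply, le_mul_apply, he', op_eu, hp x hx]
      simp only [smul_zero, sub_zero, map_zero, LinearMap.zero_apply, map_add, hα',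
        le_inv_apply_apply]
    obtain ⟨-, v', -, e2⟩ := h.ext_unip hR h0 hw (M.mul_mem (M.mul_mem (M.inv_mem hg) he) hg)
      (fun u => by rw [e1 _ (cB_self hw u)]; simp [hα, PW.eq_zero_symm hv])
      fun x hx => by rw [e1 x hx, add_sub_cancel_left]; exact T.τ_mem_col _ _
    refine ⟨v', fun x hx => ?_⟩
    have := (e1 x hx).symm.trans (e2 x hx)
    rw [← α.symm_apply_eq]
    exact T.col_injective h0 (add_left_cancel this)
  obtain ⟨w', y₀, z₀, a1, a2, a3, a4, a5, a6, a7⟩ := h.exists_perp_pair h0 hw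
  have hw'w : PW.B w' w = PW.ε := by rw [PW.symm, a2]; simp
  let π : Module.End F W := 1 - r1 PW w' w - PW.ε • r1 PW w w'
  have π1 : ∀ y, PW.B w (π y) = 0 := fun y => by simp [π, a2, PW.self_eq_zero hw]
  have π2 : ∀ y, PW.B w' (π y) = 0 := fun y => by
    simp [π, hw'w, PW.self_eq_zero a1]; linear_combination (-PW.B w' y) * PW.εε
  have π3 : ∀ x y, PW.B (π x) y = PW.B x (π y) := fun x y => by
    simp [π, PW.symm w x, PW.symm w' x, PW.σε]
    linear_combination (σ (PW.B w x) * PW.B w' y) * PW.εε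
  have π4 : ∀ v x, T.cB PW v (T.op 1 π x) = T.cB PW (π v) x := fun v x => by
    have : T.cB PW v ∘ₗ T.op 1 π = T.cB PW (π v) := T.lext fun u y => by simp [π3]
    exact LinearMap.congr_fun this x
  have π5 : ∀ x, T.cB PW w x = 0 → x = T.op 1 π x + T.τ (PW.ε • T.cB PW w' x) w := fun x hx => by
    have : LinearMap.id = T.op 1 π + T.τ.flip w ∘ₗ (PW.ε • T.cB PW w') +
        T.τ.flip w' ∘ₗ T.cB PW w := T.lext fun u y => by simp [π]
    simpa [hx] using LinearMap.congr_fun this x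
  obtain ⟨u₀, hu₀⟩ := h.nontriv
  obtain ⟨ψ, hψ⟩ := exists_dual_of_ne_zero (F := F) ((map_ne_zero_iff α α.injective).2 hu₀) 1
  let β₀ : Module.End F W := T.cU ψ ∘ₗ T.op 1 π ∘ₗ (g : V →ₗ[F] V) ∘ₗ T.τ u₀
  have b1 : ∀ u y, PW.B w y = 0 → T.op 1 π (g (T.τ u y)) = T.τ (α u) (β₀ y) := fun u y hy => by
    rw [← sub_eq_zero]
    refine h.tf.eq_zero_of_cB fun v => ?_
    obtain ⟨v', e⟩ := key (π v) (π1 v)
    have : PW.B v (β₀ y) = PW.B v' y := by
      change PW.B v (T.cU ψ (T.op 1 π (g (T.τ u₀ y)))) = _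
      rw [← T.cW_cU]
      change ψ (T.cB PW v _) = _
      rw [π4, e _ (by simp [hy])]
      simp [hψ]
    rw [map_sub, π4, e _ (by simp [hy]), cB_τ, cB_τ, this, map_smul, sub_self]
  have b2 : ∀ u y, PW.B w y = 0 → ∃ u', g (T.τ u y) = T.τ (α u) (β₀ y) + T.τ u' w :=
    fun u y hy => ⟨_, by rw [← b1 u y hy]; exact π5 _ (hp _ (by simp [hy]))⟩
  have b3 : ∀ {v y}, π v = 0 → PW.B w y = 0 → PW.B v (β₀ y) = 0 := fun {v y} hv hy => by
    have := π4 v (g (T.τ u₀ y))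
    rw [b1 u₀ y hy, hv, cB_zero, cB_τ] at this
    simpa [hu₀] using this
  have πw : π w = 0 := by simp [π, hw'w, PW.self_eq_zero hw, smul_smul, PW.εε]
  have πw' : π w' = 0 := by simp [π, a2, PW.self_eq_zero a1]
  have b4 : ∀ u u' y z, PW.B w y = 0 → PW.B w z = 0 →
      PU.B (α u) (α u') * PW.B (β₀ y) (β₀ z) = PU.B u u' * PW.B y z := fun u u' y z hy hz => by
    obtain ⟨c, hc⟩ := b2 u y hy
    obtain ⟨c', hc'⟩ := b2 u' z hz
    rw [← h.tf.B_τ u y, ← B_isom hI, hc, hc']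
    simp [h.tf.B_τ, b3 πw hz, PW.eq_zero_symm (b3 πw hy), PW.self_eq_zero hw]
  set l := PW.B (β₀ y₀) (β₀ z₀) with hl
  have b5 : ∀ u u', PU.B (α u) (α u') * l = PU.B u u' := fun u u' => by
    rw [hl, b4 u u' y₀ z₀ a3 a5, a7, mul_one]
  obtain ⟨u₁, hu₁⟩ := exists_B_eq h.tf.ndU hu₀ 1
  have c1 := b5 u₀ u₁
  rw [hu₁] at c1
  have hl0 : l ≠ 0 := right_ne_zero_of_mul_eq_one c1
  have hσl : σ l = l := by
    have c2 := b5 u₁ u₀
    rw [PU.symm u₀ u₁, PU.symm (α u₀), hu₁, map_one] at c2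
    have c3 := congrArg σ c1
    rw [map_mul, map_one] at c3
    have c4 : σ (PU.B (α u₀) (α u₁)) * l = 1 :=
      mul_left_cancel₀ PU.ε_ne_zero (by linear_combination c2)
    exact mul_left_cancel₀ (left_ne_zero_of_mul_eq_one c4) (c3.trans c4.symm)
  let β : Module.End F W := β₀ ∘ₗ π + PW.ε • r1 PW w w' + l • r1 PW w' w
  have d1 : ∀ y z, PW.B (β y) (β z) = l * PW.B y z := fun y z => by
    have d2 := b4 u₀ u₁ _ _ (π1 y) (π1 z)
    have d3 : PW.B (β₀ (π y)) (β₀ (π z)) = l * PW.B (π y) (π z) := by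
      rw [hu₁] at d2; linear_combination l * d2 - PW.B (β₀ (π y)) (β₀ (π z)) * c1
    have d4 : PW.B (π y) (π z) =
        PW.B y z - σ (PW.B w y) * PW.B w' z - σ (PW.B w' y) * PW.B w z * PW.ε := by
      have : PW.B (π y) (π z) = PW.B (π y) z := by
        conv_lhs => arg 2; simp only [π]
        simp [PW.eq_zero_symm (π1 y), PW.eq_zero_symm (π2 y)]
      rw [this]
      simp [π, PW.σε]
      ring
    simp [β, d3, d4, b3 πw (π1 z), b3 πw' (π1 z), PW.eq_zero_symm (b3 πw (π1 y)),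
      PW.eq_zero_symm (b3 πw' (π1 y)), PW.self_eq_zero hw, PW.self_eq_zero a1, a2, hw'w, hσl, PW.σε]
    linear_combination (l * σ (PW.B w y) * PW.B w' z) * PW.εε
  have hinj : Function.Injective β := by
    rw [injective_iff_map_eq_zero]
    intro y hy
    refine h.tf.ndW y fun z => ?_
    have := d1 y z
    rw [hy] at this
    simpa [hl0] using this
  let β' := LinearEquiv.ofInjectiveEndo β hinj
  have hβ' : ∀ y, β' y = β y := fun _ => rfl
  have g0I : T.opE α β' ∈ P.Isom := h.tf.isom _ (T.opE_mem α β')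
    (h.tf.B_of_pure (f := T.opE α β') fun u y u' z => by
      simp only [LinearEquiv.coe_coe, opE_τ, h.tf.B_τ, hβ', d1, ← b5 u u']; ring)
  have βw : β w = w := by simp [β, πw, hw'w, PW.self_eq_zero hw, smul_smul, PW.εε]
  have f1 : ∀ u, T.opE α β' (T.τ u w) = T.τ (α u) w := fun u => by rw [opE_τ, hβ', βw]
  have k1 : ∀ u, ((T.opE α β')⁻¹ * g) (T.τ u w) = T.τ u w := fun u => by
    rw [le_mul_apply, hα, ← f1, le_inv_apply_apply]
  have k2 : ∀ x, T.cB PW w x = 0 → ((T.opE α β')⁻¹ * g) x - x ∈ T.col w := fun x hx => by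
    have : (T.col w).mkQ (g x - T.opE α β' x) = 0 := by
      refine T.eq_zero_of_ker (f := (T.col w).mkQ ∘ₗ ((g : V →ₗ[F] V) - T.opE α β'))
        (fun u y hy => ?_) hx
      obtain ⟨c, hc⟩ := b2 u (π y) (π1 y)
      have e1 : y = π y + (PW.ε * PW.B w' y) • w := by simp [π, hy, smul_smul]
      change (T.col w).mkQ (g (T.τ u y) - T.opE α β' (T.τ u y)) = 0
      rw [Submodule.mkQ_apply, Submodule.Quotient.mk_eq_zero]
      refine ⟨c, ?_⟩
      conv_rhs => rw [opE_τ, hβ', e1, map_add, map_add, hc, map_smul, map_smul, hα, ← e1]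
      simp [β, hy, smul_smul]
    rw [Submodule.mkQ_apply, Submodule.Quotient.mk_eq_zero] at this
    obtain ⟨c, hc⟩ := this
    refine ⟨α.symm c, (T.opE α β').injective ?_⟩
    rw [map_sub, le_mul_apply, le_apply_inv, ← hc]
    simpa using f1 (α.symm c)
  have k3 := h.tf.mem_EG_of_unip hw (P.Isom.mul_mem (P.Isom.inv_mem g0I) hI) k1 k2
  have k4 : T.opE α β' ∈ M := h.hM ⟨T.opE_mem _ _, by
    simpa using (EG P).mul_mem (h.hI hg) ((EG P).inv_mem k3)⟩
  simpa using T.TG.mul_mem (T.opE_mem α β')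
    (h.ext_unip hR h0 hw (M.mul_mem (M.inv_mem k4) hg) k1 k2).1

theorem mem_TG_of_col {w w' : W} (h0 : w ≠ 0) (hw : PW.q w ∈ PW.Λ) (hw' : PW.q w' ∈ PW.Λ)
    {g : V ≃ₗ[F] V} (hg : g ∈ M) (h1 : ∀ u, g (T.τ u w) ∈ T.col w') : g ∈ T.TG := by
  have h0' : w' ≠ 0 := by
    rintro rfl
    obtain ⟨u, hu⟩ := h.nontriv
    obtain ⟨v, hv⟩ := h1 u
    have : T.τ u w = 0 := by simpa using hv.symm
    exact (T.τ_eq_zero.1 this).elim hu h0
  obtain ⟨β, hβ, e⟩ := h.trans h0' h0 hw' hw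
  have := h.mem_TG_of_stab hR h0 hw (M.mul_mem (h.opW hβ) hg) fun u => by
    obtain ⟨v, hv⟩ := h1 u
    rw [le_mul_apply, ← hv]
    exact ⟨v, by simp [e]⟩
  simpa using T.TG.mul_mem (T.TG.inv_mem (T.opE_mem 1 β)) this

end Ctx

end H11.Ten
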