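import Mathlib
import Cfsg.Agent.Base
import Cfsg.Agent.S0274
import Cfsg.Agent.Lib.ClassMax.Basic

/-!
Two quadratic unipotent elements in odd characteristic generate a group with a central involution,
unless they generate a unipotent group.
-/

set_option autoImplicit false
set_option linter.unusedSectionVars false
set_option linter.unusedSimpArgs false

namespace H11.Ten

open Module Cfsg H97 Polynomial
open scoped MatrixGroups

/-- upper unitriangular matrix -/
def slU {K : Type*} [Field K] (θ : K) : SL(2, K) := ⟨!![1, θ; 0, 1], by simp [Matrix.det_fin_two]⟩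

/-- lower unitriangular matrix -/
def slL {K : Type*} [Field K] (θ : K) : SL(2, K) := ⟨!![1, 0; θ, 1], by simp [Matrix.det_fin_two]⟩

theorem slU_mul {K : Type*} [Field K] (a b : K) : slU a * slU b = slU (a + b) := by
  refine Subtype.ext ?_
  rw [H29.sl_val_mul]
  simp [slU, add_comm]

theorem slL_mul {K : Type*} [Field K] (a b : K) : slL a * slL b = slL (a + b) := by
  refine Subtype.ext ?_
  rw [H29.sl_val_mul]
  simp [slL]

theorem slU_zero {K : Type*} [Field K] : slU (0 : K) = 1 := by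
  ext i j; fin_cases i <;> fin_cases j <;> simp [slU]

theorem slL_zero {K : Type*} [Field K] : slL (0 : K) = 1 := by
  ext i j; fin_cases i <;> fin_cases j <;> simp [slL]

theorem slU_inv {K : Type*} [Field K] (a : K) : (slU a)⁻¹ = slU (-a) := by
  rw [inv_eq_iff_mul_eq_one, slU_mul, add_neg_cancel, slU_zero]

theorem slL_inv {K : Type*} [Field K] (a : K) : (slL a)⁻¹ = slL (-a) := by
  rw [inv_eq_iff_mul_eq_one, slL_mul, add_neg_cancel, slL_zero]

theorem slU_pow {K : Type*} [Field K] (a : K) (n : ℕ) : slU a ^ n = slU (n * a) := by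
  induction n with
  | zero => simp [slU_zero]
  | succ n ih => rw [pow_succ, ih, slU_mul]; congr 1; push_cast; ring

theorem slL_pow {K : Type*} [Field K] (a : K) (n : ℕ) : slL a ^ n = slL (n * a) := by
  induction n with
  | zero => simp [slL_zero]
  | succ n ih => rw [pow_succ, ih, slL_mul]; congr 1; push_cast; ring

theorem exists_invol_sl {K : Type*} [Field K] [Finite K] (h2 : (2 : K) ≠ 0) {θ : K} (hθ : θ ≠ 0) :
    ∃ γ ∈ Subgroup.closure ({slU θ, slL 1} : Set SL(2, K)), γ ^ 2 = 1 ∧ γ.1.trace = -2 := by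
  classical
  have := Fintype.ofFinite K
  obtain ⟨p, hp⟩ := CharP.exists K
  have hpp : p.Prime := CharP.char_is_prime K p
  have : Fact p.Prime := ⟨hpp⟩
  have hp2 : p ≠ 2 := by
    rintro rfl
    exact h2 (by exact_mod_cast CharP.cast_eq_zero K 2)
  set H := Subgroup.closure ({slU θ, slL 1} : Set SL(2, K)) with hH
  have h1 : 1 < Nat.card (Sylow p H) := by
    by_contra hc
    have hsub : Subsingleton (Sylow p H) := Finite.card_le_one_iff_subsingleton.1 (not_lt.1 hc)
    obtain ⟨S⟩ : Nonempty (Sylow p H) := inferInstance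
    have hm : ∀ a : H, a ^ p = 1 → a ∈ S := fun a ha => by
      have : IsPGroup p (Subgroup.zpowers a) := by
        rintro ⟨_, k, rfl⟩
        refine ⟨1, Subtype.ext ?_⟩
        simp only [pow_one, SubmonoidClass.coe_pow, OneMemClass.coe_one]
        rw [← zpow_natCast, ← zpow_mul, mul_comm, zpow_mul, zpow_natCast, ha, one_zpow]
      obtain ⟨Q, hQ⟩ := this.exists_le_sylow
      rw [Subsingleton.elim S Q]
      exact hQ (Subgroup.mem_zpowers a)
    have ha := hm ⟨slU θ, Subgroup.subset_closure (by simp)⟩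
      (Subtype.ext (by simp [slU_pow, slU_zero]))
    have hb := hm ⟨slL 1, Subgroup.subset_closure (by simp)⟩
      (Subtype.ext (by simp [slL_pow, slL_zero]))
    obtain ⟨k, hk⟩ := S.isPGroup' ⟨_, S.mul_mem ha hb⟩
    have hk' : (slU θ * slL 1 : SL(2, K)).1 ^ p ^ k = 1 := by
      have := congrArg (fun x : S => ((x : H) : SL(2, K)).1) hk
      simpa using this
    have hn : IsNilpotent ((slU θ * slL 1 : SL(2, K)).1 - 1) :=
      ⟨p ^ k, by rw [sub_pow_char_pow_of_commute _ _ (Commute.one_right _), hk', one_pow, sub_self]⟩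
    have := (Matrix.isNilpotent_trace_of_isNilpotent hn).eq_zero
    rw [H29.sl_val_mul] at this
    simp [slU, slL, Matrix.trace_fin_two, hθ] at this
    exact hθ (by linear_combination this)
  obtain ⟨L, hL, ⟨e⟩⟩ := Cfsg.Agent.S0274.result p hp2 H h1
  have h2p : (2 : ZMod p) ≠ 0 := fun h => hp2 ((Nat.prime_dvd_prime_iff_eq hpp Nat.prime_two).1
    ((ZMod.natCast_eq_zero_iff 2 p).1 (by exact_mod_cast h)))
  set γ : SL(2, K) := (e.symm (-1)).1 with hγ
  have e1 : γ ^ 2 = 1 := by
    rw [hγ, ← SubmonoidClass.coe_pow, ← map_pow]; simp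
  have e2 : γ ≠ 1 := fun h => H29.neg_one_ne_one_sl h2p (by
    rw [← e.symm.map_eq_one_iff]; exact Subtype.ext h)
  refine ⟨γ, hL (e.symm (-1)).2, e1, ?_⟩
  have e3 := H29.sl_sq γ
  rw [← H29.sl_val_pow, e1] at e3
  have e4 : γ.1.trace • γ.1 = (2 : K) • (1 : Matrix (Fin 2) (Fin 2) K) := by
    rw [two_smul]; exact (sub_eq_iff_eq_add.1 e3.symm)
  have e5 := congrArg Matrix.det e4
  simp only [Matrix.det_smul, γ.2, Matrix.det_one, Fintype.card_fin, mul_one] at e5
  rcases sq_eq_sq_iff_eq_or_eq_neg.1 e5 with e6 | e6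
  · rw [e6] at e4
    exact (e2 (Subtype.ext (smul_right_injective _ h2 e4))).elim
  · exact e6

variable {F V : Type*} [Field F] [AddCommGroup V] [Module F V]

/-- The automorphisms acting trivially on `V / S`. -/
def trivQ (S : Submodule F V) : Subgroup (V ≃ₗ[F] V) where
  carrier := {g | ∀ x, g x - x ∈ S}
  one_mem' x := by simp
  mul_mem' {a b} ha hb x := by
    convert S.add_mem (ha (b x)) (hb x) using 1
    rw [le_mul_apply]; abel
  inv_mem' {a} ha x := by
    have := S.neg_mem (ha (a⁻¹ x))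
    rwa [le_apply_inv, neg_sub] at this

theorem finite_equiv [Finite F] [FiniteDimensional F V] : Finite (V ≃ₗ[F] V) := by
  have : Finite V := Module.finite_of_finite F
  exact Finite.of_injective (fun g : V ≃ₗ[F] V => (g : V → V)) DFunLike.coe_injective

section Cliff

variable {N N' : Module.End F V} (hN : N * N = 0) (hN' : N' * N' = 0)
include hN hN'

theorem comm_s (a : F[X]) : Commute (aeval (N * N' + N' * N) a) N ∧
    Commute (aeval (N * N' + N' * N) a) N' := by
  have h1 : Commute (N * N' + N' * N) N := by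
    change _ * _ = _ * _
    simp [mul_add, add_mul, mul_assoc, hN, ← mul_assoc N N]
  have h2 : Commute (N * N' + N' * N) N' := by
    change _ * _ = _ * _
    simp [mul_add, add_mul, mul_assoc, hN', ← mul_assoc N' N']
  refine a.induction_on' (fun p q hp hq => ?_) fun n c => ?_
  · rw [map_add]; exact ⟨hp.1.add_left hq.1, hp.2.add_left hq.2⟩
  · rw [aeval_monomial]
    exact ⟨Commute.mul_left (Algebra.commutes c N) (h1.pow_left n),
      Commute.mul_left (Algebra.commutes c N') (h2.pow_left n)⟩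

variable (N N') in
omit hN hN' in
/-- `g` and `γ` are the images of the same element of the generic Clifford algebra. -/
def Cl {K : Type*} [Field K] (φ : F[X] →+* K) (g : V ≃ₗ[F] V) (γ : SL(2, K)) : Prop :=
  ∃ a b c d : F[X],
    (g : Module.End F V) = aeval (N * N' + N' * N) a + aeval (N * N' + N' * N) b * N +
      aeval (N * N' + N' * N) c * N' + aeval (N * N' + N' * N) d * (N * N') ∧
    ((g⁻¹ : V ≃ₗ[F] V) : Module.End F V) = aeval (N * N' + N' * N) a -
      aeval (N * N' + N' * N) b * N - aeval (N * N' + N' * N) c * N' +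
      aeval (N * N' + N' * N) d * (N' * N) ∧
    γ.1 = !![φ a + φ d * φ X, φ b * φ X; φ c, φ a]

theorem Cl.mul_U {K : Type*} [Field K] {φ : F[X] →+* K} {g u : V ≃ₗ[F] V} {γ : SL(2, K)}
    (h : Cl N N' φ g γ) {ε : ℤ} (hu : (u : Module.End F V) = 1 + ε • N)
    (hu' : ((u⁻¹ : V ≃ₗ[F] V) : Module.End F V) = 1 - ε • N) :
    Cl N N' φ (g * u) (γ * slU (ε * φ X)) := by
  obtain ⟨a, b, c, d, h1, h2, h3⟩ := h
  have c1 := fun a => (comm_s hN hN' a).1.eq
  have hNN : ∀ x, N * (N * x) = 0 := fun x => by rw [← mul_assoc, hN, zero_mul]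
  refine ⟨a + ε • (c * X), b + ε • a + ε • (d * X), c, d - ε • c, ?_, ?_, ?_⟩
  · rw [LinearEquiv.coe_toLinearMap_mul, h1, hu]
    simp only [map_add, map_sub, map_zsmul, map_mul, aeval_X, mul_add, add_mul, sub_mul, mul_one,
      mul_smul_comm, smul_mul_assoc, mul_assoc, hN, mul_zero, smul_add, smul_zero]
    abel
  · rw [mul_inv_rev, LinearEquiv.coe_toLinearMap_mul, h2, hu']
    simp only [map_add, map_sub, map_zsmul, map_mul, aeval_X, mul_add, add_mul, sub_mul, mul_sub,
      one_mul, mul_smul_comm, smul_mul_assoc, ← mul_assoc N, ← c1]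
    simp only [mul_assoc, hN, hNN, mul_zero, smul_add, smul_zero, mul_add]
    abel
  · rw [H29.sl_val_mul, h3]
    ext i j
    fin_cases i <;> fin_cases j <;> simp [slU, Matrix.mul_apply, Fin.sum_univ_two] <;> ring

theorem Cl.mul_L {K : Type*} [Field K] {φ : F[X] →+* K} {g u : V ≃ₗ[F] V} {γ : SL(2, K)}
    (h : Cl N N' φ g γ) {ε : ℤ} (hu : (u : Module.End F V) = 1 + ε • N')
    (hu' : ((u⁻¹ : V ≃ₗ[F] V) : Module.End F V) = 1 - ε • N') :
    Cl N N' φ (g * u) (γ * slL (ε : K)) := by
  obtain ⟨a, b, c, d, h1, h2, h3⟩ := h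
  have c1 := fun a => (comm_s hN hN' a).2.eq
  have hNN : ∀ x, N' * (N' * x) = 0 := fun x => by rw [← mul_assoc, hN', zero_mul]
  refine ⟨a, b, c + ε • a, d + ε • b, ?_, ?_, ?_⟩
  · rw [LinearEquiv.coe_toLinearMap_mul, h1, hu]
    simp only [map_add, map_sub, map_zsmul, map_mul, aeval_X, mul_add, add_mul, sub_mul, mul_one,
      mul_smul_comm, smul_mul_assoc, mul_assoc, hN', mul_zero, smul_add, smul_zero]
    abel
  · rw [mul_inv_rev, LinearEquiv.coe_toLinearMap_mul, h2, hu']
    simp only [map_add, map_sub, map_zsmul, map_mul, aeval_X, mul_add, add_mul, sub_mul, mul_sub,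
      one_mul, mul_smul_comm, smul_mul_assoc, ← mul_assoc N', ← c1]
    simp only [mul_assoc, hN', hNN, mul_zero, smul_add, smul_zero, mul_add]
    abel
  · rw [H29.sl_val_mul, h3]
    ext i j
    fin_cases i <;> fin_cases j <;> simp [slL, Matrix.mul_apply, Fin.sum_univ_two] <;> ring

theorem exists_central_invol [Finite F] [FiniteDimensional F V] (h2 : (2 : F) ≠ 0)
    (hs : ¬ IsNilpotent (N * N' + N' * N)) {M : Subgroup (V ≃ₗ[F] V)}
    (hM : Has M fun x => x + N x) (hM' : Has M fun x => x + N' x) :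
    ∃ z ∈ M, z ≠ 1 ∧ z * z = 1 ∧ (∀ x, z (N x) = N (z x)) ∧ (∀ x, z (N' x) = N' (z x)) ∧
      ∀ x, z x - x ∈ LinearMap.range N ⊔ LinearMap.range N' := by
  classical
  set s := N * N' + N' * N with hs'
  have hint : IsIntegral F s := Algebra.IsIntegral.isIntegral s
  obtain ⟨q, hq, hq'⟩ := exists_eq_pow_rootMultiplicity_mul_and_not_dvd _ (minpoly.ne_zero hint) 0
  simp only [map_zero, sub_zero] at hq hq'
  have hqu : ¬ IsUnit q := fun hu => hs ⟨rootMultiplicity 0 (minpoly F s), by
    have := minpoly.aeval F s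
    rw [hq, map_mul, map_pow, aeval_X] at this
    exact ((hu.map (aeval s)).mul_left_eq_zero).1 this⟩
  obtain ⟨f, hf, hfq⟩ := WfDvdMonoid.exists_irreducible_factor hqu (by rintro rfl; simp at hq')
  have : Fact (Irreducible f) := ⟨hf⟩
  have : Module.Finite F (AdjoinRoot f) := (AdjoinRoot.powerBasis hf.ne_zero).finite
  have : Finite (AdjoinRoot f) := Module.finite_of_finite F
  let φ := AdjoinRoot.mk f
  have hθ : φ X ≠ 0 := fun h => hq' (((hf.associated_of_dvd irreducible_X
    (AdjoinRoot.mk_eq_zero.1 h)).symm.dvd).trans hfq)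
  have h2K : (2 : AdjoinRoot f) ≠ 0 := fun h => h2 ((algebraMap F (AdjoinRoot f)).injective (by
    rw [map_ofNat, map_zero, h]))
  obtain ⟨u, hu, eu⟩ := hM
  obtain ⟨u', hu', eu'⟩ := hM'
  have hNN : ∀ x, N (N x) = 0 := fun x => LinearMap.congr_fun hN x
  have hNN' : ∀ x, N' (N' x) = 0 := fun x => LinearMap.congr_fun hN' x
  have i1 : ∀ x, u⁻¹ x = x - N x := fun x => by
    rw [le_inv_apply, LinearEquiv.symm_apply_eq, eu]; simp [hNN]
  have i2 : ∀ x, u'⁻¹ x = x - N' x := fun x => by
    rw [le_inv_apply, LinearEquiv.symm_apply_eq, eu']; simp [hNN']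
  let R : Subgroup ((V ≃ₗ[F] V) × SL(2, AdjoinRoot f)) :=
    Subgroup.closure {(u, slU (φ X)), (u', slL 1)}
  have hR : ∀ p ∈ R, Cl N N' φ p.1 p.2 := fun p hp => by
    induction hp using Subgroup.closure_induction_right with
    | one => exact ⟨1, 0, 0, 0, by simp; rfl, by simp; rfl, by simp [Matrix.one_fin_two]⟩
    | mul_right x _ y hy ih =>
      rcases hy with rfl | rfl
      · simpa using ih.mul_U hN hN' (u := u) (ε := 1) (by ext x; simp [eu]) (by ext x; simp [← i1])
      · simpa using ih.mul_L hN hN' (u := u') (ε := 1) (by ext x; simp [eu'])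
          (by ext x; simp [← i2])
    | mul_inv_cancel x _ y hy ih =>
      rcases hy with rfl | rfl
      · simpa [slU_inv] using ih.mul_U hN hN' (u := u⁻¹) (ε := -1)
          (by ext x; simp [← sub_eq_add_neg, ← i1]) (by ext x; simp [eu])
      · simpa [slL_inv] using ih.mul_L hN hN' (u := u'⁻¹) (ε := -1)
          (by ext x; simp [← sub_eq_add_neg, ← i2]) (by ext x; simp [eu'])
  have hR' : R ≤ (M ⊓ trivQ (LinearMap.range N ⊔ LinearMap.range N')).comap (MonoidHom.fst _ _) := by
    refine (Subgroup.closure_le _).2 ?_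
    rintro _ (rfl | rfl)
    · exact ⟨hu, fun x => Submodule.mem_sup_left ⟨x, by simp [eu]⟩⟩
    · exact ⟨hu', fun x => Submodule.mem_sup_right ⟨x, by simp [eu']⟩⟩
  have htr : ∀ {g : V ≃ₗ[F] V} {γ}, Cl N N' φ g γ → g⁻¹ = g → ∃ r : F[X],
      (2 : F) • (g : Module.End F V) = aeval s r ∧ γ.1.trace = φ r := fun ⟨a, b, c, d, e1, e2, e3⟩ e => by
    refine ⟨2 * a + d * X, ?_, by simp [e3, Matrix.trace_fin_two, map_ofNat]; ring⟩
    rw [two_smul]
    nth_rewrite 2 [← e]
    rw [e1, e2]
    simp only [map_add, map_mul, aeval_X, ← hs', map_ofNat, two_mul]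
    conv_rhs => arg 2; arg 2; rw [hs']
    rw [mul_add]
    abel
  obtain ⟨γ, hγ, γ1, γ2⟩ := exists_invol_sl h2K hθ
  have : γ ∈ R.map (MonoidHom.snd _ _) := by
    rw [MonoidHom.map_closure]
    simpa [Set.image_insert_eq] using hγ
  obtain ⟨⟨g, γ'⟩, hp, rfl⟩ := this
  have := finite_equiv (F := F) (V := V)
  rcases Nat.even_or_odd' (orderOf g) with ⟨k, hk | hk⟩
  · have hk0 : 0 < k := by have := orderOf_pos g; omega
    have e1 : g ^ k * g ^ k = 1 := by rw [← pow_add, ← two_mul, ← hk, pow_orderOf_eq_one]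
    obtain ⟨r, e2, -⟩ := htr (hR _ (R.pow_mem hp k)) (inv_eq_of_mul_eq_one_right e1)
    have e3 := hR' (R.pow_mem hp k)
    refine ⟨g ^ k, e3.1, pow_ne_one_of_lt_orderOf hk0.ne' (by omega), e1, fun x => ?_, fun x => ?_,
      e3.2⟩
    · have := LinearMap.congr_fun (comm_s hN hN' r).1.eq x
      rw [← hs', ← e2] at this
      exact smul_right_injective V h2 (by simpa using this)
    · have := LinearMap.congr_fun (comm_s hN hN' r).2.eq x
      rw [← hs', ← e2] at this
      exact smul_right_injective V h2 (by simpa using this)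
  · exfalso
    have e1 := hR _ (R.pow_mem hp (orderOf g))
    simp only [Prod.pow_mk, pow_orderOf_eq_one] at e1
    simp only [MonoidHom.coe_snd] at γ1 γ2
    rw [hk, pow_succ, pow_mul, γ1, one_pow, one_mul] at e1
    obtain ⟨r, e2, e3⟩ := htr e1 inv_one
    have e4 : aeval s (r - 2) = 0 := by
      rw [map_sub, ← e2, map_ofNat, two_smul, ← one_add_one_eq_two]; exact sub_self _
    have e5 : φ (r - 2) = 0 := AdjoinRoot.mk_eq_zero.2
      ((hfq.trans (hq ▸ dvd_mul_left q _)).trans (minpoly.dvd F s e4))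
    rw [map_sub, ← e3, γ2, map_ofNat] at e5
    exact mul_ne_zero h2K h2K (by linear_combination -e5)

end Cliff

end H11.Ten
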