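import Mathlib
import Cfsg.Agent.Base
import Cfsg.Agent.Lib.Tensor.Form
import Cfsg.Agent.Lib.Tensor.Invol

/-!
Abstract geometry of a family of quadratic elements of a subgroup `H` inside an overgroup `M`.
-/

set_option autoImplicit false
set_option linter.unusedSectionVars false
set_option linter.unusedSimpArgs false

namespace H11.Ten

open Module Cfsg H97 H28

variable {F V : Type*} [Field F] [AddCommGroup V] [Module F V] {σ : F →+* F} {P : PQ F V σ}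

theorem skew_of_isom {N : Module.End F V} (hN : ∀ x, N (N x) = 0)
    (h : Has P.Isom fun x => x + N x) (x y : V) : P.B (N x) y = -P.B x (N y) := by
  obtain ⟨g, hg, e⟩ := h
  have h1 := B_isom hg x (N y)
  have h2 := B_isom hg x y
  simp only [e, hN, add_zero, map_add, LinearMap.add_apply] at h1 h2
  linear_combination h2 - h1

theorem eq_one_of_invol (hP : P.B.SeparatingLeft) (h2 : (2 : F) ≠ 0) {z : V ≃ₗ[F] V}
    (hz : z ∈ P.Isom) (hzz : z * z = 1) {X : Submodule F V} (h1 : ∀ x ∈ X, z x = x)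
    (h3 : ∀ x ∈ perp P X, z x - x ∈ X) : z = 1 := by
  have e : ∀ x, z (z x) = x := fun x => by rw [← le_mul_apply, hzz]; rfl
  refine LinearEquiv.ext fun x => ?_
  have a1 : z x - x ∈ perp P X := fun d hd => by
    rw [map_sub, ← B_isom hz d x, h1 d hd, sub_self]
  have a2 := h1 _ (h3 _ a1)
  simp only [map_sub, e] at a2
  have a3 : (2 * 2 : F) • (z x - x) = 0 := by linear_combination (norm := module) a2
  exact sub_eq_zero.1 ((smul_eq_zero.1 a3).resolve_left (mul_ne_zero h2 h2))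

/-- The conjugate `g N g⁻¹`. -/
def cN (g : V ≃ₗ[F] V) (N : Module.End F V) : Module.End F V :=
  (g : V →ₗ[F] V) ∘ₗ N ∘ₗ ((g⁻¹ : V ≃ₗ[F] V) : V →ₗ[F] V)

theorem cN_apply (g : V ≃ₗ[F] V) (N : Module.End F V) (x : V) : cN g N x = g (N (g⁻¹ x)) := rfl

theorem mem_range_cN {g : V ≃ₗ[F] V} {N : Module.End F V} {y : V} :
    y ∈ LinearMap.range (cN g N) ↔ g⁻¹ y ∈ LinearMap.range N :=
  ⟨fun ⟨x, hx⟩ => ⟨g⁻¹ x, by rw [← hx, cN_apply, le_inv_apply_apply]⟩,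
    fun ⟨x, hx⟩ => ⟨g x, by rw [cN_apply, le_inv_apply_apply, hx, le_apply_inv]⟩⟩

theorem range_cN (g : V ≃ₗ[F] V) (N : Module.End F V) :
    LinearMap.range (cN g N) = (LinearMap.range N).map (g : V →ₗ[F] V) := by
  ext y; rw [mem_range_cN, TS.mem_map_iff]

/-- A family `𝒩` of square-zero maps with `1 + N ∈ H`, recognised by `H` inside `M`. -/
structure Roots (P : PQ F V σ) (H M : Subgroup (V ≃ₗ[F] V)) (𝒩 : Set (Module.End F V)) :
    Prop where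
  hHM : H ≤ M
  hI : M ≤ P.Isom
  nd : P.B.SeparatingLeft
  sq : ∀ N ∈ 𝒩, ∀ x, N (N x) = 0
  has : ∀ N ∈ 𝒩, Has H fun x => x + N x
  rank : ∀ N ∈ 𝒩, ∀ N' ∈ 𝒩, finrank F (LinearMap.range N) = finrank F (LinearMap.range N')
  p1 : ∀ g ∈ M, ∀ N ∈ 𝒩, ∀ N' ∈ 𝒩, (∀ x, g (N x) ∈ LinearMap.range N') → g ∈ H
  p2 : ∀ g ∈ M, ∀ N ∈ 𝒩, Has H (fun x => x + cN g N x) → g ∈ H

/-- A standard subspace and a non-standard conjugate with largest intersection. -/
structure IsMax (H M : Subgroup (V ≃ₗ[F] V)) (𝒩 : Set (Module.End F V)) (g : V ≃ₗ[F] V)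
    (N N₀ : Module.End F V) : Prop where
  mem : g ∈ M
  notMem : g ∉ H
  hN : N ∈ 𝒩
  hN₀ : N₀ ∈ 𝒩
  max : ∀ g' ∈ M, g' ∉ H → ∀ N' ∈ 𝒩, ∀ N₀' ∈ 𝒩,
    finrank F ↥(LinearMap.range N' ⊓ LinearMap.range (cN g' N₀')) ≤
      finrank F ↥(LinearMap.range N ⊓ LinearMap.range (cN g N₀))

variable [FiniteDimensional F V] {H M : Subgroup (V ≃ₗ[F] V)} {𝒩 : Set (Module.End F V)}

theorem exists_isMax (hne : 𝒩.Nonempty) (hg : ∃ g ∈ M, g ∉ H) : ∃ g N N₀, IsMax H M 𝒩 g N N₀ := by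
  classical
  let p : ℕ → Prop := fun m => ∃ g ∈ M, g ∉ H ∧ ∃ N ∈ 𝒩, ∃ N₀ ∈ 𝒩,
    finrank F ↥(LinearMap.range N ⊓ LinearMap.range (cN g N₀)) = m
  obtain ⟨g₀, h1, h2⟩ := hg
  obtain ⟨N₁, h3⟩ := hne
  have hp : p (Nat.findGreatest p (finrank F V)) :=
    Nat.findGreatest_spec (Submodule.finrank_le _) ⟨g₀, h1, h2, N₁, h3, N₁, h3, rfl⟩
  obtain ⟨g, a1, a2, N, a3, N₀, a4, a5⟩ := hp
  exact ⟨g, N, N₀, a1, a2, a3, a4, fun g' b1 b2 N' b3 N₀' b4 => a5 ▸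
    Nat.le_findGreatest (Submodule.finrank_le _) ⟨g', b1, b2, N', b3, N₀', b4, rfl⟩⟩

namespace IsMax

variable {g : V ≃ₗ[F] V} {N N₀ : Module.End F V} (h : IsMax H M 𝒩 g N N₀)
include h

theorem symm : IsMax H M 𝒩 g⁻¹ N₀ N where
  mem := M.inv_mem h.mem
  notMem e := h.notMem (by simpa using H.inv_mem e)
  hN := h.hN₀
  hN₀ := h.hN
  max g' b1 b2 N' b3 N₀' b4 := (h.max g' b1 b2 N' b3 N₀' b4).trans (le_of_eq (by
    rw [← LinearEquiv.finrank_map_eq g⁻¹, show (LinearMap.range N ⊓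
      LinearMap.range (cN g N₀)).map ((g⁻¹ : V ≃ₗ[F] V) : V →ₗ[F] V) =
        LinearMap.range N₀ ⊓ LinearMap.range (cN g⁻¹ N) from ?_]
    ext x
    rw [TS.mem_map_iff, Submodule.mem_inf, Submodule.mem_inf, mem_range_cN, mem_range_cN, inv_inv,
      le_inv_apply_apply, and_comm]))

/-- another standard subspace when the maximal intersection is zero -/
theorem of_bot (h0 : LinearMap.range N ⊓ LinearMap.range (cN g N₀) = ⊥) {N₁ : Module.End F V}
    (h1 : N₁ ∈ 𝒩) : IsMax H M 𝒩 g N₁ N₀ :=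
  ⟨h.mem, h.notMem, h1, h.hN₀, fun g' b1 b2 N' b3 N₀' b4 =>
    (h.max g' b1 b2 N' b3 N₀' b4).trans (by rw [h0, finrank_bot]; exact Nat.zero_le _)⟩

theorem bot_of_bot (h0 : LinearMap.range N ⊓ LinearMap.range (cN g N₀) = ⊥) {N₁ : Module.End F V}
    (h1 : N₁ ∈ 𝒩) : LinearMap.range N₁ ⊓ LinearMap.range (cN g N₀) = ⊥ :=
  Submodule.finrank_eq_zero.1 (Nat.le_zero.1 ((h.max g h.mem h.notMem N₁ h1 N₀ h.hN₀).trans
    (by rw [h0, finrank_bot])))

theorem mem_of {k : V ≃ₗ[F] V} (hk : k ∈ M) (hk' : g⁻¹ * k * g ∉ H)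
    (hD : ∀ d ∈ LinearMap.range N, d ∈ LinearMap.range (cN g N₀) → k d ∈ LinearMap.range (cN g N₀))
    {y : V} (hy : y ∈ LinearMap.range (cN g N₀)) (hky : k y ∈ LinearMap.range (cN g N₀)) :
    y ∈ LinearMap.range N := by
  by_contra hc
  set D := LinearMap.range N ⊓ LinearMap.range (cN g N₀) with hD'
  have h1 := h.max _ (M.mul_mem (M.mul_mem (M.inv_mem h.mem) hk) h.mem) hk' N₀ h.hN₀ N₀ h.hN₀
  have h2 : (D ⊔ F ∙ y).map ((g⁻¹ * k : V ≃ₗ[F] V) : V →ₗ[F] V) ≤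
      LinearMap.range N₀ ⊓ LinearMap.range (cN (g⁻¹ * k * g) N₀) := by
    rw [Submodule.map_le_iff_le_comap, sup_le_iff, Submodule.span_singleton_le_iff_mem]
    refine ⟨fun d hd => ⟨mem_range_cN.1 (hD d hd.1 hd.2), mem_range_cN.2 ?_⟩,
      mem_range_cN.1 hky, mem_range_cN.2 ?_⟩
    · simpa using mem_range_cN.1 hd.2
    · simpa using mem_range_cN.1 hy
  have h3 := Submodule.finrank_mono h2
  rw [LinearEquiv.finrank_map_eq] at h3
  rw [← hD'] at h1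
  have : finrank F D < finrank F ↥(D ⊔ F ∙ y) := Submodule.finrank_lt_finrank_of_lt
    (lt_of_le_of_ne le_sup_left fun e => hc
      ((e ▸ Submodule.mem_sup_right (Submodule.mem_span_singleton_self y) : y ∈ D).1))
  omega

variable (hr : Roots P H M 𝒩)
include hr

theorem mem_root {N₁ : Module.End F V} (h1 : N₁ ∈ 𝒩)
    (hD : ∀ d ∈ LinearMap.range N, d ∈ LinearMap.range (cN g N₀) →
      N₁ d ∈ LinearMap.range (cN g N₀))
    {y : V} (hy : y ∈ LinearMap.range (cN g N₀)) (hky : N₁ y ∈ LinearMap.range (cN g N₀)) :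
    y ∈ LinearMap.range N := by
  obtain ⟨k, hk, e⟩ := hr.has N₁ h1
  refine h.mem_of (hr.hHM hk) (fun hc => h.symm.notMem (hr.p2 _ h.symm.mem N₁ h1 ⟨_, hc, fun x => ?_⟩))
    (fun d a1 a2 => e d ▸ Submodule.add_mem _ a2 (hD d a1 a2)) hy (e y ▸ Submodule.add_mem _ hy hky)
  simp [e, cN_apply]

theorem mem_self {y : V} (hy : y ∈ LinearMap.range (cN g N₀))
    (hky : N y ∈ LinearMap.range (cN g N₀)) : y ∈ LinearMap.range N :=
  h.mem_root hr h.hN (by rintro _ ⟨x, rfl⟩ _; simp [hr.sq N h.hN]) hy hky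

theorem mem_self' {x : V} (hx : x ∈ LinearMap.range N) (hkx : cN g N₀ x ∈ LinearMap.range N) :
    x ∈ LinearMap.range (cN g N₀) :=
  mem_range_cN.2 (h.symm.mem_self hr (mem_range_cN.2 (by simpa using hx))
    (mem_range_cN.2 (by simpa [cN_apply] using hkx)))

theorem exists_notMem : ∃ y ∈ LinearMap.range (cN g N₀), y ∉ LinearMap.range N := by
  by_contra hc
  push Not at hc
  exact h.notMem (hr.p1 g h.mem N₀ h.hN₀ N h.hN fun x => hc _ ⟨g x, by simp [cN_apply]⟩)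

theorem exists_notMem' : ∃ x ∈ LinearMap.range N, x ∉ LinearMap.range (cN g N₀) := by
  obtain ⟨y, h1, h2⟩ := h.symm.exists_notMem hr
  exact ⟨g y, by simpa using mem_range_cN.1 h1, fun e => h2 (by simpa using mem_range_cN.1 e)⟩

theorem has_cN : Has M fun x => x + cN g N₀ x :=
  (((hr.has N₀ h.hN₀).mono hr.hHM).conj h.mem).congr fun x => by simp [cN_apply]

theorem sq_cN (x : V) : cN g N₀ (cN g N₀ x) = 0 := by simp [cN_apply, hr.sq N₀ h.hN₀]

theorem skew (x y : V) : P.B (N x) y = -P.B x (N y) :=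
  skew_of_isom (hr.sq N h.hN) ((hr.has N h.hN).mono (hr.hHM.trans hr.hI)) x y

theorem skew' (x y : V) : P.B (cN g N₀ x) y = -P.B x (cN g N₀ y) :=
  skew_of_isom (h.sq_cN hr) ((h.has_cN hr).mono hr.hI) x y

theorem mem_perp_iff {y : V} : y ∈ perp P (LinearMap.range N) ↔ N y = 0 :=
  ⟨fun e => sep_right hr.nd fun x => by simpa [h.skew hr] using e _ ⟨x, rfl⟩, by
    rintro e _ ⟨x, rfl⟩; simp [h.skew hr, e]⟩

theorem mem_perp_iff' {y : V} : y ∈ perp P (LinearMap.range (cN g N₀)) ↔ cN g N₀ y = 0 :=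
  ⟨fun e => sep_right hr.nd fun x => by simpa [h.skew' hr] using e _ ⟨x, rfl⟩, by
    rintro e _ ⟨x, rfl⟩; simp [h.skew' hr, e]⟩

/-- An element acting trivially modulo `X + Y` acts trivially on `X^⊥ / X`. -/
theorem triv_perp {z : V ≃ₗ[F] V} (h1 : ∀ x, z (N x) = N (z x))
    (h2 : ∀ x, z x - x ∈ LinearMap.range N ⊔ LinearMap.range (cN g N₀)) :
    ∀ x ∈ perp P (LinearMap.range N), z x - x ∈ LinearMap.range N := fun x hx => by
  obtain ⟨_, ⟨a, rfl⟩, b, hb, e⟩ := Submodule.mem_sup.1 (h2 x)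
  have e1 := congrArg N e
  rw [map_sub, ← h1, (h.mem_perp_iff hr).1 hx, map_add, hr.sq N h.hN] at e1
  rw [← e]
  exact Submodule.add_mem _ ⟨a, rfl⟩ (h.mem_self hr hb (by simp [show N b = 0 by simpa using e1]))

theorem exists_invol [Finite F] (h2 : (2 : F) ≠ 0)
    (p3 : ∀ z ∈ H, ∀ N ∈ 𝒩, z * z = 1 → (∀ x, z (N x) = N (z x)) →
      (∀ x ∈ perp P (LinearMap.range N), z x - x ∈ LinearMap.range N) →
      ∃ c : F, ∀ x, z (N x) = c • N x) :
    LinearMap.range N ⊓ LinearMap.range (cN g N₀) = ⊥ ∧ ∃ z ∈ H, z * z = 1 ∧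
      (∀ x ∈ perp P (LinearMap.range N), z x - x ∈ LinearMap.range N) ∧
      ∀ y ∈ LinearMap.range (cN g N₀), z y = -y := by
  have hs : ¬ IsNilpotent (N * cN g N₀ + cN g N₀ * N) := by
    rintro ⟨k, hk⟩
    obtain ⟨x, h1, h2⟩ := h.exists_notMem' hr
    have : ∀ k : ℕ, ((N * cN g N₀ + cN g N₀ * N) ^ k) x ∈ LinearMap.range N ∧
        ((N * cN g N₀ + cN g N₀ * N) ^ k) x ∉ LinearMap.range (cN g N₀) := fun k => by
      induction k with
      | zero => exact ⟨h1, h2⟩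
      | succ k ih =>
        rw [pow_succ', Module.End.mul_apply]
        obtain ⟨⟨y, hy⟩, a2⟩ := ih
        rw [← hy] at a2 ⊢
        simp only [LinearMap.add_apply, Module.End.mul_apply, hr.sq N h.hN, map_zero, add_zero]
        exact ⟨⟨_, rfl⟩, fun e => a2 (h.mem_self' hr ⟨y, rfl⟩ (h.mem_self hr ⟨_, rfl⟩ e))⟩
    exact (this k).2 (by simp [hk])
  obtain ⟨z, hz, z1, z2, z3, z4, z5⟩ := exists_central_invol
    (LinearMap.ext (hr.sq N h.hN)) (LinearMap.ext (h.sq_cN hr)) h2 hs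
    ((hr.has N h.hN).mono hr.hHM) (h.has_cN hr)
  have key : ∀ {g N N₀ z}, IsMax H M 𝒩 g N N₀ → z ∈ M → z ≠ 1 → z * z = 1 →
      (∀ x, z (N x) = N (z x)) →
      (∀ x, z x - x ∈ LinearMap.range N ⊔ LinearMap.range (cN g N₀)) →
      z ∈ H ∧ ∀ x ∈ LinearMap.range N, z x = -x := fun {g N N₀ z} h hz z1 z2 z3 z5 => by
    have a1 : z ∈ H := hr.p1 z hz N h.hN N h.hN fun x => ⟨_, (z3 x).symm⟩
    have a2 := h.triv_perp hr z3 z5
    obtain ⟨c, hc⟩ := p3 z a1 N h.hN z2 z3 a2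
    obtain ⟨_, ⟨x, rfl⟩, b1⟩ := h.exists_notMem' hr
    have b2 : N x ≠ 0 := fun e => b1 (by simp [e])
    have b3 : (c * c) • N x = (1 : F) • N x := by
      rw [mul_smul, ← hc, ← map_smul, ← hc, ← le_mul_apply, z2, one_smul]; rfl
    refine ⟨a1, ?_⟩
    rintro _ ⟨y, rfl⟩
    rcases mul_self_eq_one_iff.1 (smul_left_injective F b2 b3) with e | e
    · exact (z1 (eq_one_of_invol hr.nd h2 (hr.hI hz) z2 (X := LinearMap.range N)
        (by rintro _ ⟨y, rfl⟩; simp [hc, e]) a2)).elim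
    · simp [hc, e]
  obtain ⟨a1, a2⟩ := key h hz z1 z2 z3 z5
  obtain ⟨-, a4⟩ := key (z := g⁻¹ * z * g) h.symm (M.mul_mem (M.mul_mem (M.inv_mem h.mem) hz) h.mem)
    (fun e => z1 (by simpa [mul_assoc, mul_eq_one_iff_eq_inv] using congrArg (fun t => g * t * g⁻¹) e))
    (by rw [show g⁻¹ * z * g * (g⁻¹ * z * g) = g⁻¹ * (z * z) * g by group, z2]; group)
    (fun x => by simpa [cN_apply, le_inv_apply, LinearEquiv.symm_apply_eq] using z4 (g x))
    fun x => by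
      obtain ⟨a, ha, b, hb, e⟩ := Submodule.mem_sup.1 (z5 (g x))
      refine Submodule.mem_sup.2 ⟨g⁻¹ b, mem_range_cN.1 hb, g⁻¹ a, mem_range_cN.2 (by simpa using ha),
        ?_⟩
      rw [← map_add, add_comm, e]
      simp
  have a5 : ∀ y ∈ LinearMap.range (cN g N₀), z y = -y := fun y hy => by
    simpa [le_inv_apply, LinearEquiv.symm_apply_eq] using a4 _ (mem_range_cN.1 hy)
  refine ⟨eq_bot_iff.2 fun d hd => hr.nd d fun x => ?_, z, a1, z2, h.triv_perp hr z3 z5, a5⟩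
  obtain ⟨_, ⟨a, rfl⟩, _, ⟨b, rfl⟩, e⟩ := Submodule.mem_sup.1 (z5 x)
  have b1 : P.B d (N a) = 0 := by
    obtain ⟨y, rfl⟩ := hd.1; simp [h.skew hr, hr.sq N h.hN]
  have b2 : P.B d (cN g N₀ b) = 0 := by
    obtain ⟨y, rfl⟩ := hd.2; simp [h.skew' hr, h.sq_cN hr]
  have b3 := congrArg (P.B d) e
  have b4 := B_isom (hr.hI hz) d x
  rw [a2 d hd.1] at b4
  simp only [map_add, b1, b2, map_sub, map_neg, LinearMap.neg_apply] at b3 b4
  exact (mul_eq_zero.1 (show 2 * P.B d x = 0 by linear_combination b3 - b4)).resolve_left h2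

end IsMax

end H11.Ten
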