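import Mathlib
import Cfsg.Agent.Base
import Cfsg.Agent.Lib.Tensor.Ext
import Cfsg.Agent.Lib.Tensor.Geo

/-!
Overgroups of tensor stabilisers: the geometry of the subspaces `U ⊗ w`.
-/

set_option autoImplicit false
set_option linter.unusedSectionVars false
set_option linter.unusedSimpArgs false

namespace H11.Ten

open Module Cfsg H97 H28

variable {F U W V : Type*} [Field F] [AddCommGroup U] [Module F U] [AddCommGroup W]
  [Module F W] [AddCommGroup V] [Module F V] {σ : F →+* F} {T : TS F U W V} {PU : PQ F U σ}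
  {PW : PQ F W σ} {P : PQ F V σ} {M : Subgroup (V ≃ₗ[F] V)}

namespace TS

theorem of_scalar {k : V ≃ₗ[F] V} {α : U ≃ₗ[F] U} {β : W ≃ₗ[F] W}
    (e : ∀ u y, k (T.τ u y) = T.τ (α u) (β y)) {c : F}
    (hc : (α : U →ₗ[F] U) = c • LinearMap.id) (hU : ∃ u : U, u ≠ 0) :
    ∃ β' : W ≃ₗ[F] W, ∀ u y, k (T.τ u y) = T.τ u (β' y) := by
  have h1 : ∀ u, α u = c • u := fun u => LinearMap.congr_fun hc u
  obtain ⟨u, hu⟩ := hU
  have hc0 : c ≠ 0 := fun h0 => hu (by simpa [h0] using h1 u)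
  exact ⟨β.trans (LinearEquiv.smulOfNeZero F W c hc0), fun u y => by simp [e, h1, Units.smul_def]⟩

theorem scalar_of_rank [FiniteDimensional F V] {k : V ≃ₗ[F] V} {α : U ≃ₗ[F] U} {β : W ≃ₗ[F] W}
    (e : ∀ u y, k (T.τ u y) = T.τ (α u) (β y)) {N : Module.End F V} (hk : ∀ x, k x = x + N x)
    (hr : finrank F (LinearMap.range N) < finrank F W) :
    ∃ c : F, (α : U →ₗ[F] U) = c • LinearMap.id := by
  by_contra hc
  push Not at hc
  obtain ⟨u, hu⟩ := exists_notMem_of_not_scalar hc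
  obtain ⟨ψ, h1, h2⟩ := exists_dual_of_notMem_span hu 1
  have hinj : Function.Injective (N.rangeRestrict ∘ₗ T.τ u) := by
    rw [injective_iff_map_eq_zero]
    intro y hy
    have h3 : N (T.τ u y) = 0 := congrArg Subtype.val hy
    have h4 := congrArg (T.cU ψ) ((e u y).symm.trans (hk _))
    simpa [h3, h1, show ψ (α u) = 1 from h2] using h4
  exact absurd (LinearMap.finrank_le_finrank_of_injective hinj) (not_le.2 hr)

theorem scalar_or_scalar (h2 : (2 : F) ≠ 0) {k : V ≃ₗ[F] V} {α : U ≃ₗ[F] U} {β : W ≃ₗ[F] W}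
    (e : ∀ u y, k (T.τ u y) = T.τ (α u) (β y)) {N : Module.End F V} (hk : ∀ x, k x = x + N x)
    (hN : ∀ x, N (N x) = 0) : (∃ c : F, (α : U →ₗ[F] U) = c • LinearMap.id) ∨
      ∃ c : F, (β : W →ₗ[F] W) = c • LinearMap.id := by
  by_contra hc
  push Not at hc
  obtain ⟨u, hu⟩ := exists_notMem_of_not_scalar hc.1
  obtain ⟨y, hy⟩ := exists_notMem_of_not_scalar hc.2
  refine T.not_pure (u := u) (w := y) (u' := (-2 : F) • α u) (w' := β y) (by rintro rfl; simp at hu)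
    (by rintro rfl; simp at hy) (fun h => hu ((Submodule.smul_mem_iff _ (neg_ne_zero.2 h2)).1 h)) hy
    (-α (α u)) (β (β y)) ?_
  have := hk (k (T.τ u y))
  have h3 : N (k (T.τ u y)) = k (T.τ u y) - T.τ u y := by simp [hk, hN]
  rw [h3, e, e] at this
  simp only [map_smul, map_neg, LinearMap.smul_apply, LinearMap.neg_apply, this]
  module

theorem scalar_of_triv {k : V ≃ₗ[F] V} {α : U ≃ₗ[F] U} {β : W ≃ₗ[F] W}
    (e : ∀ u y, k (T.τ u y) = T.τ (α u) (β y)) {φ : Dual F W} {y : W} (hy : φ y = 1)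
    (h : ∀ u, T.cW φ (k (T.τ u y) - T.τ u y) = 0) (hU : ∃ u : U, u ≠ 0) :
    ∃ β' : W ≃ₗ[F] W, ∀ u y, k (T.τ u y) = T.τ u (β' y) := by
  have h1 : ∀ u, φ (β y) • α u = u := fun u => by simpa [e, hy, sub_eq_zero] using h u
  obtain ⟨u, hu⟩ := id hU
  have h2 : φ (β y) ≠ 0 := fun h0 => hu (by simpa [h0] using (h1 u).symm)
  refine of_scalar e (c := (φ (β y))⁻¹) (LinearMap.ext fun u => ?_) hU
  conv_rhs => rw [← h1 u]
  simp [smul_smul, h2]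

variable (T PW) in
/-- The maps `1 ⊗ (t - 1)` for the transvections `t` of `W`. -/
def ptRoots : Set (Module.End F V) :=
  {N | ∃ w, w ≠ 0 ∧ PW.q w ∈ PW.Λ ∧ ∃ c ∈ PW.Λ, c ≠ 0 ∧
    ∀ x, N x = T.τ (-(PW.ε * c) • T.cB PW w x) w}

theorem ptRoots_mem {w : W} (h0 : w ≠ 0) (hw : PW.q w ∈ PW.Λ) {c : F} (hc : c ∈ PW.Λ) (hc0 : c ≠ 0) :
    T.nS (-(PW.ε * c) • LinearMap.id) w (PW.B w) ∈ T.ptRoots PW :=
  ⟨w, h0, hw, c, hc, hc0, fun _ => rfl⟩

end TS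

open TS

variable [FiniteDimensional F U] [FiniteDimensional F W]

theorem TF.range_pt (h : TF T PU PW P) {N : Module.End F V} {w : W} (h0 : w ≠ 0) {c : F} (hc : c ≠ 0)
    (e : ∀ x, N x = T.τ (-(PW.ε * c) • T.cB PW w x) w) : LinearMap.range N = T.col w := by
  obtain ⟨w', hw'⟩ := exists_B_eq h.ndW h0 (-(PW.ε * c))⁻¹
  refine le_antisymm (by rintro _ ⟨x, rfl⟩; exact ⟨_, (e x).symm⟩) ?_
  rintro _ ⟨u, rfl⟩
  refine ⟨T.τ u w', ?_⟩
  rw [e, cB_τ, hw', smul_smul, mul_inv_cancel₀ (neg_ne_zero.2 (mul_ne_zero PW.ε_ne_zero hc)),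
    one_smul]
  rfl

theorem TF.sing_of_col (h : TF T PU PW P) (hU : ∃ u : U, u ≠ 0) {w : W}
    (e : ∀ u u', P.B (T.τ u w) (T.τ u' w) = 0) : PW.q w ∈ PW.Λ := by
  obtain ⟨u, hu⟩ := hU
  obtain ⟨u', hu'⟩ := exists_B_eq h.ndU hu 1
  exact h.maxW w (by simpa [h.B_τ, hu'] using e u u')

namespace Ctx

variable (h : Ctx T PU PW P M)
include h

theorem not_EG_le (ha : 2 ≤ finrank F U) : ¬ EG P ≤ T.TG := fun hc => by
  obtain ⟨w, h0, hw⟩ := h.exists_sing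
  obtain ⟨-, y, y', -, -, a3, -, a5, -, a7⟩ := h.exists_perp_pair h0 hw
  obtain ⟨u, hu⟩ := h.nontriv
  obtain ⟨u', hu'⟩ := exists_notMem_span ha u
  obtain ⟨u₂, hu₂⟩ := exists_B_ne h.tf.ndU (d := u') (by rintro rfl; simp at hu')
  obtain ⟨k, hk, e⟩ := has_eu_EG (h.tf.singW u hw) (w := T.τ u₂ y) (by simp [h.tf.B_τ, a3])
    (c := P.q (T.τ u₂ y)) (by simp)
  obtain ⟨α, β, e'⟩ := hc hk
  have hne := B_ne_zero_symm hu₂
  refine T.not_pure (u := PU.B u₂ u' • u) (w := w) (u' := u') (w' := y') (smul_ne_zero hne hu) h0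
    (by rwa [Submodule.span_singleton_smul_eq (Ne.isUnit hne)]) (fun e => ?_) (α u') (β y') ?_
  · obtain ⟨a, rfl⟩ := Submodule.mem_span_singleton.1 e
    simp [PW.eq_zero_symm a3] at a7
  · simp [← e', e, eu_apply, h.tf.B_τ, a5, a7]

variable (hR : ∀ s ∈ T.levF PW M, ∃ c : F, s = c • LinearMap.id)
include hR

theorem roots_pt (hp : ∀ g ∈ M, ∀ N ∈ T.ptRoots PW, ∀ k ∈ T.TG ⊓ EG P, (∀ x, k x = x + cN g N x) →
    ∃ β : W ≃ₗ[F] W, ∀ u y, k (T.τ u y) = T.τ u (β y)) :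
    Roots P (T.TG ⊓ EG P) M (T.ptRoots PW) where
  hHM := h.hM
  hI := fun _ => h.isom
  nd := h.tf.nd
  sq := by
    rintro N ⟨w, -, hw, c, -, -, e⟩ x
    simp [e, PW.self_eq_zero hw]
  has := by
    rintro N ⟨w, -, hw, c, hc, -, e⟩
    refine (h.tf.has_op_eu hw (v := 0) (by simp) (PW.Λ.sub_mem hc PW.q_zero)).congr fun x => ?_
    simp [op_eu, e, cB_zero]
  rank := by
    rintro N ⟨w, h0, -, c, -, hc, e⟩ N' ⟨w', h0', -, c', -, hc', e'⟩
    rw [h.tf.range_pt h0 hc e, h.tf.range_pt h0' hc' e', T.finrank_col h0, T.finrank_col h0']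
  p1 := by
    rintro g hg N ⟨w, h0, hw, c, -, hc, e⟩ N' ⟨w', h0', hw', c', -, hc', e'⟩ h1
    refine ⟨h.mem_TG_of_col hR h0 hw hw' hg fun u => ?_, h.hI hg⟩
    obtain ⟨x, hx⟩ : T.τ u w ∈ LinearMap.range N := h.tf.range_pt h0 hc e ▸ T.τ_mem_col u w
    rw [← hx, ← h.tf.range_pt h0' hc' e']
    exact h1 x
  p2 := by
    rintro g hg N hN ⟨k, hk, e₁⟩
    have := T.finite
    obtain ⟨β, hβ⟩ := hp g hg N hN k hk e₁
    obtain ⟨w, h0, hw, c, -, hc, e⟩ := hN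
    have h1 : LinearMap.range (cN g N) = (T.col w).map (g : V →ₗ[F] V) := by
      rw [range_cN, h.tf.range_pt h0 hc e]
    have h2 : ∀ u y, cN g N (T.τ u y) = T.τ u (β y - y) := fun u y => by
      rw [map_sub, ← hβ, e₁, add_sub_cancel_left]
    obtain ⟨u₀, hu₀⟩ := h.nontriv
    obtain ⟨y, hy⟩ : ∃ y, β y - y ≠ 0 := by
      by_contra hc
      push Not at hc
      have h3 : cN g N = 0 := T.lext fun u y => by simp [h2, hc]
      have h4 : g (T.τ u₀ w) ∈ LinearMap.range (cN g N) := h1 ▸ ⟨_, T.τ_mem_col _ _, rfl⟩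
      simp [h3, T.τ_eq_zero, hu₀, h0] at h4
    have h3 : T.col (β y - y) = LinearMap.range (cN g N) :=
      Submodule.eq_of_le_of_finrank_eq (by rintro _ ⟨u, rfl⟩; exact ⟨_, h2 u y⟩)
        (by rw [h1, LinearEquiv.finrank_map_eq, T.finrank_col hy, T.finrank_col h0])
    refine ⟨h.mem_TG_of_col hR h0 hw (w' := β y - y) (h.tf.sing_of_col h.nontriv fun u u' => ?_) hg
      fun u => ?_, h.hI hg⟩
    · obtain ⟨_, ⟨a, rfl⟩, ha⟩ : T.τ u (β y - y) ∈ (T.col w).map (g : V →ₗ[F] V) :=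
        h1 ▸ h3 ▸ T.τ_mem_col _ _
      obtain ⟨_, ⟨b, rfl⟩, hb⟩ : T.τ u' (β y - y) ∈ (T.col w).map (g : V →ₗ[F] V) :=
        h1 ▸ h3 ▸ T.τ_mem_col _ _
      rw [← ha, ← hb]
      exact (B_isom (h.isom hg) _ _).trans (by simp [h.tf.B_τ, PW.self_eq_zero hw])
    · rw [h3, h1]; exact ⟨_, T.τ_mem_col _ _, rfl⟩

theorem roots_pt_of_lt (hab : finrank F U < finrank F W) :
    Roots P (T.TG ⊓ EG P) M (T.ptRoots PW) :=
  h.roots_pt hR fun g hg N hN k hk e => by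
    have := T.finite
    obtain ⟨α, β, e'⟩ := hk.1
    obtain ⟨w, h0, hw, c, -, hc, e₁⟩ := hN
    obtain ⟨c, hc⟩ := scalar_of_rank e' e (by
      rwa [range_cN, h.tf.range_pt h0 hc e₁, LinearEquiv.finrank_map_eq, T.finrank_col h0])
    exact of_scalar e' hc h.nontriv

omit hR in
theorem ptRoots_nonempty (hl : ∃ l ∈ PW.Λ, l ≠ 0) : (T.ptRoots PW).Nonempty := by
  obtain ⟨w, h0, hw⟩ := h.exists_sing
  obtain ⟨l, hl, hl0⟩ := hl
  exact ⟨_, ptRoots_mem h0 hw hl hl0⟩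

omit hR in
theorem le_TG_of_small (hr : Roots P (T.TG ⊓ EG P) M (T.ptRoots PW)) (hl : ∃ l ∈ PW.Λ, l ≠ 0)
    {k : ℕ} (hk : IsoK PW k) (hab : finrank F U + 1 + k ≤ finrank F W) : M ≤ T.TG := by
  have := T.finite
  intro g₀ hg₀
  by_contra hc
  obtain ⟨g, N, N₀, hm⟩ := exists_isMax (H := T.TG ⊓ EG P) (h.ptRoots_nonempty hl)
    ⟨g₀, hg₀, fun e => hc e.1⟩
  obtain ⟨z, z1, z2⟩ := hm.exists_notMem hr
  obtain ⟨w, h0, hw, c, hc, hc0, e⟩ := hm.hN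
  obtain ⟨w₁, a1, a2, a3⟩ := hk (perp PW ((F ∙ w) ⊔ LinearMap.range (T.cU.flip z))) (by
    have := finrank_le_perp (P := PW) ((F ∙ w) ⊔ LinearMap.range (T.cU.flip z))
    have := finrank_sup_le' (F ∙ w) (LinearMap.range (T.cU.flip z))
    have := finrank_span_singleton_le (F := F) w
    have := LinearMap.finrank_range_le (T.cU.flip z)
    rw [Subspace.dual_finrank_eq] at this
    omega)
  rw [perp_sup] at a1
  have b1 : PW.B w₁ w = 0 := PW.eq_zero_symm (mem_perp_singleton.1 a1.1)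
  have b2 : T.cB PW w₁ z = 0 := by
    refine (Module.forall_dual_apply_eq_zero_iff F _).1 fun ψ => ?_
    rw [cB, T.cW_cU]
    exact PW.eq_zero_symm (a1.2 _ ⟨ψ, rfl⟩)
  refine z2 (hm.mem_root hr (ptRoots_mem a2 a3 hc hc0) ?_ z1 ?_)
  · rintro _ ⟨x, rfl⟩ -
    simp [e, nS_apply, b1]
  · simp [nS_apply, show T.cW (PW.B w₁) z = 0 from b2]

end Ctx

theorem TF.isMaximalIn (h : TF T PU PW P) (hK : ∃ k, IsoK PW k ∧ k + 2 ≤ finrank F W)
    (h3 : 3 ≤ finrank F W) (hE : Extr PW) (ha : 2 ≤ finrank F U)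
    (H : ∀ M, Ctx T PU PW P M → ¬ EG P ≤ M → M ≤ T.TG) :
    Geo.IsMaximalIn (EG P) (T.TG ⊓ EG P) := by
  have hU : ∃ u : U, u ≠ 0 := by
    have := Module.finrank_pos_iff.1 (show 0 < finrank F U by omega)
    exact exists_ne 0
  refine isMaximalIn_of inf_le_right (fun hc => Ctx.not_EG_le
    (M := EG P) ⟨h, inf_le_right, le_rfl, hK, h3, hE, hU⟩ ha (hc.trans inf_le_left))
    fun M h1 h2 ⟨g, hg, hg'⟩ => ?_
  by_contra hc
  exact hg' ⟨H M ⟨h, h1, h2, hK, h3, hE, hU⟩ hc hg, h2 hg⟩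

/-- The case of two symplectic factors. -/
theorem TF.isMaximalIn_alt {PU : PQ F U (RingHom.id F)} {PW : PQ F W (RingHom.id F)}
    {P : PQ F V (RingHom.id F)} (h : TF T PU PW P) (hU : ∀ c, c ∈ PU.Λ) (hW : ∀ c, c ∈ PW.Λ)
    (ha : 2 ≤ finrank F U) (hab : finrank F U + 2 ≤ finrank F W) (hb : 5 ≤ finrank F W)
    (hex : 3 ≤ finrank F U ∨ ∃ c : F, c ≠ 0 ∧ c ≠ 1) :
    Geo.IsMaximalIn (EG P) (T.TG ⊓ EG P) := by
  have hK : IsoK PW 1 := fun X hX => by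
    obtain ⟨x, hx, hx0⟩ := Submodule.exists_mem_ne_zero_of_ne_bot
      (p := X) (fun e => by simp [e] at hX)
    exact ⟨x, hx, hx0, hW _⟩
  refine h.isMaximalIn ⟨1, hK, by omega⟩ (by omega) (extr_of_top hW) ha fun M hM hne => ?_
  have hG : Good (T.grpU M) := good_of_lambda hM.EG_le_grpU h.ndU h.maxU
    (by obtain ⟨u, hu⟩ := hM.nontriv; exact ⟨u, hu, hU _⟩) (hU 1) one_ne_zero
    (hex.imp_right fun ⟨c, h1, h2⟩ => ⟨c, hU c, h1, h2⟩) (Or.inr fun u => hU _)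
  have hR : ∀ s ∈ T.levF PW M, ∃ c : F, s = c • LinearMap.id := fun s hs =>
    hM.algF_scalar hG hne (hM.levF_le_algF hb hs)
  exact hM.le_TG_of_small (hM.roots_pt_of_lt hR (by omega)) ⟨1, hW 1, one_ne_zero⟩ hK (by omega)

end H11.Ten
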