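import Mathlib
import Cfsg.Agent.Base
import Cfsg.Agent.Lib.Tensor.Points

/-!
Tensor factors as subalgebras of `End V`, partial traces.
-/

set_option autoImplicit false
set_option linter.unusedSectionVars false
set_option linter.unusedSimpArgs false

namespace H11.Ten

open Module Cfsg H97 H28

section Conj

variable {F V : Type*} [Field F] [AddCommGroup V] [Module F V]

theorem cN_mul (g h : V ≃ₗ[F] V) (N : Module.End F V) : cN (g * h) N = cN g (cN h N) := by
  ext x; simp [cN_apply]

theorem cN_one (N : Module.End F V) : cN 1 N = N := rfl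

theorem cN_inv_cN (g : V ≃ₗ[F] V) (N : Module.End F V) : cN g⁻¹ (cN g N) = N := by
  rw [← cN_mul, inv_mul_cancel, cN_one]

theorem cN_cN_inv (g : V ≃ₗ[F] V) (N : Module.End F V) : cN g (cN g⁻¹ N) = N := by
  rw [← cN_mul, mul_inv_cancel, cN_one]

/-- Conjugation as an algebra homomorphism. -/
def cA (g : V ≃ₗ[F] V) : Module.End F V →ₐ[F] Module.End F V :=
  AlgHom.ofLinearMap
    { toFun := cN g
      map_add' := fun a b => by ext x; simp [cN_apply]
      map_smul' := fun c a => by ext x; simp [cN_apply] }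
    (by ext x; simp [cN_apply]) fun a b => by ext x; simp [cN_apply]

theorem cA_apply (g : V ≃ₗ[F] V) (N : Module.End F V) : cA g N = cN g N := rfl

theorem cN_of_commute {g : V ≃ₗ[F] V} {N : Module.End F V} (h : Commute (g : Module.End F V) N) :
    cN g N = N := by
  ext x
  have := LinearMap.congr_fun h.eq (g⁻¹ x)
  simpa [cN_apply, le_apply_inv] using this

/-- The action on linear maps `End V → End V`. -/
def act (g : V ≃ₗ[F] V) (f : Module.End F (Module.End F V)) : Module.End F (Module.End F V) :=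
  (cA g).toLinearMap ∘ₗ f ∘ₗ (cA g⁻¹).toLinearMap

theorem act_apply (g : V ≃ₗ[F] V) (f : Module.End F (Module.End F V)) (a : Module.End F V) :
    act g f a = cN g (f (cN g⁻¹ a)) := rfl

theorem act_one (f : Module.End F (Module.End F V)) : act 1 f = f := rfl

theorem act_mul (g h : V ≃ₗ[F] V) (f : Module.End F (Module.End F V)) :
    act (g * h) f = act g (act h f) := by
  ext1 a; simp [act_apply, cN_mul]

theorem act_injective (g : V ≃ₗ[F] V) : Function.Injective (act g) := fun f f' h => by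
  simpa [← act_mul, act_one] using congrArg (act g⁻¹) h

theorem eq_zero_of_trace [FiniteDimensional F V] {z : Module.End F V}
    (h : ∀ y, LinearMap.trace F V (z * y) = 0) : z = 0 := by
  ext w
  refine (Module.forall_dual_apply_eq_zero_iff F _).1 fun φ => ?_
  have := h (φ.smulRight w)
  rwa [show z * φ.smulRight w = φ.smulRight (z w) by ext; simp, LinearMap.trace_smulRight] at this

theorem exists_tr_one [FiniteDimensional F V] [Nontrivial V] :
    ∃ e : Module.End F V, LinearMap.trace F V e = 1 := by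
  obtain ⟨u, hu⟩ := exists_ne (0 : V)
  obtain ⟨φ, hφ⟩ := exists_dual_of_ne_zero (F := F) hu 1
  exact ⟨φ.smulRight u, by rwa [LinearMap.trace_smulRight]⟩

end Conj

namespace TS

variable {F U W V : Type*} [Field F] [AddCommGroup U] [Module F U] [AddCommGroup W]
  [Module F W] [AddCommGroup V] [Module F V] (T : TS F U W V)

/-- The image of a tensor structure under an automorphism. -/
noncomputable def map (g : V ≃ₗ[F] V) : TS F U W V where
  τ := T.τ.compr₂ g.toLinearMap
  h := T.h.compr₂_linearEquiv g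

@[simp] theorem map_τ (g : V ≃ₗ[F] V) (u : U) (w : W) : (T.map g).τ u w = g (T.τ u w) := rfl

theorem map_map (g h : V ≃ₗ[F] V) : (T.map g).map h = T.map (h * g) := rfl

theorem map_one : T.map 1 = T := rfl

theorem map_cW (g : V ≃ₗ[F] V) (φ : Dual F W) (x : V) : (T.map g).cW φ x = T.cW φ (g⁻¹ x) := by
  have : (T.map g).cW φ = T.cW φ ∘ₗ ((g⁻¹ : V ≃ₗ[F] V) : V →ₗ[F] V) := (T.map g).lext fun u w => by
    rw [cW_τ]; simp [le_inv_apply_apply]
  exact LinearMap.congr_fun this x

theorem map_op (g : V ≃ₗ[F] V) (s : Module.End F U) (x : Module.End F W) :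
    (T.map g).op s x = cN g (T.op s x) :=
  (T.map g).lext fun u w => by rw [op_τ]; simp [cN_apply, le_inv_apply_apply]

theorem map_opE (g : V ≃ₗ[F] V) (α : U ≃ₗ[F] U) (β : W ≃ₗ[F] W) :
    (T.map g).opE α β = g * T.opE α β * g⁻¹ :=
  LinearEquiv.toLinearMap_injective (T.map_op g α β)

theorem mem_map_col {g : V ≃ₗ[F] V} {w : W} {x : V} : x ∈ (T.map g).col w ↔ g⁻¹ x ∈ T.col w :=
  ⟨by rintro ⟨u, rfl⟩; exact ⟨u, (le_inv_apply_apply g _).symm⟩,
    fun ⟨u, hu⟩ => ⟨u, by rw [← le_apply_inv g x, ← hu]; rfl⟩⟩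

/-- The algebra `1 ⊗ End W`. -/
noncomputable def inW : Module.End F W →ₐ[F] Module.End F V :=
  AlgHom.ofLinearMap
    { toFun := T.op LinearMap.id
      map_add' := fun a b => T.lext fun u w => by simp
      map_smul' := fun c a => T.lext fun u w => by simp }
    (T.lext fun u w => by simp) fun a b => T.lext fun u w => by simp

@[simp] theorem inW_τ (x : Module.End F W) (u : U) (w : W) : T.inW x (T.τ u w) = T.τ u (x w) :=
  T.op_τ _ _ _ _

/-- The algebra `End U ⊗ 1`. -/
noncomputable def inU : Module.End F U →ₐ[F] Module.End F V := T.flip.inW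

@[simp] theorem inU_τ (s : Module.End F U) (u : U) (w : W) : T.inU s (T.τ u w) = T.τ (s u) w :=
  T.flip.inW_τ _ _ _

theorem op_eq (s : Module.End F U) (x : Module.End F W) : T.op s x = T.inU s * T.inW x :=
  T.lext fun u w => by simp

theorem op_mul (s s' : Module.End F U) (x x' : Module.End F W) :
    T.op s x * T.op s' x' = T.op (s * s') (x * x') := T.lext fun u w => by simp

theorem commute_in (s : Module.End F U) (x : Module.End F W) : Commute (T.inU s) (T.inW x) :=
  T.lext fun u w => by simp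

theorem opE_one_coe (β : W ≃ₗ[F] W) : (T.opE 1 β : Module.End F V) = T.inW β := rfl

theorem inW_smulRight (φ : Dual F W) (w : W) (x : V) :
    T.inW (φ.smulRight w) x = T.τ (T.cW φ x) w := by
  have : T.inW (φ.smulRight w) = T.τ.flip w ∘ₗ T.cW φ := T.lext fun u y => by simp
  exact LinearMap.congr_fun this x

theorem op_eq_zero {s : Module.End F U} {x : Module.End F W} : T.op s x = 0 ↔ s = 0 ∨ x = 0 := by
  refine ⟨fun h => ?_, by rintro (rfl | rfl) <;> exact T.lext fun u w => by simp⟩
  by_contra hc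
  push Not at hc
  obtain ⟨u, hu⟩ := DFunLike.ne_iff.1 hc.1
  obtain ⟨w, hw⟩ := DFunLike.ne_iff.1 hc.2
  exact (T.τ_eq_zero.1 (by simpa using LinearMap.congr_fun h (T.τ u w))).elim hu hw

theorem map_inW (g : V ≃ₗ[F] V) (x : Module.End F W) : (T.map g).inW x = cN g (T.inW x) :=
  T.map_op g _ x

theorem exists_inU [Nontrivial W] {a : Module.End F V} (h : ∀ y, Commute a (T.inW y)) :
    ∃ s, a = T.inU s := by
  obtain ⟨w₀, hw⟩ := exists_ne (0 : W)
  obtain ⟨φ, hφ⟩ := exists_dual_of_ne_zero (F := F) hw 1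
  refine ⟨T.cW φ ∘ₗ a ∘ₗ T.τ.flip w₀, T.lext fun u w => ?_⟩
  have := LinearMap.congr_fun (h (φ.smulRight w)).eq (T.τ u w₀)
  simp only [Module.End.mul_apply, inW_τ, LinearMap.smulRight_apply, hφ, one_smul] at this
  rw [this, inW_smulRight, inU_τ]
  rfl

/-- Two tensor structures defining the same tensor decomposition. -/
def Same (T T' : TS F U W V) : Prop :=
  ∃ (α : U ≃ₗ[F] U) (β : W ≃ₗ[F] W), ∀ u w, T'.τ u w = T.τ (α u) (β w)

/-- Two tensor structures with commuting second factors. -/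
def Comm (T T' : TS F U W V) : Prop := ∀ x y, Commute (T.inW x) (T'.inW y)

theorem Same.refl : T.Same T := ⟨1, 1, fun _ _ => rfl⟩

variable {T} {T' T'' : TS F U W V}

theorem Same.symm (h : T.Same T') : T'.Same T := by
  obtain ⟨α, β, e⟩ := h
  exact ⟨α⁻¹, β⁻¹, fun u w => by rw [e, le_apply_inv, le_apply_inv]⟩

theorem Same.trans (h : T.Same T') (h' : T'.Same T'') : T.Same T'' := by
  obtain ⟨α, β, e⟩ := h
  obtain ⟨α', β', e'⟩ := h'
  exact ⟨α * α', β * β', fun u w => by rw [e', e]; rfl⟩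

theorem Same.map (h : T.Same T') (g : V ≃ₗ[F] V) : (T.map g).Same (T'.map g) := by
  obtain ⟨α, β, e⟩ := h
  exact ⟨α, β, fun u w => by simp [e]⟩

theorem same_map_iff {g : V ≃ₗ[F] V} : T.Same (T.map g) ↔ g ∈ T.TG := Iff.rfl

theorem op_of_eq {α : U ≃ₗ[F] U} {β : W ≃ₗ[F] W} (e : ∀ u w, T'.τ u w = T.τ (α u) (β w))
    (s : Module.End F U) (x : Module.End F W) : T'.op s x = T.op (cN α s) (cN β x) :=
  T'.lext fun u w => by rw [op_τ, e, e, op_τ]; simp [cN_apply, le_inv_apply_apply]

theorem Same.inW (h : T.Same T') (x : Module.End F W) : ∃ y, T'.inW x = T.inW y := by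
  obtain ⟨α, β, e⟩ := h
  exact ⟨cN β x, T'.lext fun u w => by
    rw [inW_τ, e, e, inW_τ]; simp [cN_apply, le_inv_apply_apply]⟩

theorem Same.col (h : T.Same T') (w : W) : ∃ w', T'.col w = T.col w' := by
  obtain ⟨α, β, e⟩ := h
  refine ⟨β w, le_antisymm ?_ ?_⟩
  · rintro _ ⟨u, rfl⟩; exact ⟨α u, (e u w).symm⟩
  · rintro _ ⟨u, rfl⟩; exact ⟨α.symm u, by simpa using e (α.symm u) w⟩

theorem Comm.symm (h : T.Comm T') : T'.Comm T := fun x y => (h y x).symm

theorem Comm.of_same (h : T.Comm T') (h' : T'.Same T'') : T.Comm T'' := fun x y => by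
  obtain ⟨z, hz⟩ := h'.inW y
  exact hz ▸ h x z

theorem Comm.map (h : T.Comm T') (g : V ≃ₗ[F] V) : (T.map g).Comm (T'.map g) := fun x y => by
  rw [map_inW, map_inW]
  exact (h x y).map (cA g)

theorem same_of_commute [Nontrivial W] {g : V ≃ₗ[F] V}
    (h : ∀ y, Commute (g : Module.End F V) (T.inW y)) : T.Same (T.map g) := by
  obtain ⟨s, hs⟩ := T.exists_inU h
  obtain ⟨s', hs'⟩ := T.exists_inU (a := ((g⁻¹ : V ≃ₗ[F] V) : Module.End F V)) fun y => by
    ext x
    have := LinearMap.congr_fun (h y).eq (g⁻¹ x)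
    simp only [Module.End.mul_apply, LinearEquiv.coe_coe, le_apply_inv] at this ⊢
    rw [← this, le_inv_apply_apply]
  obtain ⟨w, hw⟩ := exists_ne (0 : W)
  have e : ∀ u w, g (T.τ u w) = T.τ (s u) w := fun u w => by
    simpa using LinearMap.congr_fun hs (T.τ u w)
  have e' : ∀ u w, g⁻¹ (T.τ u w) = T.τ (s' u) w := fun u w => by
    simpa using LinearMap.congr_fun hs' (T.τ u w)
  refine ⟨LinearEquiv.ofLinear s s' (LinearMap.ext fun u => T.col_injective hw ?_)
    (LinearMap.ext fun u => T.col_injective hw ?_), 1, e⟩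
  · change T.τ (s (s' u)) w = T.τ u w
    rw [← e, ← e', le_apply_inv]
  · change T.τ (s' (s u)) w = T.τ u w
    rw [← e', ← e, le_inv_apply_apply]

theorem not_comm_self [Nontrivial U] [FiniteDimensional F W] (hk : 2 ≤ finrank F W) :
    ¬ T.Comm T := fun h => by
  obtain ⟨u, hu⟩ := exists_ne (0 : U)
  have := Module.finrank_pos_iff.1 (show 0 < finrank F W by omega)
  obtain ⟨w, hw⟩ := exists_ne (0 : W)
  obtain ⟨y, hy⟩ := exists_notMem_span hk w
  obtain ⟨φ, h1, h2⟩ := exists_dual_of_notMem_span hy 1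
  obtain ⟨ψ, h3⟩ := exists_dual_of_ne_zero (F := F) hw 1
  have := congrArg (T.cW ψ)
    (LinearMap.congr_fun (h (φ.smulRight w) (φ.smulRight y)).eq (T.τ u y))
  simp [h1, h2, h3, hu] at this

variable [FiniteDimensional F U] [FiniteDimensional F W]

theorem col_eq_of_le {w w' : W} (hw : w ≠ 0) [Nontrivial U] (h : T.col w ≤ T'.col w') :
    T.col w = T'.col w' := by
  have := T.finite
  refine Submodule.eq_of_le_of_finrank_le h ?_
  rw [T.finrank_col hw]
  exact (LinearMap.finrank_range_le _)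

theorem same_of_col [Nontrivial U] [Nontrivial W] (h : ∀ w, ∃ w', T'.col w ≤ T.col w') :
    T.Same T' := by
  let g : V ≃ₗ[F] V := T.h.equiv.symm.trans T'.h.equiv
  have hg : ∀ u w, g (T.τ u w) = T'.τ u w := fun u w => by simp [g]
  obtain ⟨α, β, e⟩ := T.mem_TG_of_col (g := g) (Module.finBasis F W) ⟨0, Module.finrank_pos⟩
    (fun i => (h _).imp fun w' hw' u => hw' (hg _ _ ▸ T'.τ_mem_col _ _))
    fun i _ => (h _).imp fun w' hw' u => hw' (hg _ _ ▸ T'.τ_mem_col _ _)
  exact ⟨α, β, fun u w => (hg u w).symm.trans (e u w)⟩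

/-- An element of `1 ⊗ End W` whose image is contained in a column of another structure. -/
theorem col_eq_of_inW [Nontrivial U] {x : Module.End F W} (hx : x ≠ 0) {X : Submodule F V}
    (hX : finrank F X ≤ finrank F U) (h : LinearMap.range (T.inW x) ≤ X) :
    ∃ w, w ≠ 0 ∧ T.col w = X ∧ LinearMap.range (T.inW x) = X := by
  have := T.finite
  obtain ⟨y, hy⟩ := DFunLike.ne_iff.1 hx
  have h1 : T.col (x y) ≤ LinearMap.range (T.inW x) := by
    rintro _ ⟨u, rfl⟩; exact ⟨T.τ u y, by simp⟩
  have h2 : T.col (x y) = X :=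
    Submodule.eq_of_le_of_finrank_le (h1.trans h) (by rwa [T.finrank_col hy])
  exact ⟨x y, hy, h2, le_antisymm h (h2 ▸ h1)⟩

theorem same_of_inW [Nontrivial U] [Nontrivial W] (h : ∀ x, ∃ y, T'.inW x = T.inW y) :
    T.Same T' := same_of_col fun w => by
  by_cases hw : w = 0
  · exact ⟨0, by rintro _ ⟨u, rfl⟩; simp [hw]⟩
  obtain ⟨φ, hφ⟩ := exists_dual_of_ne_zero (F := F) hw 1
  obtain ⟨y, hy⟩ := h (φ.smulRight w)
  obtain ⟨u, hu⟩ := exists_ne (0 : U)
  obtain ⟨w', -, h1, -⟩ := T.col_eq_of_inW (x := y) (X := T'.col w) (by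
      rintro rfl
      simpa [hφ, T'.τ_eq_zero, hu, hw] using LinearMap.congr_fun hy (T'.τ u w))
    (T'.finrank_col hw).le (by rintro _ ⟨z, rfl⟩; rw [← hy, inW_smulRight]; exact ⟨_, rfl⟩)
  exact ⟨w', h1.ge⟩

variable (T)

theorem end_ext {M : Type*} [AddCommGroup M] [Module F M] {f g : Module.End F V →ₗ[F] M}
    (h : ∀ s x, f (T.op s x) = g (T.op s x)) : f = g := by
  ext1 a
  let b := Module.finBasis F U
  have : a = ∑ i, ∑ j, T.op ((b.coord j).smulRight (b i)) (T.cU (b.coord i) ∘ₗ a ∘ₗ T.τ (b j)) :=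
    T.lext fun u w => by
      rw [T.eq_sum' b (a _)]
      simp only [LinearMap.sum_apply, op_τ]
      refine Finset.sum_congr rfl fun i _ => ?_
      conv_lhs => rw [← b.sum_repr u]
      simp only [map_sum, map_smul, LinearMap.sum_apply, LinearMap.smul_apply,
        LinearMap.smulRight_apply, LinearMap.comp_apply, Basis.coord_apply]
  rw [this]
  simp [h]

theorem trace_op (s : Module.End F U) (x : Module.End F W) :
    LinearMap.trace F V (T.op s x) = LinearMap.trace F U s * LinearMap.trace F W x := by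
  have := T.finite
  have : T.op s x = T.h.equiv.conj (TensorProduct.map s x) := T.lext fun u w => by
    simp [LinearEquiv.conj_apply]
  rw [this, LinearMap.trace_conj', LinearMap.trace_tensorProduct']

/-- The partial trace over `U`. -/
noncomputable def ptr : Module.End F V →ₗ[F] Module.End F W where
  toFun a := ∑ i, T.cU ((Module.finBasis F U).coord i) ∘ₗ a ∘ₗ T.τ (Module.finBasis F U i)
  map_add' a b := by simp [LinearMap.comp_add, LinearMap.add_comp, Finset.sum_add_distrib]
  map_smul' c a := by simp [LinearMap.comp_smul, LinearMap.smul_comp, Finset.smul_sum]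

theorem ptr_op (s : Module.End F U) (x : Module.End F W) :
    T.ptr (T.op s x) = LinearMap.trace F U s • x := by
  classical
  ext w
  simp [ptr, LinearMap.trace_eq_matrix_trace F (Module.finBasis F U), Matrix.trace,
    LinearMap.toMatrix_apply, Finset.sum_smul]

theorem trace_ptr (a : Module.End F V) (y : Module.End F W) :
    LinearMap.trace F W (T.ptr a * y) = LinearMap.trace F V (a * T.inW y) := by
  have : LinearMap.trace F W ∘ₗ LinearMap.mulRight F y ∘ₗ T.ptr =
      LinearMap.trace F V ∘ₗ LinearMap.mulRight F (T.inW y) := T.end_ext fun s x => by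
    have : T.op s x * T.inW y = T.op s (x * y) := T.op_mul s 1 x y
    simp [ptr_op, this, trace_op]
  exact LinearMap.congr_fun this a

/-- The projection onto `1 ⊗ End W`. -/
noncomputable def Θ : Module.End F (Module.End F V) := T.inW.toLinearMap ∘ₗ T.ptr

theorem Θ_apply (a : Module.End F V) : T.Θ a = T.inW (T.ptr a) := rfl

theorem Θ_op (s : Module.End F U) (x : Module.End F W) :
    T.Θ (T.op s x) = LinearMap.trace F U s • T.inW x := by rw [Θ_apply, ptr_op, map_smul]

theorem Θ_map (g : V ≃ₗ[F] V) : (T.map g).Θ = act g T.Θ := (T.map g).end_ext fun s x => by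
  rw [Θ_op, act_apply, map_op, cN_inv_cN, Θ_op, map_inW]
  exact (map_smul (cA g) _ _).symm

variable {T}

theorem Same.Θ_eq (h : T.Same T') : T'.Θ = T.Θ := by
  obtain ⟨α, β, e⟩ := h
  refine T'.end_ext fun s x => ?_
  rw [Θ_op, op_of_eq e, Θ_op, show cN α s = α.conj s from rfl, LinearMap.trace_conj']
  congr 1
  exact (op_of_eq e _ x).trans (by congr 1; ext u; simp [cN_apply, le_apply_inv])

theorem same_of_Θ [Nontrivial U] [Nontrivial W] (h : T'.Θ = T.Θ) : T.Same T' :=
  same_of_inW fun x => by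
    obtain ⟨e, he⟩ := exists_tr_one (F := F) (V := U)
    exact ⟨_, by rw [← T.Θ_apply (T'.op e x), ← h, Θ_op, he, one_smul]⟩

theorem Comm.Θ_op [Nontrivial W] (h : T.Comm T') (s : Module.End F U) {x : Module.End F W}
    (hx : LinearMap.trace F W x = 0) : T'.Θ (T.op s x) = 0 := by
  rw [Θ_apply, eq_zero_of_trace (z := T'.ptr (T.op s x)) fun y => ?_, map_zero]
  obtain ⟨s', hs'⟩ := T.exists_inU fun z => (h z y).symm
  rw [trace_ptr, hs', show T.op s x * T.inU s' = T.op (s * s') x from
    T.lext fun u w => by simp, trace_op, hx, mul_zero]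

/-- The rank of `s ⊗ x + c ⊗ y` exceeds `dim U` in the mixed case. -/
theorem lt_rank (hk : 3 ≤ finrank F W) {N : Module.End F V} {s : Module.End F U}
    {x y : Module.End F W} {c : F} (hc : c ≠ 0)
    (hN : ∀ u w, N (T.τ u w) = T.τ (s u) (x w) + c • T.τ u (y w)) (hx : Function.Surjective x)
    (hs : ∀ c : F, s ≠ c • LinearMap.id) {w₀ : W} (h0 : y w₀ ∉ F ∙ x w₀) :
    finrank F U < finrank F (LinearMap.range N) := by
  have := T.finite
  by_contra hlt
  obtain ⟨φ, h1, h2⟩ := exists_dual_of_notMem_span h0 1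
  have hinj : Function.Injective (N ∘ₗ T.τ.flip w₀) := by
    rw [injective_iff_map_eq_zero]
    intro u hu
    simpa [hN, h1, h2, hc] using congrArg (T.cW φ) hu
  have h3 : LinearMap.range (N ∘ₗ T.τ.flip w₀) = LinearMap.range N :=
    Submodule.eq_of_le_of_finrank_le (LinearMap.range_comp_le_range _ _)
      (by rw [LinearMap.finrank_range_of_inj hinj]; omega)
  obtain ⟨u, hu⟩ := exists_notMem_of_not_scalar hs
  obtain ⟨ψ, h4, h5⟩ := exists_dual_of_notMem_span hu 1
  obtain ⟨χ, h6, h7, h8⟩ := exists_dual_two hk (x w₀) (y w₀)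
  refine h6 (LinearMap.ext fun w => ?_)
  obtain ⟨w, rfl⟩ := hx w
  obtain ⟨u', hu'⟩ := h3.ge (LinearMap.mem_range_self N (T.τ u w))
  simpa [hN, h4, h5, h7, h8] using (congrArg (fun z => ψ (T.cW χ z)) hu').symm

end TS

end H11.Ten
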