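import Mathlib
import Cfsg.Agent.Base
import Cfsg.Agent.S0752
import Cfsg.Agent.Lib.ClassMax.Ident
import Cfsg.Agent.Lib.Tensor.Ident
import Cfsg.Agent.Lib.Tensor.Points

/-!
Tensor decompositions of forms: translation of the matrix definitions.
-/

set_option autoImplicit false
set_option linter.unusedSectionVars false
set_option linter.unusedSimpArgs false

namespace H11.Ten

open Module Cfsg H97 H28
open scoped Matrix MatrixGroups Kronecker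

section Abstract

variable {F U W V : Type*} [Field F] [AddCommGroup U] [Module F U] [AddCommGroup W]
  [Module F W] [AddCommGroup V] [Module F V] {T : TS F U W V}

/-- A symmetric bilinear form in odd characteristic as pseudo-quadratic data. -/
def symP (h2 : (2 : F) ≠ 0) (B : LinearMap.BilinForm F U) (hS : ∀ x y, B x y = B y x) :
    PQ F U (RingHom.id F) :=
  PQ.ofHerm (fun _ => rfl) 2⁻¹ (by simp only [RingHom.id_apply]; field_simp; norm_num) B hS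

theorem symP_orth {h2 : (2 : F) ≠ 0} {B : LinearMap.BilinForm F U} {hS : ∀ x y, B x y = B y x}
    (hB : B.SeparatingLeft) : IsOrth (symP h2 B hS) :=
  ⟨rfl, h2, hB, fun _ => PQ.ofHerm_q_mem.2⟩

theorem IsOrth.isoK [Finite F] [FiniteDimensional F U] {P : PQ F U (RingHom.id F)} (h : IsOrth P) :
    IsoK P 3 := fun X hX => by
  obtain ⟨x, h1, h2, h3⟩ := isoK_quad (LinearMap.BilinMap.toQuadraticMap P.B) X hX
  exact ⟨x, h1, h2, h.max x (AddSubgroup.mem_bot.1 h3)⟩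

theorem tf_alt_alt {B₁ : LinearMap.BilinForm F U} {h₁ : ∀ x, B₁ x x = 0}
    {B₂ : LinearMap.BilinForm F W} {h₂ : ∀ x, B₂ x x = 0} {Q : QuadraticForm F V}
    (n₁ : B₁.SeparatingLeft) (n₂ : B₂.SeparatingLeft)
    (n : (QuadraticMap.polarBilin Q).SeparatingLeft)
    (e : ∀ u w u' w', QuadraticMap.polar Q (T.τ u w) (T.τ u' w') = B₁ u u' * B₂ w w')
    (hp : ∀ u w, Q (T.τ u w) = 0) : TF T (PQ.ofAlt B₁ h₁) (PQ.ofAlt B₂ h₂) (PQ.ofQuad Q) where
  ndU := n₁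
  ndW := n₂
  nd := n
  B_τ := e
  ε_eq := by simp [PQ.ofAlt, PQ.ofQuad]
  isom := by
    rintro g ⟨α, β, hg⟩ hB
    refine PQ.mem_isom_ofQuad.2 fun x => T.ind (p := fun x => Q (g x) = Q x) x (by simp)
      (fun u w => by rw [hg, hp, hp]) fun x y hx hy => ?_
    have : QuadraticMap.polar Q (g x) (g y) = QuadraticMap.polar Q x y := hB x y
    simp only [QuadraticMap.polar, hx, hy, ← map_add] at this
    linear_combination this
  sing u w _ := AddSubgroup.mem_bot.2 (hp u w)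
  maxU _ _ := trivial
  maxW _ _ := trivial
  hΛ l hl := ⟨0, by simpa using AddSubgroup.mem_bot.1 hl⟩

theorem tf_sym_sym {h2 : (2 : F) ≠ 0} {B₁ : LinearMap.BilinForm F U} {h₁ : ∀ x y, B₁ x y = B₁ y x}
    {B₂ : LinearMap.BilinForm F W} {h₂ : ∀ x y, B₂ x y = B₂ y x} {Q : QuadraticForm F V}
    (n₁ : B₁.SeparatingLeft) (n₂ : B₂.SeparatingLeft)
    (n : (QuadraticMap.polarBilin Q).SeparatingLeft)
    (e : ∀ u w u' w', QuadraticMap.polar Q (T.τ u w) (T.τ u' w') = B₁ u u' * B₂ w w') :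
    TF T (symP h2 B₁ h₁) (symP h2 B₂ h₂) (PQ.ofQuad Q) where
  ndU := n₁
  ndW := n₂
  nd := n
  B_τ := e
  ε_eq := by simp [symP, PQ.ofHerm, PQ.ofQuad]
  isom g _ hB := PQ.mem_isom_ofQuad.2 fun x => by
    have : QuadraticMap.polar Q (g x) (g x) = QuadraticMap.polar Q x x := hB x x
    simpa [QuadraticMap.polar_self, h2] using this
  sing u w h := AddSubgroup.mem_bot.2 (by
    have : QuadraticMap.polar Q (T.τ u w) (T.τ u w) = 0 := (e u w u w).trans h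
    change Q _ = 0
    simpa [QuadraticMap.polar_self, h2] using this)
  maxU _ := PQ.ofHerm_q_mem.2
  maxW _ := PQ.ofHerm_q_mem.2
  hΛ l hl := ⟨0, by simpa using AddSubgroup.mem_bot.1 hl⟩

theorem tf_alt_sym {h2 : (2 : F) ≠ 0} {B₁ : LinearMap.BilinForm F U} {h₁ : ∀ x, B₁ x x = 0}
    {B₂ : LinearMap.BilinForm F W} {h₂ : ∀ x y, B₂ x y = B₂ y x} {B : LinearMap.BilinForm F V}
    {h : ∀ x, B x x = 0} (n₁ : B₁.SeparatingLeft) (n₂ : B₂.SeparatingLeft) (n : B.SeparatingLeft)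
    (e : ∀ u w u' w', B (T.τ u w) (T.τ u' w') = B₁ u u' * B₂ w w') :
    TF T (PQ.ofAlt B₁ h₁) (symP h2 B₂ h₂) (PQ.ofAlt B h) where
  ndU := n₁
  ndW := n₂
  nd := n
  B_τ := e
  ε_eq := by simp [symP, PQ.ofHerm, PQ.ofAlt]
  isom g _ hB := PQ.mem_isom_ofAlt.2 hB
  sing _ _ _ := trivial
  maxU _ _ := trivial
  maxW _ := PQ.ofHerm_q_mem.2
  hΛ l _ := ⟨2⁻¹ * l, by simp only [PQ.ofAlt, RingHom.id_apply]; field_simp; norm_num⟩

theorem tf_herm {σ : F →+* F} {hσ : ∀ a, σ (σ a) = a} {c : F} {hc : c + σ c = 1}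
    {B₁ : U →ₛₗ[σ] U →ₗ[F] F} {h₁ : ∀ x y, σ (B₁ x y) = B₁ y x}
    {B₂ : W →ₛₗ[σ] W →ₗ[F] F} {h₂ : ∀ x y, σ (B₂ x y) = B₂ y x}
    {B : V →ₛₗ[σ] V →ₗ[F] F} {h : ∀ x y, σ (B x y) = B y x}
    (n₁ : B₁.SeparatingLeft) (n₂ : B₂.SeparatingLeft) (n : B.SeparatingLeft)
    (e : ∀ u w u' w', B (T.τ u w) (T.τ u' w') = B₁ u u' * B₂ w w') :
    TF T (PQ.ofHerm hσ c hc B₁ h₁) (PQ.ofHerm hσ c hc B₂ h₂) (PQ.ofHerm hσ c hc B h) where
  ndU := n₁
  ndW := n₂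
  nd := n
  B_τ := e
  ε_eq := by simp [PQ.ofHerm]
  isom g _ hB := PQ.mem_isom_ofHerm.2 hB
  sing u w h := PQ.ofHerm_q_mem.2 ((e u w u w).trans h)
  maxU _ := PQ.ofHerm_q_mem.2
  maxW _ := PQ.ofHerm_q_mem.2
  hΛ l hl := ⟨c * l, by
    have : l + σ l = 0 := hl
    simp only [PQ.ofHerm, map_mul]
    linear_combination (-l) * hc + σ c * this⟩

theorem sep_smul {σ : F →+* F} {B : U →ₛₗ[σ] U →ₗ[F] F} (hB : B.SeparatingLeft) {c : F}
    (hc : c ≠ 0) : (c • B).SeparatingLeft := fun x hx => hB x fun y => by simpa [hc] using hx y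

end Abstract

variable {F : Type*} [Field F] {ι : Type} [Fintype ι] [DecidableEq ι] {n₁ n₂ : ℕ}

theorem formOfGram_gram {σ : F →+* F} {f : (ι → F) → (ι → F) → F}
    (B : (ι → F) →ₛₗ[σ] (ι → F) →ₗ[F] F) (hB : ∀ x y, f x y = B y x) (x y : ι → F) :
    Geo.formOfGram σ (Geo.gramMatrix f) x y = f x y := by
  rw [hB]
  conv_rhs => rw [pi_eq_sum_univ' x, pi_eq_sum_univ' y]
  simp only [Geo.formOfGram, Geo.gramMatrix, hB, map_sum, LinearMap.sum_apply, map_smul,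
    LinearMap.map_smulₛₗ, LinearMap.smul_apply, smul_eq_mul, Finset.mul_sum]
  exact Finset.sum_congr rfl fun a _ => Finset.sum_congr rfl fun b _ => by ring

theorem tensor_pure {σ : F →+* F} {f : (ι → F) → (ι → F) → F}
    {f₁ : (Fin n₁ → F) → (Fin n₁ → F) → F} {f₂ : (Fin n₂ → F) → (Fin n₂ → F) → F}
    {e : ι ≃ Fin n₁ × Fin n₂} {P : GL ι F} (hT : Geo.IsTensorFormStructure σ f f₁ f₂ e P)
    (B₁ : (Fin n₁ → F) →ₛₗ[σ] (Fin n₁ → F) →ₗ[F] F) (h₁ : ∀ x y, f₁ x y = B₁ y x)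
    (B₂ : (Fin n₂ → F) →ₛₗ[σ] (Fin n₂ → F) →ₗ[F] F) (h₂ : ∀ x y, f₂ x y = B₂ y x) :
    ∃ c : F, c ≠ 0 ∧ ∀ u w u' w',
      f ((tsOf e P).τ u w) ((tsOf e P).τ u' w') = c * f₁ u u' * f₂ w w' := by
  obtain ⟨c, hc, h⟩ := hT
  refine ⟨c, hc, fun u w u' w' => ?_⟩
  rw [tsOf_τ, tsOf_τ, h, ← formOfGram_gram B₁ h₁, ← formOfGram_gram B₂ h₂, mul_assoc]
  congr 1
  simp only [Geo.formOfGram, Fintype.sum_prod_type, pure_apply, Matrix.kroneckerMap_apply, map_mul,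
    Finset.sum_mul_sum]
  refine Finset.sum_congr rfl fun a _ => ?_
  refine Finset.sum_congr rfl fun b _ => ?_
  exact Finset.sum_congr rfl fun a' _ => Finset.sum_congr rfl fun b' _ => by ring

theorem tensor_pure_bil {f : (ι → F) → (ι → F) → F}
    {f₁ : (Fin n₁ → F) → (Fin n₁ → F) → F} {f₂ : (Fin n₂ → F) → (Fin n₂ → F) → F}
    {e : ι ≃ Fin n₁ × Fin n₂} {P : GL ι F} (hT : Geo.IsTensorFormStructure id f f₁ f₂ e P)
    (h₁ : Geo.IsBilinearForm f₁) (h₂ : Geo.IsBilinearForm f₂) :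
    ∃ c : F, c ≠ 0 ∧ ∀ u w u' w',
      f ((tsOf e P).τ u w) ((tsOf e P).τ u' w') = (c • bilOf h₁) u u' * bilOf h₂ w w' :=
  tensor_pure (σ := RingHom.id F) hT (bilOf h₁).flip (fun _ _ => rfl) (bilOf h₂).flip fun _ _ => rfl

theorem card_of_equiv (e : ι ≃ Fin n₁ × Fin n₂) : Fintype.card ι = n₁ * n₂ := by
  simpa using Fintype.card_congr e

theorem even_of_symplectic {f : (Fin n₁ → F) → (Fin n₁ → F) → F} (hf : Geo.IsSymplecticForm f) :
    Even n₁ := by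
  obtain ⟨m, k, b, e1, e2, e3, e4⟩ := Cfsg.Agent.S0752.result (bilOf hf.bilinear) hf.alternating
  have hk : k = 0 := by
    by_contra hk
    exact b.ne_zero (.inr ⟨0, Nat.pos_of_ne_zero hk⟩)
      (sep_of_nondeg (B := bilOf hf.bilinear) hf.nondegenerate _ fun y => e4 _ y)
  subst hk
  have := Module.finrank_eq_card_basis b
  exact ⟨m, by simpa using this⟩

theorem isMaximalIn_tensor_sp_sp [Fintype F] {Q : (ι → F) → F}
    (hQ : Geo.IsNondegenerateQuadraticForm Q) (h12 : n₁ < n₂) (h5 : 5 ≤ n₂) (h1 : 0 < n₁)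
    (hex : ¬ (Fintype.card F = 2 ∧ n₁ = 2)) (e : ι ≃ Fin n₁ × Fin n₂) (P : GL ι F)
    {f₁ : (Fin n₁ → F) → (Fin n₁ → F) → F} {f₂ : (Fin n₂ → F) → (Fin n₂ → F) → F}
    (hf₁ : Geo.IsSymplecticForm f₁) (hf₂ : Geo.IsSymplecticForm f₂)
    (hT : Geo.IsTensorFormStructure id (QuadraticMap.polar Q) f₁ f₂ e P)
    (hpure : ∀ (x₁ : Fin n₁ → F) (x₂ : Fin n₂ → F),
      Q ((P : Matrix ι ι F) *ᵥ ((fun a : Fin n₁ × Fin n₂ => x₁ a.1 * x₂ a.2) ∘ e)) = 0) :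
    Geo.IsMaximalIn (Geo.omegaGL Q) (Geo.tensorProductSubgroup n₁ n₂ e P ⊓ Geo.omegaGL Q) := by
  obtain ⟨Q, rfl, hQ'⟩ := exists_quadForm hQ
  obtain ⟨c, hc, h⟩ := tensor_pure_bil hT hf₁.bilinear hf₂.bilinear
  obtain ⟨a, ha⟩ := even_of_symplectic hf₁
  obtain ⟨b, hb⟩ := even_of_symplectic hf₂
  rw [omegaGL_eq hQ' (by rw [card_of_equiv e]; nlinarith), tensorProductSubgroup_eq, ← pull_inf]
  refine isMaximalIn_pull (TF.isMaximalIn_alt (tf_alt_alt (B₁ := c • bilOf hf₁.bilinear)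
    (h₁ := fun x => by simp [bilOf_apply, hf₁.alternating]) (h₂ := hf₂.alternating)
    (sep_smul (sep_of_nondeg hf₁.nondegenerate) hc) (sep_of_nondeg hf₂.nondegenerate) hQ' h hpure)
    (fun _ => trivial) (fun _ => trivial) (by simp; omega) (by simp; omega) (by simpa using h5) ?_)
  by_cases h2 : Fintype.card F = 2
  · left
    have : n₁ ≠ 2 := fun e => hex ⟨h2, e⟩
    simp; omega
  · exact Or.inr (card_ne_two h2)

end H11.Ten
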