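import Mathlib
import Cfsg.Agent.Base
import Cfsg.Agent.Lib.Tensor.Points

/-!
Overgroups of tensor stabilisers in odd characteristic: points; orthogonal times symplectic.
-/

set_option autoImplicit false
set_option linter.unusedSectionVars false
set_option linter.unusedSimpArgs false

namespace H11.Ten

open Module Cfsg H97 H28 TS

section

variable {F U W V : Type*} [Field F] [AddCommGroup U] [Module F U] [AddCommGroup W]
  [Module F W] [AddCommGroup V] [Module F V] {σ : F →+* F} {T : TS F U W V} {PU : PQ F U σ}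
  {PW : PQ F W σ} {P : PQ F V σ} {M : Subgroup (V ≃ₗ[F] V)}
  [FiniteDimensional F U] [FiniteDimensional F W]

theorem TS.mul_le_finrank (T : TS F U W V) {E : Submodule F U} {S : Submodule F V}
    (h : ∀ u ∈ E, ∀ y, T.τ u y ∈ S) : finrank F E * finrank F W ≤ finrank F S := by
  have := T.finite
  let f : TensorProduct F E W →ₗ[F] V := T.h.equiv.toLinearMap ∘ₗ LinearMap.rTensor W E.subtype
  have h1 : Function.Injective f := T.h.equiv.injective.comp
    (Module.Flat.rTensor_preserves_injective_linearMap _ E.injective_subtype)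
  rw [← Module.finrank_tensorProduct, ← LinearMap.finrank_range_of_inj h1]
  refine Submodule.finrank_mono ?_
  rintro _ ⟨x, rfl⟩
  induction x with
  | zero => simp
  | tmul u y => exact h u u.2 y
  | add x y hx hy => rw [map_add]; exact S.add_mem hx hy

theorem TS.τ_inj_right (T : TS F U W V) {u : U} (hu : u ≠ 0) {y y' : W} (h : T.τ u y = T.τ u y') :
    y = y' := T.flip.col_injective hu h

/-- The vectors of `W` orthogonal to the support of a subspace of `V`. -/
def TS.annW (T : TS F U W V) (PW : PQ F W σ) (Y : Submodule F V) : Submodule F W where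
  carrier := {x | ∀ y ∈ Y, T.cB PW x y = 0}
  zero_mem' y _ := by simp [cB_zero]
  add_mem' ha hb y hy := by simp [cB_add, ha y hy, hb y hy]
  smul_mem' c x hx y hy := by simp [cB_smul, hx y hy]

theorem TF.mem_annW (h : TF T PU PW P) (h2 : (2 : F) ≠ 0) {z : V ≃ₗ[F] V} (hz : z ∈ P.Isom)
    {Y : Submodule F V} (hY : ∀ y ∈ Y, z y = -y) {x : W} (hx : ∀ u, z (T.τ u x) = T.τ u x) :
    x ∈ T.annW PW Y := fun y hy => by
  have := h.cB_apply hz hx y
  rw [hY y hy, map_neg] at this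
  exact (smul_eq_zero.1 (show (2 : F) • T.cB PW x y = 0 by
    linear_combination (norm := module) -this)).resolve_left h2

namespace Ctx

variable (h : Ctx T PU PW P M)
include h

theorem eq_opW_of_triv {w : W} (h0 : w ≠ 0) (hw : PW.q w ∈ PW.Λ) {z : V ≃ₗ[F] V} (hz : z ∈ T.TG)
    (h1 : ∀ x, T.cB PW w x = 0 → z x - x ∈ T.col w) :
    ∃ β : W ≃ₗ[F] W, ∀ u y, z (T.τ u y) = T.τ u (β y) := by
  obtain ⟨α, β, e⟩ := hz
  obtain ⟨y, a1, a2⟩ := h.exists_perp_notMem h0 hw
  obtain ⟨φ, b1, b2⟩ := exists_dual_of_notMem_span a2 1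
  refine scalar_of_triv e b2 (fun u => ?_) h.nontriv
  obtain ⟨u', hu'⟩ := h1 (T.τ u y) (by simp [a1])
  simp [← hu', b1]

theorem le_TG_of_odd [Finite F] (h2 : (2 : F) ≠ 0)
    (hr : Roots P (T.TG ⊓ EG P) M (T.ptRoots PW)) (hl : ∃ l ∈ PW.Λ, l ≠ 0) : M ≤ T.TG := by
  have := T.finite
  intro g₀ hg₀
  by_contra hc
  obtain ⟨g, N, N₀, hm⟩ := exists_isMax (H := T.TG ⊓ EG P) (h.ptRoots_nonempty hl)
    ⟨g₀, hg₀, fun e => hc e.1⟩
  obtain ⟨u₀, hu₀⟩ := h.nontriv
  obtain ⟨-, z, z1, -, z3, z4⟩ := hm.exists_invol hr h2 (by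
    rintro z hz N ⟨w, h0, hw, c, -, hc0, e⟩ - z2 z3
    rw [h.tf.range_pt h0 hc0 e] at z3
    obtain ⟨β, hβ⟩ := h.eq_opW_of_triv h0 hw hz.1 fun x hx => z3 x (h.tf.mem_perp_col.2 hx)
    obtain ⟨u, hu⟩ := z3 _ (h.tf.col_le_perp hw (T.τ_mem_col u₀ w))
    obtain ⟨ψ, hψ⟩ := exists_dual_of_ne_zero (F := F) hu₀ 1
    have := congrArg (T.cU ψ) hu
    simp only [LinearMap.flip_apply, cU_τ, map_sub, hβ, hψ, one_smul] at this
    refine ⟨ψ u + 1, fun x => ?_⟩
    rw [e, hβ, show β w = (ψ u + 1) • w by rw [add_smul, this, one_smul, sub_add_cancel],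
      map_smul (T.τ _)])
  obtain ⟨w, h0, hw, c, hc, hc0, e⟩ := hm.hN
  rw [h.tf.range_pt h0 hc0 e] at z3
  obtain ⟨β, hβ⟩ := h.eq_opW_of_triv h0 hw z1.1 fun x hx => z3 x (h.tf.mem_perp_col.2 hx)
  obtain ⟨k, hk, hb⟩ := h.isoK
  obtain ⟨w', -, hw'⟩ := exists_pair h.tf.ndW h0 hw
  have a1 : LinearMap.range ((β : W →ₗ[F] W) - LinearMap.id) ≤ (F ∙ w) ⊔ F ∙ (β w' - w') := by
    rintro _ ⟨y, rfl⟩
    obtain ⟨u, hu⟩ := z3 (T.τ u₀ (y - PW.B w y • w')) (h.tf.mem_perp_col.2 (by simp [hw']))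
    obtain ⟨ψ, hψ⟩ := exists_dual_of_ne_zero (F := F) hu₀ 1
    have := congrArg (T.cU ψ) hu
    simp only [LinearMap.flip_apply, cU_τ, map_sub, hβ, hψ, one_smul, map_smul] at this
    refine Submodule.mem_sup.2 ⟨ψ u • w, Submodule.smul_mem _ _ (Submodule.mem_span_singleton_self w),
      PW.B w y • (β w' - w'), Submodule.smul_mem _ _ (Submodule.mem_span_singleton_self _), ?_⟩
    rw [this]
    simp [smul_sub]
    abel
  obtain ⟨x, b1, b2, b3⟩ := hk (LinearMap.ker ((β : W →ₗ[F] W) - LinearMap.id)) (by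
    have := LinearMap.finrank_range_add_finrank_ker ((β : W →ₗ[F] W) - LinearMap.id)
    have := Submodule.finrank_mono a1
    have := finrank_sup_le' (F ∙ w) (F ∙ (β w' - w'))
    have := finrank_span_singleton_le (F := F) w
    have := finrank_span_singleton_le (F := F) (β w' - w')
    omega)
  have b4 := h.tf.mem_annW h2 (EG_le_isom z1.2) z4 (x := x) fun u => by
    rw [hβ, show β x = x by simpa [sub_eq_zero] using b1]
  obtain ⟨y, y1, y2⟩ := hm.exists_notMem hr
  have b5 : ∀ y ∈ LinearMap.range (cN g N₀),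
      T.nS (-(PW.ε * c) • LinearMap.id) x (PW.B x) y ∈ LinearMap.range (cN g N₀) := fun y hy => by
    simp [nS_apply, show T.cW (PW.B x) y = 0 from b4 y hy]
  exact y2 (hm.mem_root hr (ptRoots_mem b2 b3 hc hc0) (fun d _ => b5 d) y1 (b5 y y1))

end Ctx

end

variable {F U W V : Type*} [Field F] [AddCommGroup U] [Module F U] [AddCommGroup W]
  [Module F W] [AddCommGroup V] [Module F V] {T : TS F U W V} {PU : PQ F U (RingHom.id F)}
  {PW : PQ F W (RingHom.id F)} {P : PQ F V (RingHom.id F)} {M : Subgroup (V ≃ₗ[F] V)}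
  [FiniteDimensional F U] [FiniteDimensional F W]

theorem IsOrth.eq_zero_of_rank_one (hO : IsOrth PU) {n : Module.End F U}
    (hn : ∀ x y, PU.B (n x) y = -PU.B x (n y)) {u : U} (h : ∀ x, n x ∈ F ∙ n u) : n u = 0 := by
  refine hO.nd _ fun y => ?_
  obtain ⟨c, hc⟩ := Submodule.mem_span_singleton.1 (h y)
  have h1 := hn u u
  rw [hO.symm u] at h1
  have h2 : PU.B (n u) u = 0 :=
    (mul_eq_zero.1 (show 2 * PU.B (n u) u = 0 by linear_combination h1)).resolve_left hO.two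
  rw [hn, ← hc, map_smul, hO.symm u, h2]
  simp

theorem TF.skew_of_op (h : TF T PU PW P) (hW : ∃ y : W, y ≠ 0) {N : Module.End F V}
    (hN : ∀ x y, P.B (N x) y = -P.B x (N y)) {n : Module.End F U}
    (e : ∀ u y, N (T.τ u y) = T.τ (n u) y) (x y : U) : PU.B (n x) y = -PU.B x (n y) := by
  obtain ⟨a, ha⟩ := hW
  obtain ⟨b, hb⟩ := exists_B_eq h.ndW ha 1
  simpa [e, h.B_τ, hb] using hN (T.τ x a) (T.τ y b)

namespace Ctx

variable (h : Ctx T PU PW P M)
include h

theorem levF_scalar_of_refl (hO : IsOrth PU) (hε : PW.ε = -1) (hΓ : PU.Isom ≤ T.grpU M)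
    (ha : 3 ≤ finrank F U) (hA : ∀ a ∈ T.algF PW M, ∃ c : F, a = c • LinearMap.id)
    (s : Module.End F U) (hs : s ∈ T.levF PW M) : ∃ c : F, s = c • LinearMap.id := by
  obtain ⟨s', hs'⟩ := exists_adj hO.nd s
  obtain ⟨c, hc⟩ := hA _ (h.comm_mem_algF 1 hs h.one_mem_levF hs' (s₂' := 1) fun _ _ => rfl)
  have hc' : ∀ x, s' x = c • x - s x := fun x => by
    have := LinearMap.congr_fun hc x
    simp [hε] at this
    rw [← this]; abel
  set t := s - (2⁻¹ * c) • (1 : Module.End F U) with ht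
  have t1 : t ∈ T.levF PW M := Submodule.sub_mem _ hs (Submodule.smul_mem _ _ h.one_mem_levF)
  have t2 : ∀ x y, PU.B (t x) y = -PU.B x (t y) := fun x y => by
    simp [ht, hs', hc']
    field_simp [hO.two]
    ring
  have t3 : ∀ v, PU.B v v ≠ 0 → t v = 0 := fun v hv => by
    have a0 : PU.B v (t v) = 0 := by
      have := t2 v v
      rw [hO.symm] at this
      exact (mul_eq_zero.1 (show 2 * PU.B v (t v) = 0 by linear_combination this)).resolve_left
        hO.two
    obtain ⟨r, hr, er⟩ := hO.has_refl hv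
    have hq := hO.q_ne hv
    have er' : ∀ x, r⁻¹ x = PU.qrefl (-(PU.q v)⁻¹) v x := fun x => by
      rw [le_inv_apply, LinearEquiv.symm_apply_eq, er]
      simp [PQ.qrefl_apply, hO.self v, smul_smul]
      field_simp
      module
    have a1 : r1 PU (t v) v - r1 PU v (t v) ∈ T.levF PW M := by
      have := Submodule.smul_mem _ (-PU.q v) (Submodule.sub_mem _ (levF_conj (hΓ hr) t1) t1)
      convert this using 1
      ext x
      simp only [LinearMap.sub_apply, r1_apply, LinearMap.smul_apply, LinearMap.comp_apply,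
        LinearEquiv.coe_coe, er, er', PQ.qrefl_apply, map_add, map_smul, a0, t2, smul_eq_mul]
      match_scalars <;> field_simp <;> ring
    have a2 : ∀ x y, PU.B ((r1 PU (t v) v - r1 PU v (t v)) x) y =
        PU.B x ((-(r1 PU (t v) v - r1 PU v (t v))) y) := fun x y => by
      simp [hO.symm x]; ring
    obtain ⟨d, hd⟩ := hA _ (h.comm_mem_algF 1 a1 a1 a2 a2)
    have a3 : ∀ x, (2 * PU.B v x * PU.B (t v) (t v)) • v + (2 * PU.B (t v) x * PU.B v v) • t v =
        d • x := fun x => by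
      have := LinearMap.congr_fun hd x
      simp only [hε, LinearMap.sub_apply, Module.End.mul_apply, LinearMap.smul_apply,
        LinearMap.neg_apply, r1_apply, map_neg, map_sub, map_smul, a0, hO.symm (t v) v, map_one,
        LinearMap.id_apply] at this
      rw [← this]
      module
    obtain ⟨x, x0, x1, x2⟩ := exists_ker_two ha (PU.B v) (PU.B (t v))
    have a4 : d = 0 := by simpa [x1, x2, x0] using (a3 x).symm
    have a5 : PU.B (t v) (t v) = 0 := by
      have := congrArg (PU.B v) (a3 v)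
      simpa [a4, a0, hv, hO.two] using this
    by_contra hne
    obtain ⟨y, hy⟩ := exists_B_ne hO.nd hne
    simpa [a4, a5, hO.two, hy, hv, hne] using a3 y
  obtain ⟨v₀, -, hv₀⟩ := hO.exists_nonsing_mem (S := ⊥) (by simp; omega)
  refine ⟨2⁻¹ * c, sub_eq_zero.1 (show t = 0 from LinearMap.ext fun x => ?_)⟩
  by_cases hx : PU.B x x = 0
  · rcases self_add_or_sub hO.two hx hv₀ with e | e <;> simpa [t3 v₀ hv₀] using t3 _ e
  · exact t3 x hx

theorem roots_pt_orth (hO : IsOrth PU) (hR : ∀ s ∈ T.levF PW M, ∃ c : F, s = c • LinearMap.id) :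
    Roots P (T.TG ⊓ EG P) M (T.ptRoots PW) := h.roots_pt hR fun g hg N hN k hk e => by
  have := T.finite
  obtain ⟨α, β, e'⟩ := hk.1
  obtain ⟨w, h0, hw, c, hc, hc0, e₁⟩ := hN
  have s1 : ∀ x, cN g N (cN g N x) = 0 := fun x => by simp [cN_apply, e₁, PW.self_eq_zero hw]
  rcases scalar_or_scalar hO.two e' e s1 with ⟨c, hc⟩ | ⟨c, hc⟩
  · exact of_scalar e' hc h.nontriv
  exfalso
  obtain ⟨α', hα'⟩ := of_scalar (T := T.flip) (k := k) (fun y u => e' u y) hc ⟨w, h0⟩
  replace hα' : ∀ u y, k (T.τ u y) = T.τ (α' u) y := fun u y => hα' y u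
  set n : Module.End F U := (α' : Module.End F U) - 1 with hn
  have n1 : ∀ u y, cN g N (T.τ u y) = T.τ (n u) y := fun u y => by
    have := (e (T.τ u y)).symm.trans (hα' u y)
    simp [hn, ← this]
  have n2 := h.tf.skew_of_op ⟨w, h0⟩ (skew_of_isom s1 ⟨k, EG_le_isom hk.2, e⟩) n1
  have n3 : ∀ u, n (n u) = 0 := fun u => by simpa [n1, T.τ_eq_zero, h0] using s1 (T.τ u w)
  have h1 : LinearMap.range (cN g N) = (T.col w).map (g : V →ₗ[F] V) := by
    rw [range_cN, h.tf.range_pt h0 hc0 e₁]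
  have h2 : ∀ u y, g⁻¹ (T.τ (n u) y) ∈ T.col w := fun u y =>
    mem_map_iff.1 (h1 ▸ ⟨_, n1 u y⟩)
  obtain ⟨u₀, hu₀⟩ := h.nontriv
  obtain ⟨u, hu⟩ : ∃ u, n u ≠ 0 := by
    by_contra hc
    push Not at hc
    have h3 : cN g N = 0 := T.lext fun u y => by simp [n1, hc]
    have h4 : g (T.τ u₀ w) ∈ LinearMap.range (cN g N) := h1 ▸ ⟨_, T.τ_mem_col _ _, rfl⟩
    simp [h3, T.τ_eq_zero, hu₀, h0] at h4
  obtain ⟨v, v1, v2⟩ : ∃ v ∈ perp PU (LinearMap.range n), v ∉ LinearMap.range n := by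
    by_contra hc
    push Not at hc
    have a1 := Submodule.finrank_mono (show perp PU (LinearMap.range n) ≤ _ from hc)
    have a2 := finrank_le_perp (P := PU) (LinearMap.range n)
    have a3 := T.mul_le_finrank (E := LinearMap.range n) (S := LinearMap.range (cN g N))
      (by rintro _ ⟨u, rfl⟩ y; exact ⟨_, n1 u y⟩)
    rw [h1, LinearEquiv.finrank_map_eq, T.finrank_col h0] at a3
    have a4 := Nat.mul_le_mul_left (finrank F (LinearMap.range n)) h.three
    have a5 : 0 < finrank F U := Module.finrank_pos_iff_exists_ne_zero.2 ⟨u₀, hu₀⟩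
    omega
  have b1 : ∀ x, PU.B (n u) (n x) = 0 := fun x => by simp [n2, n3]
  have b2 : ∀ x, PU.B v (n x) = 0 := fun x => mem_perp'.1 v1 _ ⟨x, rfl⟩
  obtain ⟨r, hr, er⟩ := (h.tf.flip.has_op_eu (hO.max _ (b1 u)) (PU.eq_zero_symm (b2 u))
    (c := PU.q v) (by simp)).mono (show _ ≤ M from T.flip_TG ▸ h.hM)
  simp only [op_eu, flip_τ] at er
  have c1 : ∀ x, T.cB PW w x = 0 → T.flip.cB PU (n u) (g x) = 0 := fun x hx =>
    sep_right h.tf.ndW fun y => by
      rw [← h.tf.flip.B_left, ← B_isom_inv (h.isom hg)]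
      exact mem_perp.1 (h.tf.mem_perp_col.2 hx) _ (h2 u y)
  have c2 : ∀ x, T.cB PW w x = 0 → (g⁻¹ * r * g) x =
      x + g⁻¹ (T.τ (n u) (T.flip.cB PU v (g x))) := fun x hx => by
    simp [er, c1 x hx]
  obtain ⟨-, v', -, c3⟩ := h.ext_unip hR h0 hw (M.mul_mem (M.mul_mem (M.inv_mem hg) hr) hg)
    (fun u' => by
      rw [c2 _ (cB_self hw u')]
      obtain ⟨x, hx⟩ : g (T.τ u' w) ∈ LinearMap.range (cN g N) := h1 ▸ ⟨_, T.τ_mem_col _ _, rfl⟩
      have : T.flip.cB PU v ∘ₗ cN g N = 0 := T.lext fun a b => by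
        simp only [LinearMap.comp_apply, n1]
        exact (T.flip.cB_τ v b (n a)).trans (by simp [b2])
      rw [← hx, show T.flip.cB PU v (cN g N x) = 0 from LinearMap.congr_fun this x]
      simp)
    fun x hx => by rw [c2 x hx, add_sub_cancel_left]; exact h2 _ _
  have c4 : ∀ x, T.cB PW w x = 0 → T.τ (n u) (T.flip.cB PU v (g x)) =
      g (T.τ (T.cB PW v' x) w) := fun x hx => by
    rw [← add_left_cancel ((c2 x hx).symm.trans (c3 x hx)), le_apply_inv]
  by_cases hv' : v' ∈ F ∙ w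
  · obtain ⟨a, rfl⟩ := Submodule.mem_span_singleton.1 hv'
    obtain ⟨x, x1, x2⟩ := exists_orth_of_notMem PU.σσ PU.B hO.nd _ v2
    have c5 : T.cB PW w (g⁻¹ (T.τ x w)) = 0 := sep_right hO.nd fun a => by
      obtain ⟨y, hy⟩ : g (T.τ a w) ∈ LinearMap.range (cN g N) := h1 ▸ ⟨_, T.τ_mem_col _ _, rfl⟩
      rw [← h.tf.B_left, B_isom_inv' (h.isom hg), ← hy]
      refine P.eq_zero_symm ?_
      have : P.B (T.τ x w) ∘ₗ cN g N = 0 := T.lext fun a b => by
        simp [n1, h.tf.B_τ, x1 _ ⟨a, rfl⟩]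
      exact LinearMap.congr_fun this y
    have c6 := c4 _ c5
    rw [le_apply_inv, cB_smul, LinearMap.smul_apply, c5,
      show T.flip.cB PU v (T.τ x w) = PU.B v x • w from T.flip.cB_τ v w x, hO.symm v x, x2] at c6
    simp [T.τ_eq_zero, hu, h0] at c6
  · obtain ⟨y, y1, y2⟩ := exists_perp_ne h.tf.ndW hv' 1
    refine hu (hO.eq_zero_of_rank_one n2 fun x => ?_)
    obtain ⟨a, ha⟩ := h2 x w
    have c5 := c4 (T.τ a y) (by simp [y1])
    rw [cB_τ, y2, one_smul, show T.τ a w = g⁻¹ (T.τ (n x) w) from ha, le_apply_inv] at c5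
    obtain ⟨φ, hφ⟩ := exists_dual_of_ne_zero (F := F) h0 1
    have c6 := congrArg (T.cW φ) c5
    rw [cW_τ, cW_τ, hφ, one_smul] at c6
    exact Submodule.mem_span_singleton.2 ⟨_, c6⟩

end Ctx

/-- An orthogonal factor `U` and a symplectic factor `W` of dimension at least `3`. -/
theorem TF.isMaximalIn_orth_alt [Finite F] (h : TF T PU PW P) (hO : IsOrth PU)
    (hW : ∀ c, c ∈ PW.Λ) (hE : P.Isom ≤ EG P) (ha : 3 ≤ finrank F U) (hb : 3 ≤ finrank F W)
    (hμ : 4 ≤ finrank F U ∨ ∃ μ : F, μ ≠ 0 ∧ μ ^ 2 ≠ 1) (hK' : IsoK PU 3) :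
    Geo.IsMaximalIn (EG P) (T.TG ⊓ EG P) := by
  have hK : IsoK PW 1 := fun X hX => by
    obtain ⟨x, hx, hx0⟩ := Submodule.exists_mem_ne_zero_of_ne_bot
      (p := X) (fun e => by simp [e] at hX)
    exact ⟨x, hx, hx0, hW _⟩
  refine h.isMaximalIn ⟨1, hK, by omega⟩ hb (extr_of_top hW) (by omega) fun M hM hne => ?_
  have hΓ : PU.Isom ≤ T.grpU M := fun γ hγ => mem_grpU.2
    (hM.hM ⟨T.opE_mem _ _, hE (h.opE_isom hγ.1 fun _ _ => rfl)⟩)
  have hG : Good (T.grpU M) :=
    (hO.good_isom (by simpa using hK' ⊤ (by rwa [finrank_top])) ha hμ).mono hΓ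
  have hR := hM.levF_scalar_of_refl hO (by
    have := PW.tr_mem 1 (hW 1)
    simp only [map_one, mul_one] at this
    linear_combination this) hΓ ha fun a => hM.algF_scalar hG hne
  exact hM.le_TG_of_odd hO.two (hM.roots_pt_orth hO hR) ⟨1, hW 1, one_ne_zero⟩

end H11.Ten
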