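import Mathlib
import Cfsg.Agent.Base
import Cfsg.Agent.Lib.Tensor.Odd

/-!
Overgroups of tensor stabilisers with a large orthogonal factor: the subspaces `U ⊗ ℓ` for the
singular lines `ℓ` of `W`.
-/

set_option autoImplicit false
set_option linter.unusedSectionVars false
set_option linter.unusedSimpArgs false

namespace H11.Ten

open Module Cfsg H97 H28 TS

variable {F U W V : Type*} [Field F] [AddCommGroup U] [Module F U] [AddCommGroup W]
  [Module F W] [AddCommGroup V] [Module F V] {T : TS F U W V} {PU : PQ F U (RingHom.id F)}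
  {PW : PQ F W (RingHom.id F)} {P : PQ F V (RingHom.id F)} {M : Subgroup (V ≃ₗ[F] V)}

variable (PW) in
/-- `w, v` span a singular line. -/
structure IsLine (w v : W) : Prop where
  ne : w ≠ 0
  notMem : v ∉ F ∙ w
  hw : PW.q w ∈ PW.Λ
  hv : PW.q v ∈ PW.Λ
  perp : PW.B w v = 0

variable (T PW) in
/-- The map `1 ⊗ (w v^* - v w^*)`. -/
noncomputable def TS.nL (w v : W) : Module.End F V :=
  T.τ.flip w ∘ₗ T.cB PW v - T.τ.flip v ∘ₗ T.cB PW w

theorem TS.nL_apply (w v : W) (x : V) :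
    T.nL PW w v x = T.τ (T.cB PW v x) w - T.τ (T.cB PW w x) v := rfl

variable (T PW) in
/-- The maps `1 ⊗ (r - 1)` for the long root elements `r` of `W`. -/
def TS.lnRoots : Set (Module.End F V) := {N | ∃ w v, IsLine PW w v ∧ N = T.nL PW w v}

variable [FiniteDimensional F U] [FiniteDimensional F W]

theorem TS.finrank_col_sup (T : TS F U W V) {w v : W} (h0 : w ≠ 0) (hv : v ∉ F ∙ w) :
    finrank F ↥(T.col w ⊔ T.col v) = 2 * finrank F U := by
  have := T.finite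
  have h1 : T.col w ⊓ T.col v = ⊥ := by
    refine eq_bot_iff.2 ?_
    rintro x ⟨⟨a, ha⟩, ⟨b, hb⟩⟩
    obtain ⟨φ, e1, e2⟩ := exists_dual_of_notMem_span hv 1
    have := congrArg (T.cW φ) (ha.trans hb.symm)
    simp [e1, e2] at this
    simp [← hb, ← this]
  have h2 := Submodule.finrank_sup_add_finrank_inf_eq (T.col w) (T.col v)
  rw [h1, finrank_bot, T.finrank_col h0, T.finrank_col (by rintro rfl; simp at hv)] at h2
  omega

theorem IsLine.exists_dual {w v : W} (h : IsLine PW w v) (hP : PW.B.SeparatingLeft) :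
    ∃ w' v', PW.B w w' = 1 ∧ PW.B v w' = 0 ∧ PW.B w v' = 0 ∧ PW.B v v' = 1 := by
  obtain ⟨v', a1, a2⟩ := exists_perp_ne hP h.notMem 1
  obtain ⟨w', b1, b2⟩ := exists_perp_ne hP (x := w) (w := v) (fun e => by
    obtain ⟨c, hc⟩ := Submodule.mem_span_singleton.1 e
    have hc0 : c ≠ 0 := by rintro rfl; exact h.ne (by simpa using hc.symm)
    exact h.notMem (Submodule.mem_span_singleton.2 ⟨c⁻¹, by simp [← hc, smul_smul, hc0]⟩)) 1
  exact ⟨w', v', b2, b1, a1, a2⟩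

theorem TF.range_nL (h : TF T PU PW P) {w v : W} (hl : IsLine PW w v) :
    LinearMap.range (T.nL PW w v) = T.col w ⊔ T.col v := by
  obtain ⟨w', v', a1, a2, a3, a4⟩ := hl.exists_dual h.ndW
  refine le_antisymm ?_ (sup_le ?_ ?_)
  · rintro _ ⟨x, rfl⟩
    exact Submodule.sub_mem _ (Submodule.mem_sup_left (T.τ_mem_col _ _))
      (Submodule.mem_sup_right (T.τ_mem_col _ _))
  · rintro _ ⟨u, rfl⟩; exact ⟨T.τ u v', by simp [nL_apply, a3, a4]⟩
  · rintro _ ⟨u, rfl⟩; exact ⟨-T.τ u w', by simp [nL_apply, a1, a2]⟩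

theorem IsLine.B_eq {w v : W} (hl : IsLine PW w v) :
    PW.B w w = 0 ∧ PW.B v v = 0 ∧ PW.B w v = 0 ∧ PW.B v w = 0 :=
  ⟨PW.self_eq_zero hl.hw, PW.self_eq_zero hl.hv, hl.perp, PW.eq_zero_symm hl.perp⟩

theorem IsOrth.exists_nonsing_line (hO : IsOrth PW) (hb : 5 ≤ finrank F W) (w v : W) :
    ∃ y, PW.B w y = 0 ∧ PW.B v y = 0 ∧ PW.B y y ≠ 0 := by
  obtain ⟨y, a1, a2⟩ := hO.exists_nonsing_mem (S := (F ∙ w) ⊔ F ∙ v) (by
    have := finrank_sup_le' (F ∙ w) (F ∙ v)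
    have := finrank_span_singleton_le (F := F) w
    have := finrank_span_singleton_le (F := F) v
    omega)
  rw [perp_sup] at a1
  exact ⟨y, mem_perp_singleton.1 a1.1, mem_perp_singleton.1 a1.2, a2⟩

namespace Ctx

variable (h : Ctx T PU PW P M) (hO : IsOrth PW) (hb : 5 ≤ finrank F W)
include h hO hb

theorem exists_line {w : W} (h0 : w ≠ 0) (hw : PW.q w ∈ PW.Λ) : ∃ v, IsLine PW w v := by
  obtain ⟨v, a1, a2, a3⟩ := h.exists_sing_perp_notMem h0 hw
  exact ⟨v, h0, a3, hw, a1, a2⟩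

theorem eq_opW_of_triv_line {w v : W} (hl : IsLine PW w v) {z : V ≃ₗ[F] V} (hz : z ∈ T.TG)
    (h1 : ∀ x ∈ perp P (T.col w ⊔ T.col v), z x - x ∈ T.col w ⊔ T.col v) :
    ∃ β : W ≃ₗ[F] W, (∀ u y, z (T.τ u y) = T.τ u (β y)) ∧ ∃ y, PW.B w y = 0 ∧ PW.B v y = 0 ∧
      PW.B y y ≠ 0 ∧ ∃ a b : F, β y = y + a • w + b • v := by
  obtain ⟨α, β, e⟩ := hz
  obtain ⟨y, a1, a2, a3⟩ := hO.exists_nonsing_line hb w v
  have h2 : ∀ u, ∃ a b, z (T.τ u y) - T.τ u y = T.τ a w + T.τ b v := fun u => by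
    obtain ⟨_, ⟨a, rfl⟩, _, ⟨b, rfl⟩, e⟩ := Submodule.mem_sup.1 (h1 (T.τ u y) (by
      rw [perp_sup]
      exact ⟨h.tf.mem_perp_col.2 (by simp [a1]), h.tf.mem_perp_col.2 (by simp [a2])⟩))
    exact ⟨a, b, e.symm⟩
  obtain ⟨β', hβ'⟩ := scalar_of_triv e (φ := (PW.B y y)⁻¹ • PW.B y) (y := y) (by simp [a3])
    (fun u => by
      obtain ⟨a, b, e⟩ := h2 u
      simp [e, PW.eq_zero_symm a1, PW.eq_zero_symm a2]) h.nontriv
  refine ⟨β', hβ', y, a1, a2, a3, ?_⟩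
  obtain ⟨u, hu⟩ := h.nontriv
  obtain ⟨ψ, hψ⟩ := exists_dual_of_ne_zero (F := F) hu 1
  obtain ⟨a, b, e⟩ := h2 u
  have := congrArg (T.cU ψ) e
  simp only [map_sub, map_add, hβ', cU_τ, hψ, one_smul] at this
  exact ⟨ψ a, ψ b, by rw [add_assoc, ← this, add_sub_cancel]⟩

variable (hR : ∀ s ∈ T.levF PW M, ∃ c : F, s = c • LinearMap.id)
include hR

theorem mem_TG_of_line {w v w' v' : W} (hl : IsLine PW w v) (hl' : IsLine PW w' v')
    {g : V ≃ₗ[F] V} (hg : g ∈ M) (h1 : ∀ x ∈ T.col w ⊔ T.col v, g x ∈ T.col w' ⊔ T.col v') :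
    g ∈ T.TG := by
  have := T.finite
  have h2 : (T.col w ⊔ T.col v).map (g : V →ₗ[F] V) = T.col w' ⊔ T.col v' :=
    Submodule.eq_of_le_of_finrank_eq (by rintro _ ⟨x, hx, rfl⟩; exact h1 x hx) (by
      rw [LinearEquiv.finrank_map_eq, T.finrank_col_sup hl.ne hl.notMem,
        T.finrank_col_sup hl'.ne hl'.notMem])
  obtain ⟨y, a1, a2, a3⟩ := hO.exists_nonsing_line hb w v
  obtain ⟨r, hr, er⟩ := (h.tf.has_op_eu hl.hw a1 (c := PW.q y) (by simp)).mono h.hM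
  obtain ⟨b1, b2, b3, b4⟩ := hl.B_eq
  have k1 := M.mul_mem (M.mul_mem hg hr) (M.inv_mem hg)
  have k2 : ∀ u, (g * r * g⁻¹) (T.τ u w') = T.τ u w' := fun u => by
    obtain ⟨_, ⟨a, rfl⟩, _, ⟨b, rfl⟩, e⟩ := Submodule.mem_sup.1 (mem_map_iff.1
      (h2 ▸ Submodule.mem_sup_left (T.τ_mem_col u w')))
    rw [le_mul_apply, le_mul_apply, ← e, er, ← le_apply_inv g (T.τ u w'), ← e]
    simp [eu_apply, b1, b3, PW.eq_zero_symm a1, PW.eq_zero_symm a2]
  obtain ⟨α, β, e⟩ := h.mem_TG_of_stab hR hl'.ne hl'.hw k1 fun u => by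
    rw [k2]; exact T.τ_mem_col _ _
  obtain ⟨φ, hφ⟩ := exists_dual_of_ne_zero (F := F) hl'.ne 1
  obtain ⟨β', e'⟩ := scalar_of_triv e hφ (fun u => by simp [k2]) h.nontriv
  have c1 : ∀ x, r (r x) - r x - (r x - x) = T.τ (-PW.B y y • T.cB PW w x) w := fun x => by
    simp [er, op_eu, hO.ε, b1, a1, PW.eq_zero_symm a1]
    module
  have c2 : ∀ u x, T.τ u (β' (β' x) - β' x - (β' x - x)) =
      g (T.τ (-PW.B y y • T.cB PW w (g⁻¹ (T.τ u x))) w) := fun u x => by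
    rw [← c1]
    simp only [map_sub, ← e', le_mul_apply, le_inv_apply_apply, le_apply_inv]
  obtain ⟨u₀, hu₀⟩ := h.nontriv
  obtain ⟨x, hx⟩ : ∃ x, β' (β' x) - β' x - (β' x - x) ≠ 0 := by
    by_contra hc
    push Not at hc
    have : T.cB PW w ∘ₗ ((g⁻¹ : V ≃ₗ[F] V) : V →ₗ[F] V) = 0 := T.lext fun u x => by
      have := c2 u x
      simpa [hc, T.τ_eq_zero, hl.ne, a3] using this.symm
    obtain ⟨f, -, hf⟩ := exists_pair h.tf.ndW hl.ne hl.hw
    simpa [hf, hu₀] using LinearMap.congr_fun this (g (T.τ u₀ f))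
  set w'' := β' (β' x) - β' x - (β' x - x) with hw''
  have c3 : T.col w'' = (T.col w).map (g : V →ₗ[F] V) :=
    Submodule.eq_of_le_of_finrank_eq
      (by rintro _ ⟨u, rfl⟩; exact ⟨_, T.τ_mem_col _ _, (c2 u x).symm⟩)
      (by rw [LinearEquiv.finrank_map_eq, T.finrank_col hx, T.finrank_col hl.ne])
  exact h.mem_TG_of_col hR hl.ne hl.hw (w' := w'') (h.tf.sing_of_col h.nontriv fun u u' => by
    rw [hw'', c2, c2, B_isom (h.isom hg), h.tf.B_τ, b1, mul_zero]) hg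
    fun u => c3 ▸ ⟨_, T.τ_mem_col _ _, rfl⟩

theorem roots_ln (hU : (IsOrth PU ∧ finrank F U < finrank F W) ∨ 2 * finrank F U < finrank F W) :
    Roots P (T.TG ⊓ EG P) M (T.lnRoots PW) where
  hHM := h.hM
  hI := fun _ => h.isom
  nd := h.tf.nd
  sq := by
    rintro _ ⟨w, v, hl, rfl⟩ x
    obtain ⟨b1, b2, b3, b4⟩ := hl.B_eq
    simp [nL_apply, b1, b2, b3, b4]
  has := by
    rintro _ ⟨w, v, hl, rfl⟩
    refine (h.tf.has_op_eu hl.hw hl.perp (c := 0) (by simpa using hl.hv)).congr fun x => ?_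
    simp [op_eu, nL_apply, hO.ε, add_sub_assoc]
  rank := by
    rintro _ ⟨w, v, hl, rfl⟩ _ ⟨w', v', hl', rfl⟩
    rw [h.tf.range_nL hl, h.tf.range_nL hl', T.finrank_col_sup hl.ne hl.notMem,
      T.finrank_col_sup hl'.ne hl'.notMem]
  p1 := by
    rintro g hg _ ⟨w, v, hl, rfl⟩ _ ⟨w', v', hl', rfl⟩ h1
    refine ⟨h.mem_TG_of_line hO hb hR hl hl' hg fun x hx => ?_, h.hI hg⟩
    rw [← h.tf.range_nL hl] at hx
    obtain ⟨y, rfl⟩ := hx
    exact h.tf.range_nL hl' ▸ h1 y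
  p2 := by
    rintro g hg _ ⟨w, v, hl, rfl⟩ ⟨k, hk, e⟩
    have := T.finite
    obtain ⟨b1, b2, b3, b4⟩ := hl.B_eq
    set N := cN g (T.nL PW w v) with hN
    have s1 : ∀ x, N (N x) = 0 := fun x => by simp [hN, cN_apply, nL_apply, b1, b2, b3, b4]
    have s2 := skew_of_isom s1 ⟨k, EG_le_isom hk.2, e⟩
    have h1 : LinearMap.range N = (T.col w ⊔ T.col v).map (g : V →ₗ[F] V) := by
      rw [hN, range_cN, h.tf.range_nL hl]
    have h2 : finrank F (LinearMap.range N) = 2 * finrank F U := by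
      rw [h1, LinearEquiv.finrank_map_eq, T.finrank_col_sup hl.ne hl.notMem]
    obtain ⟨u₀, hu₀⟩ := h.nontriv
    have h3 : 0 < finrank F U := Module.finrank_pos_iff_exists_ne_zero.2 ⟨u₀, hu₀⟩
    have h4 : N ≠ 0 := fun e => by
      rw [e, LinearMap.range_zero, finrank_bot] at h2; omega
    obtain ⟨α, β, e'⟩ := hk.1
    rcases scalar_or_scalar hO.two e' e s1 with ⟨c, hc⟩ | ⟨c, hc⟩
    · obtain ⟨β', hβ'⟩ := of_scalar e' hc h.nontriv
      have n1 : ∀ u y, N (T.τ u y) = T.τ u (β' y - y) := fun u y => by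
        rw [map_sub, ← hβ', e, add_sub_cancel_left]
      obtain ⟨y₁, hy₁⟩ : ∃ y, β' y - y ≠ 0 := by
        by_contra hc
        push Not at hc
        exact h4 (T.lext fun u y => by simp [n1, hc])
      obtain ⟨y₂, hy₂⟩ : ∃ y, β' y - y ∉ F ∙ (β' y₁ - y₁) := by
        by_contra hc
        push Not at hc
        have : LinearMap.range N ≤ T.col (β' y₁ - y₁) := by
          rintro _ ⟨x, rfl⟩
          refine T.ind (p := fun x => N x ∈ T.col (β' y₁ - y₁)) x (by simp) (fun u y => ?_)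
            fun x y hx hy => by rw [map_add]; exact Submodule.add_mem _ hx hy
          obtain ⟨a, ha⟩ := Submodule.mem_span_singleton.1 (hc y)
          exact ⟨a • u, by simp [n1, ← ha]⟩
        have := Submodule.finrank_mono this
        rw [h2, T.finrank_col hy₁] at this
        omega
      have n2 : ∀ y y', PW.B (β' y - y) (β' y' - y') = 0 := fun y y' => by
        obtain ⟨u₁, hu₁⟩ := exists_B_eq h.tf.ndU hu₀ 1
        have := s2 (T.τ u₀ y) (N (T.τ u₁ y'))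
        rwa [s1, n1, n1, h.tf.B_τ, hu₁, one_mul, map_zero, neg_zero] at this
      have hl' : IsLine PW (β' y₁ - y₁) (β' y₂ - y₂) :=
        ⟨hy₁, hy₂, hO.max _ (n2 _ _), hO.max _ (n2 _ _), n2 _ _⟩
      have n3 : T.col (β' y₁ - y₁) ⊔ T.col (β' y₂ - y₂) = LinearMap.range N :=
        Submodule.eq_of_le_of_finrank_eq (sup_le (by rintro _ ⟨u, rfl⟩; exact ⟨_, n1 u y₁⟩)
          (by rintro _ ⟨u, rfl⟩; exact ⟨_, n1 u y₂⟩)) (by rw [h2, T.finrank_col_sup hy₁ hy₂])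
      exact ⟨h.mem_TG_of_line hO hb hR hl hl' hg fun x hx => n3 ▸ h1 ▸ ⟨x, hx, rfl⟩, h.hI hg⟩
    exfalso
    obtain ⟨α', hα'⟩ := of_scalar (T := T.flip) (k := k) (fun y u => e' u y) hc ⟨w, hl.ne⟩
    replace hα' : ∀ u y, k (T.τ u y) = T.τ (α' u) y := fun u y => hα' y u
    set n : Module.End F U := (α' : Module.End F U) - 1 with hn
    have n1 : ∀ u y, N (T.τ u y) = T.τ (n u) y := fun u y => by
      have := (e (T.τ u y)).symm.trans (hα' u y)
      simp [hn, ← this]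
    obtain ⟨u, hu⟩ : ∃ u, n u ≠ 0 := by
      by_contra hc
      push Not at hc
      exact h4 (T.lext fun u y => by simp [n1, hc])
    have a3 := T.mul_le_finrank (E := LinearMap.range n) (S := LinearMap.range N)
      (by rintro _ ⟨u, rfl⟩ y; exact ⟨_, n1 u y⟩)
    have a4 : finrank F (F ∙ n u) = 1 := finrank_span_singleton hu
    have a5 : (F ∙ n u) ≤ LinearMap.range n := (Submodule.span_singleton_le_iff_mem _ _).2 ⟨u, rfl⟩
    rcases hU with ⟨hU, hab⟩ | hab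
    · have a6 := Submodule.finrank_lt_finrank_of_lt (lt_of_le_of_ne a5 fun e => hu
        (hU.eq_zero_of_rank_one (h.tf.skew_of_op ⟨w, hl.ne⟩ s2 n1) fun x => e ▸ ⟨x, rfl⟩))
      have := Nat.mul_le_mul_right (finrank F W) (show 2 ≤ finrank F (LinearMap.range n) by omega)
      omega
    · have a6 := Submodule.finrank_mono a5
      have := Nat.mul_le_mul_right (finrank F W) (show 1 ≤ finrank F (LinearMap.range n) by omega)
      omega

omit hR in
theorem le_TG_of_lines [Finite F] (hK : IsoK PW 3)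
    (hr : Roots P (T.TG ⊓ EG P) M (T.lnRoots PW)) : M ≤ T.TG := by
  have := T.finite
  intro g₀ hg₀
  by_contra hc
  obtain ⟨w₀, h₀, hw₀⟩ := h.exists_sing
  obtain ⟨v₀, hl₀⟩ := h.exists_line hO hb h₀ hw₀
  obtain ⟨g, N, N₀, hm⟩ := exists_isMax (H := T.TG ⊓ EG P) (𝒩 := T.lnRoots PW)
    ⟨_, w₀, v₀, hl₀, rfl⟩ ⟨g₀, hg₀, fun e => hc e.1⟩
  obtain ⟨u₀, hu₀⟩ := h.nontriv
  have p3 : ∀ z ∈ T.TG ⊓ EG P, ∀ N ∈ T.lnRoots PW, z * z = 1 → (∀ x, z (N x) = N (z x)) →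
      (∀ x ∈ perp P (LinearMap.range N), z x - x ∈ LinearMap.range N) →
      ∃ c : F, ∀ x, z (N x) = c • N x := by
    rintro z hz _ ⟨w, v, hl, rfl⟩ z1 z2 z3
    rw [h.tf.range_nL hl] at z3
    obtain ⟨β, hβ, -⟩ := h.eq_opW_of_triv_line hO hb hl hz.1 z3
    obtain ⟨w', v', a1, a2, a3, a4⟩ := hl.exists_dual h.tf.ndW
    obtain ⟨u₁, hu₁⟩ := exists_B_eq h.tf.ndU hu₀ 1
    have e1 : ∀ x y, PW.B x (β y) = PW.B (β x) y := fun x y => by
      have := B_isom (EG_le_isom hz.2) (T.τ u₀ x) (z (T.τ u₁ y))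
      rw [← le_mul_apply, z1] at this
      simpa [hβ, h.tf.B_τ, hu₁] using this.symm
    have e2 : ∀ x, PW.B v x • β w - PW.B w x • β v = PW.B v (β x) • w - PW.B w (β x) • v :=
      fun x => T.τ_inj_right hu₀ (by simpa [nL_apply, hβ] using z2 (T.τ u₀ x))
    have e3 := e2 v'
    have e4 := e2 w'
    simp only [a1, a2, a3, a4, one_smul, zero_smul, sub_zero, zero_sub] at e3 e4
    have f1 := congrArg (fun t => PW.B t v') e3
    have f2 := congrArg (fun t => PW.B t w') e3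
    have f3 := congrArg (fun t => PW.B t w') e4
    simp only [map_sub, map_neg, map_smul, LinearMap.sub_apply, LinearMap.smul_apply,
      LinearMap.neg_apply, a1, a2, a3, a4, ← e1, smul_eq_mul] at f1 f2 f3
    have g1 : PW.B w (β v') = 0 :=
      (mul_eq_zero.1 (show 2 * PW.B w (β v') = 0 by linear_combination f1)).resolve_left hO.two
    have g2 : PW.B v (β w') = 0 :=
      (mul_eq_zero.1 (show 2 * PW.B v (β w') = 0 by linear_combination -f3)).resolve_left hO.two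
    rw [g1, zero_smul, sub_zero] at e3
    rw [g2, zero_smul, zero_sub, neg_inj, show PW.B w (β w') = PW.B v (β v') by
      linear_combination f2] at e4
    exact ⟨PW.B v (β v'), fun x => by simp [nL_apply, hβ, e3, e4, smul_sub]⟩
  have h0 := (hm.exists_invol hr hO.two p3).1
  set A := T.annW PW (LinearMap.range (cN g N₀)) with hA
  have k1 : ∀ w v, IsLine PW w v → ∃ x ∈ A, x ≠ 0 ∧ PW.B w x = 0 ∧ PW.B v x = 0 := fun w v hl => by
    obtain ⟨-, z, z1, z2, z3, z4⟩ := (hm.of_bot h0 ⟨w, v, hl, rfl⟩).exists_invol hr hO.two p3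
    rw [h.tf.range_nL hl] at z3
    obtain ⟨β, hβ, y, a1, a2, a3, a, b, e⟩ := h.eq_opW_of_triv_line hO hb hl z1.1 z3
    obtain ⟨b1, b2, b3, b4⟩ := hl.B_eq
    refine ⟨y + β y, h.tf.mem_annW hO.two (EG_le_isom z1.2) z4 fun u => ?_, fun e' => ?_,
      by simp [e, a1, b1, b3], by simp [e, a2, b2, b4]⟩
    · rw [map_add, map_add, ← hβ u y, ← le_mul_apply, z2, add_comm]; rfl
    · have := congrArg (PW.B y) e'
      simp [e, PW.eq_zero_symm a1, PW.eq_zero_symm a2, ← two_mul, hO.two, a3] at this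
  have k2 : ∀ x ∈ A, PW.q x ∈ PW.Λ → x = 0 := fun x hx hx' => by
    by_contra hx0
    obtain ⟨v, hl⟩ := h.exists_line hO hb hx0 hx'
    have a1 := finrank_inf_perp (P := P) (LinearMap.range (cN g N₀)) (T.col v)
    rw [range_cN, LinearEquiv.finrank_map_eq, hr.rank N₀ hm.hN₀ _ ⟨x, v, hl, rfl⟩,
      h.tf.range_nL hl, T.finrank_col_sup hl.ne hl.notMem,
      T.finrank_col (w := v) (fun e => hl.notMem (by simp [e])), ← range_cN] at a1
    have a2 : 0 < finrank F U := Module.finrank_pos_iff_exists_ne_zero.2 ⟨u₀, hu₀⟩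
    obtain ⟨y, ⟨y1, y2⟩, y0⟩ := Submodule.exists_mem_ne_zero_of_ne_bot
      (p := LinearMap.range (cN g N₀) ⊓ perp P (T.col v))
      (fun e => by rw [e, finrank_bot] at a1; omega)
    have a3 := (hm.of_bot h0 ⟨x, v, hl, rfl⟩).mem_self hr y1
      (by simp [nL_apply, hx y y1, h.tf.mem_perp_col.1 y2])
    exact y0 ((Submodule.mem_bot F).1 (hm.bot_of_bot h0 ⟨x, v, hl, rfl⟩ ▸ ⟨a3, y1⟩))
  obtain ⟨x₁, a1, a2, -⟩ := k1 w₀ v₀ hl₀
  obtain ⟨w, b1, -, b3⟩ := h.sing_perp (w := 0) (x := x₁) (by simpa using a2)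
  have b0 : w ≠ 0 := by rintro rfl; simp at b3
  obtain ⟨v, hl⟩ := h.exists_line hO hb b0 b1
  obtain ⟨x₂, c1, c2, c3, -⟩ := k1 w v hl
  obtain ⟨d, d1, d2, d3⟩ := h.sing_perp (w := w) (x := x₂) fun e => by
    obtain ⟨a, rfl⟩ := Submodule.mem_span_singleton.1 e
    exact c2 (k2 _ c1 (PW.q_smul_mem b1 a))
  obtain ⟨x₃, e1, e2, e3, e4⟩ := k1 w d ⟨b0, fun e => by
    obtain ⟨a, rfl⟩ := Submodule.mem_span_singleton.1 e
    simp [c3] at d3, b1, d1, PW.eq_zero_symm d2⟩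
  have f1 : finrank F ↥(A ⊓ LinearMap.ker (PW.B w)) < finrank F A :=
    Submodule.finrank_lt_finrank_of_lt (lt_of_le_of_ne inf_le_left fun e =>
      b3 (e.ge a1).2)
  have f2 : finrank F ↥(A ⊓ LinearMap.ker (PW.B w) ⊓ LinearMap.ker (PW.B d)) <
      finrank F ↥(A ⊓ LinearMap.ker (PW.B w)) :=
    Submodule.finrank_lt_finrank_of_lt (lt_of_le_of_ne inf_le_left fun e =>
      d3 (e.ge ⟨c1, c3⟩).2)
  have f3 : 0 < finrank F ↥(A ⊓ LinearMap.ker (PW.B w) ⊓ LinearMap.ker (PW.B d)) :=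
    Module.finrank_pos_iff_exists_ne_zero.2 ⟨⟨x₃, ⟨e1, e3⟩, e4⟩, fun e => e2 (congrArg Subtype.val e)⟩
  obtain ⟨x, g1, g2, g3⟩ := hK A (by omega)
  exact g2 (k2 x g1 g3)

end Ctx

/-- An orthogonal factor `W` of dimension at least `5`. -/
theorem TF.isMaximalIn_lines [Finite F] (h : TF T PU PW P) (hO : IsOrth PW) (hK : IsoK PW 3)
    (hb : 5 ≤ finrank F W) (ha : 2 ≤ finrank F U) (hG : Good (EG PU))
    (hU : (IsOrth PU ∧ finrank F U < finrank F W) ∨ 2 * finrank F U < finrank F W) :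
    Geo.IsMaximalIn (EG P) (T.TG ⊓ EG P) :=
  h.isMaximalIn ⟨3, hK, hb⟩ (by omega) (extr_of_five h.ndW hb) ha fun _ hM hne =>
    hM.le_TG_of_lines hO hb hK (hM.roots_ln hO hb (fun _ hs =>
      hM.algF_scalar (hG.mono hM.EG_le_grpU) hne (hM.levF_le_algF hb hs)) hU)

end H11.Ten
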