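import Mathlib
import Cfsg.Agent.Base
import Cfsg.Agent.Lib.Tensor.FormIdent
import Cfsg.Agent.Lib.Tensor.Lines

/-!
Maximality of tensor stabilisers with an orthogonal factor, in matrix language.
-/

set_option autoImplicit false
set_option linter.unusedSectionVars false
set_option linter.unusedSimpArgs false

namespace H11.Ten

open Module Cfsg H97 H28
open scoped Matrix MatrixGroups Kronecker

theorem exists_sq_ne_one {F : Type*} [Field F] [Fintype F] (hodd : Odd (Fintype.card F))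
    (h3 : Fintype.card F ≠ 3) : ∃ μ : F, μ ≠ 0 ∧ μ ^ 2 ≠ 1 := by
  classical
  by_contra hc
  push Not at hc
  have h1 : (Finset.univ : Finset F) ⊆ {0, 1, -1} := fun x _ => by
    by_cases hx : x = 0
    · simp [hx]
    · rcases mul_self_eq_one_iff.1 ((sq x).symm.trans (hc x hx)) with e | e <;> simp [e]
  have h2 := (Finset.card_le_card h1).trans Finset.card_le_three
  have := Fintype.one_lt_card (α := F)
  rw [Finset.card_univ] at h2
  obtain ⟨k, hk⟩ := hodd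
  omega

section Abstract

variable {F U : Type*} [Field F] [AddCommGroup U] [Module F U] [FiniteDimensional F U]
  {P : PQ F U (RingHom.id F)}

theorem finrank_span_sup_span {u p : U} (hu : u ≠ 0) (hp : p ∉ F ∙ u) :
    finrank F ↥((F ∙ u) ⊔ F ∙ p) = 2 := by
  have h1 := finrank_sup_le' (F ∙ u) (F ∙ p)
  have h2 := finrank_span_singleton_le (F := F) p
  have h3 := finrank_span_singleton (K := F) hu
  have h4 : finrank F (F ∙ u) < finrank F ↥((F ∙ u) ⊔ F ∙ p) :=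
    Submodule.finrank_lt_finrank_of_lt (lt_of_le_of_ne le_sup_left fun e =>
      hp (e.ge (Submodule.mem_sup_right (Submodule.mem_span_singleton_self p))))
  omega

theorem IsOrth.good_EG [Finite F] (h : IsOrth P) (ha : 3 ≤ finrank F U)
    (hμ : 4 ≤ finrank F U ∨ ∃ μ : F, μ ≠ 0 ∧ μ ^ 2 ≠ 1)
    (h4 : finrank F U = 4 → ∀ S : Submodule F U, (∀ x ∈ S, P.B x x = 0) → finrank F S ≠ 2) :
    Good (EG P) := by
  by_cases h5 : 5 ≤ finrank F U
  · exact h.good_of_five h.isoK le_rfl h5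
  refine h.good le_rfl (by simpa using h.isoK ⊤ (by rwa [finrank_top])) ha hμ
    fun u p hu0 hu h1 h2 h3 => ?_
  exfalso
  have e1 := finrank_span_sup_span hu0 h2
  have e2 : ∀ x ∈ (F ∙ u) ⊔ F ∙ p, ∀ y ∈ (F ∙ u) ⊔ F ∙ p, P.B x y = 0 := fun x hx y hy => by
    obtain ⟨_, a, _, b, rfl⟩ := Submodule.mem_sup.1 hx
    obtain ⟨a, rfl⟩ := Submodule.mem_span_singleton.1 a
    obtain ⟨b, rfl⟩ := Submodule.mem_span_singleton.1 b
    obtain ⟨_, c, _, d, rfl⟩ := Submodule.mem_sup.1 hy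
    obtain ⟨c, rfl⟩ := Submodule.mem_span_singleton.1 c
    obtain ⟨d, rfl⟩ := Submodule.mem_span_singleton.1 d
    simp [h1, h3, P.self_eq_zero hu, P.eq_zero_symm h1]
  have e3 := Submodule.finrank_mono (show (F ∙ u) ⊔ (F ∙ p) ≤ perp P ((F ∙ u) ⊔ F ∙ p) from
    fun x hx y hy => e2 y hy x hx)
  have e4 := finrank_perp h.nd ((F ∙ u) ⊔ F ∙ p)
  exact h4 (by omega) _ (fun x hx => e2 x hx x hx) e1

end Abstract

variable {F : Type*} [Field F] [Fintype F] {ι : Type} [Fintype ι] [DecidableEq ι] {n₁ n₂ : ℕ}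

theorem isMaximalIn_tensor_sp_orth {m : ℕ} (hodd : Odd (Fintype.card F)) (h1 : 0 < n₁)
    (h3 : 3 ≤ n₂) (h45 : 4 ≤ n₁ ∨ 5 ≤ n₂) (hex : ¬ (Fintype.card F = 3 ∧ n₂ = 3))
    (e : (Fin m ⊕ Fin m) ≃ Fin n₁ × Fin n₂) (P : GL (Fin m ⊕ Fin m) F)
    {f₁ : (Fin n₁ → F) → (Fin n₁ → F) → F} {f₂ : (Fin n₂ → F) → (Fin n₂ → F) → F}
    (hf₁ : Geo.IsSymplecticForm f₁) (hf₂ : Geo.IsSymmetricForm f₂)
    (hT : Geo.IsTensorFormStructure id (sympForm m F) f₁ f₂ e P) :
    Geo.IsMaximalIn (spGL m F) (Geo.tensorProductSubgroup n₁ n₂ e P ⊓ spGL m F) := by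
  obtain ⟨c, hc, h⟩ := tensor_pure_bil hT hf₁.bilinear hf₂.bilinear
  obtain ⟨a, ha⟩ := even_of_symplectic hf₁
  have h2 := two_ne_zero_of_odd hodd
  have hTF : TF (tsOf e P) _ _ (spP m F) := tf_alt_sym (h2 := h2) (B₁ := c • bilOf hf₁.bilinear)
    (h₁ := fun x => by simp [bilOf_apply, hf₁.alternating]) (h₂ := hf₂.symm)
    (sep_smul (sep_of_nondeg hf₁.nondegenerate) hc) (sep_of_nondeg hf₂.nondegenerate) (spP_nd m) h
  have hO := symP_orth (h2 := h2) (B := bilOf hf₂.bilinear) (hS := hf₂.symm) hTF.ndW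
  rw [spGL_eq, tensorProductSubgroup_eq, ← pull_inf]
  refine isMaximalIn_pull ?_
  by_cases h4 : 4 ≤ n₁
  · rw [← TS.flip_TG]
    refine hTF.flip.isMaximalIn_orth_alt hO (fun _ => trivial) (spP_EG m).ge (by simpa using h3)
      (by simp; omega) ?_ hO.isoK
    by_cases h5 : n₂ = 3
    · exact Or.inr (exists_sq_ne_one hodd fun e => hex ⟨e, h5⟩)
    · left; simp; omega
  · refine hTF.isMaximalIn_lines hO hO.isoK (by simp; omega) (by simp; omega)
      (good_of_lambda le_rfl hTF.ndU hTF.maxU ⟨fun _ => 1, fun e => ?_, trivial⟩ (l := 1) trivial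
        one_ne_zero (Or.inr ⟨-1, trivial, by simp, fun e => h2 (by linear_combination -e)⟩)
        (Or.inr fun _ => trivial)) (Or.inr (by simp; omega))
    simpa using congrFun e ⟨0, h1⟩

theorem isMaximalIn_tensor_orth_orth (hodd : Odd (Fintype.card F)) {Q : QuadraticForm F (ι → F)}
    (hQ : (QuadraticMap.polarBilin Q).SeparatingLeft) (h1 : 3 ≤ n₁) (h2 : 3 ≤ n₂) (hne : n₁ ≠ n₂)
    (h5 : 5 ≤ n₁ ∨ 5 ≤ n₂) (hex : ¬ (Fintype.card F = 3 ∧ (n₁ = 3 ∨ n₂ = 3))) (h4 : n₁ ≠ 4)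
    (e : ι ≃ Fin n₁ × Fin n₂) (P : GL ι F)
    {f₁ : (Fin n₁ → F) → (Fin n₁ → F) → F} {f₂ : (Fin n₂ → F) → (Fin n₂ → F) → F}
    (hf₁ : Geo.IsSymmetricForm f₁) (hf₂ : Geo.IsSymmetricForm f₂)
    (h4' : n₂ = 4 → ¬ Geo.IsPlusTypeOn (fun v : Fin n₂ → F => f₂ v v) ⊤)
    (hT : Geo.IsTensorFormStructure id (QuadraticMap.polar Q) f₁ f₂ e P) :
    Geo.IsMaximalIn (Geo.omegaGL Q) (Geo.tensorProductSubgroup n₁ n₂ e P ⊓ Geo.omegaGL Q) := by
  obtain ⟨c, hc, h⟩ := tensor_pure_bil hT hf₁.bilinear hf₂.bilinear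
  have h2' := two_ne_zero_of_odd hodd
  have hS : ∀ x y, (c • bilOf hf₁.bilinear) x y = (c • bilOf hf₁.bilinear) y x := fun x y => by
    simp [bilOf_apply, hf₁.symm x y]
  have hTF : TF (tsOf e P) _ _ (PQ.ofQuad Q) := tf_sym_sym (h2 := h2')
    (B₁ := c • bilOf hf₁.bilinear) (h₁ := hS) (h₂ := hf₂.symm) (sep_smul (sep_of_nondeg hf₁.nondegenerate) hc)
    (sep_of_nondeg hf₂.nondegenerate) hQ h
  have hO₁ := symP_orth (h2 := h2') (hS := hS) hTF.ndU
  have hO₂ := symP_orth (h2 := h2') (B := bilOf hf₂.bilinear) (hS := hf₂.symm) hTF.ndW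
  rw [omegaGL_eq hQ (by rw [card_of_equiv e]; nlinarith), tensorProductSubgroup_eq, ← pull_inf]
  refine isMaximalIn_pull ?_
  rcases lt_or_gt_of_ne hne with h12 | h12
  · refine hTF.isMaximalIn_lines hO₂ hO₂.isoK (by simp; omega) (by simp; omega)
      (hO₁.good_EG (by simpa using h1) ?_ fun e => (h4 (by simpa using e)).elim)
      (Or.inl ⟨hO₁, by simpa using h12⟩)
    by_cases h5 : n₁ = 3
    · exact Or.inr (exists_sq_ne_one hodd fun e => hex ⟨e, Or.inl h5⟩)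
    · left; simp; omega
  · rw [← TS.flip_TG]
    refine hTF.flip.isMaximalIn_lines hO₁ hO₁.isoK (by simp; omega) (by simp; omega)
      (hO₂.good_EG (by simpa using h2) ?_ fun e S hS hS' => h4' (by simpa using e)
        ⟨S, le_top, hS, by rw [hS', finrank_top, e]⟩)
      (Or.inl ⟨hO₂, by simpa using h12⟩)
    by_cases h5 : n₂ = 3
    · exact Or.inr (exists_sq_ne_one hodd fun e => hex ⟨e, Or.inr h5⟩)
    · left; simp; omega

end H11.Ten
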