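import Mathlib
import Cfsg.Agent.Base
import Cfsg.Agent.Lib.Tensor.OrthIdent
import Cfsg.Agent.Lib.ExtFld.PD

/-!
Tensor products of orthogonal spaces with a factor of Witt index one, part 1: truncated
exponentials and linear algebra in orthogonal spaces.
-/

set_option autoImplicit false
set_option linter.unusedSectionVars false

namespace H21.TO

open Module Cfsg H97 H28 H11.Ten

section Alg

variable {F : Type*} [Field F]

theorem quartic {E : Type*} [AddCommGroup E] [Module F E] (h2 : (2 : F) ≠ 0) {μ : F} (h0 : μ ≠ 0)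
    (h1 : μ ^ 2 ≠ 1) {a1 a2 a3 a4 : E}
    (h : ∀ c : F, c • a1 + c ^ 2 • a2 + c ^ 3 • a3 + c ^ 4 • a4 = 0) :
    a1 = 0 ∧ a3 = 0 ∧ a4 = 0 := by
  have h3 : μ ^ 2 - 1 ≠ 0 := sub_ne_zero.2 h1
  have e3 : (2 * μ * (μ ^ 2 - 1)) • a3 = 0 := by
    linear_combination (norm := module) h μ - h (-μ) - μ • h 1 + μ • h (-1)
  have e4 : (2 * μ ^ 2 * (μ ^ 2 - 1)) • a4 = 0 := by
    linear_combination (norm := module) h μ + h (-μ) - μ ^ 2 • h 1 - μ ^ 2 • h (-1)
  have e1 : (2 : F) • (a1 + a3) = 0 := by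
    linear_combination (norm := module) h 1 - h (-1)
  have e5 := (smul_eq_zero.1 e3).resolve_left (by simp [h2, h0, h3])
  exact ⟨by simpa [h2, e5] using e1, e5, (smul_eq_zero.1 e4).resolve_left (by simp [h2, h0, h3])⟩

variable {A : Type*} [Ring A] [Algebra F A]

/-- The exponential of `c N` truncated after the quadratic term. -/
def ex (N : A) (c : F) : A := 1 + c • N + (c ^ 2 * 2⁻¹) • (N * N)

/-- The logarithm truncated after the quadratic term. -/
def lg (F : Type*) [Field F] [Algebra F A] (z : A) : A :=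
  (z - 1) - (2⁻¹ : F) • ((z - 1) * (z - 1))

theorem ex_zero (N : A) : ex N (0 : F) = 1 := by simp [ex]

theorem ex_smul (N : A) (a c : F) : ex (a • N) c = ex N (c * a) := by
  simp only [ex, smul_mul_assoc, mul_smul_comm]
  module

theorem ex_mul (h2 : (2 : F) ≠ 0) {N : A} (hN : N * (N * N) = 0) (c d : F) :
    ex N c * ex N d = ex N (c + d) := by
  simp only [ex, mul_add, add_mul, smul_mul_assoc, mul_smul_comm, mul_assoc, hN, mul_one, one_mul,
    mul_zero, smul_zero]
  match_scalars <;> field_simp <;> ring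

theorem sq_ex {N : A} (hN : N * (N * N) = 0) : (ex N (1 : F) - 1) * (ex N (1 : F) - 1) = N * N := by
  rw [show ex N (1 : F) - 1 = N + (2⁻¹ : F) • (N * N) by simp only [ex]; module]
  simp only [mul_add, add_mul, smul_mul_assoc, mul_smul_comm, mul_assoc, hN, mul_zero, smul_zero,
    add_zero]

theorem lg_ex {N : A} (hN : N * (N * N) = 0) : lg F (ex N (1 : F)) = N := by
  rw [lg, sq_ex hN, ex]
  module

theorem ex_pow_char {N : A} (h2 : (2 : F) ≠ 0) (hN : N * (N * N) = 0) (n : ℕ) (c : F) :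
    ex N c ^ n = ex N (n * c) := by
  induction n with
  | zero => simp [ex_zero]
  | succ n ih => rw [pow_succ, ih, ex_mul h2 hN]; congr 1; push_cast; ring

theorem map_ex {B : Type*} [Ring B] [Algebra F B] (φ : A →ₐ[F] B) (N : A) (c : F) :
    φ (ex N c) = ex (φ N) c := by simp [ex]

variable {V X : Type*} [AddCommGroup V] [Module F V] [AddCommGroup X] [Module F X]

theorem ex_apply (N : Module.End F V) (c : F) (x : V) :
    ex N c x = x + c • N x + (c ^ 2 * 2⁻¹) • N (N x) := rfl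

theorem lg_apply (z : Module.End F V) (x : V) :
    lg F z x = z x - x - (2⁻¹ : F) • (z (z x - x) - (z x - x)) := rfl

theorem ex_comm {N : Module.End F V} {n : Module.End F X} {j : X →ₗ[F] V}
    (h : ∀ x, N (j x) = j (n x)) (c : F) (x : X) : ex N c (j x) = j (ex n c x) := by
  simp [ex_apply, h]

theorem lg_comm {z : Module.End F V} {a : Module.End F X} {j : X →ₗ[F] V}
    (h : ∀ x, z (j x) = j (a x)) (x : X) : lg F z (j x) = j (lg F a x) := by
  simp [lg_apply, h]

theorem exists_ker_range {b : Module.End F V} (hb : IsNilpotent b) (h0 : b ≠ 0) :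
    ∃ y, b y ≠ 0 ∧ b (b y) = 0 := by
  classical
  have h1 := Nat.find_spec hb
  obtain ⟨k, hk⟩ : ∃ k, Nat.find hb = k + 2 := by
    refine Nat.exists_eq_add_of_le' (not_lt.1 fun h => ?_)
    interval_cases Nat.find hb
    · exact h0 (by rw [← mul_one b, ← pow_zero b, h1, mul_zero])
    · exact h0 (by simpa using h1)
  obtain ⟨y, hy⟩ := DFunLike.ne_iff.1 (Nat.find_min hb (show k + 1 < Nat.find hb by omega))
  refine ⟨(b ^ k) y, by simpa [pow_succ'] using hy, ?_⟩
  rw [hk] at h1
  simpa [pow_succ'] using LinearMap.congr_fun h1 y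

theorem exists_ker_of_nil [Nontrivial V] {b : Module.End F V} (hb : IsNilpotent b) :
    ∃ y, y ≠ 0 ∧ b y = 0 := by
  by_cases h0 : b = 0
  · obtain ⟨y, hy⟩ := exists_ne (0 : V)
    exact ⟨y, hy, by simp [h0]⟩
  · obtain ⟨y, h1, h2⟩ := exists_ker_range hb h0
    exact ⟨_, h1, h2⟩

end Alg

section Orth

variable {F U : Type*} [Field F] [AddCommGroup U] [Module F U] {P : PQ F U (RingHom.id F)}

variable (P) in
/-- The skew map `a ∧ b`. -/
def wd (a b : U) : Module.End F U := r1 P a b - r1 P b a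

@[simp] theorem wd_apply (a b z : U) : wd P a b z = P.B b z • a - P.B a z • b := rfl

variable (P) in
/-- Skew endomorphisms. -/
def Skew (t : Module.End F U) : Prop := ∀ x y, P.B (t x) y = -P.B x (t y)

variable (P) in
/-- There are no totally singular lines. -/
def Idx1 : Prop := ∀ w y, w ≠ 0 → P.B w w = 0 → P.B y y = 0 → P.B w y = 0 → y ∈ F ∙ w

variable [FiniteDimensional F U] (h : IsOrth P)
include h

theorem sing_iff {x : U} : P.q x ∈ P.Λ ↔ P.B x x = 0 := ⟨P.self_eq_zero, h.max x⟩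

theorem mem_isom {g : U ≃ₗ[F] U} (hg : ∀ x y, P.B (g x) (g y) = P.B x y) : g ∈ P.Isom :=
  ⟨hg, fun x => by
    have h1 := hg x x
    rw [h.self, h.self] at h1
    rw [mul_left_cancel₀ h.two h1, sub_self]
    exact P.Λ.zero_mem⟩

theorem skew_wd (a b : U) : Skew P (wd P a b) := fun x y => by
  simp [h.symm x a, h.symm x b]; ring

theorem wd_cube {w v : U} (hw : P.B w w = 0) (hv : P.B w v = 0) :
    wd P w v * (wd P w v * wd P w v) = 0 := by
  ext x
  simp [hw, hv, h.symm v w]

theorem wd_sq {w v : U} (hw : P.B w w = 0) (hv : P.B w v = 0) (x : U) :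
    wd P w v (wd P w v x) = -(P.B v v * P.B w x) • w := by
  simp [hw, hv, h.symm v w, mul_comm]

theorem ex_wd {w v : U} (hw : P.B w w = 0) (hv : P.B w v = 0) (c : F) (x : U) :
    ex (wd P w v) c x = eu P w (c • v) (c ^ 2 * P.q v) x := by
  have := h.two
  rw [ex_apply, wd_sq h hw hv, eu_apply, h.ε, h.self v]
  simp only [wd_apply, map_smul, LinearMap.smul_apply, smul_eq_mul]
  match_scalars <;> field_simp <;> ring

theorem valid_sq (v : U) (c : F) : c ^ 2 * P.q v - P.q (c • v) ∈ P.Λ := by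
  simpa [pow_two] using valid_smul c (P := P) (w := v) (c := P.q v) (by simp)

theorem has_ex {w v : U} (hw : P.B w w = 0) (hv : P.B w v = 0) (c : F) :
    Has (EG P) (fun x => ex (wd P w v) c x) :=
  (has_eu_EG (h.max w hw) (by simp [hv]) (valid_sq h v c)).congr fun x => (ex_wd h hw hv c x).symm

theorem Skew.self {t : Module.End F U} (ht : Skew P t) (x : U) : P.B x (t x) = 0 := by
  have h1 := ht x x
  rw [h.symm] at h1
  exact (mul_eq_zero.1 (show 2 * P.B x (t x) = 0 by linear_combination h1)).resolve_left h.two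

theorem partner {u : U} (h0 : u ≠ 0) (hu : P.B u u = 0) : ∃ f, P.B f f = 0 ∧ P.B u f = 1 := by
  obtain ⟨f, h1, h2⟩ := exists_pair h.nd h0 (h.max u hu)
  exact ⟨f, P.self_eq_zero h1, h2⟩

theorem exists_x (h3 : 3 ≤ finrank F U) {u f : U} (hu : P.B u u = 0) (hf : P.B f f = 0)
    (huf : P.B u f = 1) : ∃ x, P.B u x = 0 ∧ P.B f x = 0 ∧ P.B x x ≠ 0 :=
  exists_nonsing h.nd h.max (fun _ => h.Λ_eq) h3 (h.max u hu) (h.max f hf) huf

theorem exists_sing [Finite F] (h3 : 3 ≤ finrank F U) : ∃ u : U, u ≠ 0 ∧ P.B u u = 0 := by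
  obtain ⟨x, -, h1, h2⟩ := h.isoK ⊤ (by rwa [finrank_top])
  exact ⟨x, h1, P.self_eq_zero h2⟩

/-- Expansion in a standard basis of a three-dimensional space. -/
theorem expand (h3 : finrank F U = 3) {u f x : U} (hu : P.B u u = 0) (hf : P.B f f = 0)
    (huf : P.B u f = 1) (hux : P.B u x = 0) (hfx : P.B f x = 0) (hx : P.B x x ≠ 0) (y : U) :
    y = P.B f y • u + P.B u y • f + (P.B x y / P.B x x) • x := by
  have hfu := (h.symm f u).trans huf
  have hxu := (h.symm x u).trans hux
  have hxf := (h.symm x f).trans hfx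
  have li : LinearIndependent F ![u, f, x] := by
    rw [Fintype.linearIndependent_iff]
    intro g hg i
    have e1 := congrArg (P.B u) hg
    have e2 := congrArg (P.B f) hg
    have e3 := congrArg (P.B x) hg
    simp [Fin.sum_univ_three, hu, hf, huf, hux, hfx, hfu, hxu, hxf, hx] at e1 e2 e3
    fin_cases i <;> simp [e1, e2, e3]
  have ht := li.span_eq_top_of_card_eq_finrank' (by simp [h3])
  obtain ⟨c, rfl⟩ := (Submodule.mem_span_range_iff_exists_fun F).1 (ht ▸ Submodule.mem_top : y ∈ _)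
  simp [Fin.sum_univ_three, hu, hf, huf, hux, hfx, hfu, hxu, hxf, hx]

theorem idx1_of_three (h3 : finrank F U = 3) : Idx1 P := fun w y h0 hw hy hwy => by
  obtain ⟨f, hf, hwf⟩ := partner h h0 hw
  obtain ⟨x, h1, h2, h4⟩ := exists_x h h3.ge hw hf hwf
  have e := expand h h3 hw hf hwf h1 h2 h4 y
  rw [e] at hy
  simp [hwy, hw, h1, h.symm x w, h4] at hy
  rw [e, hwy, hy]
  simp [Submodule.smul_mem]

theorem Idx1.eq_zero (hI : Idx1 P) {b : Module.End F U} (hb : Skew P b) (h0 : ∀ y, b (b y) = 0) :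
    b = 0 := by
  ext y
  by_contra hy
  refine hy (h.eq_zero_of_rank_one hb fun x => hI _ _ hy ?_ ?_ ?_) <;> rw [hb, h0] <;> simp

theorem exists_EG_point (h3 : 3 ≤ finrank F U) (hI : Idx1 P) {w w' : U} (h0 : w ≠ 0)
    (h0' : w' ≠ 0) (hw : P.B w w = 0) (hw' : P.B w' w' = 0) :
    ∃ β ∈ EG P, ∃ c : F, c ≠ 0 ∧ β w = c • w' := by
  by_cases e : P.B w' w = 0
  · obtain ⟨c, rfl⟩ := Submodule.mem_span_singleton.1 (hI w' w h0' hw' hw e)
    exact ⟨1, Subgroup.one_mem _, c, left_ne_zero_of_smul h0, rfl⟩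
  have e' : P.B w w' ≠ 0 := by rwa [h.symm]
  obtain ⟨x, h1, h2, h4⟩ := exists_x h h3 hw (f := (P.B w w')⁻¹ • w') (by simp [hw'])
    (by simp [e'])
  have h5 : P.B w' x = 0 := by simpa [e'] using h2
  set d := w - (P.B x x * 2⁻¹ * (P.B w w')⁻¹) • w' - x with hd
  have := h.two
  have hdd : P.B d d = 0 := by
    simp [hd, hw, hw', h1, h5, h.symm x w, h.symm x w', h.symm w' w]
    field_simp; ring
  have h6 : P.B d w ≠ 0 := by simp [hd, hw, h1, h.symm x w, e, e', h4, this]
  have h7 : P.B d w' ≠ 0 := by simp [hd, hw', h5, h.symm x w', e']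
  obtain ⟨g, hg, -, h8, -⟩ := (xle_EG (h.max d hdd)).exists_apply_eq (h.max d hdd) (x := w)
    (y := (P.B d w / P.B d w') • w') (P.Λ.sub_mem (h.max _ hw) (h.max _ (by simp [hw'])))
    (by simp [h7]) h6
  exact ⟨g, hg, _, div_ne_zero h6 h7, h8⟩

theorem scalar_of_sing [Finite F] (h3 : 3 ≤ finrank F U) {μ : F} (h0 : μ ≠ 0) (h1 : μ ^ 2 ≠ 1)
    {s : Module.End F U} (hs : ∀ x y, P.B (s x) y = P.B x (s y))
    (hz : ∀ u, P.B u u = 0 → P.B u (s u) = 0) : ∃ c : F, s = c • LinearMap.id := by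
  by_contra hc
  push Not at hc
  obtain ⟨u₀, e1, e2⟩ := exists_sing h h3
  obtain ⟨u, hu, hsu⟩ := exists_sing_notMem h.nd h.max (Or.inr ⟨h3, h.two⟩) ⟨u₀, e1, h.max _ e2⟩ hc
  have hu0 : u ≠ 0 := by rintro rfl; simp at hsu
  have hu := P.self_eq_zero hu
  obtain ⟨f, hf, huf⟩ := partner h hu0 hu
  have key : ∀ v, P.B u v = 0 → P.B f v = 0 → P.B v v ≠ 0 → P.B u (s v) = 0 := fun v a1 a2 a3 => by
    have := (quartic h.two h0 h1 (a1 := -2 * P.B f (s v))
      (a2 := P.B v (s v) - P.B v v * P.B u (s f)) (a3 := P.B v v * P.B u (s v)) (a4 := (0 : F))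
      fun c => ?_).2.1
    · exact (mul_eq_zero.1 this).resolve_left a3
    have h2 := h.two
    have := hz (f - (c ^ 2 * 2⁻¹ * P.B v v) • u - c • v) (by
      simp [hu, hf, huf, a1, a2, h.symm v u, h.symm v f, h.symm f u]
      field_simp; ring)
    simp only [map_sub, map_smul, LinearMap.sub_apply, LinearMap.smul_apply, smul_eq_mul, hz u hu,
      hz f hf, RingHom.id_apply, show P.B f (s u) = P.B u (s f) by rw [← hs, h.symm],
      show P.B v (s u) = P.B u (s v) by rw [← hs, h.symm],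
      show P.B v (s f) = P.B f (s v) by rw [← hs, h.symm]] at this ⊢
    have h4 : (2 : F)⁻¹ * 2 = 1 := inv_mul_cancel₀ h2
    linear_combination this + (c ^ 2 * P.B v v * P.B u (s f) - c ^ 3 * P.B v v * P.B u (s v)) * h4
  refine hsu (mem_span_of_perp h.nd fun y hy => ?_)
  obtain ⟨x, a1, a2, a3⟩ := exists_x h h3 hu hf huf
  have e : y = (y - P.B f y • u) + P.B f y • u := by simp
  have b1 : P.B u (y - P.B f y • u) = 0 := by simp [hy, hu]
  have b2 : P.B f (y - P.B f y • u) = 0 := by simp [h.symm f u, huf]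
  rw [hs, e, map_add, map_add, map_smul, map_smul, hz u hu, smul_zero, add_zero]
  generalize y - P.B f y • u = v at b1 b2
  by_cases hv : P.B v v = 0
  · have k := key x a1 a2 a3
    rcases self_add_or_sub h.two hv a3 with e | e
    · simpa [k] using key _ (by simp [a1, b1]) (by simp [a2, b2]) e
    · simpa [k] using key _ (by simp [a1, b1]) (by simp [a2, b2]) e
  · exact key v b1 b2 hv

end Orth

end H21.TO
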