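import Mathlib
import Cfsg.Agent.Base
import Cfsg.Agent.Lib.Tensor.Fac

/-!
A family of commuting tensor factors and the averaging argument for its conjugates.
-/

set_option autoImplicit false
set_option linter.unusedSectionVars false
set_option linter.unusedSimpArgs false

namespace H11.Ten

open Module Cfsg H97 H28 TS

variable {F U W V : Type*} [Field F] [AddCommGroup U] [Module F U] [AddCommGroup W]
  [Module F W] [AddCommGroup V] [Module F V] [FiniteDimensional F U] [FiniteDimensional F W]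
  {ι : Type*} {T : ι → TS F U W V} {M : Subgroup (V ≃ₗ[F] V)}

/-- The span of the maps `s ⊗ x` with `x ∈ 𝔤`. -/
def TS.KK (T : TS F U W V) (𝔤 : Submodule F (Module.End F W)) : Submodule F (Module.End F V) :=
  Submodule.span F {a | ∃ s, ∃ x ∈ 𝔤, a = T.op s x}

theorem TS.KK_top (T : TS F U W V) : T.KK ⊤ = ⊤ := by
  rw [eq_top_iff, ← (T.KK ⊤).ker_mkQ, T.end_ext (f := (T.KK ⊤).mkQ) (g := 0) fun s x =>
    (Submodule.Quotient.mk_eq_zero _).2 (Submodule.subset_span ⟨s, x, trivial, rfl⟩)]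
  simp

theorem TS.nontrivial (T : TS F U W V) [Nontrivial U] [Nontrivial W] : Nontrivial V := by
  obtain ⟨u, hu⟩ := exists_ne (0 : U)
  obtain ⟨w, hw⟩ := exists_ne (0 : W)
  exact ⟨T.τ u w, 0, by simp [τ_eq_zero, hu, hw]⟩

theorem opE_mem_TG (hc : ∀ i j, i ≠ j → (T i).Comm (T j)) [Nontrivial W] (i j : ι)
    (β : W ≃ₗ[F] W) : (T i).opE 1 β ∈ (T j).TG := by
  by_cases e : i = j
  · subst e; exact (T i).opE_mem _ _
  · exact same_map_iff.1 (same_of_commute fun y => by rw [opE_one_coe]; exact hc i j e β y)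

theorem exists_killer (hc : ∀ i j, i ≠ j → (T i).Comm (T j)) [Nontrivial W] [Nontrivial V]
    (S : Finset ι) (x : ι → Module.End F W) (hx : ∀ l, x l ≠ 0) :
    ∃ P : Module.End F V, P ≠ 0 ∧ (∀ i ∉ S, ∀ y, Commute P ((T i).inW y)) ∧
      ∀ l ∈ S, ∀ v, (T l).inW (x l) v = 0 → P v = 0 := by
  classical
  induction S using Finset.induction with
  | empty => exact ⟨1, one_ne_zero, fun _ _ _ => Commute.one_left _, by simp⟩
  | insert l S hl ih =>
    obtain ⟨P, h0, h1, h2⟩ := ih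
    obtain ⟨s, rfl⟩ := (T l).exists_inU (h1 l hl)
    refine ⟨(T l).inU s * (T l).inW (x l), ?_, fun i hi y => ?_, fun m hm v hv => ?_⟩
    · rw [← op_eq, Ne, op_eq_zero, not_or]
      exact ⟨fun e => h0 (by rw [e, map_zero]), hx l⟩
    · rw [Finset.mem_insert, not_or] at hi
      exact (h1 i hi.2 y).mul_left (hc l i (Ne.symm hi.1) _ _)
    · rcases Finset.mem_insert.1 hm with rfl | hm
      · simp [hv]
      · rw [((T l).commute_in _ _).eq, Module.End.mul_apply, h2 m hm v hv, map_zero]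

/-- A column cannot lie in the sum of the kernels of non-zero elements of other factors. -/
theorem not_col_le (hc : ∀ i j, i ≠ j → (T i).Comm (T j)) [Nontrivial U] [Nontrivial W]
    {S : Finset ι} {j : ι} (hj : j ∉ S) (x : ι → Module.End F W) (hx : ∀ l, x l ≠ 0) {w : W}
    (hw : w ≠ 0) : ¬ (T j).col w ≤ ⨆ l ∈ S, LinearMap.ker ((T l).inW (x l)) := fun h => by
  have := (T j).nontrivial
  obtain ⟨P, h0, h1, h2⟩ := exists_killer hc S x hx
  obtain ⟨s, rfl⟩ := (T j).exists_inU (h1 j hj)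
  have h3 := h.trans (iSup₂_le fun l hl v hv => h2 l hl v hv :
    _ ≤ LinearMap.ker ((T j).inU s))
  have h4 : s = 0 := LinearMap.ext fun u => by
    simpa [τ_eq_zero, hw] using h3 ((T j).τ_mem_col u w)
  exact h0 (by rw [h4, map_zero])

variable (T M) in
/-- A conjugate of a factor which is not one of the factors. -/
def NonStd (T' : TS F U W V) : Prop :=
  (∃ g ∈ M, ∃ i, T' = (T i).map g) ∧ ∀ j, ¬ (T j).Same T'

variable (T M) in
/-- A maximal set of factors commuting with a non-standard conjugate. -/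
structure MaxI (I : Finset ι) : Prop where
  ex : ∃ T', NonStd T M T' ∧ ∀ i ∈ I, (T i).Comm T'
  max : ∀ T', NonStd T M T' → (∀ i ∈ I, (T i).Comm T') → ∀ j ∉ I, ¬ (T j).Comm T'

theorem exists_maxI [Fintype ι] {T' : TS F U W V} (h : NonStd T M T') : ∃ I, MaxI T M I := by
  classical
  obtain ⟨I, hI, hmax⟩ := Finset.exists_max_image (Finset.univ.filter fun I : Finset ι =>
    ∃ T', NonStd T M T' ∧ ∀ i ∈ I, (T i).Comm T') Finset.card ⟨∅, by simpa using ⟨T', h⟩⟩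
  refine ⟨I, (Finset.mem_filter.1 hI).2, fun T' h1 h2 j hj h3 => ?_⟩
  have := hmax (insert j I) (Finset.mem_filter.2 ⟨Finset.mem_univ _, T', h1, by simpa [h3] using h2⟩)
  rw [Finset.card_insert_of_notMem hj] at this
  omega

theorem NonStd.map {T' : TS F U W V} (h : NonStd T M T') {g : V ≃ₗ[F] V} (hg : g ∈ M)
    (h1 : ∀ j, g ∈ (T j).TG) : NonStd T M (T'.map g) := by
  obtain ⟨⟨k, hk, i, rfl⟩, h2⟩ := h
  refine ⟨⟨g * k, M.mul_mem hg hk, i, rfl⟩, fun j e => h2 j ?_⟩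
  have := (same_map_iff.2 ((T j).TG.inv_mem (h1 j))).trans (e.map g⁻¹)
  rwa [map_map, inv_mul_cancel, TS.map_one] at this

theorem TS.Comm.map_right {T T' : TS F U W V} (h : T.Comm T') {g : V ≃ₗ[F] V} (hg : g ∈ T.TG) :
    T.Comm (T'.map g) := ((h.map g).symm.of_same (same_map_iff.2 hg).symm).symm

theorem act_sum_eq {z : V ≃ₗ[F] V} {𝒮 : Finset (Module.End F (Module.End F V))}
    (h : ∀ f ∈ 𝒮, act z f ∈ 𝒮) : act z (∑ f ∈ 𝒮, f) = ∑ f ∈ 𝒮, f := by
  classical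
  have h1 : 𝒮.image (act z) = 𝒮 := Finset.eq_of_subset_of_card_le (fun f hf => by
      obtain ⟨f', hf', rfl⟩ := Finset.mem_image.1 hf
      exact h f' hf')
    (Finset.card_image_of_injective _ (act_injective z)).ge
  conv_rhs => rw [← h1, Finset.sum_image fun _ _ _ _ e => act_injective z e]
  ext1 a
  simp only [act_apply, LinearMap.sum_apply]
  exact map_sum (cA z) _ _

theorem core [Finite F] [Fintype ι] [Nontrivial U] (hk : 2 ≤ finrank F W)
    (hc : ∀ i j, i ≠ j → (T i).Comm (T j)) (Y : Subgroup (W ≃ₗ[F] W)) (R : Set (W ≃ₗ[F] W))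
    (hRY : R ⊆ Y) (hY : ∀ i, ∀ β ∈ Y, (T i).opE 1 β ∈ M)
    (hall : ∀ g ∈ M, ∀ i, ¬ ∀ j, (T j).Comm ((T i).map g))
    (free : ∀ g ∈ M, ∀ i j, ∀ β ∈ R, (T j).opE 1 β ∈ ((T i).map g).TG →
      (T j).Same ((T i).map g) ∨ (T j).Comm ((T i).map g))
    (𝔤 : Submodule F (Module.End F W)) (𝒦 : Submodule F (Module.End F V))
    (h𝒦 : ∀ g ∈ M, ∀ a ∈ 𝒦, cN g a ∈ 𝒦)
    (hK : ∀ j, 𝒦 ≤ (T j).KK 𝔤 ⊔ ⨆ i, (T i).KK (𝔤 ⊓ LinearMap.ker (LinearMap.trace F W)))
    (van : ∀ j (𝒟 : Finset (Module.End F (Module.End F V))),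
      (∀ f ∈ 𝒟, ∃ g ∈ M, ∃ i, f = ((T i).map g).Θ) →
      (∀ f ∈ 𝒟, ∀ β ∈ Y, act ((T j).opE 1 β) f ∈ 𝒟) →
      (∀ f ∈ 𝒟, ∀ β ∈ R, act ((T j).opE 1 β) f ≠ f) →
      ∀ s, ∀ x ∈ 𝔤, (∑ f ∈ 𝒟, f) ((T j).op s x) = 0)
    (ident : ∀ j, ∃ s x, LinearMap.trace F U s = 1 ∧ LinearMap.trace F W x = 0 ∧
      (T j).op s x ∈ 𝒦 ∧ ∀ g ∈ M, ∀ (J : Finset ι) (y : ι → Module.End F W),
        cN g ((T j).inW x) = ∑ l ∈ J, (T l).inW (y l) → ∃ l ∈ J, (T l).Same ((T j).map g))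
    (nofree : ∀ g ∈ M, ∀ i, ∀ J : Finset ι, J.Nonempty → ¬ ∀ β ∈ R, ∀ j ∈ J, ∃ l ∈ J, l ≠ j ∧
      (T l).Same ((T j).map (((T i).map g).opE 1 β))) :
    ∀ g ∈ M, ∀ i, ∃ j, (T j).Same ((T i).map g) := by
  classical
  intro g₀ hg₀ i₀
  have := (T i₀).finite
  have : Nontrivial W := (Module.finrank_pos_iff (R := F)).1 (by omega)
  have : Finite (Module.End F (Module.End F V)) := Module.finite_of_finite F
  have := Fintype.ofFinite (Module.End F (Module.End F V))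
  by_contra hne
  obtain ⟨I, ⟨T', hT', hI⟩, hmax⟩ := exists_maxI (T := T) (M := M)
    ⟨⟨g₀, hg₀, i₀, rfl⟩, not_exists.1 hne⟩
  obtain ⟨⟨g, hg, i, rfl⟩, hns⟩ := id hT'
  have hI' : Iᶜ.Nonempty := by
    by_contra e
    exact hall g hg i fun j => hI j (by
      by_contra e'
      exact e ⟨j, Finset.mem_compl.2 e'⟩)
  let 𝒮 : Finset (Module.End F (Module.End F V)) := Finset.univ.filter fun f =>
    ∃ T', (∃ g ∈ M, ∃ i, T' = (T i).map g) ∧ (∀ i ∈ I, (T i).Comm T') ∧ f = T'.Θ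
  let 𝒟 : Finset (Module.End F (Module.End F V)) := Finset.univ.filter fun f =>
    ∃ T', NonStd T M T' ∧ (∀ i ∈ I, (T i).Comm T') ∧ f = T'.Θ
  have hinj : Set.InjOn (fun j => (T j).Θ) (Iᶜ : Finset ι) := fun j _ l _ e => by
    by_contra e'
    exact not_comm_self hk ((hc j l e').of_same (same_of_Θ e))
  have h𝒮 : 𝒮 = 𝒟 ∪ Iᶜ.image fun j => (T j).Θ := by
    ext f
    simp only [𝒮, 𝒟, Finset.mem_filter, Finset.mem_univ, true_and, Finset.mem_union,
      Finset.mem_image, Finset.mem_compl]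
    constructor
    · rintro ⟨T', h1, h2, rfl⟩
      by_cases e : ∃ j, (T j).Same T'
      · obtain ⟨j, e⟩ := e
        exact Or.inr ⟨j, fun hj => not_comm_self hk ((h2 j hj).of_same e.symm), e.Θ_eq.symm⟩
      · exact Or.inl ⟨T', ⟨h1, not_exists.1 e⟩, h2, rfl⟩
    · rintro (⟨T', h1, h2, rfl⟩ | ⟨j, hj, rfl⟩)
      · exact ⟨T', h1.1, h2, rfl⟩
      · exact ⟨T j, ⟨1, M.one_mem, j, rfl⟩, fun i hi => hc i j (fun e => hj (e ▸ hi)), rfl⟩
  have hdis : Disjoint 𝒟 (Iᶜ.image fun j => (T j).Θ) := Finset.disjoint_left.2 fun f hf hf' => by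
    obtain ⟨T', h1, -, rfl⟩ := (Finset.mem_filter.1 hf).2
    obtain ⟨j, -, e⟩ := Finset.mem_image.1 hf'
    exact h1.2 j (same_of_Θ e.symm)
  have hfree : ∀ T', NonStd T M T' → (∀ i ∈ I, (T i).Comm T') → ∀ j ∉ I, ∀ β ∈ R,
      (T j).opE 1 β ∉ T'.TG := fun T' h1 h2 j hj β hβ e => by
    obtain ⟨⟨k, hk, l, rfl⟩, h3⟩ := id h1
    exact (free k hk l j β hβ e).elim (h3 j) (hmax _ h1 h2 j hj)
  have hD1 : ∀ j ∉ I, (T j).KK 𝔤 ≤ LinearMap.ker (∑ f ∈ 𝒟, f) := fun j hj =>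
    Submodule.span_le.2 (by
      rintro _ ⟨s, x, hx, rfl⟩
      refine van j 𝒟 (fun f hf => ?_) (fun f hf β hβ => ?_) (fun f hf β hβ e => ?_) s x hx
      · obtain ⟨T', ⟨⟨k, hk, l, rfl⟩, -⟩, -, rfl⟩ := (Finset.mem_filter.1 hf).2
        exact ⟨k, hk, l, rfl⟩
      · obtain ⟨T', h1, h2, rfl⟩ := (Finset.mem_filter.1 hf).2
        exact Finset.mem_filter.2 ⟨Finset.mem_univ _, _, h1.map (hY j β hβ)
          fun l => opE_mem_TG hc j l β, fun l hl => (h2 l hl).map_right (opE_mem_TG hc j l β),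
          (T'.Θ_map _).symm⟩
      · obtain ⟨T', h1, h2, rfl⟩ := (Finset.mem_filter.1 hf).2
        exact hfree T' h1 h2 j hj β hβ (same_of_Θ ((T'.Θ_map _).trans e)))
  have hD : 𝒦 ≤ LinearMap.ker (∑ f ∈ 𝒟, f) := by
    obtain ⟨j, hj⟩ := hI'
    refine (hK j).trans (sup_le (hD1 j (Finset.mem_compl.1 hj)) (iSup_le fun l => ?_))
    by_cases hl : l ∈ I
    · refine Submodule.span_le.2 ?_
      rintro _ ⟨s, x, hx, rfl⟩
      change (∑ f ∈ 𝒟, f) _ = 0
      rw [LinearMap.sum_apply]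
      refine Finset.sum_eq_zero fun f hf => ?_
      obtain ⟨T', -, h2, rfl⟩ := (Finset.mem_filter.1 hf).2
      exact (h2 l hl).Θ_op s hx.2
    · refine le_trans (Submodule.span_mono ?_) (hD1 l hl)
      rintro _ ⟨s, x, hx, rfl⟩
      exact ⟨s, x, hx.1, rfl⟩
  have hS : ∀ a ∈ 𝒦, (∑ f ∈ 𝒮, f) a = ∑ j ∈ Iᶜ, (T j).Θ a := fun a ha => by
    rw [h𝒮, Finset.sum_union hdis, LinearMap.add_apply, hD ha, zero_add, Finset.sum_image hinj,
      LinearMap.sum_apply]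
  refine nofree g hg i Iᶜ hI' fun β hβ j hj => ?_
  set z := ((T i).map g).opE 1 β with hz
  have hzM : z ∈ M := by
    rw [hz, map_opE]; exact M.mul_mem (M.mul_mem hg (hY i β (hRY hβ))) (M.inv_mem hg)
  have hzI : ∀ l ∈ I, z ∈ (T l).TG := fun l hl => same_map_iff.1
    (same_of_commute fun y => by rw [hz, opE_one_coe]; exact (hI l hl y β).symm)
  have hinv : act z (∑ f ∈ 𝒮, f) = ∑ f ∈ 𝒮, f := act_sum_eq fun f hf => by
    obtain ⟨T', ⟨k, hk, l, e1⟩, h2, e2⟩ := (Finset.mem_filter.1 hf).2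
    refine Finset.mem_filter.2 ⟨Finset.mem_univ _, T'.map z, ⟨z * k, M.mul_mem hzM hk, l, ?_⟩,
      fun m hm => (h2 m hm).map_right (hzI m hm), ?_⟩
    · rw [e1, map_map]
    · rw [e2, Θ_map]
  obtain ⟨s, x, a1, a2, a3, a4⟩ := ident j
  have a5 := LinearMap.congr_fun hinv (cN z ((T j).op s x))
  rw [act_apply, cN_inv_cN, hS _ a3, hS _ (h𝒦 z hzM _ a3),
    Finset.sum_eq_single_of_mem j hj fun l _ hl => (hc j l (Ne.symm hl)).Θ_op s a2, Θ_op, a1,
    one_smul] at a5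
  obtain ⟨l, hl, e⟩ := a4 z hzM Iᶜ _ a5
  refine ⟨l, hl, ?_, e⟩
  rintro rfl
  have a6 : (T i).opE 1 β ∈ ((T l).map g⁻¹).TG := by
    have := Same.map e g⁻¹
    rwa [map_map, hz, map_opE, show g⁻¹ * (g * (T i).opE 1 β * g⁻¹) = (T i).opE 1 β * g⁻¹ by group,
      ← map_map] at this
  rcases free g⁻¹ (M.inv_mem hg) l i β hβ a6 with a7 | a7
  · have := a7.map g
    rw [map_map, mul_inv_cancel, TS.map_one] at this
    exact hns l this.symm
  · have := a7.map g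
    rw [map_map, mul_inv_cancel, TS.map_one] at this
    exact hmax _ hT' hI l (Finset.mem_compl.1 hl) this.symm

end H11.Ten
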