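import Mathlib
import Cfsg.Agent.Base
import Cfsg.Agent.Lib.LowRows.TI
import Cfsg.Agent.Lib.Tensor.Core

/-!
Families of rank one root elements: an overgroup permutes the tensor factors.
-/

set_option autoImplicit false
set_option linter.unusedSectionVars false
set_option linter.unusedSimpArgs false

namespace H11.Ten

open Module Cfsg H97 H28 TS

section W

variable {F W : Type*} [Field F] [AddCommGroup W] [Module F W]

theorem Good.top_of {Y : Subgroup (W ≃ₗ[F] W)} (h : Good Y) {C : Subalgebra F (Module.End F W)}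
    {x : Module.End F W} (hx : ∀ c : F, x ≠ c • LinearMap.id) (hC : ∀ γ ∈ Y, cN γ x ∈ C) :
    C = ⊤ := by
  let C' : Subalgebra F (Module.End F W) := ⨅ γ ∈ Y, C.comap (cA γ)
  have h1 : ∀ {a}, a ∈ C' ↔ ∀ γ ∈ Y, cN γ a ∈ C := by simp [C', Algebra.mem_iInf, cA_apply]
  have h2 := h C' (fun γ hγ s hs => h1.2 fun δ hδ => by
    have := h1.1 hs _ (Y.mul_mem hδ hγ)
    rwa [cN_mul] at this) x (h1.2 hC) hx
  exact eq_top_iff.2 fun a _ => by
    simpa [cN_one] using h1.1 (h2 ▸ Algebra.mem_top : a ∈ C') 1 Y.one_mem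

theorem ne_smul_of_sq {x : Module.End F W} (h0 : x ≠ 0) (h : x * x = 0) (c : F) :
    x ≠ c • LinearMap.id := by
  rintro rfl
  refine h0 (LinearMap.ext fun v => ?_)
  have := LinearMap.congr_fun h v
  simp only [Module.End.mul_apply, LinearMap.smul_apply, LinearMap.id_apply, smul_smul,
    LinearMap.zero_apply, smul_eq_zero, mul_self_eq_zero] at this
  simpa using this

/-- The map `x ↦ φ x • w`. -/
def nu (p : W × Dual F W) : Module.End F W := p.2.smulRight p.1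

@[simp] theorem nu_apply (p : W × Dual F W) (x : W) : nu p x = p.2 x • p.1 := rfl

/-- The pairs `(x, z)` for which the averaging argument gives a vanishing. -/
def GoodXZ (Φ : Set (W × Dual F W)) (Λ : AddSubgroup F) (x : Module.End F W) (z : W) : Prop :=
  (∃ p ∈ Φ, ∃ p' ∈ Φ, p'.1 ∉ F ∙ p.1 ∧ Commute x (nu p) ∧ Commute x (nu p') ∧
    ((p.2 z = 0 ∧ p'.2 z = 0) ∨ ∑ᶠ l : Λ, (l : F) = 0)) ∨
  ∃ p ∈ Φ, Commute x (nu p) ∧ ∑ᶠ l : Λ, (l : F) = 0 ∧ ∑ᶠ l : Λ, (l : F) ^ 2 = 0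

/-- Root data: a group `Y` containing the maps `1 + l ν`. -/
structure RD (Y : Subgroup (W ≃ₗ[F] W)) (Φ : Set (W × Dual F W)) (Λ : AddSubgroup F) : Prop where
  ne : ∀ p ∈ Φ, p.1 ≠ 0 ∧ p.2 ≠ 0 ∧ p.2 p.1 = 0
  has : ∀ p ∈ Φ, ∀ l ∈ Λ, Has Y fun x => x + (l • nu p) x
  conj : ∀ γ ∈ Y, ∀ p ∈ Φ, ∃ p' ∈ Φ, cN γ (nu p) = nu p'
  lam : ∃ l ∈ Λ, l ≠ 0
  nonempty : Φ.Nonempty
  good : Good Y
  two : 2 ≤ finrank F W
  char : (2 : F) ≠ 0 ∨ (3 ≤ finrank F W ∧ ∃ p ∈ Φ, ∃ p' ∈ Φ, ∃ l ∈ Λ, ∃ l' ∈ Λ, l ≠ 0 ∧ l' ≠ 0 ∧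
    l • nu p + l' • nu p' ≠ 0 ∧ nu p * nu p' = 0 ∧ nu p' * nu p = 0)

namespace RD

variable {Y : Subgroup (W ≃ₗ[F] W)} {Φ : Set (W × Dual F W)} {Λ : AddSubgroup F} (h : RD Y Φ Λ)
include h

theorem sq {p : W × Dual F W} (hp : p ∈ Φ) : nu p * nu p = 0 :=
  LinearMap.ext fun x => by simp [(h.ne p hp).2.2]

theorem nu_ne {p : W × Dual F W} (hp : p ∈ Φ) {l : F} (hl : l ≠ 0) : l • nu p ≠ 0 := fun e => by
  obtain ⟨x, hx⟩ := exists_apply_eq_one (h.ne p hp).2.1
  simpa [hx, hl, (h.ne p hp).1] using LinearMap.congr_fun e x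

theorem top_of {C : Subalgebra F (Module.End F W)} (hC : ∀ p ∈ Φ, nu p ∈ C) : C = ⊤ := by
  obtain ⟨p, hp⟩ := h.nonempty
  refine h.good.top_of (ne_smul_of_sq (by simpa using h.nu_ne hp one_ne_zero) (h.sq hp))
    fun γ hγ => ?_
  obtain ⟨p', hp', e⟩ := h.conj γ hγ p hp
  exact e ▸ hC p' hp'

end RD

end W

variable {F U W V : Type*} [Field F] [AddCommGroup U] [Module F U] [AddCommGroup W]
  [Module F W] [AddCommGroup V] [Module F V] [FiniteDimensional F U] [FiniteDimensional F W]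

namespace TS

variable {T T' : TS F U W V}

theorem col_inf {w w' : W} (h : w' ∉ F ∙ w) {x : V} (h1 : x ∈ T.col w) (h2 : x ∈ T.col w') :
    x = 0 := by
  obtain ⟨u, rfl⟩ := h1
  obtain ⟨u', e⟩ := h2
  obtain ⟨φ, a1, a2⟩ := exists_dual_of_notMem_span h 1
  have := congrArg (T.cW φ) e
  simp only [LinearMap.flip_apply, cW_τ, a1, a2, one_smul, zero_smul] at this
  rw [← e, this]; simp

theorem inW_nu_mem (p : W × Dual F W) (x : V) : T.inW (nu p) x ∈ T.col p.1 :=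
  ⟨_, (T.inW_smulRight _ _ x).symm⟩

theorem range_inW_nu {p : W × Dual F W} (hp : p.2 ≠ 0) {l : F} (hl : l ≠ 0) :
    LinearMap.range (T.inW (l • nu p)) = T.col p.1 := by
  obtain ⟨x, hx⟩ := exists_apply_eq_one hp
  refine le_antisymm ?_ ?_
  · rintro _ ⟨y, rfl⟩
    rw [map_smul]; exact Submodule.smul_mem _ _ (inW_nu_mem p y)
  · rintro _ ⟨u, rfl⟩
    exact ⟨T.τ (l⁻¹ • u) x, by simp [hx, smul_smul, hl]⟩

theorem inW_eq_zero [Nontrivial U] {x : Module.End F W} : T.inW x = 0 ↔ x = 0 := by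
  change T.op LinearMap.id x = 0 ↔ _
  rw [op_eq_zero]
  exact ⟨fun h => h.resolve_left (one_ne_zero (α := Module.End F U)), Or.inr⟩

theorem dich_mul [Nontrivial U] [Nontrivial W] (hk : 3 ≤ finrank F W ∨ (2 : F) ≠ 0)
    {z : V ≃ₗ[F] V} (hz : z ∈ T.TG) {N : Module.End F V} (e : ∀ x, z x = x + N x)
    (hN : N * N = 0) (hr : finrank F (LinearMap.range N) ≤ finrank F U) :
    (∃ y, N = T.inW y) ∨ ∀ y, Commute (z : Module.End F V) (T.inW y) := by
  obtain ⟨α, β, e'⟩ := hz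
  have : (∃ c : F, (α : U →ₗ[F] U) = c • LinearMap.id) ∨
      ∃ c : F, (β : W →ₗ[F] W) = c • LinearMap.id := by
    refine hk.elim (fun hk => ?_) fun h2 =>
      scalar_or_scalar h2 e' e fun x => LinearMap.congr_fun hN x
    by_contra hc
    push Not at hc
    obtain ⟨w, hw⟩ := exists_notMem_of_not_scalar hc.2
    refine absurd (lt_rank (T := T) hk (N := N) (s := α) (x := β) (y := LinearMap.id) (c := -1)
      (by simp) (fun u w => ?_) β.surjective hc.1 (w₀ := w) fun hc => hw ?_) (not_lt.2 hr)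
    · simp [← e', e]
    · obtain ⟨a, ha⟩ := Submodule.mem_span_singleton.1 hc
      have ha0 : a ≠ 0 := by
        rintro rfl
        exact hw (by simp [show w = 0 by simpa using ha.symm])
      exact Submodule.mem_span_singleton.2 ⟨a⁻¹, by
        rw [eq_comm, eq_inv_smul_iff₀ ha0]; exact ha⟩
  rcases this with ⟨c, hc⟩ | ⟨c, hc⟩
  · obtain ⟨β', hβ⟩ := of_scalar e' hc (exists_ne 0)
    exact Or.inl ⟨β' - 1, T.lext fun u w => by simp [← hβ, e]⟩
  · have : ∀ w, β w = c • w := fun w => LinearMap.congr_fun hc w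
    exact Or.inr fun y => T.lext fun u w => by simp [e', this]

theorem dich_add (hk : 3 ≤ finrank F W ∨ (2 : F) ≠ 0) {s : Module.End F U} {y : Module.End F W}
    (hN : (T.inU s + T.inW y) * (T.inU s + T.inW y) = 0)
    (hr : finrank F (LinearMap.range (T.inU s + T.inW y)) ≤ finrank F U)
    (hy : ∀ c : F, y ≠ c • LinearMap.id) : ∃ c : F, s = c • LinearMap.id := by
  by_contra hc
  push Not at hc
  obtain ⟨w, hw⟩ := exists_notMem_of_not_scalar hy
  rcases hk with hk | h2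
  · exact absurd (lt_rank (T := T) hk (s := s) (x := LinearMap.id) (y := y) one_ne_zero
      (fun u w => by simp) Function.surjective_id hc (w₀ := w) hw) (not_lt.2 hr)
  obtain ⟨u, hu⟩ := exists_notMem_of_not_scalar hc
  obtain ⟨ψ, a1, a2⟩ := exists_dual_of_notMem_span hu 1
  obtain ⟨φ, b1, b2⟩ := exists_dual_of_notMem_span hw 1
  have := congrArg (fun x => ψ (T.cW φ x)) (LinearMap.congr_fun hN (T.τ u w))
  simp [a1, a2, b1, b2, one_add_one_eq_two, h2] at this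

end TS

variable {ι : Type*} {T : ι → TS F U W V} {M : Subgroup (V ≃ₗ[F] V)}
  {Y : Subgroup (W ≃ₗ[F] W)} {Φ : Set (W × Dual F W)} {Λ : AddSubgroup F}

variable (T M) in
/-- The conjugates of the factors. -/
def OrbT (T' : TS F U W V) : Prop := ∃ g ∈ M, ∃ i, T' = (T i).map g

theorem orbT_self (i : ι) : OrbT T M (T i) := ⟨1, M.one_mem, i, rfl⟩

theorem OrbT.map {T' : TS F U W V} (h : OrbT T M T') {g : V ≃ₗ[F] V} (hg : g ∈ M) :
    OrbT T M (T'.map g) := by
  obtain ⟨k, hk, i, rfl⟩ := h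
  exact ⟨g * k, M.mul_mem hg hk, i, rfl⟩

theorem TS.map_col (T : TS F U W V) (g : V ≃ₗ[F] V) (w : W) :
    (T.map g).col w = (T.col w).map (g : V →ₗ[F] V) := by
  ext x; rw [mem_map_col, mem_map_iff]

variable (T M Y Φ Λ) in
/-- A family of commuting factors whose columns determine the factor among all conjugates. -/
structure Fam : Prop where
  rd : RD Y Φ Λ
  hc : ∀ i j, i ≠ j → (T i).Comm (T j)
  hY : ∀ i, ∀ β ∈ Y, (T i).opE 1 β ∈ M
  p1 : ∀ g ∈ M, ∀ i j, ∀ p ∈ Φ, ∀ w', (T j).col p.1 = ((T i).map g).col w' →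
    (T j).Same ((T i).map g)

namespace Fam

variable [Nontrivial U] (h : Fam T M Y Φ Λ)
include h

theorem nontrivial : Nontrivial W := (Module.finrank_pos_iff (R := F)).1 (by
  have := h.rd.two; omega)

theorem hk : 3 ≤ finrank F W ∨ (2 : F) ≠ 0 := h.rd.char.symm.imp_left And.left

theorem opE_mem {T' : TS F U W V} (h1 : OrbT T M T') {β : W ≃ₗ[F] W} (hβ : β ∈ Y) :
    T'.opE 1 β ∈ M := by
  obtain ⟨g, hg, i, rfl⟩ := h1
  rw [map_opE]; exact M.mul_mem (M.mul_mem hg (h.hY i β hβ)) (M.inv_mem hg)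

theorem same_of_col_eq {T₁ T₂ : TS F U W V} (h1 : OrbT T M T₁) (h2 : OrbT T M T₂)
    {p : W × Dual F W} (hp : p ∈ Φ) {w' : W} (e : T₁.col p.1 = T₂.col w') : T₁.Same T₂ := by
  obtain ⟨g, hg, j, rfl⟩ := h1
  obtain ⟨k, hk, i, rfl⟩ := h2
  have := (h.p1 (g⁻¹ * k) (M.mul_mem (M.inv_mem hg) hk) i j p hp w' (by
    rw [← map_map, map_col, ← e, map_col, map_inv_map])).map g
  rwa [map_map, mul_inv_cancel_left] at this

theorem same_of_root {T₁ T₂ : TS F U W V} (h1 : OrbT T M T₁) (h2 : OrbT T M T₂)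
    {p : W × Dual F W} (hp : p ∈ Φ) {l : F} (hl : l ≠ 0) {y : Module.End F W}
    (e : T₁.inW (l • nu p) = T₂.inW y) : T₁.Same T₂ := by
  obtain ⟨w', -, e', -⟩ := col_eq_of_inW (T := T₂) (x := y) (fun h0 => h.rd.nu_ne hp hl
    (inW_eq_zero.1 (by rw [e, h0, map_zero]))) (T₁.finrank_col (h.rd.ne p hp).1).le
    (by rw [← e, range_inW_nu (h.rd.ne p hp).2.1 hl])
  exact h.same_of_col_eq h1 h2 hp e'.symm

theorem dich {T₁ T₂ : TS F U W V} (h1 : OrbT T M T₁) (h2 : OrbT T M T₂)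
    {p : W × Dual F W} (hp : p ∈ Φ) {l : F} (hl : l ≠ 0) {β : W ≃ₗ[F] W}
    (hβ : ∀ x, β x = x + (l • nu p) x) (e : T₁.opE 1 β ∈ T₂.TG) :
    T₁.Same T₂ ∨ ∀ y, Commute (T₁.inW (nu p)) (T₂.inW y) := by
  have := h.nontrivial
  have hβ' : (β : Module.End F W) = 1 + l • nu p := LinearMap.ext hβ
  have e1 : (T₁.opE 1 β : Module.End F V) = 1 + T₁.inW (l • nu p) := by
    rw [opE_one_coe, hβ', map_add, _root_.map_one]
  refine (dich_mul h.hk e (N := T₁.inW (l • nu p)) (LinearMap.congr_fun e1)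
    (by rw [← _root_.map_mul]; simp [h.rd.sq hp]) (by
      rw [range_inW_nu (h.rd.ne p hp).2.1 hl, T₁.finrank_col (h.rd.ne p hp).1])).imp
    (fun ⟨y, e⟩ => h.same_of_root h1 h2 hp hl e) fun e y => ?_
  have := ((e1 ▸ e y).sub_left (Commute.one_left _)).smul_left l⁻¹
  rwa [add_sub_cancel_left, map_smul, smul_smul, inv_mul_cancel₀ hl, one_smul] at this

theorem free {T₁ T₂ : TS F U W V} (h1 : OrbT T M T₁) (h2 : OrbT T M T₂)
    {p : W × Dual F W} (hp : p ∈ Φ) {l : F} (hl : l ≠ 0) {β : W ≃ₗ[F] W}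
    (hβ : ∀ x, β x = x + (l • nu p) x) (e : T₁.opE 1 β ∈ T₂.TG) :
    T₁.Same T₂ ∨ T₁.Comm T₂ := by
  refine (h.dich h1 h2 hp hl hβ e).elim Or.inl fun e1 => ?_
  by_contra hc
  rw [not_or] at hc
  obtain ⟨l', hl', hl0⟩ := h.rd.lam
  have : (Subalgebra.centralizer F (Set.range T₁.inW)).comap T₂.inW = ⊤ :=
    h.rd.top_of fun p' hp' => by
      obtain ⟨β', a1, a2⟩ := h.rd.has p' hp' l' hl'
      have a3 := h.opE_mem h2 a1
      have a4 : T₂.opE 1 β' ∈ T₁.TG := same_map_iff.1 (h.same_of_col_eq h1 (h1.map a3) hp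
        (w' := p.1) (col_eq_of_le (h.rd.ne p hp).1 ?_).symm)
      · rcases h.dich h2 h1 hp' hl0 a2 a4 with a5 | a5
        · exact (hc.1 a5.symm).elim
        · rintro _ ⟨y, rfl⟩; exact (a5 y).symm
      · rw [map_col, ← range_inW_nu (h.rd.ne p hp).2.1 one_ne_zero, one_smul]
        rintro _ ⟨_, ⟨x, rfl⟩, rfl⟩
        exact ⟨T₂.opE 1 β' x, LinearMap.congr_fun (T₂.opE_one_coe β' ▸ e1 β').eq x⟩
  exact hc.2 fun x y => (this.ge Algebra.mem_top : T₂.inW y ∈ Subalgebra.centralizer F _) _ ⟨x, rfl⟩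

theorem ident {T₁ : TS F U W V} (h1 : OrbT T M T₁) {p : W × Dual F W} (hp : p ∈ Φ) {J : Finset ι}
    {y : ι → Module.End F W} (e : T₁.inW (nu p) = ∑ l ∈ J, (T l).inW (y l)) :
    ∃ l ∈ J, (T l).Same T₁ := by
  classical
  have := h.nontrivial
  have a0 : T₁.inW (nu p) * T₁.inW (nu p) = 0 := by rw [← _root_.map_mul, h.rd.sq hp, map_zero]
  by_cases hy : ∃ l ∈ J, ∀ c : F, y l ≠ c • LinearMap.id
  · obtain ⟨l, hl, hy⟩ := hy
    obtain ⟨s, hs⟩ := (T l).exists_inU (a := ∑ m ∈ J.erase l, (T m).inW (y m)) fun x =>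
      Commute.sum_left _ _ _ fun m hm => h.hc m l (Finset.ne_of_mem_erase hm) _ _
    rw [← Finset.sum_erase_add _ _ hl, hs] at e
    obtain ⟨c, rfl⟩ := dich_add h.hk (e ▸ a0) (by
      rw [← e, ← one_smul F (nu p), range_inW_nu (h.rd.ne p hp).2.1 one_ne_zero,
        T₁.finrank_col (h.rd.ne p hp).1]) hy
    refine ⟨l, hl, (h.same_of_root h1 (orbT_self l) hp one_ne_zero
      (y := c • LinearMap.id + y l) ?_).symm⟩
    rw [one_smul, e]
    exact (T l).lext fun u w => by simp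
  · push Not at hy
    choose! c hc using hy
    refine (ne_smul_of_sq (inW_eq_zero.not.2 (by simpa using h.rd.nu_ne hp one_ne_zero)) a0
      (∑ l ∈ J, c l) ?_).elim
    rw [e, Finset.sum_smul]
    exact Finset.sum_congr rfl fun l hl => by
      rw [hc l hl, map_smul]; exact congrArg _ (_root_.map_one _)

theorem sum_mem [Finite F] {j : ι} {𝒟 : Finset (Module.End F (Module.End F V))}
    (h1 : ∀ f ∈ 𝒟, ∀ β ∈ Y, act ((T j).opE 1 β) f ∈ 𝒟) {p : W × Dual F W} (hp : p ∈ Φ)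
    (h2 : ∀ f ∈ 𝒟, ∀ l ∈ Λ, l ≠ 0 → ∀ β : W ≃ₗ[F] W, (∀ x, β x = x + (l • nu p) x) →
      act ((T j).opE 1 β) f ≠ f) {a : Module.End F V} (ha : Commute a ((T j).inW (nu p))) :
    ∃ b, (∑ f ∈ 𝒟, f) a =
      (∑ᶠ l : Λ, (l : F)) • ((T j).inW (nu p) * b - b * (T j).inW (nu p)) -
        (∑ᶠ l : Λ, (l : F) ^ 2) • ((T j).inW (nu p) * b * (T j).inW (nu p)) := by
  classical
  have := Fintype.ofFinite Λ
  set N := (T j).inW (nu p) with hN
  choose β a1 a2 using fun l : Λ => h.rd.has p hp l l.2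
  have a3 : ∀ l l', β (l + l') = β l * β l' := fun l l' => LinearEquiv.ext fun x => by
    simp [le_mul_apply, a2, (h.rd.ne p hp).2.2, add_smul]; abel
  have a4 : β 0 = 1 := LinearEquiv.ext fun x => by simp [a2]
  have a5 : ∀ l, ((T j).opE 1 (β l) : Module.End F V) = 1 + (l : F) • N := fun l => by
    rw [opE_one_coe, show (β l : Module.End F W) = 1 + (l : F) • nu p from LinearMap.ext (a2 l),
      map_add, _root_.map_one, map_smul]
  have a6 : ∀ l, ((T j).opE 1 (β l))⁻¹ = (T j).opE 1 (β (-l)) := fun l => by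
    rw [inv_eq_iff_mul_eq_one, ← opE_one_mul, ← a3, add_neg_cancel, a4, opE_one_one]
  have a7 : (Fintype.card Λ : F) = 0 := by
    obtain ⟨l, hl, hl0⟩ := h.rd.lam
    have := congrArg Subtype.val (card_nsmul_eq_zero (x := (⟨l, hl⟩ : Λ)))
    rw [AddSubgroup.coe_nsmul, nsmul_eq_mul] at this
    exact (mul_eq_zero.1 this).resolve_right hl0
  let K : Module.End F V →ₗ[F] Module.End F V :=
    (∑ᶠ l : Λ, (l : F)) • (LinearMap.mulLeft F N - LinearMap.mulRight F N) -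
      (∑ᶠ l : Λ, (l : F) ^ 2) • (LinearMap.mulRight F N ∘ₗ LinearMap.mulLeft F N)
  obtain ⟨b, hb⟩ := Low.sum_mem_of_free (fun (l : Λ) f => act ((T j).opE 1 (β l)) f)
    (fun f => by rw [a4, opE_one_one, act_one]) (fun l l' f => by rw [a3, opE_one_mul, act_mul])
    (fun f => f a) (LinearMap.range K).toAddSubgroup 𝒟 (fun f hf l => h1 f hf _ (a1 l))
    (fun f hf l e => by
      by_contra hl
      exact h2 f hf l l.2 (fun e => hl (Subtype.ext e)) _ (a2 l) e)
    fun f _ => ⟨f a, by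
      have : ∀ l, act ((T j).opE 1 (β l)) f a =
          f a + (l : F) • (N * f a - f a * N) - (l : F) ^ 2 • (N * f a * N) := fun l => by
        rw [act_apply, cN_of_commute (g := _⁻¹) (by
          rw [a6, a5]; exact (Commute.one_left _).add_left (ha.symm.smul_left _))]
        change ((T j).opE 1 (β l) : Module.End F V) * (f a * _) = _
        rw [a6, a5, a5]
        simp only [mul_add, add_mul, mul_one, one_mul, smul_mul_assoc, mul_smul_comm,
          AddSubgroup.coe_neg, mul_assoc]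
        module
      simp only [this, Finset.sum_sub_distrib, Finset.sum_add_distrib, ← Finset.sum_smul,
        Finset.sum_const, Finset.card_univ, ← Nat.cast_smul_eq_nsmul F, a7, zero_smul, zero_add,
        K, finsum_eq_sum_of_fintype]
      rfl⟩
  exact ⟨b, by rw [LinearMap.sum_apply, ← hb]; rfl⟩

theorem nofree {T₁ : TS F U W V} (h1 : OrbT T M T₁) {J : Finset ι} (hJ : J.Nonempty)
    (H : ∀ p ∈ Φ, ∀ l ∈ Λ, l ≠ 0 → ∀ β : W ≃ₗ[F] W, (∀ x, β x = x + (l • nu p) x) →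
      ∀ j ∈ J, ∃ m ∈ J, m ≠ j ∧ (T m).Same ((T j).map (T₁.opE 1 β))) : False := by
  classical
  have := h.nontrivial
  obtain ⟨j, hj⟩ := hJ
  have ns : ∀ {i j}, (T i).Same (T j) → i = j := fun {i j} e => by
    by_contra e'
    exact not_comm_self h.rd.two ((h.hc i j e').of_same e.symm)
  have kill : ∀ w : W, ∃ x : Module.End F W, x ≠ 0 ∧ x w = 0 := fun w => by
    obtain ⟨y, hy⟩ := exists_notMem_span h.rd.two w
    obtain ⟨φ, a1, a2⟩ := exists_dual_of_notMem_span hy 1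
    exact ⟨nu (y, φ), fun e => hy (by
      simp [show y = 0 by simpa [a2] using LinearMap.congr_fun e y]), by simp [a1]⟩
  choose κ κ0 κ1 using kill
  obtain ⟨w, hw⟩ := exists_ne (0 : W)
  have mem : ∀ {m z}, (T m).Same ((T j).map z) → ∀ w, ∃ w', ∀ u,
      z ((T j).τ u w) ∈ (T m).col w' := fun e w => by
    obtain ⟨w', e'⟩ := e.col w
    exact ⟨w', fun u => e' ▸ ((T j).map _).τ_mem_col u w⟩
  have ker : ∀ m w, (T m).col w ≤ LinearMap.ker ((T m).inW (κ w)) := fun m w => by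
    rintro _ ⟨u, rfl⟩; simp [κ1]
  have co : ∀ {p} {l : F} {β : W ≃ₗ[F] W}, (∀ x, β x = x + (l • nu p) x) →
      (T₁.opE 1 β : Module.End F V) = 1 + l • T₁.inW (nu p) := fun {p l β} e => by
    rw [opE_one_coe, show (β : Module.End F W) = 1 + l • nu p from LinearMap.ext e, map_add,
      _root_.map_one, map_smul]
  by_cases h2 : (2 : F) = 0
  swap
  · obtain ⟨p, hp⟩ := h.rd.nonempty
    obtain ⟨l, hl, hl0⟩ := h.rd.lam
    obtain ⟨β, -, e⟩ := h.rd.has p hp l hl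
    have e2 : ∀ x, (β * β) x = x + ((l + l) • nu p) x := fun x => by
      simp [le_mul_apply, e, (h.rd.ne p hp).2.2, add_smul, add_assoc]
    obtain ⟨m, a1, a2, a3⟩ := H p hp l hl hl0 β e j hj
    obtain ⟨m', b1, b2, b3⟩ := H p hp _ (Λ.add_mem hl hl) (by rwa [← two_mul, mul_ne_zero_iff_left h2])
      _ e2 j hj
    obtain ⟨m'', c1, c2, c3⟩ := H p hp l hl hl0 β e m a1
    have hm : m' ≠ m := by
      rintro rfl
      have := a3.map (T₁.opE 1 β)
      rw [map_map, ← opE_one_mul] at this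
      exact c2 (ns (c3.trans (this.trans b3.symm)))
    obtain ⟨w₁, d1⟩ := mem a3 w
    obtain ⟨w₂, d2⟩ := mem b3 w
    refine not_col_le h.hc (S := {m, m'}) (j := j) (by simp [a2.symm, b2.symm])
      (fun i => if i = m then κ w₁ else κ w₂) (fun i => by split_ifs <;> exact κ0 _) hw ?_
    rintro _ ⟨u, rfl⟩
    have d3 := LinearMap.congr_fun (co e) ((T j).τ u w)
    have d4 := LinearMap.congr_fun (co e2) ((T j).τ u w)
    simp only [LinearEquiv.coe_coe, LinearMap.add_apply, Module.End.one_apply,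
      LinearMap.smul_apply] at d3 d4
    rw [Finset.iSup_insert, Finset.iSup_singleton, if_pos rfl, if_neg hm]
    convert Submodule.add_mem_sup (Submodule.smul_mem _ 2 (ker _ _ (d1 u)))
      (Submodule.neg_mem _ (ker _ _ (d2 u))) using 1
    rw [d3, d4]; simp; module
  obtain ⟨h3, p, hp, p', hp', l, hl, l', hl', hl0, hl0', b1, b2, b3⟩ :=
    h.rd.char.resolve_left (not_not.2 h2)
  have sq : ∀ {p} {l : F} {β : W ≃ₗ[F] W}, p ∈ Φ → (∀ x, β x = x + (l • nu p) x) →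
      T₁.opE 1 β * T₁.opE 1 β = 1 := fun {p l β} hp e => by
    rw [← opE_one_mul, show β * β = 1 from LinearEquiv.ext fun x => by
      simp [le_mul_apply, e, (h.rd.ne p hp).2.2, add_assoc, ← two_smul F, h2], opE_one_one]
  have : (Subalgebra.centralizer F (Set.range (T j).inW)).comap T₁.inW = ⊤ := by
    refine h.rd.good.top_of (ne_smul_of_sq b1 (by
      simp [mul_add, add_mul, b2, b3, h.rd.sq hp, h.rd.sq hp'])) fun γ hγ => ?_
    obtain ⟨r, hr, e⟩ := h.rd.conj γ hγ p hp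
    obtain ⟨r', hr', e'⟩ := h.rd.conj γ hγ p' hp'
    have c1 : nu r * nu r' = 0 := by
      rw [← e, ← e', ← cA_apply, ← cA_apply, ← _root_.map_mul, b2, map_zero]
    rw [← cA_apply, map_add, map_smul, map_smul, cA_apply, cA_apply, e, e']
    obtain ⟨β₁, -, e₁⟩ := h.rd.has r hr l hl
    obtain ⟨β₂, -, e₂⟩ := h.rd.has r' hr' l' hl'
    have c2 : ((T₁.opE 1 β₁ * T₁.opE 1 β₂ : V ≃ₗ[F] V) : Module.End F V) =
        1 + T₁.inW (l • nu r + l' • nu r') := by
      rw [LinearEquiv.coe_toLinearMap_mul, co e₁, co e₂]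
      simp [mul_add, add_mul, ← _root_.map_mul, c1, add_assoc]
    have c3 : ∀ x, (T₁.opE 1 β₁ * T₁.opE 1 β₂) x + x = T₁.opE 1 β₁ x + T₁.opE 1 β₂ x := fun x => by
      have d1 := LinearMap.congr_fun (co e₁) x
      have d2 := LinearMap.congr_fun (co e₂) x
      have d3 := LinearMap.congr_fun c2 x
      simp only [LinearEquiv.coe_coe, LinearMap.add_apply, Module.End.one_apply,
        LinearMap.smul_apply, map_add, map_smul] at d1 d2 d3
      rw [d1, d2, d3]; abel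
    obtain ⟨m₁, a1, a2, a3⟩ := H r hr l hl hl0 β₁ e₁ j hj
    obtain ⟨m₂, a4, a5, a6⟩ := H r' hr' l' hl' hl0' β₂ e₂ j hj
    obtain ⟨m₃, -, a8, a9⟩ := H r hr l hl hl0 β₁ e₁ m₂ a4
    have a10 := a9.trans (a6.map _)
    rw [map_map] at a10
    by_cases hm : m₁ = m₂
    · subst hm
      have a11 := a9.trans (a3.map _)
      rw [map_map, sq hr e₁, TS.map_one] at a11
      obtain ⟨α, β, e⟩ := same_map_iff.1 (a11.symm.trans a10)
      obtain ⟨c, hc⟩ : ∃ c : F, (β : Module.End F W) = c • LinearMap.id := by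
        by_contra hc
        push Not at hc
        obtain ⟨w, hw⟩ := exists_notMem_of_not_scalar hc
        obtain ⟨w₁, d1⟩ := mem a3 w
        obtain ⟨w₂, d2⟩ := mem a6 w
        obtain ⟨φ, d3, d4, d5⟩ := exists_dual_two h3 w₁ w₂
        obtain ⟨s, hs⟩ := (T j).exists_inU fun y => h.hc m₁ j a2 (nu (w, φ)) y
        obtain ⟨ψ, d6, d7⟩ := exists_dual_of_notMem_span hw 1
        have d8 : ∀ u, s (α u) = 0 := fun u => by
          have d9 := congrArg ((T m₁).inW (nu (w, φ))) (c3 ((T j).τ u w))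
          obtain ⟨u₁, f1⟩ := d1 u
          obtain ⟨u₂, f2⟩ := d2 u
          rw [← f1, ← f2, map_add, map_add, e] at d9
          simp only [LinearMap.flip_apply, inW_τ, nu_apply, d4, d5, zero_smul, map_zero,
            add_zero] at d9
          simpa [hs, d6, show ψ (β w) = 1 from d7] using congrArg ((T j).cW ψ) d9
        obtain ⟨x, hx⟩ := exists_apply_eq_one d3
        rw [show s = 0 from LinearMap.ext fun u => by
          simpa using d8 (α.symm u), map_zero, inW_eq_zero] at hs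
        exact hw (by simp [show w = 0 by simpa [hx] using LinearMap.congr_fun hs x])
      rintro _ ⟨y, rfl⟩
      have d1 : Commute ((T j).inW y) (1 + T₁.inW (l • nu r + l' • nu r')) :=
        c2 ▸ (T j).lext fun u w => by
          simp [-LinearEquiv.mul_apply, -LinearEquiv.coe_toLinearMap_mul, e,
            show ∀ w, β w = c • w from LinearMap.congr_fun hc]
      simpa using (d1.sub_right (Commute.one_right _)).eq
    exfalso
    have d1 : m₃ ≠ m₁ := by
      rintro rfl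
      have := (a3.symm.trans a10).map (T₁.opE 1 β₁)
      rw [map_map, map_map, ← mul_assoc, sq hr e₁, one_mul, TS.map_one] at this
      exact a5 (ns (a6.trans this.symm))
    have d2 : m₃ ≠ j := by
      rintro rfl
      have := a9.map (T₁.opE 1 β₁)
      rw [map_map, sq hr e₁, TS.map_one] at this
      exact hm (ns (a3.trans this))
    obtain ⟨w₁, f1⟩ := mem a3 w
    obtain ⟨w₂, f2⟩ := mem a6 w
    obtain ⟨w₃, f3⟩ := mem a10 w
    refine not_col_le h.hc (S := {m₁, m₂, m₃}) (j := j) (by simp [a2.symm, a5.symm, d2.symm])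
      (fun i => if i = m₁ then κ w₁ else if i = m₂ then κ w₂ else κ w₃)
      (fun i => by split_ifs <;> exact κ0 _) hw ?_
    rintro _ ⟨u, rfl⟩
    rw [Finset.iSup_insert, Finset.iSup_insert, Finset.iSup_singleton, if_pos rfl,
      if_neg (Ne.symm hm), if_pos rfl, if_neg d1, if_neg a8]
    convert Submodule.add_mem_sup (ker _ _ (f1 u)) (Submodule.add_mem_sup (ker _ _ (f2 u))
      (Submodule.neg_mem _ (ker _ _ (f3 u)))) using 1
    rw [← add_assoc, ← c3]; simp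
  obtain ⟨β, -, e⟩ := h.rd.has p hp l hl
  obtain ⟨m, -, a2, a3⟩ := H p hp l hl hl0 β e j hj
  exact a2 (ns (a3.trans (same_of_commute fun y => by
    rw [opE_one_coe]
    exact ((this.ge Algebra.mem_top : T₁.inW β ∈ Subalgebra.centralizer F _) _ ⟨y, rfl⟩).symm).symm))

theorem perm [Finite F] [Fintype ι] (hall : ∀ g ∈ M, ∀ i, ¬ ∀ j, (T j).Comm ((T i).map g))
    (van : ∀ d : Module.End F W →ₗ[F] W →ₗ[F] F, (∀ x z, GoodXZ Φ Λ x z → d x z = 0) → d = 0) :
    ∀ g ∈ M, ∀ i, ∃ j, (T j).Same ((T i).map g) := by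
  have := h.nontrivial
  refine core h.rd.two h.hc Y {β | ∃ p ∈ Φ, ∃ l ∈ Λ, l ≠ 0 ∧ ∀ x, β x = x + (l • nu p) x}
    (fun β ⟨p, hp, l, hl, _, e⟩ => (h.rd.has p hp l hl).mem e) h.hY hall
    (fun g hg i j β ⟨p, hp, l, _, hl, e⟩ => h.free (orbT_self j) ⟨g, hg, i, rfl⟩ hp hl e) ⊤ ⊤
    (fun _ _ _ _ => trivial) (fun j => le_sup_left.trans' (KK_top _).ge)
    (fun j 𝒟 _ h1 h2 s x _ => ?_) (fun j => ?_) fun g hg i J hJ H => h.nofree ⟨g, hg, i, rfl⟩ hJ
      fun p hp l hl hl0 β e => H β ⟨p, hp, l, hl, hl0, e⟩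
  · refine (T j).lext fun u z => (Module.forall_dual_apply_eq_zero_iff F _).1 fun ψ => ?_
    have key := fun {p} (hp : p ∈ Φ) {x} (hx : Commute x (nu p)) => h.sum_mem h1 hp
      (fun f hf l hl hl0 β e => h2 f hf β ⟨p, hp, l, hl, hl0, e⟩) (a := (T j).op s x) (by
        rw [op_eq]; exact ((T j).commute_in _ _).mul_left (hx.map _))
    let d : Module.End F W →ₗ[F] W →ₗ[F] F := ((((∑ f ∈ 𝒟, f) ∘ₗ
      LinearMap.mulLeft F ((T j).inU s) ∘ₗ (T j).inW.toLinearMap).compl₂ ((T j).τ u))).compr₂ ψ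
    have hd : ∀ x z, d x z = ψ ((∑ f ∈ 𝒟, f) ((T j).op s x) ((T j).τ u z)) := fun x z => by
      rw [op_eq]; rfl
    rw [← hd, van d, LinearMap.zero_apply, LinearMap.zero_apply]
    rintro x z (⟨p, hp, p', hp', a1, a2, a3, a4⟩ | ⟨p, hp, a1, a2, a3⟩)
    · have : ∀ {p}, p ∈ Φ → Commute x (nu p) → (p.2 z = 0 ∨ ∑ᶠ l : Λ, (l : F) = 0) →
          (∑ f ∈ 𝒟, f) ((T j).op s x) ((T j).τ u z) ∈ (T j).col p.1 := fun {p} hp a2 a4 => by
        obtain ⟨b, hb⟩ := key hp a2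
        rw [hb]
        refine Submodule.sub_mem _ ?_ (Submodule.smul_mem _ _ (inW_nu_mem _ _))
        rcases a4 with a4 | a4
        · simpa [a4] using Submodule.smul_mem _ _ (inW_nu_mem p _)
        · simp [a4]
      rw [hd, col_inf a1 (this hp a2 (a4.imp_left And.left)) (this hp' a3 (a4.imp_left And.right)),
        map_zero]
    · obtain ⟨b, hb⟩ := key hp a1
      simp [hd, hb, a2, a3]
  · obtain ⟨s, hs⟩ := exists_tr_one (F := F) (V := U)
    obtain ⟨p, hp⟩ := h.rd.nonempty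
    exact ⟨s, nu p, hs, by simp [nu, (h.rd.ne p hp).2.2], trivial, fun g hg J y e =>
      h.ident ⟨g, hg, j, rfl⟩ hp ((map_inW _ _ _).trans e)⟩

end Fam

end H11.Ten
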