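import Mathlib
import Cfsg.Agent.Base
import Cfsg.Agent.Lib.Tensor.PtFam

/-!
Root data for unitary and symplectic factors.
-/

set_option autoImplicit false
set_option linter.unusedSectionVars false
set_option linter.unusedSimpArgs false

namespace H11.Ten

open Module Cfsg H97 H28

variable {F W : Type*} [Field F] [AddCommGroup W] [Module F W] {σ : F →+* F} {PW : PQ F W σ}

theorem finsum_pow_eq_zero [Finite F] {Λ : AddSubgroup F} {t : F} (h0 : t ≠ 0)
    (h : ∀ l ∈ Λ, t * l ∈ Λ) {n : ℕ} (hn : t ^ n ≠ 1) : ∑ᶠ l : Λ, (l : F) ^ n = 0 := by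
  have := Fintype.ofFinite Λ
  let f : Λ → Λ := fun l => ⟨t * l, h l l.2⟩
  have h1 := (Finite.injective_iff_bijective.1 (show Function.Injective f from fun a b e =>
    Subtype.ext (mul_left_cancel₀ h0 (congrArg Subtype.val e)))).sum_comp fun l => (l : F) ^ n
  simp only [f, mul_pow, ← Finset.mul_sum] at h1
  rw [finsum_eq_sum_of_fintype]
  exact (mul_eq_zero.1 (show (t ^ n - 1) * _ = 0 by linear_combination h1)).resolve_left
    (sub_ne_zero.2 hn)

theorem exists_ne_of_ne_id (hne : σ ≠ RingHom.id F) : ∃ θ, σ θ ≠ θ := by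
  by_contra hc
  push Not at hc
  exact hne (RingHom.ext hc)

theorem commute_r1 {w y y' : W} (h : PW.B w y = 0) (h' : PW.B w y' = 0) :
    Commute (r1 PW y y') (r1 PW w w) :=
  LinearMap.ext fun x => by simp [h, PW.eq_zero_symm h']

theorem r1_add_smul (y y' : W) (c : F) : r1 PW (y + c • y') (y + c • y') =
    r1 PW y y + σ c • r1 PW y y' + c • r1 PW y' y + (σ c * c) • r1 PW y' y' := by
  ext z; simp; module

variable (PW) in
/-- The singular vectors with their linear forms. -/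
def ptΦ : Set (W × Dual F W) := {p | ∃ w, w ≠ 0 ∧ PW.q w ∈ PW.Λ ∧ p = (w, PW.B w)}

theorem mem_ptΦ {w : W} (h0 : w ≠ 0) (hw : PW.q w ∈ PW.Λ) : (w, PW.B w) ∈ ptΦ PW :=
  ⟨w, h0, hw, rfl⟩

variable [FiniteDimensional F W]

theorem eq_zero_of_r1 (hP : PW.B.SeparatingLeft) {N : Type*} [AddCommGroup N] [Module F N]
    {d : Module.End F W →ₗ[F] N} (h : ∀ y y', d (r1 PW y y') = 0) : d = 0 := by
  let b := Module.finBasis F W
  choose y hy using fun j => exists_repr_dual PW.σσ PW.B hP (b.coord j)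
  refine LinearMap.ext fun x => ?_
  rw [show x = ∑ j, r1 PW (x (b j)) (y j) from b.ext fun i => by
    simp [hy, Finsupp.single_apply], map_sum]
  simp [h]

theorem eq_zero_of_r1_self (hP : PW.B.SeparatingLeft) (hne : σ ≠ RingHom.id F) {N : Type*}
    [AddCommGroup N] [Module F N] {d : Module.End F W →ₗ[F] N} (h : ∀ y, d (r1 PW y y) = 0) :
    d = 0 := by
  obtain ⟨θ, hθ⟩ := exists_ne_of_ne_id hne
  refine eq_zero_of_r1 hP fun y y' => ?_
  have h1 := h (y + θ • y')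
  have h2 := h (y + (1 : F) • y')
  rw [r1_add_smul] at h1 h2
  simp only [map_add, map_smul, h, map_one, one_smul] at h1 h2
  exact (smul_eq_zero.1 (show (σ θ - θ) • d (r1 PW y y') = 0 by
    linear_combination (norm := module) h1 - θ • h2)).resolve_left (sub_ne_zero.2 hθ)

theorem goodXZ_of {w w' y y' z : W} (h0 : w ≠ 0) (hw : PW.q w ∈ PW.Λ) (hw' : PW.q w' ∈ PW.Λ)
    (h1 : w' ∉ F ∙ w) (a1 : PW.B w y = 0) (a2 : PW.B w y' = 0) (a3 : PW.B w' y = 0)
    (a4 : PW.B w' y' = 0)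
    (hz : (PW.B w z = 0 ∧ PW.B w' z = 0) ∨ ∑ᶠ l : PW.Λ, (l : F) = 0) :
    GoodXZ (ptΦ PW) PW.Λ (r1 PW y y') z :=
  Or.inl ⟨_, mem_ptΦ h0 hw, _, mem_ptΦ (fun e => h1 (by simp [e])) hw', h1, commute_r1 a1 a2,
    commute_r1 a3 a4, hz⟩

variable (PW) in
/-- A unitary or symplectic space. -/
structure WP : Prop where
  nd : PW.B.SeparatingLeft
  maxΛ : ∀ c, c + PW.ε * σ c = 0 → c ∈ PW.Λ
  typ : (σ ≠ RingHom.id F ∧ PW.ε = 1 ∧ IsoK PW 2) ∨ ∀ c, c ∈ PW.Λ

theorem sp_eps (h : ∀ c, c ∈ PW.Λ) : PW.ε = -1 := by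
  have := PW.tr_mem 1 (h 1); simp at this; linear_combination this

theorem sp_sigma (h : ∀ c, c ∈ PW.Λ) (c : F) : σ c = c := by
  have := PW.tr_mem c (h c); rw [sp_eps h] at this; linear_combination -this

theorem sp_isoK (h : ∀ c, c ∈ PW.Λ) : IsoK PW 1 := fun X hX => by
  obtain ⟨x, hx, hx0⟩ := Submodule.exists_mem_ne_zero_of_ne_bot
    (p := X) (fun e => by simp [e] at hX)
  exact ⟨x, hx, hx0, h _⟩

namespace WP

variable (h : WP PW)
include h

theorem max (u : W) (e : PW.B u u = 0) : PW.q u ∈ PW.Λ := h.maxΛ _ (by rw [← PW.self, e])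

theorem real_mul {t : F} (ht : σ t = t) (l : F) (hl : l ∈ PW.Λ) : t * l ∈ PW.Λ :=
  h.maxΛ _ (by rw [map_mul, ht]; linear_combination t * PW.tr_mem l hl)

theorem lam : ∃ l ∈ PW.Λ, l ≠ 0 := by
  rcases h.typ with ⟨hne, hε, -⟩ | h1
  · obtain ⟨θ, hθ⟩ := exists_ne_of_ne_id hne
    exact ⟨θ - σ θ, h.maxΛ _ (by simp [hε, PW.σσ]), sub_ne_zero.2 hθ.symm⟩
  · exact ⟨1, h1 1, one_ne_zero⟩

theorem isoK : IsoK PW 2 := h.typ.elim (fun h => h.2.2) fun h => (sp_isoK h).mono one_le_two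

theorem exists_sing (hk : 2 ≤ finrank F W) : ∃ w : W, w ≠ 0 ∧ PW.q w ∈ PW.Λ := by
  simpa using h.isoK ⊤ (by rwa [finrank_top])

theorem good (hk : 2 ≤ finrank F W) (ht : 3 ≤ finrank F W ∨ ∃ t : F, σ t = t ∧ t ≠ 0 ∧ t ≠ 1) :
    Good (EG PW) := by
  obtain ⟨l, hl, hl0⟩ := h.lam
  exact good_of_lambda le_rfl h.nd h.max (h.exists_sing hk) hl hl0
    (ht.imp_right fun ⟨t, a1, a2, a3⟩ => ⟨t * l, h.real_mul a1 l hl, mul_ne_zero a2 hl0,
      fun e => a3 (mul_right_cancel₀ hl0 (e.trans (one_mul _).symm))⟩)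
    (h.typ.imp And.left fun h _ => h _)

theorem has_nu {w : W} (hw : PW.q w ∈ PW.Λ) {l : F} (hl : l ∈ PW.Λ) :
    Has (EG PW) fun x => x + (l • r1 PW w w) x :=
  (has_eu_EG hw (w := 0) (c := -(PW.ε * l)) (by simp) (PW.Λ.sub_mem
    (PW.Λ.neg_mem (h.real_mul PW.σε l hl)) PW.q_zero)).congr fun x => by
      simp [eu_apply, ← mul_assoc, PW.εε, mul_smul]

theorem sing_perp (hk : 4 ≤ finrank F W) {w x : W} (hx : x ∉ F ∙ w) :
    ∃ d, PW.q d ∈ PW.Λ ∧ PW.B d w = 0 ∧ PW.B d x ≠ 0 := h.isoK.exists_sing_perp h.nd hk hx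

theorem exists_sing_perp (hk : 4 ≤ finrank F W) (w : W) :
    ∃ d, PW.q d ∈ PW.Λ ∧ PW.B w d = 0 ∧ d ∉ F ∙ w := by
  obtain ⟨d, a1, a2, a3⟩ := h.isoK.exists_notMem (perp PW (F ∙ w)) (F ∙ w) (by
    have := finrank_le_perp (P := PW) (F ∙ w)
    have := finrank_span_singleton_le (F := F) w
    omega)
  exact ⟨d, a3, mem_perp_singleton.1 a1, a2⟩

theorem rd (hk : 2 ≤ finrank F W) (ht : 4 ≤ finrank F W ∨
      ((3 ≤ finrank F W ∨ (2 : F) ≠ 0) ∧ ∃ t : F, σ t = t ∧ t ≠ 0 ∧ t ≠ 1)) :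
    RD (EG PW) (ptΦ PW) PW.Λ where
  ne := by
    rintro _ ⟨w, h0, hw, rfl⟩
    exact ⟨h0, fun e => h0 (h.nd w fun x => LinearMap.congr_fun e x), PW.self_eq_zero hw⟩
  has := by rintro _ ⟨w, -, hw, rfl⟩ l hl; exact h.has_nu hw hl
  conj := by
    rintro γ hγ _ ⟨w, h0, hw, rfl⟩
    exact ⟨_, mem_ptΦ ((map_ne_zero_iff γ γ.injective).2 h0) (isom_q (EG_le_isom hγ) hw),
      LinearMap.ext fun x => by simp [cN_apply, ← B_isom_inv' (EG_le_isom hγ)]⟩
  lam := h.lam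
  nonempty := by obtain ⟨w, h0, hw⟩ := h.exists_sing hk; exact ⟨_, mem_ptΦ h0 hw⟩
  good := h.good hk (ht.imp (by omega) And.right)
  two := hk
  char := by
    by_cases h2 : (2 : F) = 0
    swap; · exact Or.inl h2
    obtain ⟨w, h0, hw⟩ := h.exists_sing hk
    obtain ⟨l, hl, hl0⟩ := h.lam
    obtain ⟨f, -, hf⟩ := exists_pair h.nd h0 hw
    rcases ht with ht | ⟨h3, t, a1, a2, a3⟩
    · obtain ⟨d, a1, a2, a3⟩ := h.exists_sing_perp ht w
      obtain ⟨y, b1, b2⟩ := exists_perp_ne h.nd a3 1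
      refine Or.inr ⟨by omega, _, mem_ptΦ h0 hw, _, mem_ptΦ (fun e => a3 (by simp [e])) a1, l, hl,
        l, hl, hl0, hl0, fun e => a3 ?_, LinearMap.ext fun x => by simp [a2],
        LinearMap.ext fun x => by simp [PW.eq_zero_symm a2]⟩
      simp [show d = 0 by simpa [b1, b2, hl0] using LinearMap.congr_fun e y]
    · refine Or.inr ⟨h3.resolve_right (not_not.2 h2), _, mem_ptΦ h0 hw, _, mem_ptΦ h0 hw, l, hl,
        t * l, h.real_mul a1 l hl, hl0, mul_ne_zero a2 hl0, fun e => a3 ?_,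
        LinearMap.ext fun x => by simp [PW.self_eq_zero hw],
        LinearMap.ext fun x => by simp [PW.self_eq_zero hw]⟩
      have := LinearMap.congr_fun e f
      simp only [LinearMap.add_apply, LinearMap.smul_apply, nu_apply, hf, one_smul, ← add_smul,
        LinearMap.zero_apply, smul_eq_zero, h0, or_false] at this
      exact mul_right_cancel₀ hl0 (by linear_combination this - l * h2)

theorem pair_perp {y z : W} (hk : 4 ≤ finrank F W)
    (e : PW.B y y * PW.B z z ≠ PW.B y z * PW.B z y) : ∃ w w', w ≠ 0 ∧ PW.q w ∈ PW.Λ ∧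
      PW.q w' ∈ PW.Λ ∧ w' ∉ F ∙ w ∧ PW.B w y = 0 ∧ PW.B w' y = 0 ∧ PW.B w z = 0 ∧ PW.B w' z = 0 := by
  obtain ⟨w, w', a1, a2, a3, a4, a5⟩ := h.isoK.exists_pair_in h.nd (W := (F ∙ y) ⊔ F ∙ z) (Y := ⊥)
    (eq_bot_iff.2 fun x ⟨b1, b2⟩ => by
      obtain ⟨_, c1, _, c2, rfl⟩ := Submodule.mem_sup.1 b1
      obtain ⟨a, rfl⟩ := Submodule.mem_span_singleton.1 c1
      obtain ⟨b, rfl⟩ := Submodule.mem_span_singleton.1 c2
      rw [perp_sup] at b2
      have d1 := mem_perp_singleton.1 b2.1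
      have d2 := mem_perp_singleton.1 b2.2
      simp only [map_add, map_smul, smul_eq_mul] at d1 d2
      have e' := sub_ne_zero.2 e
      rw [(mul_eq_zero.1 (show a * _ = 0 by
          linear_combination PW.B z z * d1 - PW.B y z * d2)).resolve_right e',
        (mul_eq_zero.1 (show b * _ = 0 by
          linear_combination PW.B y y * d2 - PW.B z y * d1)).resolve_right e']
      simp) bot_le (by
      have := finrank_le_perp (P := PW) ((F ∙ y) ⊔ F ∙ z)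
      have := finrank_sup_le' (F ∙ y) (F ∙ z)
      have := finrank_span_singleton_le (F := F) y
      have := finrank_span_singleton_le (F := F) z
      simp; omega)
  rw [sup_bot_eq, perp_sup] at a4 a5
  refine ⟨w, w', by rintro rfl; simp at a3, a1, a2, fun e => ?_,
    PW.eq_zero_symm (mem_perp_singleton.1 a4.1), PW.eq_zero_symm (mem_perp_singleton.1 a5.1),
    PW.eq_zero_symm (mem_perp_singleton.1 a4.2), PW.eq_zero_symm (mem_perp_singleton.1 a5.2)⟩
  obtain ⟨a, rfl⟩ := Submodule.mem_span_singleton.1 e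
  simp [PW.self_eq_zero a1] at a3

theorem exists_ns (hne : σ ≠ RingHom.id F) (hε : PW.ε = 1) {z v : W} (hz : PW.B z z = 0)
    (hv : PW.B v z ≠ 0) : ∃ c c' : F, c ≠ c' ∧ PW.B (v + c • z) (v + c • z) ≠ 0 ∧
      PW.B (v + c' • z) (v + c' • z) ≠ 0 := by
  obtain ⟨a, ha⟩ := exists_trace_one hne PW.σσ
  obtain ⟨l, hl, hl0⟩ := h.lam
  have h1 := PW.tr_mem l hl
  have h2 : σ (PW.B v v) = PW.B v v := by simpa [hε] using (PW.symm v v).symm
  have key : ∀ c, c + σ c = 1 - PW.B v v →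
      PW.B (v + (c / PW.B v z) • z) (v + (c / PW.B v z) • z) ≠ 0 := fun c hc => by
    have : σ (PW.B v z) ≠ 0 := by simpa using hv
    rw [show PW.B (v + (c / PW.B v z) • z) (v + (c / PW.B v z) • z) = 1 by
      simp only [map_add, map_smul, LinearMap.add_apply, B_smul_left, hz, smul_eq_mul, PW.symm v z,
        hε, map_div₀, mul_zero, add_zero, one_mul, div_mul_cancel₀ _ hv, div_mul_cancel₀ _ this]
      linear_combination hc]
    exact one_ne_zero
  refine ⟨_, _, fun e => hl0 ?_, key (a * (1 - PW.B v v)) (by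
    simp only [map_mul, map_sub, map_one, h2]; linear_combination (1 - PW.B v v) * ha),
    key (a * (1 - PW.B v v) + l) (by
      simp only [map_mul, map_sub, map_one, h2, map_add]
      linear_combination (1 - PW.B v v) * ha + h1 - σ l * hε)⟩
  simpa [div_left_inj' hv] using e

theorem exists_perp_ns (hne : σ ≠ RingHom.id F) (hε : PW.ε = 1) {X : Submodule F W}
    (hX : X ⊓ perp PW X = ⊥) {N : Type*} [AddCommGroup N] [Module F N] {φ : W →ₗ[F] N}
    (hφ : ∀ z ∈ perp PW X, PW.B z z ≠ 0 → φ z = 0) {z : W} (hz : z ∈ perp PW X) : φ z = 0 := by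
  by_cases e : PW.B z z = 0
  swap; · exact hφ z hz e
  by_cases e' : ∀ v ∈ perp PW X, PW.B v z = 0
  · rw [show z = 0 from hX.le ⟨perp_perp h.nd X ▸ e', hz⟩, map_zero]
  push Not at e'
  obtain ⟨v, hv, e'⟩ := e'
  obtain ⟨c, c', a1, a2, a3⟩ := h.exists_ns hne hε e e'
  have b1 := hφ _ (Submodule.add_mem _ hv (Submodule.smul_mem _ c hz)) a2
  have b2 := hφ _ (Submodule.add_mem _ hv (Submodule.smul_mem _ c' hz)) a3
  simp only [map_add, map_smul] at b1 b2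
  exact (smul_eq_zero.1 (show (c - c') • φ z = 0 by
    linear_combination (norm := module) b1 - b2)).resolve_left (sub_ne_zero.2 a1)

omit h in
theorem span_inf_perp {y : W} (hy : PW.B y y ≠ 0) : (F ∙ y) ⊓ perp PW (F ∙ y) = ⊥ :=
  eq_bot_iff.2 fun x ⟨b1, b2⟩ => by
    obtain ⟨a, rfl⟩ := Submodule.mem_span_singleton.1 b1
    simp [show a = 0 by simpa [hy] using mem_perp_singleton.1 b2]

theorem van_u4 (hne : σ ≠ RingHom.id F) (hε : PW.ε = 1) (hk : 4 ≤ finrank F W)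
    (d : Module.End F W →ₗ[F] W →ₗ[F] F) (hd : ∀ x z, GoodXZ (ptΦ PW) PW.Λ x z → d x z = 0) :
    d = 0 := by
  have key : ∀ y z, PW.B y y * PW.B z z ≠ PW.B y z * PW.B z y →
      d (r1 PW y y) z = 0 ∧ d (r1 PW y y) y = 0 := fun y z e => by
    obtain ⟨w, w', a1, a2, a3, a4, a5, a6, a7, a8⟩ := h.pair_perp hk e
    exact ⟨hd _ _ (goodXZ_of a1 a2 a3 a4 a5 a5 a6 a6 (Or.inl ⟨a7, a8⟩)),
      hd _ _ (goodXZ_of a1 a2 a3 a4 a5 a5 a6 a6 (Or.inl ⟨a5, a6⟩))⟩
  refine eq_zero_of_r1_self h.nd hne fun y => LinearMap.ext fun z => ?_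
  by_cases hy : PW.B y y = 0
  · by_cases h0 : y = 0
    · simp [h0, show r1 PW 0 0 = 0 from LinearMap.ext fun x => by simp]
    have k2 : ∀ z, PW.B y z ≠ 0 → d (r1 PW y y) z = 0 := fun z e => (key y z (by
      rw [hy, zero_mul]; exact (mul_ne_zero e (B_ne_zero_symm e)).symm)).1
    by_cases e : PW.B y z = 0
    · obtain ⟨z', e'⟩ := exists_B_ne h.nd h0
      simpa [k2 z' e'] using k2 (z + z') (by simpa [e] using e')
    · exact k2 z e
  have k2 : ∀ z ∈ perp PW (F ∙ y), PW.B z z ≠ 0 → d (r1 PW y y) z = 0 ∧ d (r1 PW y y) y = 0 :=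
    fun z hz e => key y z (by simpa [mem_perp_singleton.1 hz] using ⟨hy, e⟩)
  have k3 : d (r1 PW y y) y = 0 := by
    by_contra e
    obtain ⟨v, hv, hv0⟩ := Submodule.exists_mem_ne_zero_of_ne_bot (p := perp PW (F ∙ y)) fun e => by
      have := finrank_le_perp (P := PW) (F ∙ y)
      have := finrank_span_singleton_le (F := F) y
      rw [e, finrank_bot] at *; omega
    exact hv0 (h.exists_perp_ns hne hε (span_inf_perp hy) (φ := LinearMap.id)
      (fun z hz e' => (e (k2 z hz e').2).elim) hv)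
  simpa [k3] using h.exists_perp_ns hne hε (span_inf_perp hy) (fun z hz e' => (k2 z hz e').1)
    (z := z - (PW.B y z / PW.B y y) • y) (mem_perp_singleton.2 (by simp [hy]))

theorem exists_ns_perp (hne : σ ≠ RingHom.id F) (hε : PW.ε = 1) (hk : 3 ≤ finrank F W) {y : W}
    (h0 : y ≠ 0) (hy : PW.B y y = 0) : ∃ v, PW.B y v = 0 ∧ PW.B v v ≠ 0 := by
  obtain ⟨f, a1, a2⟩ := exists_pair h.nd h0 (h.max y hy)
  obtain ⟨v, hv, b1, b2⟩ := exists_ker_two hk (PW.B y) (PW.B f)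
  by_contra hc
  push Not at hc
  refine hv (h.exists_perp_ns hne hε (X := (F ∙ y) ⊔ F ∙ f) (φ := LinearMap.id)
    (eq_bot_iff.2 fun x ⟨b1, b2⟩ => ?_) (fun z hz e => (e (hc z ?_)).elim) ?_)
  · obtain ⟨_, c1, _, c2, rfl⟩ := Submodule.mem_sup.1 b1
    obtain ⟨a, rfl⟩ := Submodule.mem_span_singleton.1 c1
    obtain ⟨b, rfl⟩ := Submodule.mem_span_singleton.1 c2
    rw [perp_sup] at b2
    have d1 := mem_perp_singleton.1 b2.1
    have d2 := mem_perp_singleton.1 b2.2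
    simp [hy, a2, PW.self_eq_zero a1, PW.symm y f, hε] at d1 d2
    simp [d1, d2]
  · rw [perp_sup] at hz; exact mem_perp_singleton.1 hz.1
  · rw [perp_sup]; exact ⟨mem_perp_singleton.2 b1, mem_perp_singleton.2 b2⟩

theorem van_u3 [Finite F] (hne : σ ≠ RingHom.id F) (hε : PW.ε = 1) (hk : 3 ≤ finrank F W) {t : F}
    (ht : σ t = t) (ht0 : t ≠ 0) (ht1 : t ≠ 1)
    (d : Module.End F W →ₗ[F] W →ₗ[F] F) (hd : ∀ x z, GoodXZ (ptΦ PW) PW.Λ x z → d x z = 0) :
    d = 0 := by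
  have hS : ∑ᶠ l : PW.Λ, (l : F) = 0 := by
    simpa using finsum_pow_eq_zero ht0 (h.real_mul ht) (n := 1) (by simpa using ht1)
  have key : ∀ y, PW.B y y ≠ 0 → d (r1 PW y y) = 0 := fun y hy => LinearMap.ext fun z => by
    obtain ⟨w, w', a1, a2, a3, a4, a5⟩ := h.isoK.exists_pair_in h.nd (span_inf_perp hy) (Y := ⊥)
      bot_le (by
        have := finrank_le_perp (P := PW) (F ∙ y)
        have := finrank_span_singleton_le (F := F) y
        simp; omega)
    rw [sup_bot_eq, mem_perp_singleton] at a4 a5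
    refine hd _ _ (goodXZ_of (by rintro rfl; simp at a3) a1 a2 (fun e => ?_) (PW.eq_zero_symm a4)
      (PW.eq_zero_symm a4) (PW.eq_zero_symm a5) (PW.eq_zero_symm a5) (Or.inr hS))
    obtain ⟨a, rfl⟩ := Submodule.mem_span_singleton.1 e
    simp [PW.self_eq_zero a1] at a3
  refine eq_zero_of_r1_self h.nd hne fun y => ?_
  by_cases hy : PW.B y y = 0
  swap; · exact key y hy
  by_cases h0 : y = 0
  · simp [h0, show r1 PW 0 0 = 0 from LinearMap.ext fun x => by simp]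
  obtain ⟨v, a1, a2⟩ := h.exists_ns_perp hne hε hk h0 hy
  have b1 := key (y + (1 : F) • v) (by simp [hy, a1, PW.eq_zero_symm a1, a2])
  have b2 := key (y + t • v) (by simp [hy, a1, PW.eq_zero_symm a1, a2, ht0])
  rw [r1_add_smul] at b1 b2
  simp only [map_add, map_smul, key v a2, map_one, one_smul, ht, smul_zero] at b1 b2
  exact (smul_eq_zero.1 (show (t - 1) • d (r1 PW y y) = 0 by
    linear_combination (norm := module) t • b1 - b2)).resolve_left (sub_ne_zero.2 ht1)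

theorem van_sp (hs : ∀ c, c ∈ PW.Λ)
    (hk : 5 ≤ finrank F W ∨ (4 ≤ finrank F W ∧ ∑ᶠ l : PW.Λ, (l : F) = 0))
    (d : Module.End F W →ₗ[F] W →ₗ[F] F) (hd : ∀ x z, GoodXZ (ptΦ PW) PW.Λ x z → d x z = 0) :
    d = 0 := by
  refine eq_zero_of_r1 h.nd fun y y' => LinearMap.ext fun z => ?_
  have key : ∀ z, 5 ≤ finrank F W ∨ (4 ≤ finrank F W ∧ z = 0) → ∃ w w', w ≠ 0 ∧ w' ∉ F ∙ w ∧
      w ∈ perp PW ((F ∙ y) ⊔ (F ∙ y') ⊔ F ∙ z) ∧ w' ∈ perp PW ((F ∙ y) ⊔ (F ∙ y') ⊔ F ∙ z) :=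
    fun z hz => by
    have : 2 ≤ finrank F (perp PW ((F ∙ y) ⊔ (F ∙ y') ⊔ F ∙ z)) := by
      have := finrank_le_perp (P := PW) ((F ∙ y) ⊔ (F ∙ y') ⊔ F ∙ z)
      have := finrank_sup_le' ((F ∙ y) ⊔ F ∙ y') (F ∙ z)
      have := finrank_sup_le' (F ∙ y) (F ∙ y')
      have := finrank_span_singleton_le (F := F) y
      have := finrank_span_singleton_le (F := F) y'
      have := finrank_span_singleton_le (F := F) z
      rcases hz with _ | ⟨_, rfl⟩
      · omega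
      · have : finrank F (F ∙ (0 : W)) = 0 := by simp
        omega
    obtain ⟨w, a1, a2, -⟩ := sp_isoK hs _ (one_le_two.trans this)
    obtain ⟨w', a3, a4, -⟩ := (sp_isoK hs).exists_notMem _ (F ∙ w)
      ((Nat.succ_le_succ (finrank_span_singleton_le w)).trans this)
    exact ⟨w, w', a2, a4, a1, a3⟩
  obtain ⟨z', hz, e⟩ : ∃ z', (5 ≤ finrank F W ∨ (4 ≤ finrank F W ∧ z' = 0)) ∧
      (z' = z ∨ ∑ᶠ l : PW.Λ, (l : F) = 0) :=
    hk.elim (fun hk => ⟨z, Or.inl hk, Or.inl rfl⟩) fun hk => ⟨0, Or.inr ⟨hk.1, rfl⟩, Or.inr hk.2⟩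
  obtain ⟨w, w', a1, a2, a3, a4⟩ := key z' hz
  simp only [perp_sup, Submodule.mem_inf, mem_perp_singleton] at a3 a4
  exact hd _ _ (goodXZ_of a1 (hs _) (hs _) a2 (PW.eq_zero_symm a3.1.1) (PW.eq_zero_symm a3.1.2)
    (PW.eq_zero_symm a4.1.1) (PW.eq_zero_symm a4.1.2)
    (e.imp_left fun (e : z' = z) => e ▸ ⟨PW.eq_zero_symm a3.2, PW.eq_zero_symm a4.2⟩))

omit h in
theorem sp_skew (hs : ∀ c, c ∈ PW.Λ) (x y : W) : PW.B y x = -PW.B x y := by
  rw [PW.symm, sp_eps hs, sp_sigma hs]; ring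

omit h in
theorem r1_sub_two (hs : ∀ c, c ∈ PW.Λ) (hk : finrank F W ≤ 2) (a b : W) :
    r1 PW a b - r1 PW b a = PW.B b a • 1 := LinearMap.ext fun c => by
  have hz := fun x => PW.self_eq_zero (hs (PW.q x))
  by_cases ha : a = 0
  · simp [ha]
  by_cases hb : b ∈ F ∙ a
  · obtain ⟨t, rfl⟩ := Submodule.mem_span_singleton.1 hb
    simp [sp_sigma hs, hz, smul_smul, mul_comm]
  have : (F ∙ a) ⊔ (F ∙ b) = ⊤ := Submodule.eq_top_of_finrank_eq (le_antisymm
    (Submodule.finrank_le _) (hk.trans (by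
      have := Submodule.finrank_lt_finrank_of_lt (lt_of_le_of_ne le_sup_left fun e => hb
        (e ▸ Submodule.mem_sup_right (Submodule.mem_span_singleton_self b)) :
          (F ∙ a) < (F ∙ a) ⊔ F ∙ b)
      rwa [finrank_span_singleton ha] at this)))
  obtain ⟨_, c1, _, c2, rfl⟩ := Submodule.mem_sup.1 (this.ge (Submodule.mem_top (x := c)))
  obtain ⟨s, rfl⟩ := Submodule.mem_span_singleton.1 c1
  obtain ⟨t, rfl⟩ := Submodule.mem_span_singleton.1 c2
  simp [hz, sp_skew hs a b]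
  module

theorem van_sp2 [Finite F] (hs : ∀ c, c ∈ PW.Λ) (hk : finrank F W = 2) (h2 : (2 : F) ≠ 0) {t : F}
    (ht0 : t ≠ 0) (ht : t ^ 2 ≠ 1)
    (d : Module.End F W →ₗ[F] W →ₗ[F] F) (hd : ∀ x z, GoodXZ (ptΦ PW) PW.Λ x z → d x z = 0) :
    d = 0 := by
  have S1 : ∑ᶠ l : PW.Λ, (l : F) = 0 := by
    simpa using finsum_pow_eq_zero ht0 (fun _ _ => hs _) (n := 1) (by
      rintro e; exact ht (by simp [show t = 1 by simpa using e]))
  have S2 := finsum_pow_eq_zero (Λ := PW.Λ) ht0 (fun _ _ => hs _) ht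
  have k1 : ∀ y, d (r1 PW y y) = 0 := fun y => LinearMap.ext fun z => by
    by_cases h0 : y = 0
    · simp [h0, show r1 PW 0 0 = 0 from LinearMap.ext fun x => by simp]
    exact hd _ _ (Or.inr ⟨_, mem_ptΦ h0 (hs _), Commute.refl _, S1, S2⟩)
  have k2 : d 1 = 0 := LinearMap.ext fun z => by
    obtain ⟨w, h0, hw⟩ := h.exists_sing hk.ge
    exact hd _ _ (Or.inr ⟨_, mem_ptΦ h0 hw, Commute.one_left _, S1, S2⟩)
  refine eq_zero_of_r1 h.nd fun y y' => ?_
  have a1 := k1 (y + (1 : F) • y')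
  have a2 := congrArg d (r1_sub_two hs hk.le y y')
  rw [r1_add_smul] at a1
  simp only [map_add, map_smul, k1, map_one, one_smul, map_sub, k2, smul_zero] at a1 a2
  exact (smul_eq_zero.1 (show (2 : F) • d (r1 PW y y') = 0 by
    linear_combination (norm := module) a1 + a2)).resolve_left h2

end WP

end H11.Ten
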