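import Mathlib
import Cfsg.Agent.Base
import Cfsg.Agent.Lib.Tensor.PtRD

/-!
Levels of a group containing `1 ⊗ EG W` for a unitary or symplectic factor `W`.
-/

set_option autoImplicit false
set_option linter.unusedSectionVars false
set_option linter.unusedSimpArgs false

namespace H11.Ten

open Module Cfsg H97 H28 TS

variable {F U W V : Type*} [Field F] [AddCommGroup U] [Module F U] [AddCommGroup W]
  [Module F W] [AddCommGroup V] [Module F V] {σ : F →+* F} {T T' : TS F U W V} {PU PU' : PQ F U σ}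
  {PW : PQ F W σ} {P : PQ F V σ} {M : Subgroup (V ≃ₗ[F] V)}

section W

variable [FiniteDimensional F W]

theorem mem_span_of_small (hP : PW.B.SeparatingLeft) (hk : finrank F W ≤ 3) {x y : W} (h0 : x ≠ 0)
    (hx : PW.B x x = 0) (hy : PW.B y y = 0) (h : PW.B x y = 0) : y ∈ F ∙ x := by
  by_contra hc
  have h1 : (F ∙ x) ⊔ (F ∙ y) ≤ perp PW ((F ∙ x) ⊔ F ∙ y) := by
    simp [perp_sup, mem_perp_singleton, hx, hy, h, PW.eq_zero_symm h]
  have h2 := Submodule.finrank_mono h1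
  have h3 := finrank_perp hP ((F ∙ x) ⊔ F ∙ y)
  have := Submodule.finrank_lt_finrank_of_lt (lt_of_le_of_ne le_sup_left fun e => hc
    (e ▸ Submodule.mem_sup_right (Submodule.mem_span_singleton_self y)) :
      (F ∙ x) < (F ∙ x) ⊔ F ∙ y)
  rw [finrank_span_singleton h0] at this
  omega

theorem WP.trans (h : WP PW) (hk : 3 ≤ finrank F W ∨ ∀ c, c ∈ PW.Λ) {x y : W} (h0 : x ≠ 0)
    (h0' : y ≠ 0) (hx : PW.q x ∈ PW.Λ) (hy : PW.q y ∈ PW.Λ) : ∃ β ∈ EG PW, β x = y := by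
  by_cases h4 : 4 ≤ finrank F W
  · exact h.isoK.exists_EG_apply_eq h.nd h4 h0 h0' (PW.Λ.sub_mem hx hy)
  have key : ∀ {x y}, PW.q x ∈ PW.Λ → PW.q y ∈ PW.Λ → PW.B y x ≠ 0 → ∃ β ∈ EG PW, β x = y :=
    fun {x y} hx hy e => by
    obtain ⟨d, a1, a2, a3⟩ : ∃ d, PW.q d ∈ PW.Λ ∧ PW.B d (x - y) = 0 ∧ PW.B d x ≠ 0 := by
      by_cases e' : PW.B (x - y) (x - y) = 0
      · exact ⟨_, h.max _ e', e', by simpa [PW.self_eq_zero hx] using e⟩
      obtain ⟨w, w', a1, a2, a3, a4, a5⟩ := h.isoK.exists_pair_in h.nd (WP.span_inf_perp e')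
        (Y := ⊥) bot_le (by
          have := finrank_le_perp (P := PW) (F ∙ (x - y))
          have := finrank_span_singleton_le (F := F) (x - y)
          have := hk.resolve_right fun hs => e' (PW.self_eq_zero (hs _))
          simp; omega)
      rw [sup_bot_eq, mem_perp_singleton] at a4 a5
      by_cases b1 : PW.B w x = 0
      swap; · exact ⟨w, a1, PW.eq_zero_symm a4, b1⟩
      refine ⟨w', a2, PW.eq_zero_symm a5, fun b2 => ?_⟩
      obtain ⟨a, rfl⟩ := Submodule.mem_span_singleton.1 (mem_span_of_small h.nd (by omega)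
        (by rintro rfl; simp at a3) (PW.self_eq_zero a1) (PW.self_eq_zero hx) b1)
      have := B_ne_zero_symm (P := PW) (x := w) (y := w') (by simp [a3])
      exact e (by simp [show a = 0 by simpa [this] using b2])
    obtain ⟨g, hg, -, e, -⟩ := (xle_EG a1).exists_apply_eq a1 (PW.Λ.sub_mem hx hy)
      (by simpa [sub_eq_zero] using a2) a3
    exact ⟨g, hg, e⟩
  by_cases e : PW.B y x = 0
  swap; · exact key hx hy e
  obtain ⟨a, rfl⟩ := Submodule.mem_span_singleton.1 (mem_span_of_small h.nd (by omega) h0'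
    (PW.self_eq_zero hy) (PW.self_eq_zero hx) e)
  obtain ⟨f, a1, a2⟩ := exists_pair h.nd h0' hy
  obtain ⟨β, b1, b2⟩ := key hx a1 (B_ne_zero_symm (by simpa [a2] using left_ne_zero_of_smul h0))
  obtain ⟨β', b3, b4⟩ := key a1 hy (by simp [a2])
  exact ⟨β' * β, (EG PW).mul_mem b3 b1, by rw [le_mul_apply, b2, b4]⟩

theorem exists_perp_pair (hP : PW.B.SeparatingLeft) (hk : 3 ≤ finrank F W) {w : W} (h0 : w ≠ 0)
    (hw : PW.q w ∈ PW.Λ) :
    ∃ w' y y', PW.q w' ∈ PW.Λ ∧ PW.B w w' = 1 ∧ PW.B w y = 0 ∧ PW.B w' y = 0 ∧ PW.B w y' = 0 ∧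
      PW.B w' y' = 0 ∧ PW.B y y' = 1 := by
  obtain ⟨f, hf, e⟩ := exists_pair hP h0 hw
  obtain ⟨y, hy, e1, e2⟩ := exists_ker_two hk (PW.B w) (PW.B f)
  obtain ⟨x, hx⟩ := exists_B_eq hP hy 1
  have hfw : PW.B f w = PW.ε := by rw [PW.symm, e]; simp
  refine ⟨f, y, x - PW.B w x • f - (PW.ε * PW.B f x) • w, hf, e, e1, e2, ?_, ?_, ?_⟩
  · simp [e, PW.self_eq_zero hw]
  · simp [hfw, PW.self_eq_zero hf]; linear_combination (-PW.B f x) * PW.εε
  · simp [hx, PW.eq_zero_symm e1, PW.eq_zero_symm e2]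

end W

namespace TS

variable (T PW) in
/-- The maps `t` such that `M` contains all `1 + t ⊗ w w^*`. -/
def zlev (M : Subgroup (V ≃ₗ[F] V)) : AddSubgroup (Module.End F U) where
  carrier := {t | ∀ w, PW.q w ∈ PW.Λ → T.HasS M t w (PW.B w)}
  zero_mem' _ _ := has_id.congr fun x => by simp
  add_mem' h h' w hw := (h w hw).add_s (h' w hw) (PW.self_eq_zero hw)
  neg_mem' h w hw := (h w hw).inv fun x => by simp [PW.self_eq_zero hw]

theorem zlev_norm {t : Module.End F U} (ht : t ∈ T.zlev PW M) (a : F) :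
    (σ a * a) • t ∈ T.zlev PW M := fun w hw =>
  (ht (a • w) (PW.q_smul_mem hw a)).congr fun x => by simp [smul_smul, mul_comm]

theorem zlev_conj {α : U ≃ₗ[F] U} (hα : α ∈ T.grpU M) {t : Module.End F U} (ht : t ∈ T.zlev PW M) :
    cN α t ∈ T.zlev PW M := fun w hw => (ht w hw).conj (mem_grpU.1 hα)

variable (T PW) in
/-- The left multipliers of `levF`. -/
def algL (M : Subgroup (V ≃ₗ[F] V)) : Subalgebra F (Module.End F U) where
  carrier := {a | ∀ s ∈ T.levF PW M, a * s ∈ T.levF PW M}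
  mul_mem' ha hb s hs := by rw [mul_assoc]; exact ha _ (hb s hs)
  add_mem' ha hb s hs := by rw [add_mul]; exact Submodule.add_mem _ (ha s hs) (hb s hs)
  algebraMap_mem' c s hs := by
    rw [Algebra.algebraMap_eq_smul_one, smul_mul_assoc, one_mul]; exact Submodule.smul_mem _ c hs

theorem invA_algL : InvA (T.grpU M) (T.algL PW M) := fun γ hγ a ha s hs => by
  have := levF_conj hγ (ha _ (levF_conj ((T.grpU M).inv_mem hγ) hs))
  convert this using 1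
  ext x
  simp

variable (T PW) in
/-- All levels are scalar. -/
structure Std (M : Subgroup (V ≃ₗ[F] V)) : Prop where
  z : ∀ t ∈ T.zlev PW M, ∃ c : F, t = c • LinearMap.id
  n : ∀ w v n, w ≠ 0 → PW.q w ∈ PW.Λ → PW.B w v = 0 → T.HasN PW M w n →
    ∃ c : F, n ∘ₗ T.τ.flip v = c • LinearMap.id

theorem Std.map (h : T.Std PW M) {g : V ≃ₗ[F] V} (hg : g ∈ M) : (T.map g).Std PW M where
  z t ht := h.z t fun w hw => (Has.conj (ht w hw) (M.inv_mem hg)).congr fun x => by simp [map_cW]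
  n w v n h0 hw hv hn := by
    obtain ⟨h1, k, hk, h2⟩ := hn
    exact h.n w v (n ∘ₗ g) h0 hw hv ⟨h1, g⁻¹ * k * g, M.mul_mem (M.mul_mem (M.inv_mem hg) hk) hg,
      fun x hx => by
        rw [le_mul_apply, le_mul_apply, h2 _ (by simpa [cB, map_cW] using hx)]; simp⟩

end TS

theorem TF.map (h : TF T PU PW P) {g : V ≃ₗ[F] V} (hg : g ∈ P.Isom) : TF (T.map g) PU PW P where
  ndU := h.ndU
  ndW := h.ndW
  nd := h.nd
  B_τ u w u' w' := (B_isom hg _ _).trans (h.B_τ u w u' w')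
  ε_eq := h.ε_eq
  isom k hk e := by
    obtain ⟨α, β, e'⟩ := hk
    have := h.isom (g⁻¹ * k * g) ⟨α, β, fun u w => by simpa using congrArg g.symm (e' u w)⟩
      fun x y => by simp only [le_mul_apply, B_isom (P.Isom.inv_mem hg), e, B_isom hg]
    simpa [mul_assoc] using P.Isom.mul_mem (P.Isom.mul_mem hg this) (P.Isom.inv_mem hg)
  sing u w e := isom_q hg (h.sing u w e)
  maxU := h.maxU
  maxW := h.maxW
  hΛ := h.hΛ

/-- A group of isometries containing `1 ⊗ EG W`. -/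
structure Cx [FiniteDimensional F W] (T : TS F U W V) (PU : PQ F U σ) (PW : PQ F W σ)
    (P : PQ F V σ) (M : Subgroup (V ≃ₗ[F] V)) : Prop where
  tf : TF T PU PW P
  wp : WP PW
  opW : ∀ β ∈ EG PW, T.opE 1 β ∈ M
  hI : M ≤ P.Isom
  nontriv : ∃ u : U, u ≠ 0
  two : 2 ≤ finrank F W
  big : 3 ≤ finrank F W ∨ ∀ c, c ∈ PW.Λ

namespace Cx

variable [FiniteDimensional F U] [FiniteDimensional F W] (h : Cx T PU PW P M)
include h

theorem map {g : V ≃ₗ[F] V} (hg : g ∈ M) : Cx (T.map g) PU PW P M :=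
  ⟨h.tf.map (h.hI hg), h.wp, fun β hβ => by
    rw [map_opE]; exact M.mul_mem (M.mul_mem hg (h.opW β hβ)) (M.inv_mem hg),
    h.hI, h.nontriv, h.two, h.big⟩

theorem trans {w w' : W} (h0 : w ≠ 0) (h0' : w' ≠ 0) (hw : PW.q w ∈ PW.Λ)
    (hw' : PW.q w' ∈ PW.Λ) : ∃ β ∈ EG PW, β w = w' := h.wp.trans h.big h0 h0' hw hw'

theorem has_op {f : Module.End F W} (hf : Has (EG PW) f) : Has M (T.inW f) := by
  obtain ⟨e, he, he'⟩ := hf
  exact ⟨_, h.opW e he, fun x => by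
    rw [← show (e : W →ₗ[F] W) = f from LinearMap.ext he']; rfl⟩

theorem has_op_eu {w v : W} {c : F} (hw : PW.q w ∈ PW.Λ) (hv : PW.B w v = 0)
    (hc : c - PW.q v ∈ PW.Λ) : Has M (T.op LinearMap.id (eu PW w v c)) :=
  h.has_op (has_eu_EG hw hv hc)

theorem one_mem_levF : (1 : Module.End F U) ∈ T.levF PW M := fun w y hw hy => by
  obtain ⟨k, hk, e⟩ := h.has_op_eu hw hy (c := PW.q y) (by simp)
  exact ⟨fun u => by simp [PW.eq_zero_symm hy], k, hk, fun x hx => by simp [e, op_eu, hx]⟩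

theorem smul_mem_zlev {l : F} (hl : l ∈ PW.Λ) : l • (1 : Module.End F U) ∈ T.zlev PW M :=
  fun w hw => (h.has_op (f := 1 + l • r1 PW w w) (h.wp.has_nu hw hl)).congr fun x => by
    simp [r1, inW_smulRight]

theorem mem_zlev {w : W} (h0 : w ≠ 0) (hw : PW.q w ∈ PW.Λ) {t : Module.End F U}
    (ht : T.HasS M t w (PW.B w)) : t ∈ T.zlev PW M := fun w' hw' => by
  by_cases h0' : w' = 0
  · rw [h0']; exact hasS_zero_w _ _
  obtain ⟨β, hβ, rfl⟩ := h.trans h0 h0' hw hw'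
  refine (Has.conj ht (h.opW β hβ)).congr fun x => ?_
  have := T.cB_opE 1 (EG_le_isom hβ) w ((T.opE 1 β)⁻¹ x)
  rw [le_apply_inv] at this
  rw [map_add, le_apply_inv, opE_τ]
  exact congrArg (fun z => x + T.τ (t z) (β w)) this.symm

theorem mem_levF {w : W} (h0 : w ≠ 0) (hw : PW.q w ∈ PW.Λ) {s : Module.End F U}
    (hs : ∀ y, PW.B w y = 0 → T.HasN PW M w (s ∘ₗ T.cB PW y)) : s ∈ T.levF PW M := by
  intro w' y' hw' hy'
  by_cases h0' : w' = 0
  · subst h0'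
    exact ⟨fun u => by simp, 1, M.one_mem, fun x _ => by simp⟩
  obtain ⟨β, hβ, rfl⟩ := h.trans h0' h0 hw' hw
  have := hs (β y') (by rw [B_isom (EG_le_isom hβ), hy'])
  refine (this.conj (w := w') (h.opW β hβ) (α := 1) (fun u => by simp) fun x hx => ?_).congr hw'
    fun x _ => ?_
  · rw [T.cB_opE 1 (EG_le_isom hβ), hx, map_zero]
  · simp [T.cB_opE 1 (EG_le_isom hβ)]
    rfl

theorem zlev_skew {t : Module.End F U} (ht : t ∈ T.zlev PW M) (x y : U) :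
    PU.B (t x) y = -(PW.ε * PU.B x (t y)) := by
  obtain ⟨w, h0, hw⟩ := h.wp.exists_sing h.two
  obtain ⟨f, a1, a2⟩ := exists_pair h.wp.nd h0 hw
  obtain ⟨k, hk, e⟩ := ht w hw
  have := B_isom (h.hI hk) (T.τ x f) (T.τ y f)
  simp [e, a2, h.tf.B_τ, PW.self_eq_zero hw, PW.symm w f] at this
  linear_combination this

theorem mem_Λ_of_zlev {c : F} (hc : c • LinearMap.id ∈ T.zlev PW M) : c ∈ PW.Λ := by
  obtain ⟨u, hu⟩ := h.nontriv
  obtain ⟨u', hu'⟩ := exists_B_eq h.tf.ndU hu 1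
  have := h.zlev_skew hc u u'
  simp [hu'] at this
  exact h.wp.maxΛ c (by rw [this]; linear_combination -c * PW.εε)

theorem nil_mem_algL {n : Module.End F U} (hn : n ∈ T.zlev PW M) (h2 : ∀ u, n (n u) = 0) :
    n ∈ T.algL PW M := fun s hs => by
  obtain ⟨w, h0, hw⟩ := h.wp.exists_sing h.two
  obtain ⟨f, a1, a2⟩ := exists_pair h.wp.nd h0 hw
  obtain ⟨l, hl, hl0⟩ := h.wp.lam
  have hfw : PW.B f w = PW.ε := by rw [PW.symm, a2]; simp
  obtain ⟨g, hg, e⟩ := (hn f a1).comp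
    ((h.smul_mem_zlev hl w hw).comp ((T.zlev PW M).neg_mem hn f a1))
  have e1 : ∀ x, T.cB PW w x = 0 → g x = x - T.τ (l • n (T.cB PW f x)) w := fun x hx => by
    simp [e, show T.cW (PW.B w) x = 0 from hx, a2, hfw, PW.self_eq_zero a1, h2, cB]
    abel
  obtain ⟨α, hα⟩ := exists_unip (N := -(PW.ε * l) • n) fun x => by simp [h2]
  have hα' : ∀ u, α.symm u = u + (PW.ε * l) • n u := fun u => by
    rw [LinearEquiv.symm_apply_eq]; simp [hα, h2]
  have : s + (PW.ε * l) • (n * s) ∈ T.levF PW M := h.mem_levF h0 hw fun y hy =>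
    ((hs w y hw hy).conj (w := w) hg (α := α) (fun u => by
      simp [e1 _ (cB_self hw u), hα, hfw, smul_smul, mul_comm, sub_eq_add_neg]) fun x hx => by
        simp [e1 x hx, hx, PW.self_eq_zero hw]).congr hw fun x hx => by
          simp [e1 x hx, hα', PW.eq_zero_symm hy]
  simpa using (Submodule.smul_mem_iff _ (mul_ne_zero PW.ε_ne_zero hl0)).1
    ((Submodule.add_mem_iff_right _ hs).1 this)

theorem hasN_conj_sub {w : W} (hw : PW.q w ∈ PW.Λ) {n : V →ₗ[F] U} (hn : T.HasN PW M w n)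
    {N : Module.End F V} (hg : Has M fun x => x + N x) (h1 : ∀ u, N (T.τ u w) = 0) :
    T.HasN PW M w (n ∘ₗ N) := by
  obtain ⟨g, hg, e⟩ := hg
  have h2 : ∀ u, g (T.τ u w) = T.τ u w := fun u => by simp [e, h1]
  refine ((hn.conj (w := w) hg (α := 1) h2 fun x hx => by
    rw [h.tf.cB_apply (h.hI hg) h2, hx]).add hw (hn.neg hw)).congr hw fun x _ => ?_
  change n (N x) = n (g x) + -n x
  simp [e]

theorem zlev_le_algF (hk : 4 ≤ finrank F W) {t : Module.End F U} (ht : t ∈ T.zlev PW M) :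
    t ∈ T.algF PW M := fun s hs => by
  obtain ⟨w, h0, hw⟩ := h.wp.exists_sing h.two
  let E : Submodule F W :=
    { carrier := {y | ∀ c : F, T.HasN PW M w (c • (s * t) ∘ₗ T.cB PW y)}
      zero_mem' := fun c => by simpa [cB_zero] using hasN_zero w
      add_mem' := fun ha hb c => by
        simpa [cB_add, LinearMap.comp_add] using (ha c).add hw (hb c)
      smul_mem' := fun a y hy c => by
        have := hy (c * σ a)
        rwa [mul_smul, ← LinearMap.comp_smul, ← cB_smul] at this }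
  suffices H : ∀ y, PW.B w y = 0 → y ∈ E from h.mem_levF h0 hw fun y hy => by simpa using H y hy 1
  refine fun y => perp_le_of_sing h.wp.nd (fun x => h.wp.sing_perp hk) (E := E)
    fun d hd hwd c => ?_
  by_cases e : d ∈ F ∙ w
  · obtain ⟨a, rfl⟩ := Submodule.mem_span_singleton.1 e
    exact (hasN_zero w).congr hw fun x hx => by simp [cB_smul, hx]
  obtain ⟨y, b1, b2⟩ := exists_perp_ne h.wp.nd e (PW.ε * σ c)
  refine (h.hasN_conj_sub hw (hs w y hw b1) (N := T.nS t d (PW.B d)) (ht d hd) fun u => by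
    simp [nS_apply, PW.eq_zero_symm hwd]).congr hw fun x _ => ?_
  simp [nS_apply, PW.symm d y, b2, PW.σε, PW.σσ, ← mul_assoc, PW.εε, cB]

theorem cB_key {w y : W} (hw : PW.q w ∈ PW.Λ) (hy : PW.B w y = 0) {n : V →ₗ[F] U}
    (h1 : ∀ u, n (T.τ u w) = 0) {k : V ≃ₗ[F] V} (hk : k ∈ M)
    (e : ∀ x, T.cB PW w x = 0 → k x = x + T.τ (n x) w) {s' : Module.End F U}
    (a : ∀ x z, PU.B (n (T.τ x y)) z = PU.B x (s' z)) (x : V) :
    T.cB PW y (k x - x) = -s' (T.cB PW w x) := by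
  rw [← sub_eq_zero]
  refine sep_right h.tf.ndU fun u => ?_
  have e1 := B_isom (h.hI hk) (T.τ u y) x
  rw [e _ (by simp [hy]), map_add, LinearMap.add_apply, h.tf.B_left, h.tf.B_left, h.tf.B_left,
    h.tf.cB_apply (h.hI hk) (HasN.fix hw h1 e), a] at e1
  simp only [map_sub, map_neg]
  linear_combination e1

theorem has_comm {w : W} (hw : PW.q w ∈ PW.Λ) {n₁ n₂ : V →ₗ[F] U} (a₁ : ∀ u, n₁ (T.τ u w) = 0)
    (a₂ : ∀ u, n₂ (T.τ u w) = 0) {k₁ k₂ : V ≃ₗ[F] V} (hk₁ : k₁ ∈ M) (hk₂ : k₂ ∈ M)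
    (e₁ : ∀ x, T.cB PW w x = 0 → k₁ x = x + T.τ (n₁ x) w)
    (e₂ : ∀ x, T.cB PW w x = 0 → k₂ x = x + T.τ (n₂ x) w) :
    Has M fun x => x + T.τ (n₁ (k₂ x - x) - n₂ (k₁ x - x)) w := by
  have f₁ := HasN.fix hw a₁ e₁
  have f₂ := HasN.fix hw a₂ e₂
  refine ⟨(k₂ * k₁)⁻¹ * (k₁ * k₂), M.mul_mem (M.inv_mem (M.mul_mem hk₂ hk₁)) (M.mul_mem hk₁ hk₂),
    fun x => ?_⟩
  rw [le_mul_apply, le_inv_apply, LinearEquiv.symm_apply_eq]
  have c1 := e₁ (k₂ x - x) (by rw [map_sub, h.tf.cB_apply (h.hI hk₂) f₂, sub_self])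
  have c2 := e₂ (k₁ x - x) (by rw [map_sub, h.tf.cB_apply (h.hI hk₁) f₁, sub_self])
  rw [map_sub, sub_eq_iff_eq_add] at c1 c2
  simp only [le_mul_apply, map_add, f₁, f₂, c1, c2]
  rw [map_sub T.τ (n₁ _), LinearMap.sub_apply]
  abel

theorem comm_mem {w y₁ y₂ : W} (h0 : w ≠ 0) (hw : PW.q w ∈ PW.Λ) (h1 : PW.B w y₁ = 0)
    (h2 : PW.B w y₂ = 0)
    {s₁ s₂ s₁' s₂' : Module.End F U} (hs₁ : s₁ ∈ T.levF PW M) (hs₂ : s₂ ∈ T.levF PW M)
    (a₁ : ∀ x y, PU.B (s₁ x) y = PU.B x (s₁' y)) (a₂ : ∀ x y, PU.B (s₂ x) y = PU.B x (s₂' y)) :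
    σ (PW.B y₁ y₂) • s₂ * s₁' - σ (PW.B y₂ y₁) • s₁ * s₂' ∈ T.zlev PW M := by
  obtain ⟨n₁, k₁, hk₁, e₁⟩ := hs₁ w y₁ hw h1
  obtain ⟨n₂, k₂, hk₂, e₂⟩ := hs₂ w y₂ hw h2
  refine h.mem_zlev h0 hw ((h.has_comm hw n₁ n₂ hk₁ hk₂ e₁ e₂).congr fun x => ?_)
  rw [LinearMap.comp_apply, LinearMap.comp_apply,
    h.cB_key hw h1 n₂ hk₂ e₂ (s' := σ (PW.B y₂ y₁) • s₂') (fun x z => by simp [a₂]),
    h.cB_key hw h2 n₁ hk₁ e₁ (s' := σ (PW.B y₁ y₂) • s₁') (fun x z => by simp [a₁])]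
  simp [cB]
  abel

theorem comm_one {w v : W} (h0 : w ≠ 0) (hw : PW.q w ∈ PW.Λ) (hv : PW.B w v = 0) {n : V →ₗ[F] U}
    (hn : T.HasN PW M w n) {s' : Module.End F U}
    (a : ∀ x z, PU.B (n (T.τ x v)) z = PU.B x (s' z)) :
    s' - PW.ε • n ∘ₗ T.τ.flip v ∈ T.zlev PW M := by
  obtain ⟨n₁, k₁, hk₁, e₁⟩ := hn
  obtain ⟨k₂, hk₂, e₂⟩ := h.has_op_eu hw hv (c := PW.q v) (by simp)
  refine h.mem_zlev h0 hw ((h.has_comm hw n₁ (n₂ := T.cB PW v)
    (fun u => by simp [PW.eq_zero_symm hv]) hk₁ hk₂ e₁ fun x hx => by simp [e₂, op_eu, hx]).congr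
    fun x => ?_)
  rw [h.cB_key hw hv n₁ hk₁ e₁ a, e₂, op_eu]
  simp [n₁, cB]
  abel

theorem std_of_ne (hne : σ ≠ RingHom.id F)
    (hz : ∀ t ∈ T.zlev PW M, ∃ c : F, t = c • LinearMap.id) : T.Std PW M := by
  refine ⟨hz, fun w v n h0 hw hv hn => ?_⟩
  obtain ⟨θ, hθ⟩ := exists_ne_of_ne_id hne
  obtain ⟨s', hs'⟩ := exists_adj h.tf.ndU (n ∘ₗ T.τ.flip v)
  obtain ⟨c, hc⟩ := hz _ (h.comm_one h0 hw hv hn hs')
  obtain ⟨d, hd⟩ := hz _ (h.comm_one h0 hw (v := θ • v) (by simp [hv]) hn (s' := σ θ • s')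
    fun x z => by simpa using congrArg (σ θ * ·) (hs' x z))
  have h1 := mul_ne_zero PW.ε_ne_zero (sub_ne_zero.2 hθ)
  refine ⟨(PW.ε * (σ θ - θ))⁻¹ * (d - σ θ * c), LinearMap.ext fun x => ?_⟩
  have e1 := LinearMap.congr_fun hc x
  have e2 := LinearMap.congr_fun hd x
  simp only [LinearMap.sub_apply, LinearMap.smul_apply, LinearMap.id_apply, LinearMap.comp_apply,
    LinearMap.flip_apply, map_smul] at e1 e2 ⊢
  rw [mul_smul, eq_inv_smul_iff₀ h1]
  linear_combination (norm := module) e2 - σ θ • e1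

theorem comp_mem_sp (hs : ∀ c, c ∈ PW.Λ) {w y : W} (h0 : w ≠ 0) (hy : PW.B w y = 0)
    {n : V →ₗ[F] U} (hn : T.HasN PW M w n) : n ∘ₗ T.τ.flip y ∈ T.levF PW M := by
  have k1 : ∀ {n y}, PW.B w y = 0 → T.HasN PW M w n → ∀ c : F,
      T.HasN PW M w (c • (n ∘ₗ T.τ.flip y) ∘ₗ T.cB PW y) := fun {n y} hy hn c =>
    (h.hasN_conj_sub (hs _) hn (N := T.nS (c • 1) y (PW.B y)) (h.smul_mem_zlev (hs c) y (hs _))
      fun u => by simp [nS_apply, PW.eq_zero_symm hy]).congr (hs _) fun x _ => by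
        simp [nS_apply, cB]
  by_cases e : y ∈ F ∙ w
  · obtain ⟨a, rfl⟩ := Submodule.mem_span_singleton.1 e
    convert (T.levF PW M).zero_mem
    ext u
    simp [hn.1]
  have k2 : ∀ z, PW.B w z = 0 → PW.B y z ≠ 0 → T.HasN PW M w ((n ∘ₗ T.τ.flip y) ∘ₗ T.cB PW z) :=
    fun z hz e => (k1 hz (k1 hy hn 1) (PW.B y z)⁻¹).congr (hs _) fun x _ => by simp [smul_smul, e]
  refine h.mem_levF h0 (hs _) fun z hz => ?_
  by_cases e' : PW.B y z = 0
  · obtain ⟨z', b1, b2⟩ := exists_perp_ne h.wp.nd e 1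
    exact ((k2 (z + z') (by simp [hz, b1]) (by simp [e', b2])).add (hs _)
      ((k2 z' b1 (by simp [b2])).neg (hs _))).congr (hs _) fun x _ => by simp [cB_add]
  · exact k2 z hz e'

theorem levF_le_algL (hs : ∀ c, c ∈ PW.Λ) (hb : 5 ≤ finrank F W) {s : Module.End F U}
    (hs' : s ∈ T.levF PW M) : s ∈ T.algL PW M := fun a ha => by
  obtain ⟨w, h0, hw⟩ := h.wp.exists_sing h.two
  obtain ⟨d, a1, a2, a3⟩ := h.wp.exists_sing_perp (by omega) w
  obtain ⟨y, b1, b2⟩ := exists_perp_ne h.tf.ndW a3 1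
  obtain ⟨v, hv, v', hv', e⟩ : ∃ v ∈ perp PW ((F ∙ w) ⊔ F ∙ d), ∃ v' ∈ perp PW ((F ∙ w) ⊔ F ∙ d),
      PW.B v v' ≠ 0 := by
    by_contra hc
    push Not at hc
    have h1 : perp PW ((F ∙ w) ⊔ F ∙ d) ≤ (F ∙ w) ⊔ F ∙ d := by
      conv_rhs => rw [← perp_perp h.tf.ndW ((F ∙ w) ⊔ F ∙ d)]
      exact fun x hx y hy => hc y hy x hx
    have h2 := Submodule.finrank_mono h1
    have := finrank_le_perp (P := PW) ((F ∙ w) ⊔ F ∙ d)
    have := finrank_sup_le' (F ∙ w) (F ∙ d)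
    have := finrank_span_singleton_le (F := F) w
    have := finrank_span_singleton_le (F := F) d
    omega
  rw [perp_sup] at hv hv'
  have c1 := mem_perp_singleton.1 hv.1
  have c2 := mem_perp_singleton.1 hv.2
  have c3 := mem_perp_singleton.1 hv'.1
  have c4 := mem_perp_singleton.1 hv'.2
  obtain ⟨-, g, hg, e1⟩ := ha d v a1 c2
  have hyd := B_ne_zero_symm (P := PW) (x := d) (y := y) (by simp [b2])
  have := h.comp_mem_sp hs h0 c3 (h.hasN_conj_sub hw (hs' w y hw b1) (N := (g : V →ₗ[F] V) - 1)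
    ⟨g, hg, fun x => by simp⟩ fun u => by
      simp [e1 (T.τ u w) (by simp [PW.eq_zero_symm a2]), PW.eq_zero_symm c1])
  refine (Submodule.smul_mem_iff _ (mul_ne_zero hyd e)).1 ?_
  convert this using 1
  ext u
  simp [e1 (T.τ u v') (by simp [c4]), smul_smul, mul_comm]

end Cx

end H11.Ten
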