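import Mathlib
import Cfsg.Agent.Base
import Cfsg.Agent.Lib.Tensor.Cx

/-!
Full levels give the whole group; scalar levels determine a factor from one of its columns.
-/

set_option autoImplicit false
set_option linter.unusedSectionVars false
set_option linter.unusedSimpArgs false

namespace H11.Ten

open Module Cfsg H97 H28 TS

variable {F U W V : Type*} [Field F] [AddCommGroup U] [Module F U] [AddCommGroup W]
  [Module F W] [AddCommGroup V] [Module F V] {σ : F →+* F} {T T' : TS F U W V} {PU PU' : PQ F U σ}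
  {PW : PQ F W σ} {P : PQ F V σ} {M : Subgroup (V ≃ₗ[F] V)}

theorem eu_col (h : TF T PU PW P) (u₁ u₂ : U) (w : W) (a : F) (x : V) :
    eu P (T.τ u₁ w) (T.τ u₂ w) (a - P.ε * σ a) x = x + T.τ ((r1 PU u₁ (u₂ + a • u₁) -
      PW.ε • PU.ε • r1 PU (u₂ + a • u₁) u₁) (T.cW (PW.B w) x)) w := by
  have := eu_add_smul (P := P) (T.τ u₁ w) (T.τ u₂ w) a 0 x
  rw [zero_add] at this
  rw [← this, eu_apply,
    show T.τ u₂ w + a • T.τ u₁ w = T.τ (u₂ + a • u₁) w by simp, h.B_left, h.B_left]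
  simp only [h.ε_eq, LinearMap.sub_apply, LinearMap.smul_apply, r1_apply, map_sub, map_smul, cB]
  module

theorem r1_adj (x y a b : U) : PU.B ((PU.ε • r1 PU x y) a) b = PU.B a (r1 PU y x b) := by
  simp only [LinearMap.smul_apply, r1_apply, B_smul_left, map_smul, smul_eq_mul, PU.σε,
    PU.symm y a]
  ring

theorem TS.exists_alpha' [FiniteDimensional F U] (T' T : TS F U W V) {w w' : W} (hw : w' ≠ 0)
    (h : T'.col w' ≤ T.col w) : ∃ γ : U ≃ₗ[F] U, ∀ u, T'.τ u w' = T.τ (γ u) w := by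
  let g : V ≃ₗ[F] V := T.h.equiv.symm.trans T'.h.equiv
  have hg : ∀ u w, g (T.τ u w) = T'.τ u w := fun u w => by simp [g]
  simpa only [hg] using T.exists_alpha (g := g) hw fun u => hg u w' ▸ h (T'.τ_mem_col u w')

namespace Cx

variable [FiniteDimensional F U] [FiniteDimensional F W] (h : Cx T PU PW P M)
include h

theorem hasN_of_top (ht : ∀ s, s ∈ T.levF PW M) {w : W} (h0 : w ≠ 0) (hw : PW.q w ∈ PW.Λ)
    {n : V →ₗ[F] U} (hn : ∀ u, n (T.τ u w) = 0) : T.HasN PW M w n := by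
  classical
  obtain ⟨φ, hφ⟩ := exists_dual_of_ne_zero (F := F) h0 1
  let b := Module.finBasis F W
  choose y hy using fun j => exists_repr_dual PW.σσ PW.B h.tf.ndW
    (b.coord j - b.coord j w • φ)
  have h1 : n = ∑ j, (n ∘ₗ T.τ.flip (b j)) ∘ₗ T.cB PW (y j) := T.lext fun u x => by
    have e1 : x - φ x • w = ∑ j, PW.B (y j) x • b j := by
      conv_lhs => rw [← b.sum_repr (x - φ x • w)]
      exact Finset.sum_congr rfl fun j _ => by simp [hy, mul_comm]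
    have e2 := congrArg (fun z => n (T.τ u z)) e1
    simpa [hn] using e2
  rw [h1]
  refine Finset.sum_induction _ _ (fun _ _ => HasN.add hw) (hasN_zero w) fun j _ => ?_
  exact ht _ w (y j) hw (PW.eq_zero_symm (by simp [hy, hφ]))

theorem sub_mem_col {w : W} {g : V ≃ₗ[F] V} (hg : g ∈ P.Isom)
    (e : ∀ x, T.cB PW w x = 0 → g x = x) (x : V) : g x - x ∈ T.col w := by
  have := T.finite
  rw [← perp_perp h.tf.nd (T.col w)]
  intro y hy
  have := B_isom hg y x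
  rw [e y (h.tf.mem_perp_col.1 hy)] at this
  simp only [map_sub, this, sub_self]

theorem has_eu_of_top (hk : 3 ≤ finrank F W) (ht : ∀ s, s ∈ T.levF PW M) {w : W} (h0 : w ≠ 0)
    (hw : PW.q w ∈ PW.Λ) (u : U) {z : V} (hz : T.cB PW w z = 0) {c : F} (hc : c - P.q z ∈ P.Λ) :
    Has M (eu P (T.τ u w) z c) := by
  have := T.finite
  obtain ⟨-, k, hk', e1⟩ := h.hasN_of_top ht h0 hw (n := (P.B z).smulRight u) fun u' => by
    simp [P.eq_zero_symm (show P.B (T.τ u' w) z = 0 by simp [h.tf.B_left, hz])]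
  have hd := h.tf.singW u hw
  obtain ⟨e, he, he'⟩ := has_eu_isom hd (by simp [h.tf.B_left, hz]) hc
  have e2 : ∀ x, T.cB PW w x = 0 → (k⁻¹ * e) x = x := fun x hx => by
    rw [le_mul_apply, le_inv_apply, LinearEquiv.symm_apply_eq, e1 x hx, he', eu_apply]
    simp [h.tf.B_left, hx]
  have hI := P.Isom.mul_mem (P.Isom.inv_mem (h.hI hk')) he
  have : k⁻¹ * e ∈ M := by
    refine mem_of_unip h.tf.nd (X := T.col w) (Y := T.col w) ?_ le_rfl (h.tf.col_le_perp hw) ?_ hI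
      ?_ (fun x hx => by simp [e2 x (h.tf.mem_perp_col.1 hx)]) (h.sub_mem_col hI e2)
    · rintro _ ⟨u, rfl⟩; exact h.tf.singW u hw
    · rintro _ ⟨u₁, rfl⟩ _ ⟨u₂, rfl⟩ c hc
      obtain ⟨a, rfl⟩ := h.tf.hΛ c (by simpa using P.Λ.add_mem hc (h.tf.singW u₂ hw))
      obtain ⟨-, y, y', -, -, b1, -, b2, -, b3⟩ := exists_perp_pair h.wp.nd hk h0 hw
      refine (h.comm_mem h0 hw b1 b2 (ht (PU.ε • r1 PU (u₂ + a • u₁) u₁)) h.one_mem_levF
        (s₂' := 1) (r1_adj _ _) (fun _ _ => rfl) w hw).congr fun x => ?_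
      refine Eq.trans ?_ (eu_col h.tf u₁ u₂ w a x).symm
      simp [PW.symm y y', b3, PW.σε]
    · rintro _ ⟨u, rfl⟩; exact e2 _ (cB_self hw u)
  exact ⟨e, by simpa using M.mul_mem hk' this, he'⟩

theorem xle_of_top (hk : 3 ≤ finrank F W) (ht : ∀ s, s ∈ T.levF PW M) {w : W} (h0 : w ≠ 0)
    (hw : PW.q w ∈ PW.Λ) (u : U) : XLe P M (T.τ u w) := fun z c hz hc => by
  obtain ⟨w', y, y', a1, a2, a3, a4, a5, a6, a7⟩ := exists_perp_pair h.wp.nd hk h0 hw
  obtain ⟨u₂, hu₂⟩ := h.nontriv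
  obtain ⟨u₃, hu₃⟩ := exists_B_eq h.tf.ndU hu₂ 1
  rw [h.tf.B_left] at hz
  set u' := T.cB PW w z with hu'
  have h0' : w' ≠ 0 := by rintro rfl; simp at a2
  obtain ⟨g, hg, e⟩ := h.has_eu_of_top hk ht h0' a1 u' (z := T.τ u₂ y) (by simp [a4])
    (c := P.q (T.τ u₂ y)) (by simp)
  have e1 : g (T.τ u w) = T.τ u w := by
    rw [e, eu_fix] <;> simp [h.tf.B_τ, PU.eq_zero_symm hz, PW.eq_zero_symm a3]
  have e2 : g (T.τ u₃ y') = T.τ u₃ y' + T.τ u' w' := by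
    simp [e, eu_apply, h.tf.B_τ, a6, a7, hu₃]
  have b1 := has_eu_conj (h.has_eu_of_top hk ht h0 hw u (z := T.τ u₃ y') (by simp [a5])
    (c := P.q (T.τ u₃ y')) (by simp)) hg (h.hI hg)
  have b2 := isom_valid (h.hI hg) (w := T.τ u₃ y') (c := P.q (T.τ u₃ y')) (by simp)
  rw [e1] at b1
  set x := g (T.τ u₃ y') with hx
  have b3 : T.cB PW w (z - x) = 0 := by simp [e2, a5, a2, hu']
  have b4 := h.has_eu_of_top hk ht h0 hw u b3 (c := c - P.q (T.τ u₃ y') - P.B (z - x) x) (by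
    have := P.Λ.sub_mem (P.Λ.add_mem hc (P.q_add (z - x) x)) b2
    rw [sub_add_cancel] at this
    convert this using 1
    ring)
  refine (b4.comp b1).congr fun v => ?_
  rw [eu_comp (P.self_eq_zero (h.tf.singW u hw)) (by simp [h.tf.B_left, b3])
    (by simp [e2, h.tf.B_τ, a5, hz])]
  congr 2
  · simp
  · ring

theorem EG_le_of_xle (ht : ∀ u w, w ≠ 0 → PW.q w ∈ PW.Λ → XLe P M (T.τ u w)) : EG P ≤ M := by
  have := T.finite
  obtain ⟨w, h0, hw⟩ := h.wp.exists_sing h.two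
  obtain ⟨w', a1, a2⟩ := exists_pair h.tf.ndW h0 hw
  obtain ⟨u, hu⟩ := h.nontriv
  obtain ⟨u', hu'⟩ := exists_B_eq h.tf.ndU hu 1
  exact H97.EG_le_of_xle h.tf.nd (h.tf.singW u hw) (h.tf.singW u' a1) (ht u w h0 hw)
    (ht u' w' (by rintro rfl; simp at a2) a1) (by simp [h.tf.B_τ, a2, hu'])

theorem EG_le_of_top (hk : 3 ≤ finrank F W) (ht : ∀ s, s ∈ T.levF PW M) : EG P ≤ M :=
  h.EG_le_of_xle fun u _ h0 hw => h.xle_of_top hk ht h0 hw u

theorem eq_of_fix {w : W} (h0 : w ≠ 0) (hw : PW.q w ∈ PW.Λ) {g : V ≃ₗ[F] V} (hg : g ∈ M)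
    (e2 : ∀ x, T.cB PW w x = 0 → g x = x) :
    ∃ t ∈ T.zlev PW M, ∀ x, g x = x + T.τ (t (T.cB PW w x)) w := by
  obtain ⟨φ, hφ⟩ := exists_dual_of_ne_zero (F := F) h0 1
  obtain ⟨w', -, a2⟩ := exists_pair h.tf.ndW h0 hw
  let t : Module.End F U := T.cW φ ∘ₗ ((g : V →ₗ[F] V) - LinearMap.id) ∘ₗ T.τ.flip w'
  have e4 : ∀ x, g x = x + T.τ (t (T.cB PW w x)) w := fun x => by
    have a3 := e2 (x - T.τ (T.cB PW w x) w') (by simp [a2])
    obtain ⟨u, hu⟩ := h.sub_mem_col (h.hI hg) e2 (T.τ (T.cB PW w x) w')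
    have a4 : t (T.cB PW w x) = u := by
      change T.cW φ (g _ - _) = u
      rw [LinearMap.id_apply, LinearMap.flip_apply, ← hu]; simp [hφ]
    rw [a4, ← LinearMap.flip_apply, hu]
    rw [map_sub] at a3
    linear_combination (norm := module) a3
  exact ⟨t, h.mem_zlev h0 hw ⟨g, hg, e4⟩, e4⟩

theorem ext_unip (hR : T.Std PW M) {w : W} (h0 : w ≠ 0) (hw : PW.q w ∈ PW.Λ) {k : V ≃ₗ[F] V}
    (hk : k ∈ M) (h1 : ∀ u, k (T.τ u w) = T.τ u w)
    (h2 : ∀ x, T.cB PW w x = 0 → k x - x ∈ T.col w) :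
    (∃ y, (k : Module.End F V) = T.inW y) ∧
      ∃ v, PW.B w v = 0 ∧ ∀ x, T.cB PW w x = 0 → k x = x + T.τ (T.cB PW v x) w := by
  have := T.finite
  obtain ⟨φ, hφ⟩ := exists_dual_of_ne_zero (F := F) h0 1
  let n : V →ₗ[F] U := T.cW φ ∘ₗ ((k : V →ₗ[F] V) - LinearMap.id)
  have hc : ∀ x, T.cB PW w x = 0 → k x = x + T.τ (n x) w := fun x hx => by
    obtain ⟨u, hu⟩ := h2 x hx
    change T.τ u w = _ at hu
    change _ = x + T.τ (T.cW φ (k x - x)) w
    rw [← hu, cW_τ, hφ, one_smul, hu, add_sub_cancel]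
  have hn : T.HasN PW M w n := ⟨fun u => by simp [n, h1], k, hk, hc⟩
  obtain ⟨u₀, hu₀⟩ := h.nontriv
  obtain ⟨ψ, hψ⟩ := exists_dual_of_ne_zero (F := F) hu₀ 1
  obtain ⟨v, hv⟩ := exists_repr_dual PW.σσ PW.B h.tf.ndW (ψ ∘ₗ n ∘ₗ T.τ u₀)
  have hwv : PW.B w v = 0 := PW.eq_zero_symm (by simp [hv, hn.1])
  have hkv : ∀ x, T.cB PW w x = 0 → k x = x + T.τ (T.cB PW v x) w := fun x hx => by
    rw [hc x hx, ← sub_eq_zero.1 (T.eq_zero_of_ker (f := n - T.cB PW v) (fun u y hy => ?_) hx)]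
    obtain ⟨c, e⟩ := hR.n w y n h0 hw hy hn
    have e1 : ∀ u, n (T.τ u y) = c • u := fun u => LinearMap.congr_fun e u
    simp [hv, e1, hψ]
  refine ⟨?_, v, hwv, hkv⟩
  obtain ⟨e, he, he'⟩ := h.has_op_eu hw hwv (c := PW.q v) (by simp)
  obtain ⟨t, ht, e4⟩ := h.eq_of_fix h0 hw (M.mul_mem (M.inv_mem he) hk) fun x hx => by
    rw [le_mul_apply, le_inv_apply, LinearEquiv.symm_apply_eq, hkv x hx, he', op_eu]
    simp [hx]
  obtain ⟨c, rfl⟩ := hR.z t ht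
  refine ⟨eu PW w v (PW.q v) * (1 + c • r1 PW w w), LinearMap.ext fun x => ?_⟩
  have := e4 x
  rw [le_mul_apply, le_inv_apply, LinearEquiv.symm_apply_eq, he'] at this
  rw [_root_.map_mul, LinearEquiv.coe_coe, this]
  simp [r1, inW_smulRight, cB]
  rfl

variable (h' : Cx T' PU' PW P M) (hR : T.Std PW M)
include h' hR

theorem mem_of_triv {w w' : W} (h0 : w ≠ 0) (hw : PW.q w ∈ PW.Λ) (e : T.col w = T'.col w')
    {β β' : W ≃ₗ[F] W} (hβ : β ∈ EG PW) (hβ' : β' ∈ EG PW)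
    (h1 : ∀ x ∈ T.col w, T'.opE 1 β' x = T.opE 1 β x)
    (h2 : ∀ x ∈ perp P (T.col w), T'.opE 1 β' x - T.opE 1 β x ∈ T.col w)
    (h3 : β w ∈ F ∙ w) : ∃ y, T'.inW β' = T.inW y := by
  obtain ⟨⟨y, hy⟩, -⟩ := h.ext_unip hR h0 hw
    (M.mul_mem (M.inv_mem (h.opW β hβ)) (h'.opW β' hβ'))
    (fun u => by rw [le_mul_apply, h1 _ (T.τ_mem_col u w), le_inv_apply_apply]) fun x hx => by
      obtain ⟨u, hu⟩ := h2 x (h.tf.mem_perp_col.2 hx)
      obtain ⟨a, ha⟩ := Submodule.mem_span_singleton.1 h3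
      have ha0 : a ≠ 0 := by rintro rfl; exact h0 (by simpa using ha.symm)
      refine ⟨a⁻¹ • u, (T.opE 1 β).injective ?_⟩
      rw [map_sub, le_mul_apply, le_apply_inv, ← hu]
      simp [← ha, smul_smul, ha0]
  refine ⟨β * y, ?_⟩
  rw [_root_.map_mul, ← hy, ← opE_one_coe, ← opE_one_coe, ← LinearEquiv.coe_toLinearMap_mul,
    mul_inv_cancel_left]

omit hR in
theorem sing_of_col_eq {w w' : W} (h0 : w ≠ 0) (hw : PW.q w ∈ PW.Λ) (e : T.col w = T'.col w') :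
    w' ≠ 0 ∧ PW.q w' ∈ PW.Λ := by
  obtain ⟨u, hu⟩ := h.nontriv
  refine ⟨?_, h'.tf.sing_of_col h'.nontriv fun u u' => ?_⟩
  · rintro rfl
    obtain ⟨v, hv⟩ := e.le (T.τ_mem_col u w)
    exact (T.τ_eq_zero.1 (by simpa using hv.symm)).elim hu h0
  · exact h.tf.col_le_perp hw (e.ge (T'.τ_mem_col u' w')) _ (e.ge (T'.τ_mem_col u w'))

theorem eu_mem {w w' : W} (h0 : w ≠ 0) (hw : PW.q w ∈ PW.Λ) (e : T.col w = T'.col w') {v : W}
    {c : F} (hv : PW.B w' v = 0) {β : W ≃ₗ[F] W} (hβ : β ∈ EG PW)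
    (e' : ∀ x, β x = eu PW w' v c x) : ∃ y, T'.inW β = T.inW y := by
  have hw' := (h.sing_of_col_eq h' h0 hw e).2
  have e1 : ∀ x, T'.cB PW w' x = 0 → T'.opE 1 β x = x + T'.τ (T'.cB PW v x) w' := fun x hx => by
    have := T'.op_eu (PW := PW) w' v c x
    rw [← show (β : Module.End F W) = eu PW w' v c from LinearMap.ext e'] at this
    exact this.trans (by simp [hx])
  refine h.mem_of_triv h' hR h0 hw e (EG PW).one_mem hβ (fun x hx => ?_) (fun x hx => ?_)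
    (Submodule.mem_span_singleton_self w)
  · obtain ⟨u, rfl⟩ := e.le hx
    simp [e1 _ (cB_self hw' u), opE_one_one, PW.eq_zero_symm hv]
  · rw [e] at hx ⊢
    rw [e1 x (h'.tf.mem_perp_col.1 hx), opE_one_one]
    simpa using T'.τ_mem_col _ _

theorem same_of_two (rd : RD (EG PW) (ptΦ PW) PW.Λ) {w f w' f' : W} (h0 : w ≠ 0)
    (hw : PW.q w ∈ PW.Λ) (h0' : f ≠ 0) (hf : PW.q f ∈ PW.Λ) (e : T.col w = T'.col w')
    (e' : T.col f = T'.col f') (hB : PW.B w' f' ≠ 0) : T.Same T' := by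
  have : Nontrivial U := nontrivial_iff_exists_ne 0 |>.2 h.nontriv
  have : Nontrivial W := ⟨w, 0, h0⟩
  let C := T.inW.range.comap T'.inW
  let K : Subgroup (W ≃ₗ[F] W) :=
    { carrier := {β | (β : Module.End F W) ∈ C ∧ ((β⁻¹ : W ≃ₗ[F] W) : Module.End F W) ∈ C}
      one_mem' := ⟨C.one_mem, C.one_mem⟩
      mul_mem' := fun ha hb => ⟨C.mul_mem ha.1 hb.1, by
        rw [mul_inv_rev]; exact C.mul_mem hb.2 ha.2⟩
      inv_mem' := fun ha => ⟨ha.2, ha.1⟩ }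
  have key : ∀ {w w'}, w ≠ 0 → PW.q w ∈ PW.Λ → T.col w = T'.col w' → XLe PW K w' :=
    fun {w w'} h0 hw e v c hv hc => by
    have hw' := (h.sing_of_col_eq h' h0 hw e).2
    obtain ⟨β, hβ, e1⟩ := has_eu_EG hw' hv hc
    obtain ⟨y, hy⟩ := h.eu_mem h' hR h0 hw e hv hβ e1
    obtain ⟨y', hy'⟩ := h.eu_mem h' hR h0 hw e (v := -v) (c := PW.B v v - c) (by simp [hv])
      ((EG PW).inv_mem hβ) fun x => by
        rw [le_inv_apply, LinearEquiv.symm_apply_eq, e1,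
          eu_comp (PW.self_eq_zero hw') hv (by simp [hv])]
        simp [eu_zero]
    exact ⟨β, ⟨⟨y, hy.symm⟩, y', hy'.symm⟩, e1⟩
  have h1 := H97.EG_le_of_xle h.wp.nd (h.sing_of_col_eq h' h0 hw e).2
    (h.sing_of_col_eq h' h0' hf e').2 (key h0 hw e) (key h0' hf e') hB
  obtain ⟨l, hl, hl0⟩ := rd.lam
  have h2 : C = ⊤ := rd.top_of fun p hp => by
    obtain ⟨β, a1, a2⟩ := rd.has p hp l hl
    have := C.smul_mem (C.sub_mem (h1 a1).1 C.one_mem) l⁻¹
    rwa [show (β : Module.End F W) = 1 + l • nu p from LinearMap.ext a2, add_sub_cancel_left,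
      smul_smul, inv_mul_cancel₀ hl0, one_smul] at this
  exact same_of_inW fun x => (h2.ge Algebra.mem_top : T'.inW x ∈ T.inW.range).imp fun _ => Eq.symm

omit hR in
theorem col_of_r1 {f' y : W} (hf : PW.q f' ∈ PW.Λ) (h0 : f' ≠ 0) (hy : y ≠ 0)
    (e : ∃ x, T'.inW (r1 PW f' y) = T.inW x) :
    ∃ f, f ≠ 0 ∧ PW.q f ∈ PW.Λ ∧ T.col f = T'.col f' := by
  have : Nontrivial U := nontrivial_iff_exists_ne 0 |>.2 h.nontriv
  obtain ⟨x, e⟩ := e
  obtain ⟨z, hz⟩ := exists_B_eq h.wp.nd hy 1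
  obtain ⟨f, -, a2, -⟩ := T.col_eq_of_inW (x := x) (X := T'.col f') (by
      rintro rfl
      rw [map_zero, inW_eq_zero] at e
      simpa [hz, h0] using LinearMap.congr_fun e z) (T'.finrank_col h0).le
    (by rintro _ ⟨z, rfl⟩; rw [← e]; exact inW_nu_mem (f', PW.B y) z)
  obtain ⟨a3, a4⟩ := h'.sing_of_col_eq h h0 hf a2.symm
  exact ⟨f, a3, a4, a2⟩

theorem same_small (rd : RD (EG PW) (ptΦ PW) PW.Λ) (hk : finrank F W ≤ 3) {a : F} (ha0 : a ≠ 0)
    (ha : σ a * a ≠ 1) {w w' : W} (h0 : w ≠ 0) (hw : PW.q w ∈ PW.Λ) (e : T.col w = T'.col w') :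
    T.Same T' := by
  obtain ⟨h0', hw'⟩ := h.sing_of_col_eq h' h0 hw e
  obtain ⟨f, a1, a2⟩ := exists_pair h.wp.nd h0' hw'
  obtain ⟨β, hβ, b1⟩ := h.trans h0' (smul_ne_zero ha0 h0') hw' (PW.q_smul_mem hw' a)
  have hI := EG_le_isom hβ
  have hσ : σ a ≠ 0 := by simpa using ha0
  have b2 : ∀ y, σ a * PW.B w' (β y) = PW.B w' y := fun y => by
    rw [← B_isom hI w' y, b1, B_smul_left]
  obtain ⟨μ, b3, b4⟩ : ∃ μ, σ μ * μ = 1 ∧ ∀ y, PW.B w' y = 0 → β y - μ • y ∈ F ∙ w' := by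
    by_cases b : ∀ y, PW.B w' y = 0 → y ∈ F ∙ w'
    · exact ⟨1, by simp, fun y hy => b _ (by
        simpa [hy, hσ] using (b2 y).trans hy)⟩
    push Not at b
    obtain ⟨y, c1, c2⟩ := b
    have c3 : PW.B y y ≠ 0 := fun e =>
      c2 (mem_span_of_small h.wp.nd hk h0' (PW.self_eq_zero hw') e c1)
    have c4 : ∀ z, PW.B w' z = 0 → z - (PW.B y z / PW.B y y) • y ∈ F ∙ w' := fun z hz => by
      have : perp PW ((F ∙ w') ⊔ F ∙ y) = F ∙ w' := by
        refine (Submodule.eq_of_le_of_finrank_le (by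
          simp [perp_sup, mem_perp_singleton, PW.self_eq_zero hw', PW.eq_zero_symm c1]) ?_).symm
        have := finrank_perp h.wp.nd ((F ∙ w') ⊔ F ∙ y)
        have := Submodule.finrank_lt_finrank_of_lt (lt_of_le_of_ne le_sup_left fun e => c2
          (e ▸ Submodule.mem_sup_right (Submodule.mem_span_singleton_self y)) :
            (F ∙ w') < (F ∙ w') ⊔ F ∙ y)
        rw [finrank_span_singleton h0'] at *
        omega
      rw [← this]
      simp [perp_sup, mem_perp_singleton, hz, c1, c3]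
    obtain ⟨s, hs⟩ := Submodule.mem_span_singleton.1 (c4 (β y) (by simpa [hσ] using (b2 y).trans c1))
    set μ := PW.B y (β y) / PW.B y y
    have c5 : β y = s • w' + μ • y := by rw [hs]; abel
    refine ⟨μ, mul_right_cancel₀ c3 ?_, fun z hz => ?_⟩
    · have := B_isom hI y y
      simp only [c5, map_add, map_smul, LinearMap.add_apply, B_smul_left, c1, PW.eq_zero_symm c1,
        PW.self_eq_zero hw', smul_eq_mul] at this
      linear_combination this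
    · obtain ⟨r, hr⟩ := Submodule.mem_span_singleton.1 (c4 z hz)
      rw [eq_sub_iff_add_eq] at hr
      refine Submodule.mem_span_singleton.2 ⟨r * a + PW.B y z / PW.B y y * s - μ * r, ?_⟩
      conv_rhs => rw [← hr, map_add, map_smul, map_smul, b1, c5]
      module
  have key : ∀ {T : TS F U W V} {PU w} {β : W ≃ₗ[F] W}, TF T PU PW P → β w = a • w →
      (∀ y, PW.B w y = 0 → β y - μ • y ∈ F ∙ w) → (∀ x ∈ T.col w, T.opE 1 β x = a • x) ∧
      ∀ x ∈ perp P (T.col w), T.opE 1 β x - μ • x ∈ T.col w := fun {T PU w β} tf e1 e2 =>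
    ⟨by rintro _ ⟨u, rfl⟩; simp [e1], fun x hx => (Submodule.Quotient.mk_eq_zero _).1
      (T.eq_zero_of_ker (f := (T.col w).mkQ ∘ₗ ((T.opE 1 β : V →ₗ[F] V) - μ • LinearMap.id))
        (fun u y hy => (Submodule.Quotient.mk_eq_zero _).2 (by
          obtain ⟨r, hr⟩ := Submodule.mem_span_singleton.1 (e2 y hy)
          exact ⟨r • u, by simpa using congrArg (T.τ u) hr⟩)) (tf.mem_perp_col.1 hx))⟩
  obtain ⟨γ, hγ, rfl⟩ := h.trans h0 h0' hw hw'
  have c1 : (γ⁻¹ * β * γ) w = a • w := by simp [b1]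
  obtain ⟨d1, d2⟩ := key h.tf c1 fun y hy => by
    obtain ⟨r, hr⟩ := Submodule.mem_span_singleton.1 (b4 (γ y) (by rw [B_isom (EG_le_isom hγ), hy]))
    exact Submodule.mem_span_singleton.2 ⟨r, by simpa using congrArg γ.symm hr⟩
  obtain ⟨d3, d4⟩ := key h'.tf b1 b4
  obtain ⟨x, hx⟩ := h.mem_of_triv h' hR h0 hw e
    ((EG PW).mul_mem ((EG PW).mul_mem ((EG PW).inv_mem hγ) hβ) hγ) hβ
    (fun x hx => by rw [d1 x hx, d3 x (e ▸ hx)])
    (fun x hx => by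
      simpa only [sub_sub_sub_cancel_right] using Submodule.sub_mem _ (e.ge (d4 x (e ▸ hx))) (d2 x hx))
    (c1 ▸ Submodule.smul_mem _ _ (Submodule.mem_span_singleton_self w))
  let r : Module.End F W := ((β : Module.End F W) - a • 1) * ((β : Module.End F W) - μ • 1)
  have r1' : ∀ y, PW.B (γ w) y = 0 → r y = 0 := fun y hy => by
    obtain ⟨s, hs⟩ := Submodule.mem_span_singleton.1 (b4 y hy)
    change ((β : Module.End F W) - a • 1) (β y - μ • y) = 0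
    simp [← hs, b1, smul_smul, mul_comm]
  have r2 : r1 PW (r f) (γ w) = r := LinearMap.ext fun y => by
    simpa [sub_eq_zero] using (sub_eq_zero.1 (by simpa using r1' (y - PW.B (γ w) y • f) (by simp [a2]))).symm
  have r3 : ∀ y, PW.B (γ w) (β y) = (σ a)⁻¹ * PW.B (γ w) y := fun y => by
    rw [← b2 y, inv_mul_cancel_left₀ hσ]
  have r4 : PW.B (γ w) (r f) ≠ 0 := by
    rw [show PW.B (γ w) (r f) = ((σ a)⁻¹ - a) * ((σ a)⁻¹ - μ) by simp [r, r3, a2]; ring]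
    refine mul_ne_zero (sub_ne_zero.2 fun e => ha ?_) (sub_ne_zero.2 fun e => ha ?_)
    · rw [← mul_inv_cancel₀ hσ, e]
    · rw [← e, map_inv₀, PW.σσ, ← mul_inv, inv_eq_one] at b3; rwa [mul_comm]
  have r5 : β (r f) = (σ a)⁻¹ • r f := by
    have := r1' (β f - (σ a)⁻¹ • f) (by simp [r3])
    rw [map_sub, map_smul, sub_eq_zero] at this
    rw [← this]; simp [r]
  have r6 : PW.q (r f) ∈ PW.Λ := h.wp.max _ (by
    have := B_isom hI (r f) (r f)
    rw [r5, B_smul_left, map_smul, map_inv₀, PW.σσ, smul_eq_mul] at this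
    by_contra e
    exact ha (mul_right_cancel₀ e (by field_simp at this; rw [one_mul, mul_comm (σ a), ← this]; simp)))
  obtain ⟨f', c2, c3, c4⟩ := h.col_of_r1 h' r6 (by rintro e; simp [e] at r4) h0'
    ⟨(x - a • 1) * (x - μ • 1), by rw [r2]; simp [r, hx]⟩
  exact h.same_of_two h' hR rd h0 hw c2 c3 e c4 r4

theorem same_big (rd : RD (EG PW) (ptΦ PW) PW.Λ) (hk : 4 ≤ finrank F W) (hR' : T'.Std PW M)
    {w w' : W} (h0 : w ≠ 0) (hw : PW.q w ∈ PW.Λ) (e : T.col w = T'.col w') : T.Same T' := by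
  have : Nontrivial U := nontrivial_iff_exists_ne 0 |>.2 h.nontriv
  have key : ∀ {w w' d'}, w ≠ 0 → PW.q w ∈ PW.Λ → T.col w = T'.col w' → d' ≠ 0 → PW.q d' ∈ PW.Λ →
      PW.B w' d' = 0 → ∃ d, d ≠ 0 ∧ PW.q d ∈ PW.Λ ∧ T.col d = T'.col d' :=
    fun {w w' d'} h0 hw e hd0 hd hwd => by
    obtain ⟨h0', hw'⟩ := h.sing_of_col_eq h' h0 hw e
    by_cases hdw : d' ∈ F ∙ w'
    · obtain ⟨a, rfl⟩ := Submodule.mem_span_singleton.1 hdw
      exact ⟨w, h0, hw, e.trans (T'.col_smul (left_ne_zero_of_smul hd0)).symm⟩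
    have p1 : ∀ {x}, T.cB PW w x = 0 ↔ T'.cB PW w' x = 0 := by
      intro x; rw [← h.tf.mem_perp_col, ← h'.tf.mem_perp_col, e]
    obtain ⟨γ, hγ⟩ : ∃ γ : U ≃ₗ[F] U, ∀ u, T'.τ u w' = T.τ (γ u) w :=
      T'.exists_alpha' T h0' e.ge
    have cor : ∀ v, PW.B w v = 0 → ∃ v', ∀ x, T.cB PW w x = 0 →
        T.cB PW v x = γ (T'.cB PW v' x) := fun v hv => by
      obtain ⟨k, hk, ek⟩ := h.has_op_eu hw hv (c := PW.q v) (by simp)
      have e1 : ∀ x, T.cB PW w x = 0 → k x = x + T.τ (T.cB PW v x) w := fun x hx => by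
        simp [ek, op_eu, hx]
      obtain ⟨-, v', -, e2⟩ := h'.ext_unip hR' h0' hw' hk (fun u => by
        rw [hγ, e1 _ (cB_self hw _)]; simp [PW.eq_zero_symm hv]) fun x hx => by
          rw [e1 x (p1.2 hx), ← e]; simpa using T.τ_mem_col _ _
      exact ⟨v', fun x hx => T.col_injective h0
        (add_left_cancel ((e1 x hx).symm.trans ((e2 x (p1.1 hx)).trans (by rw [hγ]; rfl))))⟩
    obtain ⟨u₀, hu₀⟩ := h.nontriv
    obtain ⟨ψ, hψ⟩ := exists_dual_of_ne_zero (F := F) ((map_ne_zero_iff γ γ.injective).2 hu₀) 1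
    set d := T.cU ψ (T'.τ u₀ d') with hd'
    have c0 : ∀ u, T.cB PW w (T'.τ u d') = 0 := fun u => p1.2 (by simp [hwd])
    have c1 : PW.B w d = 0 := by rw [hd', ← T.cW_cU]; exact (congrArg ψ (c0 u₀)).trans (map_zero ψ)
    have c2 : ∀ u, T'.τ u d' - T.τ (γ u) d ∈ T.col w := fun u => h.tf.mem_col_of_cB fun v hv => by
      obtain ⟨v', e1⟩ := cor v (PW.eq_zero_symm hv)
      have : PW.B v d = PW.B v' d' := by
        rw [hd', ← T.cW_cU]
        exact (congrArg ψ (e1 _ (c0 u₀))).trans (by simp [hψ])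
      simp [e1 _ (c0 u), this]
    have c3 : d ∉ F ∙ w := fun hc => by
      obtain ⟨a, ha⟩ := Submodule.mem_span_singleton.1 hc
      have := col_inf hdw (e.le (by simpa using Submodule.add_mem _ (c2 u₀) (show T.τ (γ u₀) d ∈ _
        from ⟨a • γ u₀, by simp [← ha]⟩))) (T'.τ_mem_col u₀ d')
      exact (T'.τ_eq_zero.1 this).elim hu₀ hd0
    have c4 : ∀ u x, T.cB PW w x = 0 → PU'.B u (T'.cB PW d' x) = PU.B (γ u) (T.cB PW d x) :=
      fun u x hx => by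
      have := mem_perp.1 (h.tf.mem_perp_col.2 hx) _ (c2 u)
      rwa [map_sub, LinearMap.sub_apply, h.tf.B_left, h'.tf.B_left, sub_eq_zero] at this
    obtain ⟨y, c5, c6⟩ := exists_perp_ne h.wp.nd c3 1
    obtain ⟨k, hk, ek⟩ := h'.has_op_eu hw' hwd (c := PW.q d') (by simp)
    obtain ⟨-, d₁, -, c7⟩ := h.ext_unip hR h0 hw hk (fun u => by
      rw [← γ.apply_symm_apply u, ← hγ]; simp [ek, eu_fix _ (PW.self_eq_zero hw') (PW.eq_zero_symm hwd)])
      fun x hx => by rw [e]; simpa [ek, op_eu, p1.1 hx] using T'.τ_mem_col _ _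
    have c8 : ∀ x, T.cB PW w x = 0 → T'.cB PW d' x = γ.symm (T.cB PW d₁ x) := fun x hx =>
      T'.col_injective h0' (by simpa [ek, op_eu, p1.1 hx, hγ] using c7 x hx)
    have c9 : ∀ u u' z, PW.B w z = 0 →
        PW.B d₁ z * PU'.B u u' = PW.B d z * PU.B (γ u) (γ u') := fun u u' z hz => by
      simpa [c8 _ (show T.cB PW w (T.τ (γ u') z) = 0 by simp [hz])] using
        c4 u (T.τ (γ u') z) (by simp [hz])
    obtain ⟨u₁, hu₁⟩ := exists_B_eq h'.tf.ndU hu₀ 1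
    set κ := PW.B d₁ y with hκ
    have f1 : ∀ u u', PU.B (γ u) (γ u') = κ * PU'.B u u' := fun u u' => by
      rw [c9 u u' y c5, c6, one_mul]
    have f2 : σ κ = κ := by
      have := f1 u₁ u₀
      rw [PU.symm, PU'.symm, f1, hu₁, show PU'.ε = PU.ε from
        mul_right_cancel₀ PW.ε_ne_zero (h'.tf.ε_eq.symm.trans h.tf.ε_eq)] at this
      exact mul_left_cancel₀ PU.ε_ne_zero (by simpa [mul_comm] using this)
    have f3 : κ ≠ 0 := fun e => hu₀ (γ.map_eq_zero_iff.1 (h.tf.ndU _ fun x => by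
      rw [← γ.apply_symm_apply x, f1, e, zero_mul]))
    have f4 : ∀ x, T.cB PW w x = 0 → T.cB PW d₁ x = κ • T.cB PW d x := fun x hx =>
      sub_eq_zero.1 (T.eq_zero_of_ker (f := T.cB PW d₁ - κ • T.cB PW d) (fun u z hz => by
        have := c9 u₀ u₁ z hz
        rw [f1, hu₁, mul_one, mul_one] at this
        simp [this, smul_smul, mul_comm]) hx)
    have f5 : PW.q d ∈ PW.Λ := h.wp.max _ (by
      have := c4 u₀ _ (c0 u₁)
      obtain ⟨u, hu⟩ := c2 u₁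
      rw [cB_τ, PW.self_eq_zero hd, ← sub_add_cancel (T'.τ u₁ d') (T.τ (γ u₁) d), ← hu] at this
      simpa [PW.eq_zero_symm c1, f1, hu₁, f3] using this)
    obtain ⟨l, hl, hl0⟩ := h.wp.lam
    obtain ⟨β, g1, g2⟩ := h.wp.has_nu f5 (h.wp.real_mul f2 l hl)
    obtain ⟨β', g3, g4⟩ := h.wp.has_nu hd hl
    have g5 : (β : Module.End F W) = 1 + (κ * l) • r1 PW d d := LinearMap.ext g2
    have g6 : (β' : Module.End F W) = 1 + l • r1 PW d' d' := LinearMap.ext g4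
    have g7 : ∀ x, T.opE 1 β x = x + (κ * l) • T.τ (T.cB PW d x) d := fun x => by
      simpa [g5, r1, inW_smulRight, cB] using LinearMap.congr_fun (T.opE_one_coe β) x
    have g8 : ∀ x, T'.opE 1 β' x = x + l • T'.τ (T'.cB PW d' x) d' := fun x => by
      simpa [g6, r1, inW_smulRight, cB] using LinearMap.congr_fun (T'.opE_one_coe β') x
    obtain ⟨x, hx⟩ := h.mem_of_triv h' hR h0 hw e g1 g3 (by
      rintro _ ⟨u, rfl⟩
      rw [g7, g8, LinearMap.flip_apply, c8 _ (cB_self hw u), f4 _ (cB_self hw u)]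
      simp [PW.eq_zero_symm c1]) (fun x hx => by
        have hx := h.tf.mem_perp_col.1 hx
        simpa [g7, g8, c8 x hx, f4 x hx, smul_sub, smul_smul, mul_comm] using
          Submodule.smul_mem _ l (c2 (T'.cB PW d' x))) (by simp [g2, PW.eq_zero_symm c1])
    exact h.col_of_r1 h' hd hd0 hd0 ⟨l⁻¹ • (x - 1), by simp [← hx, g6, smul_smul, hl0]⟩
  obtain ⟨h0', hw'⟩ := h.sing_of_col_eq h' h0 hw e
  obtain ⟨f', a1, a2⟩ := exists_pair h.wp.nd h0' hw'
  obtain ⟨d', a3, a4, a5⟩ := h.wp.isoK (perp PW ((F ∙ w') ⊔ F ∙ f')) (by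
    have := finrank_le_perp (P := PW) ((F ∙ w') ⊔ F ∙ f')
    have := finrank_sup_le' (F ∙ w') (F ∙ f')
    have := finrank_span_singleton_le (F := F) w'
    have := finrank_span_singleton_le (F := F) f'
    omega)
  simp only [perp_sup, Submodule.mem_inf, mem_perp_singleton] at a3
  obtain ⟨d, b1, b2, b3⟩ := key h0 hw e a4 a5 a3.1
  obtain ⟨f, b4, b5, b6⟩ := key b1 b2 b3 (by rintro rfl; simp at a2) a1 (PW.eq_zero_symm a3.2)
  exact h.same_of_two h' hR rd h0 hw b4 b5 e b6 (by simp [a2])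

end Cx

end H11.Ten
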