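import Mathlib
import Cfsg.Agent.Base
import Cfsg.Agent.Lib.Asch.Basic
import Cfsg.Agent.Lib.Tensor.PtRD

/-!
Subalgebras normalised by a product of tensor factors.
-/

set_option autoImplicit false
set_option linter.unusedSectionVars false
set_option linter.unusedSimpArgs false

namespace H11.Ten

open Module Cfsg H97 H28 TS

section Irr

variable {F V : Type*} [Field F] [AddCommGroup V] [Module F V] {Γ : Subgroup (V ≃ₗ[F] V)}

/-- An irreducible group. -/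
def IrrG (Γ : Subgroup (V ≃ₗ[F] V)) : Prop :=
  ∀ X : Submodule F V, (∀ γ ∈ Γ, ∀ x ∈ X, γ x ∈ X) → X = ⊥ ∨ X = ⊤

theorem irrG_of_top {Γ : Subgroup (V ≃ₗ[F] V)}
    (h : ∀ C : Subalgebra F (Module.End F V), (∀ γ ∈ Γ, (γ : Module.End F V) ∈ C) → C = ⊤) :
    IrrG Γ := fun X hX => by
  let C : Subalgebra F (Module.End F V) :=
    { carrier := {a | ∀ x ∈ X, a x ∈ X}
      mul_mem' := fun ha hb x hx => ha _ (hb x hx)
      add_mem' := fun ha hb x hx => X.add_mem (ha x hx) (hb x hx)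
      algebraMap_mem' := fun c x hx => X.smul_mem c hx }
  refine or_iff_not_imp_left.2 fun h0 => eq_top_iff.2 fun y _ => ?_
  obtain ⟨x, hx, hx0⟩ := Submodule.exists_mem_ne_zero_of_ne_bot h0
  obtain ⟨φ, hφ⟩ := exists_dual_of_ne_zero (F := F) hx0 1
  simpa [hφ] using ((h C hX).ge Algebra.mem_top : φ.smulRight y ∈ C) x hx

theorem IrrG.exists_mul_ne (h : IrrG Γ) {Q : Set (Module.End F V)}
    (hQ : ∀ γ ∈ Γ, ∀ q ∈ Q, cN γ q ∈ Q) {q₀ : Module.End F V} (h0 : q₀ ∈ Q) (h1 : q₀ ≠ 0)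
    {x : Module.End F V} (hx : x ≠ 0) : ∃ q ∈ Q, q * x ≠ 0 := by
  by_contra hc
  push Not at hc
  rcases h (⨅ q ∈ Q, LinearMap.ker q) fun γ hγ v hv => by
    simp only [Submodule.mem_iInf, LinearMap.mem_ker] at hv ⊢
    exact fun q hq => by simpa [cN_apply] using hv _ (hQ _ (Γ.inv_mem hγ) q hq) with e | e
  · exact hx (LinearMap.ext fun v => e.le (by
      simpa [Submodule.mem_iInf] using fun q hq => LinearMap.congr_fun (hc q hq) v))
  · exact h1 (LinearMap.ext fun v => by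
      simpa [Submodule.mem_iInf] using (Submodule.mem_iInf _).1 ((Submodule.mem_iInf _).1
        (e.ge (Submodule.mem_top (x := v))) q₀) h0)

theorem IrrG.one_mem [FiniteDimensional F V] (h : IrrG Γ) {A : Subalgebra F (Module.End F V)}
    (hA : InvA Γ A) {N : Submodule F (Module.End F V)} (hNA : ∀ n ∈ N, n ∈ A)
    (hl : ∀ a ∈ A, ∀ n ∈ N, a * n ∈ N) (hN : ∀ γ ∈ Γ, ∀ n ∈ N, cN γ n ∈ N) (h0 : N ≠ ⊥) :
    (1 : Module.End F V) ∈ N := by
  have : IsArtinianRing A := IsArtinianRing.of_finite F A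
  have hJ : Ring.jacobson A = ⊥ := by
    by_contra hne
    obtain ⟨j, hj, hj0⟩ := Submodule.exists_mem_ne_zero_of_ne_bot hne
    obtain ⟨n, hn⟩ : IsNilpotent (Ring.jacobson A) := IsSemiprimaryRing.isNilpotent
    have key : ∀ k, ∃ x ∈ Ring.jacobson A ^ (k + 1), x ≠ 0 := fun k => by
      induction k with
      | zero => exact ⟨j, by simpa [Submodule.pow_one] using hj, hj0⟩
      | succ k ih =>
        obtain ⟨x, hx, hx0⟩ := ih
        obtain ⟨_, ⟨y, hy, rfl⟩, e⟩ := h.exists_mul_ne (Q := Subtype.val '' (Ring.jacobson A : Set A))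
          (by
            rintro γ hγ _ ⟨y, hy, rfl⟩
            let φ : A →+* A := ((cA γ).toRingHom.comp A.val.toRingHom).codRestrict A.toSubring
              fun a => hA γ hγ a a.2
            have : RingHomSurjective φ := ⟨fun a => ⟨⟨_, hA _ (Γ.inv_mem hγ) a a.2⟩,
              Subtype.ext (cN_cN_inv γ a)⟩⟩
            exact ⟨φ y, Ring.le_comap_jacobson φ hy, rfl⟩)
          ⟨j, hj, rfl⟩ (fun e => hj0 (Subtype.ext e)) (x := x) fun e => hx0 (Subtype.ext e)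
        exact ⟨y * x, by rw [Ideal.IsTwoSided.pow_succ]; exact Ideal.mul_mem_mul hy hx,
          fun e' => e (congrArg Subtype.val e')⟩
    obtain ⟨x, hx, hx0⟩ := key n
    rw [Submodule.pow_succ, hn] at hx
    exact hx0 (by simpa using hx)
  have := IsArtinianRing.isSemisimpleRing_iff_jacobson.2 hJ
  let I : Ideal A :=
    { carrier := {a | a.1 ∈ N}
      add_mem' := N.add_mem
      zero_mem' := N.zero_mem
      smul_mem' := fun a n hn => hl a a.2 n hn }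
  obtain ⟨e, he, hI⟩ := IsSemisimpleRing.ideal_eq_span_idempotent I
  have h1 : (e : Module.End F V) ∈ N := (hI.ge (Ideal.subset_span rfl) : e ∈ I)
  obtain ⟨n, hn, hn0⟩ := Submodule.exists_mem_ne_zero_of_ne_bot h0
  by_contra hc
  obtain ⟨q, hq, e'⟩ := h.exists_mul_ne hN hn hn0 (x := 1 - e) fun e' =>
    hc (sub_eq_zero.1 e' ▸ h1)
  obtain ⟨a, ha⟩ := Ideal.mem_span_singleton'.1 (hI.le (show (⟨q, hNA q hq⟩ : A) ∈ I from hq))
  refine e' ?_
  rw [show q = a * e from (congrArg Subtype.val ha).symm, mul_assoc, mul_sub, mul_one,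
    ← Subalgebra.coe_mul, he.eq, sub_self, mul_zero]

theorem cN_mem_pow {S : Submodule F (Module.End F V)} {γ : V ≃ₗ[F] V} (h : ∀ s ∈ S, cN γ s ∈ S)
    (n : ℕ) : ∀ s ∈ S ^ n, cN γ s ∈ S ^ n := fun s hs => by
  have : S.map (cA γ).toLinearMap ≤ S := by rintro _ ⟨s, hs, rfl⟩; exact h s hs
  exact (Submodule.map_pow S (cA γ) n ▸ pow_le_pow_left' this n : (S ^ n).map _ ≤ _) ⟨s, hs, rfl⟩

theorem exists_pow_top [Finite F] [FiniteDimensional F V] (h : IrrG Γ) (hG : Good Γ)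
    {S : Submodule F (Module.End F V)} (hS : ∀ γ ∈ Γ, ∀ s ∈ S, cN γ s ∈ S) {x : Module.End F V}
    (hx : x ∈ S) (h0 : x ≠ 0) (h2 : x * x = 0) : ∃ n, S ^ (n + 1) = ⊤ := by
  have : Finite (Module.End F V) := Module.finite_of_finite F
  obtain ⟨n, hn, e⟩ := H10.Asch.exists_pow_idem S
  obtain ⟨n, rfl⟩ := Nat.exists_eq_add_of_lt hn
  rw [zero_add] at e
  have key : ∀ k, ∃ q ∈ S ^ k, q * x ≠ 0 := fun k => by
    induction k with
    | zero => exact ⟨1, Submodule.one_le.1 (pow_zero S).ge, by simpa using h0⟩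
    | succ k ih =>
      obtain ⟨q, hq, e⟩ := ih
      obtain ⟨s, hs, e'⟩ := h.exists_mul_ne hS hx h0 e
      exact ⟨s * q, pow_succ' S k ▸ Submodule.mul_mem_mul hs hq, by rwa [mul_assoc]⟩
  obtain ⟨q, hq, hq0⟩ := key n
  have h3 : q * x ∈ S ^ (n + 1) := pow_succ S n ▸ Submodule.mul_mem_mul hq hx
  let A : Subalgebra F (Module.End F V) := Submodule.toSubalgebra (1 ⊔ S ^ (n + 1))
    (Submodule.mem_sup_left (Submodule.one_le.1 le_rfl)) fun a b ha hb =>
      (show (1 ⊔ S ^ (n + 1)) * (1 ⊔ S ^ (n + 1)) ≤ _ by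
        simp [Submodule.sup_mul, Submodule.mul_sup, e]) (Submodule.mul_mem_mul ha hb)
  have hA : A = ⊤ := hG.top_of (x := q * x) (by
    rintro c hc
    obtain ⟨v, hv⟩ := DFunLike.ne_iff.1 h0
    have := LinearMap.congr_fun (congrArg (· * x) hc) v
    simp only [mul_assoc, h2, mul_zero] at this
    exact hq0 (by
      rw [hc, show c = 0 by simpa [show x v ≠ 0 from hv] using this.symm, zero_smul]))
    fun γ hγ => Submodule.mem_sup_right (cN_mem_pow (hS γ hγ) _ _ h3)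
  have h4 := h.one_mem (A := ⊤) (fun _ _ _ _ => trivial) (N := S ^ (n + 1)) (fun _ _ => trivial)
    (fun a _ s hs => (show (1 ⊔ S ^ (n + 1)) * S ^ (n + 1) ≤ _ by
      simp [Submodule.sup_mul, e]) (Submodule.mul_mem_mul (hA.ge Algebra.mem_top : a ∈ A) hs))
    (fun γ hγ => cN_mem_pow (hS γ hγ) _) fun e => hq0 (e.le h3)
  exact ⟨n, eq_top_iff.2 fun a _ =>
    (sup_le (Submodule.one_le.2 h4) le_rfl) (hA.ge Algebra.mem_top : a ∈ A)⟩

/-- Rank one operators can be extracted from the conjugation action. -/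
def Xtr (Γ : Subgroup (V ≃ₗ[F] V)) (𝒳 : Set (Module.End F V)) : Prop :=
  ∀ E : Subalgebra F (Module.End F (Module.End F V)), (∀ γ ∈ Γ, (cA γ).toLinearMap ∈ E) →
    ∀ K : Submodule F (Module.End F V), ∀ x ∈ K, (∀ c : F, x ≠ c • LinearMap.id) →
      ∃ φ ∈ E, ∃ x₀ ∈ 𝒳, (∀ x ∈ K, φ x ∈ F ∙ x₀) ∧ ∃ x ∈ K, φ x ≠ 0

theorem Xtr.mem {𝒳 : Set (Module.End F V)} (h : Xtr Γ 𝒳) {Z : Submodule F (Module.End F V)}
    (hZ : ∀ γ ∈ Γ, ∀ a ∈ Z, cN γ a ∈ Z) {x : Module.End F V} (hx : x ∈ Z)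
    (hx' : ∀ c : F, x ≠ c • LinearMap.id) : ∃ x₀ ∈ 𝒳, x₀ ∈ Z := by
  obtain ⟨φ, h1, x₀, h2, h3, y, h4, h5⟩ := h
    { carrier := {φ | ∀ a ∈ Z, φ a ∈ Z}
      mul_mem' := fun ha hb x hx => ha _ (hb x hx)
      add_mem' := fun ha hb x hx => Z.add_mem (ha x hx) (hb x hx)
      algebraMap_mem' := fun c x hx => Z.smul_mem c hx } hZ Z x hx hx'
  obtain ⟨c, hc⟩ := Submodule.mem_span_singleton.1 (h3 y h4)
  exact ⟨x₀, h2, (Z.smul_mem_iff (left_ne_zero_of_smul (hc ▸ h5))).1 (hc ▸ h1 y h4)⟩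

end Irr

variable {F U W V : Type*} [Field F] [AddCommGroup U] [Module F U] [AddCommGroup W]
  [Module F W] [AddCommGroup V] [Module F V] [FiniteDimensional F U] [FiniteDimensional F W]

namespace TS

/-- The tensor decomposition of the endomorphism algebra. -/
noncomputable def endTS (T : TS F U W V) :
    TS F (Module.End F U) (Module.End F W) (Module.End F V) where
  τ := (LinearMap.mul F _).compl₁₂ T.inU.toLinearMap T.inW.toLinearMap
  h := by
    have := T.finite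
    have hs : Function.Surjective (TensorProduct.lift ((LinearMap.mul F (Module.End F V)).compl₁₂
        T.inU.toLinearMap T.inW.toLinearMap)) := by
      rw [← LinearMap.range_eq_top, eq_top_iff, ← T.KK_top]
      refine Submodule.span_le.2 ?_
      rintro _ ⟨s, x, -, rfl⟩
      exact ⟨s ⊗ₜ x, (T.op_eq s x).symm⟩
    exact ⟨(LinearMap.injective_iff_surjective_of_finrank_eq_finrank (by
      simp [Module.finrank_linearMap, T.finrank_eq]; ring)).2 hs, hs⟩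

theorem endTS_τ (T : TS F U W V) (s : Module.End F U) (x : Module.End F W) :
    T.endTS.τ s x = T.inU s * T.inW x := rfl

theorem cN_opE (T : TS F U W V) (α : U ≃ₗ[F] U) (β : W ≃ₗ[F] W) (s : Module.End F U)
    (x : Module.End F W) :
    cN (T.opE α β) (T.inU s * T.inW x) = T.inU (cN α s) * T.inW (cN β x) :=
  T.lext fun u w => by simp [cN_apply, opE_inv]

theorem cN_opE_inW (T : TS F U W V) (α : U ≃ₗ[F] U) (β : W ≃ₗ[F] W) (x : Module.End F W) :
    cN (T.opE α β) (T.inW x) = T.inW (cN β x) := T.lext fun u w => by simp [cN_apply, opE_inv]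

theorem cN_opE_inU (T : TS F U W V) (α : U ≃ₗ[F] U) (β : W ≃ₗ[F] W) (s : Module.End F U) :
    cN (T.opE α β) (T.inU s) = T.inU (cN α s) := T.lext fun u w => by simp [cN_apply, opE_inv]

theorem exists_pure {T : TS F U W V} {Y : Subgroup (W ≃ₗ[F] W)} {𝒳 : Set (Module.End F W)}
    (h : Xtr Y 𝒳) {Z : Submodule F (Module.End F V)}
    (hZ : ∀ β ∈ Y, ∀ a ∈ Z, cN (T.opE 1 β) a ∈ Z) {a : Module.End F V} (ha : a ∈ Z)
    (ha' : ¬ ∀ y, Commute a (T.inW y)) : ∃ s, s ≠ 0 ∧ ∃ x₀ ∈ 𝒳, T.inU s * T.inW x₀ ∈ Z := by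
  obtain ⟨ψ, hψ⟩ : ∃ ψ, ∀ c : F, T.endTS.cU ψ a ≠ c • LinearMap.id := by
    by_contra hc
    push Not at hc
    obtain ⟨s, rfl⟩ := T.endTS.mem_col_of (w := 1) (x := a) fun φ hφ =>
      (Module.forall_dual_apply_eq_zero_iff F _).1 fun ψ => by
        obtain ⟨c, e⟩ := hc ψ
        rw [cW_cU, e, map_smul]; exact smul_eq_zero_of_right c hφ
    exact ha' fun y => by simpa [endTS_τ] using T.commute_in s y
  obtain ⟨φ, h1, x₀, h2, h3, _, ⟨ψ', rfl⟩, h5⟩ := h
    { carrier := {φ | ∀ a ∈ Z, T.endTS.inW φ a ∈ Z}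
      mul_mem' := fun ha hb x hx => by rw [_root_.map_mul]; exact ha _ (hb x hx)
      add_mem' := fun ha hb x hx => by rw [map_add]; exact Z.add_mem (ha x hx) (hb x hx)
      algebraMap_mem' := fun c x hx => by rw [AlgHom.commutes]; exact Z.smul_mem c hx }
    (fun β hβ a ha => by
      rw [show T.endTS.inW (cA β).toLinearMap = (cA (T.opE 1 β)).toLinearMap from
        T.endTS.lext fun s x => by
          rw [inW_τ]; simp [endTS_τ, cA_apply, cN_opE, cN_one]]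
      exact hZ β hβ a ha) (LinearMap.range (T.endTS.cU.flip a)) _ ⟨ψ, rfl⟩ hψ
  have key : ∀ ψ, T.endTS.cU ψ (T.endTS.inW φ a) = φ (T.endTS.cU ψ a) := fun ψ =>
    LinearMap.congr_fun (T.endTS.lext (f := T.endTS.cU ψ ∘ₗ T.endTS.inW φ)
      (g := φ ∘ₗ T.endTS.cU ψ) fun s x => by simp) a
  obtain ⟨s, hs⟩ := T.endTS.mem_col_of (w := x₀) (x := T.endTS.inW φ a) fun χ hχ =>
    (Module.forall_dual_apply_eq_zero_iff F _).1 fun ψ => by
      obtain ⟨c, e⟩ := Submodule.mem_span_singleton.1 (h3 _ ⟨ψ, rfl⟩)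
      rw [cW_cU, key, ← LinearMap.flip_apply T.endTS.cU, ← e, map_smul, hχ, smul_zero]
  refine ⟨s, ?_, x₀, h2, (hs ▸ h1 a ha : T.endTS.τ.flip x₀ s ∈ Z)⟩
  rintro rfl
  exact h5 (by rw [LinearMap.flip_apply, ← key, ← hs]; simp)

end TS

/-- An invariant subalgebra which does not commute with a factor contains it. -/
theorem inW_mem_of_not_commute [Finite F] [Nontrivial U] {T : TS F U W V}
    {Y : Subgroup (W ≃ₗ[F] W)} {𝒳 : Set (Module.End F W)} (hX : Xtr Y 𝒳)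
    (h𝒳 : ∀ x ∈ 𝒳, x ≠ 0 ∧ x * x = 0) (hY : IrrG Y) (hG : Good Y) {Γ : Subgroup (V ≃ₗ[F] V)}
    (hΓ : IrrG Γ) (h1 : ∀ β ∈ Y, T.opE 1 β ∈ Γ)
    (h2 : ∀ γ ∈ Γ, ∃ α, ∃ β ∈ Y, γ = T.opE α β) {A : Subalgebra F (Module.End F V)} (hA : InvA Γ A)
    {a : Module.End F V} (ha : a ∈ A) (ha' : ¬ ∀ y, Commute a (T.inW y)) (y : Module.End F W) :
    T.inW y ∈ A := by
  have := T.finite
  obtain ⟨s₀, hs₀, x₀, hx₀, e⟩ := exists_pure hX (Z := A.toSubmodule)
    (fun β hβ a ha => hA _ (h1 β hβ) a ha) ha ha'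
  let S : Submodule F (Module.End F W) := Submodule.span F {x | ∃ β ∈ Y, x = cN β x₀}
  have hS : ∀ γ ∈ Y, ∀ s ∈ S, cN γ s ∈ S := fun γ hγ s hs =>
    (Submodule.span_le.2 (by
      rintro _ ⟨β, hβ, rfl⟩
      exact Submodule.subset_span ⟨γ * β, Y.mul_mem hγ hβ, (cN_mul _ _ _).symm⟩) :
        S ≤ S.comap (cA γ).toLinearMap) hs
  obtain ⟨n, hn⟩ := exists_pow_top hY hG hS (Submodule.subset_span ⟨1, Y.one_mem, (cN_one _).symm⟩)
    (h𝒳 x₀ hx₀).1 (h𝒳 x₀ hx₀).2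
  let C : ℕ → Set (Module.End F V) := fun m =>
    {c | ∃ s, c = T.inU s ∧ ∀ x ∈ S ^ (m + 1), T.inU s * T.inW x ∈ A}
  have hC : ∀ m, ∀ γ ∈ Γ, ∀ c ∈ C m, cN γ c ∈ C m := by
    rintro m γ hγ _ ⟨s, rfl, hs⟩
    obtain ⟨α, β, hβ, rfl⟩ := h2 γ hγ
    refine ⟨cN α s, T.cN_opE_inU α β s, fun x hx => ?_⟩
    have := hA _ hγ _ (hs _ (cN_mem_pow (hS _ (Y.inv_mem hβ)) _ x hx))
    rwa [← cN, cN_opE, cN_cN_inv] at this
  have hU : ∀ {s}, T.inU s = 0 → s = 0 := by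
    have : Nontrivial W := by
      by_contra hc
      rw [not_nontrivial_iff_subsingleton] at hc
      exact (h𝒳 x₀ hx₀).1 (Subsingleton.elim _ _)
    exact fun {_} e => (inW_eq_zero (T := T.flip)).1 e
  have h0 : T.inU s₀ ∈ C 0 := ⟨s₀, rfl, fun x hx => by
    rw [zero_add, pow_one] at hx
    refine (Submodule.span_le.2 ?_ : S ≤ A.toSubmodule.comap
      (LinearMap.mulLeft F (T.inU s₀) ∘ₗ T.inW.toLinearMap)) hx
    rintro _ ⟨β, hβ, rfl⟩
    have := hA _ (h1 β hβ) _ e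
    rwa [← cN, cN_opE, cN_one] at this⟩
  have key : ∀ m, ∃ c ∈ C m, c ≠ 0 := fun m => by
    induction m with
    | zero => exact ⟨_, h0, fun e => hs₀ (hU e)⟩
    | succ m ih =>
      obtain ⟨c, hc, hc0⟩ := ih
      obtain ⟨_, ⟨s, rfl, hs⟩, e⟩ := hΓ.exists_mul_ne (hC m) hc hc0 fun e => hs₀ (hU e)
      refine ⟨_, ⟨s * s₀, (_root_.map_mul _ _ _).symm, fun x hx => ?_⟩, e⟩
      obtain ⟨_, e₀, h0⟩ := h0
      rw [pow_succ] at hx
      refine Submodule.mul_induction_on hx (fun x hx x' hx' => ?_) fun x x' hx hx' => ?_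
      · have := A.mul_mem (hs x hx) (h0 x' (by simpa using hx'))
        rwa [← e₀, ← op_eq, ← op_eq, op_mul, op_eq] at this
      · rw [map_add, mul_add]; exact A.add_mem hx hx'
  obtain ⟨_, ⟨s, rfl, hs⟩, hc0⟩ := key n
  have h3 := hΓ.one_mem hA (N := ⨅ y, A.toSubmodule.comap (LinearMap.mulRight F (T.inW y)))
    (fun n hn => by simpa using (Submodule.mem_iInf _).1 hn 1)
    (fun a ha n hn => (Submodule.mem_iInf _).2 fun y => by
      simpa [mul_assoc] using A.mul_mem ha ((Submodule.mem_iInf _).1 hn y))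
    (fun γ hγ n hn => (Submodule.mem_iInf _).2 fun y => by
      obtain ⟨α, β, hβ, rfl⟩ := h2 γ hγ
      have := hA _ hγ _ ((Submodule.mem_iInf _).1 hn (cN β⁻¹ y))
      rwa [← cN, ← cA_apply, LinearMap.mulRight_apply, _root_.map_mul, cA_apply, cA_apply,
        cN_opE_inW, cN_cN_inv] at this)
    (fun e => hc0 (e.le ((Submodule.mem_iInf _).2 fun y => hs y (hn.ge trivial))))
  simpa using (Submodule.mem_iInf _).1 h3 y

end H11.Ten
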