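import Mathlib
import Cfsg.Agent.Base
import Cfsg.Agent.Lib.Forms.Classify
import Cfsg.Agent.Lib.Tensor.Pure
import Cfsg.Agent.Lib.Tensor.CxP

/-!
Extraction of rank one operators; unitary tensor stabilisers with small factors.
-/

set_option autoImplicit false
set_option linter.unusedSectionVars false
set_option linter.unusedSimpArgs false

namespace H11.Ten

open Module Cfsg H97 H28 TS

section W

variable {F W : Type*} [Field F] [AddCommGroup W] [Module F W] {σ : F →+* F} {PW : PQ F W σ}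
  [FiniteDimensional F W] {Y : Subgroup (W ≃ₗ[F] W)}

theorem RD.irrG {Φ : Set (W × Dual F W)} {Λ : AddSubgroup F} (h : RD Y Φ Λ) : IrrG Y :=
  irrG_of_top fun C hC => h.top_of fun p hp => by
    obtain ⟨l, hl, hl0⟩ := h.lam
    obtain ⟨β, a1, a2⟩ := h.has p hp l hl
    have := C.smul_mem (C.sub_mem (hC β a1) C.one_mem) l⁻¹
    rwa [show (β : Module.End F W) = 1 + l • nu p from LinearMap.ext a2, add_sub_cancel_left,
      smul_smul, inv_mul_cancel₀ hl0, one_smul] at this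

theorem exists_delta {E : Subalgebra F (Module.End F (Module.End F W))}
    (hE : ∀ γ ∈ Y, (cA γ).toLinearMap ∈ E) {f g : Module.End F W} (hf : Has Y f)
    (hg : ∀ x, f (g x) = x) : ∃ φ ∈ E, ∀ x, φ x = f * x * g - x := by
  obtain ⟨γ, hγ, e⟩ := hf
  refine ⟨_, E.sub_mem (hE γ hγ) E.one_mem, fun x => LinearMap.ext fun v => ?_⟩
  have : γ⁻¹ v = g v := by rw [le_inv_apply, LinearEquiv.symm_apply_eq, e, hg]
  change γ (x (γ⁻¹ v)) - x v = _
  rw [this, e]; rfl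

variable (PW) in
/-- Non-zero square-zero maps which are proportional to their adjoint. -/
def nilX : Set (Module.End F W) :=
  {x | (x ≠ 0 ∧ x * x = 0) ∧ ∃ c : F, ∀ a b, PW.B (x a) b = PW.B a ((c • x) b)}

theorem r1_mem_nilX (hP : PW.B.SeparatingLeft) {w : W} (h0 : w ≠ 0) (hw : PW.q w ∈ PW.Λ) :
    r1 PW w w ∈ nilX PW := by
  obtain ⟨f, -, hf⟩ := exists_pair hP h0 hw
  exact ⟨⟨fun e => h0 (by simpa [hf] using LinearMap.congr_fun e f),
    LinearMap.ext fun x => by simp [PW.self_eq_zero hw]⟩, PW.ε, fun a b => by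
      simp only [r1_apply, B_smul_left, LinearMap.smul_apply, map_smul, smul_eq_mul, PW.symm w a]
      linear_combination (-σ (PW.B w a) * PW.B w b) * PW.εε⟩

theorem WP.delta_nu (h : WP PW) {E : Subalgebra F (Module.End F (Module.End F W))}
    (hE : ∀ γ ∈ EG PW, (cA γ).toLinearMap ∈ E) {w : W} (hw : PW.q w ∈ PW.Λ) {l : F}
    (hl : l ∈ PW.Λ) : ∃ φ ∈ E, ∀ x v, φ x v = (l * PW.B w (x v)) • w - (l * PW.B w v) • x w -
      (l ^ 2 * PW.B w v * PW.B w (x w)) • w := by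
  obtain ⟨φ, h1, h2⟩ := exists_delta hE (f := 1 + l • r1 PW w w) (g := 1 - l • r1 PW w w)
    (h.has_nu hw hl) fun x => by simp [PW.self_eq_zero hw]
  exact ⟨φ, h1, fun x v => by simp [h2]; module⟩

theorem delta_eu {E : Subalgebra F (Module.End F (Module.End F W))}
    (hE : ∀ γ ∈ EG PW, (cA γ).toLinearMap ∈ E) {w v : W} (hw : PW.q w ∈ PW.Λ) (hv : PW.B w v = 0) :
    ∃ φ ∈ E, ∀ (x : Module.End F W) (p p' : W), PW.B w p = 0 → PW.B w p' = 0 →
      (∀ y, x y = PW.B p y • w + PW.B w y • p') →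
      φ x = (PW.ε * PW.B p v + PW.B v p') • r1 PW w w := by
  obtain ⟨φ, h1, h2⟩ := exists_delta hE (g := eu PW w (-v) (PW.B v v - PW.q v))
    (has_eu_EG hw hv (c := PW.q v) (by simp)) fun x => by
      rw [eu_comp (PW.self_eq_zero hw) hv (by simp [hv])]; simp [eu_zero]
  refine ⟨φ, h1, fun x p p' a1 a2 e => LinearMap.ext fun y => ?_⟩
  simp [h2, e, eu_apply, a1, a2, hv, PW.self_eq_zero hw, PW.eq_zero_symm a1, PW.eq_zero_symm hv]
  module

theorem WP.xtr (h : WP PW) (hk : 2 ≤ finrank F W) (ht : 4 ≤ finrank F W ∨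
    ((σ ≠ RingHom.id F ∨ finrank F W ≤ 3) ∧ ∃ t : F, σ t = t ∧ t ≠ 0 ∧ t ≠ 1)) :
    Xtr (EG PW) (nilX PW) := fun E hE K x hx hx' => by
  obtain ⟨w, hw, e⟩ := exists_sing_notMem h.nd h.max (Or.inl h.lam) (h.exists_sing hk) hx'
  have h0 : w ≠ 0 := by rintro rfl; simp at e
  obtain ⟨l, hl, hl0⟩ := h.lam
  have fin : ∀ φ ∈ E, ∀ x₀ ∈ nilX PW, ∀ ψ : Module.End F W → F, (∀ x ∈ K, φ x = ψ x • x₀) →
      (∃ x ∈ K, ψ x ≠ 0) → ∃ φ ∈ E, ∃ x₀ ∈ nilX PW, (∀ x ∈ K, φ x ∈ F ∙ x₀) ∧ ∃ x ∈ K, φ x ≠ 0 :=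
    fun φ h1 x₀ h2 ψ h3 ⟨x, h4, h5⟩ => ⟨φ, h1, x₀, h2,
      fun x hx => Submodule.mem_span_singleton.2 ⟨_, (h3 x hx).symm⟩, x, h4,
      h3 x h4 ▸ smul_ne_zero h5 h2.1.1⟩
  obtain ⟨φ₁, a1, a2⟩ := h.delta_nu hE hw hl
  rcases ht with ht | ⟨hs, t, t1, t2, t3⟩
  · obtain ⟨d, b1, b2, b3, b4⟩ : ∃ d, PW.q d ∈ PW.Λ ∧ PW.B w d = 0 ∧ d ∉ F ∙ w ∧
        PW.B d (x w) ≠ 0 := by
      obtain ⟨d, b1, b2, b3⟩ := h.sing_perp ht e
      obtain ⟨d', c1, c2, c3⟩ := h.exists_sing_perp ht w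
      by_cases b4 : d ∈ F ∙ w
      swap; · exact ⟨d, b1, PW.eq_zero_symm b2, b4, b3⟩
      by_cases b5 : PW.B d' (x w) = 0
      swap; · exact ⟨d', c1, c2, c3, b5⟩
      obtain ⟨a, rfl⟩ := Submodule.mem_span_singleton.1 b4
      exact ⟨d' + a • w, sing_add c1 b1 (by simp [PW.eq_zero_symm c2]),
        by simp [c2, PW.self_eq_zero hw], fun e => c3 ((Submodule.add_mem_iff_left _ b4).1 e),
        by simpa [b5] using b3⟩
    obtain ⟨φ₂, a3, a4⟩ := h.delta_nu hE b1 hl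
    have a5 : ∀ x y, (φ₂ * φ₁) x y = PW.B ((-σ (l ^ 2 * PW.B w (x d))) • d) y • w +
        PW.B w y • (-(l ^ 2 * PW.B d (x w))) • d := fun x y => by
      simp [a4, a2, b2, PW.eq_zero_symm b2, PW.σσ]
      module
    obtain ⟨v, c1, c2⟩ := exists_perp_ne h.nd b3 PW.ε
    obtain ⟨φ₃, a6, a7⟩ := delta_eu hE hw c1
    have c3 : PW.B v d = 1 := by rw [PW.symm, c2, PW.σε, PW.εε]
    by_cases hc : ∃ x ∈ K, PW.B w (x d) + PW.B d (x w) ≠ 0
    · refine fin _ (E.mul_mem a6 (E.mul_mem a3 a1)) _ (r1_mem_nilX h.nd h0 hw)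
        (fun x => -(l ^ 2 * (PW.B w (x d) + PW.B d (x w)))) (fun x _ => ?_)
        (hc.imp fun x hx => ⟨hx.1, by simpa [hl0] using hx.2⟩)
      rw [Module.End.mul_apply, a7 _ _ _ (by simp [b2]) (by simp [b2]) (a5 x)]
      congr 1
      simp [c2, c3, PW.σσ]
      linear_combination (-l ^ 2 * PW.B w (x d)) * PW.εε
    push Not at hc
    refine fin _ (E.mul_mem a3 a1) (r1 PW w d - r1 PW d w) ⟨⟨fun e => b3 ?_,
      LinearMap.ext fun y => by simp [b2, PW.eq_zero_symm b2, PW.self_eq_zero hw,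
        PW.self_eq_zero b1]⟩, -PW.ε, fun a b => ?_⟩ (fun x => l ^ 2 * PW.B d (x w))
      (fun x hx => LinearMap.ext fun y => ?_) ⟨x, hx, by simpa [hl0] using b4⟩
    · exact (h0 (by simpa [c1, c2, PW.ε_ne_zero] using LinearMap.congr_fun e v)).elim
    · simp only [r1_apply, B_smul_left, LinearMap.smul_apply, map_smul, smul_eq_mul, PW.symm w a,
        PW.symm d a, LinearMap.sub_apply, map_sub]
      linear_combination (σ (PW.B w a) * PW.B d b - σ (PW.B d a) * PW.B w b) * PW.εε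
    · rw [a5, eq_neg_of_add_eq_zero_left (hc x hx)]
      simp [PW.σσ]
      module
  by_cases hc : ∃ x ∈ K, PW.B w (x w) ≠ 0
  · obtain ⟨φ₂, a3, a4⟩ := h.delta_nu hE hw (h.real_mul t1 l hl)
    refine fin _ (E.sub_mem (E.smul_mem a1 t) a3) _ (r1_mem_nilX h.nd h0 hw)
      (fun x => t * (t - 1) * l ^ 2 * PW.B w (x w)) (fun x _ => LinearMap.ext fun y => ?_)
      (hc.imp fun x hx => ⟨hx.1, by simpa [hl0, t2, sub_eq_zero, t3] using hx.2⟩)
    simp [a2, a4]
    module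
  push Not at hc
  have hne : σ ≠ RingHom.id F := by
    rcases h.typ with h1 | h1
    · exact h1.1
    · exact hs.resolve_right fun hk => e (mem_span_of_small h.nd hk h0 (PW.self_eq_zero hw)
        (PW.self_eq_zero (h1 _)) (hc x hx))
  obtain ⟨θ, hθ⟩ := exists_ne_of_ne_id hne
  obtain ⟨v, c1, c2⟩ : ∃ v, PW.B w v = 0 ∧ PW.ε * PW.B w (x v) - PW.B v (x w) ≠ 0 := by
    obtain ⟨v, c1, c2⟩ := exists_perp_ne h.nd e 1
    by_contra hc
    push Not at hc
    have d1 := hc v c1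
    have d2 := hc (θ • v) (by simp [c1])
    simp only [map_smul, B_smul_left, smul_eq_mul] at d2
    exact mul_ne_zero (sub_ne_zero.2 hθ) (B_ne_zero_symm (P := PW) (x := x w) (y := v) (by simp [c2]))
      (by linear_combination θ * d1 - d2)
  obtain ⟨φ₃, a6, a7⟩ := delta_eu hE hw c1
  refine fin _ (E.mul_mem a6 a1) _ (r1_mem_nilX h.nd h0 hw)
    (fun x => l * (PW.ε * PW.B w (x v) - PW.B v (x w))) (fun x hx => ?_) ⟨x, hx, mul_ne_zero hl0 c2⟩
  obtain ⟨p, hp⟩ := exists_repr_dual PW.σσ PW.B h.nd (l • PW.B w ∘ₗ x)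
  rw [Module.End.mul_apply, a7 _ p (-l • x w) (PW.eq_zero_symm (by simp [hp, hc x hx]))
    (by simp [hc x hx]) fun y => by simp [a2, hp, hc x hx]; module]
  congr 1
  simp [hp]
  ring

end W

variable {F U W V : Type*} [Field F] [AddCommGroup U] [Module F U] [AddCommGroup W]
  [Module F W] [AddCommGroup V] [Module F V] {σ : F →+* F} {T : TS F U W V} {PU : PQ F U σ}
  {PW : PQ F W σ} {P : PQ F V σ} {M : Subgroup (V ≃ₗ[F] V)}
  [FiniteDimensional F U] [FiniteDimensional F W]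

theorem TS.zlev_real [Finite F] {t : Module.End F U} (ht : t ∈ T.zlev PW M) {c : F} (hc : σ c = c) :
    c • t ∈ T.zlev PW M := by
  by_cases hne : σ = RingHom.id F
  swap
  · obtain ⟨a, rfl⟩ := exists_norm_eq hne PW.σσ hc
    exact zlev_norm ht a
  subst hne
  by_cases h2 : (2 : F) = 0
  · obtain ⟨a, rfl⟩ := exists_sq_eq_of_two_eq_zero h2 c
    exact pow_two a ▸ zlev_norm ht a
  convert (T.zlev PW M).sub_mem (zlev_norm ht ((c + 1) / 2)) (zlev_norm ht ((c - 1) / 2)) using 1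
  rw [← sub_smul]
  congr 1
  simp only [RingHom.id_apply]
  field_simp
  ring

theorem TS.span_zlev_conj {α : U ≃ₗ[F] U} (hα : α ∈ T.grpU M) (t : Module.End F U)
    (ht : t ∈ Submodule.span F (T.zlev PW M : Set (Module.End F U))) :
    cN α t ∈ Submodule.span F (T.zlev PW M : Set (Module.End F U)) :=
  (Submodule.span_le (p := (Submodule.span F (T.zlev PW M : Set (Module.End F U))).comap
    (cA α).toLinearMap)).2 (fun _ ht => Submodule.subset_span (zlev_conj hα ht)) ht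

theorem Cx.exists_nil [Finite F] (h : Cx T PU PW P M) {S : Submodule F (Module.End F U)}
    (hS : ∀ a ∈ S, ∀ b ∈ S, a * b = 0) {m m' : Module.End F U}
    (hm : m ∈ Submodule.span F (T.zlev PW M : Set (Module.End F U))) (h0 : m ≠ 0) (h1 : m ∈ S)
    (h2 : m' ∈ S) (h3 : ∀ x y, PU.B (m x) y = PU.B x (m' y)) :
    ∃ n ∈ T.zlev PW M, n ≠ 0 ∧ n ∈ S := by
  by_cases hne : σ = RingHom.id F
  · refine ⟨m, ?_, h0, h1⟩
    refine Submodule.span_induction (fun _ h => h) (zero_mem _) (fun _ _ _ _ => add_mem)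
      (fun c _ _ h => zlev_real h (by simp [hne])) hm
  obtain ⟨θ, hθ⟩ := exists_ne_of_ne_id hne
  have hθ' := sub_ne_zero.2 hθ
  obtain ⟨n₁, a1, n₂, a2, rfl⟩ : ∃ n₁ ∈ T.zlev PW M, ∃ n₂ ∈ T.zlev PW M, m = n₁ + θ • n₂ := by
    have key : ∀ c : F, ∃ a b, σ a = a ∧ σ b = b ∧ c = a + θ * b := fun c => by
      have : σ ((σ c - c) / (σ θ - θ)) = (σ c - c) / (σ θ - θ) := by
        rw [map_div₀, map_sub, map_sub, PW.σσ, PW.σσ, ← neg_div_neg_eq, neg_sub, neg_sub]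
      exact ⟨c - θ * ((σ c - c) / (σ θ - θ)), _, by
        rw [map_sub, map_mul, this]; field_simp; ring, this, by ring⟩
    refine Submodule.span_induction (fun n h => ⟨n, h, 0, zero_mem _, by simp⟩)
      ⟨0, zero_mem _, 0, zero_mem _, by simp⟩ ?_ ?_ hm
    · rintro _ _ - - ⟨a, a1, b, a2, rfl⟩ ⟨c, a3, d, a4, rfl⟩
      exact ⟨_, add_mem a1 a3, _, add_mem a2 a4, by module⟩
    · rintro c _ - ⟨a, a1, b, a2, rfl⟩
      obtain ⟨x, y, b1, b2, b3⟩ := key c
      obtain ⟨x', y', b4, b5, b6⟩ := key (c * θ)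
      exact ⟨_, add_mem (zlev_real a1 b1) (zlev_real a2 b4), _,
        add_mem (zlev_real a1 b2) (zlev_real a2 b5), by
          rw [smul_add, smul_smul, b6, b3]; module⟩
  have a3 : m' = -PW.ε • (n₁ + σ θ • n₂) := LinearMap.ext fun y => by
    rw [← sub_eq_zero]
    refine sep_right h.tf.ndU fun x => ?_
    simp [← h3, h.zlev_skew a1, h.zlev_skew a2]
    ring
  have a4 : n₂ ∈ S := (S.smul_mem_iff hθ').1 (by
    convert S.neg_mem (S.add_mem h1 (S.smul_mem PW.ε h2)) using 1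
    rw [a3, smul_smul, mul_neg, PW.εε]; module)
  by_cases e : n₂ = 0
  · exact ⟨n₁, a1, by simpa [e] using h0, by simpa [e] using h1⟩
  · exact ⟨n₂, a2, e, a4⟩

theorem Cx.algL_le (h : Cx T PU PW P M) {a : Module.End F U} (ha : a ∈ T.algL PW M) :
    a ∈ T.levF PW M := by simpa using ha 1 h.one_mem_levF

theorem TF.not_EG_le (h : TF T PU PW P) (wp : WP PW) (hk : 3 ≤ finrank F W)
    (ha : 2 ≤ finrank F U) : ¬ EG P ≤ T.TG := fun hc => by
  obtain ⟨w, h0, hw⟩ := wp.exists_sing (by omega)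
  obtain ⟨-, y, y', -, -, a3, -, a5, -, a7⟩ := exists_perp_pair wp.nd hk h0 hw
  have := (Module.finrank_pos_iff (R := F) (M := U)).1 (by omega)
  obtain ⟨u, hu⟩ := exists_ne (0 : U)
  obtain ⟨u', hu'⟩ := exists_notMem_span ha u
  obtain ⟨u₂, hu₂⟩ := exists_B_ne h.ndU (d := u') (by rintro rfl; simp at hu')
  obtain ⟨k, hk, e⟩ := has_eu_EG (h.singW u hw) (w := T.τ u₂ y) (by simp [h.B_τ, a3])
    (c := P.q (T.τ u₂ y)) (by simp)
  obtain ⟨α, β, e'⟩ := hc hk
  have hne := B_ne_zero_symm hu₂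
  refine T.not_pure (u := PU.B u₂ u' • u) (w := w) (u' := u') (w' := y') (smul_ne_zero hne hu) h0
    (by rwa [Submodule.span_singleton_smul_eq (Ne.isUnit hne)]) (fun e => ?_) (α u') (β y') ?_
  · obtain ⟨a, rfl⟩ := Submodule.mem_span_singleton.1 e
    simp [PW.eq_zero_symm a3] at a7
  · simp [← e', e, eu_apply, h.B_τ, a5, a7]

theorem Cx.same (h : Cx T PU PW P M) {T' : TS F U W V} {PU' : PQ F U σ} (h' : Cx T' PU' PW P M)
    (hR : T.Std PW M) (hR' : T'.Std PW M) (rd : RD (EG PW) (ptΦ PW) PW.Λ)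
    (ht : 4 ≤ finrank F W ∨ ∃ a, a ≠ 0 ∧ σ a * a ≠ 1)
    {w w' : W} (h0 : w ≠ 0) (hw : PW.q w ∈ PW.Λ) (e : T.col w = T'.col w') : T.Same T' := by
  by_cases hk : 4 ≤ finrank F W
  · exact h.same_big h' hR rd hk hR' h0 hw e
  · obtain ⟨a, a1, a2⟩ := ht.resolve_left hk
    exact h.same_small h' hR rd (by omega) a1 a2 h0 hw e

theorem TS.not_comm_of_lt {T T' : TS F U W V} [Nontrivial U] (hab : finrank F U < finrank F W) :
    ¬ T.Comm T' := fun h => by
  have := (Module.finrank_pos_iff (R := F) (M := W)).1 (by omega)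
  have h1 : LinearMap.range T'.inW.toLinearMap ≤ LinearMap.range T.inU.toLinearMap := by
    rintro _ ⟨y, rfl⟩
    exact (T.exists_inU fun x => (h x y).symm).imp fun _ => Eq.symm
  have := T.finite
  have h2 := Submodule.finrank_mono h1
  have h3 := LinearMap.finrank_range_le T.inU.toLinearMap
  rw [LinearMap.finrank_range_of_inj ((injective_iff_map_eq_zero _).2 fun _ => inW_eq_zero.1)] at h2
  simp only [Module.finrank_linearMap] at h2 h3
  nlinarith

/-- Two unitary factors of different dimensions. -/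
theorem TF.isMaximalIn_herm' [Finite F] (h : TF T PU PW P) (hne : σ ≠ RingHom.id F)
    (hε : PW.ε = 1) (wU : WP PU) (wW : WP PW) (ha : 2 ≤ finrank F U)
    (hab : finrank F U < finrank F W)
    (hex : 3 ≤ finrank F U ∨ ∃ c : F, σ c = c ∧ c ≠ 0 ∧ c ≠ 1) :
    Geo.IsMaximalIn (EG P) (T.TG ⊓ EG P) := by
  have := (Module.finrank_pos_iff (R := F) (M := U)).1 (by omega)
  have ht : 4 ≤ finrank F W ∨ ∃ c : F, σ c = c ∧ c ≠ 0 ∧ c ≠ 1 := hex.imp_left (by omega)
  have rd := wW.rd (by omega) (ht.imp_right fun e => ⟨Or.inl (by omega), e⟩)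
  refine isMaximalIn_of inf_le_right (fun hc => h.not_EG_le wW (by omega) ha (hc.trans inf_le_left))
    fun M h1 h2 ⟨g, hg, hg'⟩ => ?_
  by_contra hc
  have cx : Cx T PU PW P M := ⟨h, wW, fun β hβ => h1 (h.opW_mem hβ), h2.trans EG_le_isom,
    exists_ne 0, by omega, Or.inl (by omega)⟩
  have hU : EG PU ≤ T.grpU M := fun _ hα => mem_grpU.2 (h1 (h.opU_mem hα))
  have hG := (wU.good ha hex).mono hU
  have hR : T.Std PW M := cx.std_of_ne hne fun t ht' => by
    by_contra hs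
    push Not at hs
    refine hc (cx.EG_le_of_top (by omega) fun s => ?_)
    rcases ht with ht | ht
    · simpa using (hG _ invA_algF t (cx.zlev_le_algF ht ht') hs).ge (Algebra.mem_top (x := s)) 1
        cx.one_mem_levF
    obtain ⟨x₀, ⟨⟨a1, a2⟩, c, a3⟩, a4⟩ := (wU.xtr ha (Or.inr ⟨Or.inl hne, ht⟩)).mem
      (Z := Submodule.span F (T.zlev PW M : Set (Module.End F U))) (fun γ hγ => span_zlev_conj (hU hγ)) (Submodule.subset_span ht') hs
    obtain ⟨n, b1, b2, b3⟩ := cx.exists_nil (S := F ∙ x₀) (fun a ha b hb => by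
      obtain ⟨a, rfl⟩ := Submodule.mem_span_singleton.1 ha
      obtain ⟨b, rfl⟩ := Submodule.mem_span_singleton.1 hb
      simp [a2]) a4 a1 (Submodule.mem_span_singleton_self _)
      (Submodule.smul_mem _ c (Submodule.mem_span_singleton_self _)) a3
    have b4 : n * n = 0 := by
      obtain ⟨a, rfl⟩ := Submodule.mem_span_singleton.1 b3
      simp [a2]
    exact cx.algL_le ((hG _ invA_algL n (cx.nil_mem_algL b1 (LinearMap.congr_fun b4))
      (ne_smul_of_sq b2 b4)).ge Algebra.mem_top)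
  have fam : Fam (fun _ : Unit => T) M (EG PW) (ptΦ PW) PW.Λ := ⟨rd, fun _ _ e => (e rfl).elim,
    fun _ => cx.opW, by
      rintro g hg - - _ ⟨w, h0, hw, rfl⟩ w' e
      exact cx.same (cx.map hg) hR (hR.map hg) rd (ht.imp_right fun ⟨c, a1, a2, a3⟩ => by
        obtain ⟨a, rfl⟩ := exists_norm_eq hne PW.σσ a1
        exact ⟨a, right_ne_zero_of_mul a2, a3⟩) h0 hw e⟩
  obtain ⟨-, e⟩ := fam.perm (fun g _ _ e => not_comm_of_lt hab (e ())) (ht.elim
    (wW.van_u4 hne hε) fun ⟨c, a1, a2, a3⟩ => wW.van_u3 hne hε (by omega) a1 a2 a3) g hg ()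
  exact hg' ⟨same_map_iff.1 e, h2 hg⟩

end H11.Ten
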