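import Mathlib
import Cfsg.Agent.Base
import Cfsg.Agent.Lib.Forms.Classify
import Cfsg.Agent.Lib.Tensor.Odd

/-!
Overgroups of unitary tensor stabilisers.
-/

set_option autoImplicit false
set_option linter.unusedSectionVars false
set_option linter.unusedSimpArgs false

namespace H11.Ten

open Module Cfsg H97 H28 TS

section CW

open MvPolynomial

variable {F : Type*} [Field F] [Finite F] {σ : F →+* F}

/-- Chevalley–Warning over the fixed field of an involution. -/
theorem cw_fixed (hne : σ ≠ RingHom.id F) (hσ : ∀ a, σ (σ a) = a) {ι : Type*} [Fintype ι]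
    (f₁ f₂ : MvPolynomial ι F) (hd : f₁.totalDegree + f₂.totalDegree < Fintype.card ι)
    (h₁ : ∀ x : ι → F, (∀ i, σ (x i) = x i) → σ (eval x f₁) = eval x f₁)
    (h₂ : ∀ x : ι → F, (∀ i, σ (x i) = x i) → σ (eval x f₂) = eval x f₂)
    (z₁ : eval 0 f₁ = 0) (z₂ : eval 0 f₂ = 0) :
    ∃ x : ι → F, (∀ i, σ (x i) = x i) ∧ x ≠ 0 ∧ eval x f₁ = 0 ∧ eval x f₂ = 0 := by
  classical
  obtain ⟨c, hc⟩ := exists_trace_one hne hσ
  let K := σ.eqLocusField (RingHom.id F)
  have := Fintype.ofFinite K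
  let π : F → K := fun z => ⟨c * z + σ (c * z), by
    change σ _ = c * z + σ (c * z)
    rw [map_add, hσ, add_comm]⟩
  let T : MvPolynomial ι F → MvPolynomial ι K := fun f =>
    ∑ m ∈ f.support, monomial m (π (f.coeff m))
  have T1 : ∀ f, (T f).totalDegree ≤ f.totalDegree := fun f =>
    totalDegree_finsetSum_le fun m hm => (totalDegree_monomial_le _ _).trans (le_totalDegree hm)
  have T2 : ∀ (f : MvPolynomial ι F) (x : ι → K), σ (eval (fun i => (x i : F)) f) =
      eval (fun i => (x i : F)) f → ((eval x (T f) : K) : F) = eval (fun i => (x i : F)) f :=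
    fun f x h => by
    have hx : ∀ i, σ (x i) = x i := fun i => (x i).2
    have : ((eval x (T f) : K) : F) = c * eval (fun i => (x i : F)) f +
        σ (c * eval (fun i => (x i : F)) f) := by
      simp only [T, map_sum, eval_monomial, eval_eq' _ f, Finset.mul_sum, ← Finset.sum_add_distrib,
        Finsupp.prod_pow]
      push_cast
      refine Finset.sum_congr rfl fun m _ => ?_
      simp only [π, map_mul, map_prod, map_pow, hx]
      ring
    rw [this, map_mul, h, ← add_mul, hc, one_mul]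
  obtain ⟨p, hp⟩ := CharP.exists K
  have hpp : p.Prime := CharP.char_is_prime K p
  have h := char_dvd_card_solutions_of_add_lt p (f₁ := T f₁) (f₂ := T f₂)
    ((add_le_add (T1 _) (T1 _)).trans_lt hd)
  have e0 : (fun i => (((0 : ι → K) i : K) : F)) = 0 := by ext; simp
  have h0 : eval 0 (T f₁) = 0 ∧ eval 0 (T f₂) = 0 :=
    ⟨Subtype.ext (by rw [T2 _ _ (by rw [e0, z₁, map_zero]), e0, z₁]; rfl),
      Subtype.ext (by rw [T2 _ _ (by rw [e0, z₂, map_zero]), e0, z₂]; rfl)⟩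
  have h1 : 1 < Fintype.card {x : ι → K // eval x (T f₁) = 0 ∧ eval x (T f₂) = 0} :=
    hpp.one_lt.trans_le (Nat.le_of_dvd (Fintype.card_pos_iff.2 ⟨⟨0, h0⟩⟩) h)
  obtain ⟨⟨x, a1, a2⟩, hx⟩ := Fintype.exists_ne_of_one_lt_card h1 ⟨0, h0⟩
  refine ⟨fun i => x i, fun i => (x i).2, fun e => hx (Subtype.ext (funext fun i =>
    Subtype.ext (congrFun e i))), ?_, ?_⟩
  · rw [← T2 _ _ (h₁ _ fun i => (x i).2), a1]; rfl
  · rw [← T2 _ _ (h₂ _ fun i => (x i).2), a2]; rfl

theorem exists_herm_det (hne : σ ≠ RingHom.id F) (hσ : ∀ a, σ (σ a) = a) {ι : Type*} [Fintype ι]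
    {m : ℕ} (hm : 0 < m) (hd : m + 2 < Fintype.card ι) (G : ι → Matrix (Fin m) (Fin m) F)
    (hG : ∀ k i j, σ (G k i j) = G k j i) (b : ι → ι → F) (hb : ∀ k l, σ (b k l) = b l k) :
    ∃ x : ι → F, (∀ i, σ (x i) = x i) ∧ x ≠ 0 ∧ (∑ k, x k • G k).det = 0 ∧
      ∑ k, ∑ l, x k * x l * b k l = 0 := by
  classical
  let A : Matrix (Fin m) (Fin m) (MvPolynomial ι F) := fun i j => ∑ k, X k * C (G k i j)
  have A1 : ∀ x : ι → F, eval x A.det = (∑ k, x k • G k).det := fun x => by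
    rw [RingHom.map_det]
    congr 1
    ext i j
    change eval x (A i j) = _
    simp [A, Matrix.sum_apply]
  have A2 : A.det.totalDegree ≤ m := by
    rw [Matrix.det_apply]
    refine totalDegree_finsetSum_le fun s _ => (totalDegree_smul_le _ _).trans
      ((totalDegree_finsetProd _ _).trans ?_)
    refine (Finset.sum_le_card_nsmul _ _ 1 fun i _ => totalDegree_finsetSum_le fun k _ =>
      (totalDegree_mul _ _).trans (by simp)).trans (by simp)
  let q : MvPolynomial ι F := ∑ k, ∑ l, X k * X l * C (b k l)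
  have q1 : ∀ x : ι → F, eval x q = ∑ k, ∑ l, x k * x l * b k l := fun x => by simp [q]
  have q2 : q.totalDegree ≤ 2 := totalDegree_finsetSum_le fun k _ =>
    totalDegree_finsetSum_le fun l _ => (totalDegree_mul _ _).trans
      (by simpa using (totalDegree_mul (X k : MvPolynomial ι F) (X l)).trans (by simp))
  obtain ⟨x, a1, a2, a3, a4⟩ := cw_fixed hne hσ A.det q (by omega) (fun x hx => by
      rw [A1, RingHom.map_det, ← Matrix.det_transpose]
      congr 1
      ext i j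
      simp [Matrix.sum_apply, hx, hG])
    (fun x hx => by
      rw [q1]
      simp only [map_sum, map_mul, hx, hb]
      rw [Finset.sum_comm]
      exact Finset.sum_congr rfl fun k _ => Finset.sum_congr rfl fun l _ => by ring)
    (by
      have : Nonempty (Fin m) := ⟨⟨0, hm⟩⟩
      rw [A1]; simp) (by rw [q1]; simp)
  exact ⟨x, a1, a2, A1 x ▸ a3, q1 x ▸ a4⟩

end CW

section

variable {F V : Type*} [Field F] [AddCommGroup V] [Module F V] [FiniteDimensional F V]
  {H M : Subgroup (V ≃ₗ[F] V)} {𝒩 : Set (Module.End F V)} {g : V ≃ₗ[F] V} {N N₀ : Module.End F V}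

theorem IsMax.of_le (h : IsMax H M 𝒩 g N N₀) {g' : V ≃ₗ[F] V} (h1 : g' ∈ M) (h2 : g' ∉ H)
    {N' N₀' : Module.End F V} (h3 : N' ∈ 𝒩) (h4 : N₀' ∈ 𝒩)
    (h5 : finrank F ↥(LinearMap.range N ⊓ LinearMap.range (cN g N₀)) ≤
      finrank F ↥(LinearMap.range N' ⊓ LinearMap.range (cN g' N₀'))) : IsMax H M 𝒩 g' N' N₀' :=
  ⟨h1, h2, h3, h4, fun g a1 a2 N a3 N₀ a4 => (h.max g a1 a2 N a3 N₀ a4).trans h5⟩

end

variable {F U W V : Type*} [Field F] [AddCommGroup U] [Module F U] [AddCommGroup W]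
  [Module F W] [AddCommGroup V] [Module F V] {σ : F →+* F} {T : TS F U W V} {PU : PQ F U σ}
  {PW : PQ F W σ} {P : PQ F V σ} {M : Subgroup (V ≃ₗ[F] V)}
  [FiniteDimensional F U] [FiniteDimensional F W]

namespace Ctx

variable (h : Ctx T PU PW P M)
include h

theorem levF_scalar_of_ne (hne : σ ≠ RingHom.id F)
    (hA : ∀ a ∈ T.algF PW M, ∃ c : F, a = c • LinearMap.id)
    (s : Module.End F U) (hs : s ∈ T.levF PW M) : ∃ c : F, s = c • LinearMap.id := by
  obtain ⟨s', hs'⟩ := exists_adj h.tf.ndU s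
  obtain ⟨θ, hθ⟩ : ∃ θ, σ θ ≠ θ := by
    by_contra hc
    push Not at hc
    exact hne (RingHom.ext hc)
  obtain ⟨c, hc⟩ := hA _ (h.comm_mem_algF 1 hs h.one_mem_levF hs' (s₂' := 1) fun _ _ => rfl)
  obtain ⟨d, hd⟩ := hA _ (h.comm_mem_algF θ hs h.one_mem_levF hs' (s₂' := 1) fun _ _ => rfl)
  have h1 := mul_ne_zero PW.ε_ne_zero (sub_ne_zero.2 hθ)
  refine ⟨(PW.ε * (σ θ - θ))⁻¹ * (d - σ θ * c), LinearMap.ext fun x => ?_⟩
  have e1 := LinearMap.congr_fun hc x
  have e2 := LinearMap.congr_fun hd x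
  simp only [map_one, one_smul, mul_one, one_mul, LinearMap.sub_apply, LinearMap.smul_apply,
    LinearMap.id_apply, smul_mul_assoc] at e1 e2 ⊢
  rw [mul_smul, eq_inv_smul_iff₀ h1]
  linear_combination (norm := module) e2 - σ θ • e1

theorem le_TG_of_herm [Finite F] (h2 : (2 : F) = 0) (hne : σ ≠ RingHom.id F) (hε : PW.ε = 1)
    (hεU : PU.ε = 1) (hr : Roots P (T.TG ⊓ EG P) M (T.ptRoots PW))
    (hab : finrank F U + 6 ≤ 2 * finrank F W) : M ≤ T.TG := by
  classical
  have := T.finite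
  obtain ⟨θ, hθ⟩ : ∃ θ, σ θ ≠ θ := by
    by_contra hc
    push Not at hc
    exact hne (RingHom.ext hc)
  have hl : ∀ t, σ t = t → t * θ - σ (t * θ) ∈ PW.Λ := fun t ht => by
    simpa [hε] using PW.sub_mem (t * θ)
  have hl0 : 1 * θ - σ (1 * θ) ≠ 0 := by simpa [sub_eq_zero] using hθ.symm
  intro g₀ hg₀
  by_contra hc
  obtain ⟨g, N, N₀, hm⟩ := exists_isMax (H := T.TG ⊓ EG P)
    (h.ptRoots_nonempty ⟨_, hl 1 (map_one σ), hl0⟩) ⟨g₀, hg₀, fun e => hc e.1⟩
  obtain ⟨w, h0, hw, c, hc, hc0, e⟩ := hm.hN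
  have hX := h.tf.range_pt h0 hc0 e
  have hww := PW.self_eq_zero hw
  set Y := LinearMap.range (cN g N₀) with hY
  have hYY : ∀ y ∈ Y, ∀ y' ∈ Y, P.B y y' = 0 := by
    rintro _ ⟨y, rfl⟩ _ ⟨y', rfl⟩
    simp [hm.skew' hr, hm.sq_cN hr]
  have hN0 : ∀ x, N x = 0 ↔ T.cB PW w x = 0 := fun x => by
    simp [e, T.τ_eq_zero, h0, hc0, PW.ε_ne_zero]
  -- a complement of `D` in `Y`
  obtain ⟨C, hC⟩ := Submodule.exists_isCompl ((LinearMap.range N).comap Y.subtype)
  let b := Module.finBasis F C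
  let y : Fin (finrank F C) → V := fun i => ((b i : C) : Y)
  have hy : ∀ i, y i ∈ Y := fun i => ((b i : C) : Y).2
  have hm0 : 0 < finrank F C := by
    obtain ⟨z, z1, z2⟩ := hm.exists_notMem hr
    refine Nat.pos_of_ne_zero fun e => z2 ?_
    rw [Submodule.finrank_eq_zero.1 e] at hC
    exact (eq_top_of_isCompl_bot hC).ge (Submodule.mem_top (x := (⟨z, z1⟩ : Y)))
  have hm1 : finrank F C ≤ finrank F U := by
    rw [← T.finrank_col h0, ← hX, hr.rank N hm.hN N₀ hm.hN₀, ← LinearEquiv.finrank_map_eq g,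
      ← range_cN]
    exact C.finrank_le
  obtain ⟨w', -, hw'⟩ := exists_pair h.tf.ndW h0 hw
  let E := LinearMap.ker (PW.B w) ⊓ LinearMap.ker (PW.B w')
  have hE : finrank F W ≤ finrank F E + 2 := by
    have a2 := finrank_inf_ker (LinearMap.ker (PW.B w)) (PW.B w')
    have a3 := finrank_inf_ker ⊤ (PW.B w)
    rw [top_inf_eq, finrank_top] at a3
    simp only [E]; omega
  let bE := Module.finBasis F E
  let v : Option (Fin (finrank F E) × Bool) → W := fun k => match k with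
    | none => θ • w
    | some (i, true) => θ • (bE i : W)
    | some (i, false) => bE i
  have hv : ∀ k, PW.B w (v k) = 0 := by
    rintro (_ | ⟨i, _ | _⟩)
    · simp [v, hww]
    · exact (bE i).2.1
    · simp [v, show PW.B w (bE i) = 0 from (bE i).2.1]
  let n : W → Module.End F V := fun v => T.τ.flip w ∘ₗ T.cB PW v - T.τ.flip v ∘ₗ T.cB PW w
  have n0 : ∀ v x, n v x = T.τ (T.cB PW v x) w - T.τ (T.cB PW w x) v := fun _ _ => rfl
  have hεV : P.ε = 1 := by rw [h.tf.ε_eq, hε, hεU, mul_one]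
  have n1 : ∀ v x x', P.B x (n v x') = σ (P.B x' (n v x)) := fun v x x' => by
    have a1 : ∀ z z' : V, P.B z z' = σ (P.B z' z) := fun z z' => by rw [P.symm, hεV, one_mul]
    have a2 : ∀ z z' : U, σ (PU.B z z') = PU.B z' z := fun z z' => by rw [PU.symm z, hεU, one_mul]
    rw [← a1, a1 x, n0, n0]
    simp only [map_sub, LinearMap.sub_apply, h.tf.B_left, a2]
    linear_combination (PU.B (T.cB PW w x) (T.cB PW v x') -
      PU.B (T.cB PW v x) (T.cB PW w x')) * h2
  obtain ⟨x, x1, x2, x3, x4⟩ := exists_herm_det hne PW.σσ hm0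
    (ι := Option (Fin (finrank F E) × Bool)) (by simp; omega)
    (fun k => Matrix.of fun i j => P.B (y i) (n (v k) (y j)))
    (fun k i j => (n1 _ _ _).symm) (fun k l => PW.B (v k) (v l))
    fun k l => by rw [PW.symm (v k), hε, one_mul]
  set v₀ := ∑ k, x k • v k with hv₀
  have v1 : PW.B w v₀ = 0 := by simp [hv₀, hv]
  have v2 : PW.q v₀ ∈ PW.Λ := h.tf.maxW _ (by
    rw [← x4]
    simp only [hv₀, map_sum, LinearMap.sum_apply, map_smul, B_smul_left, smul_eq_mul, x1,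
      Finset.mul_sum]
    rw [Finset.sum_comm]
    exact Finset.sum_congr rfl fun k _ => Finset.sum_congr rfl fun l _ => by ring)
  obtain ⟨t, t0, t1⟩ := Matrix.exists_mulVec_eq_zero_iff.2 x3
  have n2 : n v₀ = ∑ k, x k • n (v k) := by
    ext z
    simp only [n0, hv₀, cB, map_sum, LinearMap.map_smulₛₗ, x1, LinearMap.sum_apply,
      LinearMap.smul_apply, RingHom.id_apply, smul_sub, Finset.sum_sub_distrib]
  have n3 : ∀ d ∈ LinearMap.range N, n v₀ d = 0 := by
    rw [hX]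
    rintro _ ⟨u, rfl⟩
    simp [n0, hww, PW.eq_zero_symm v1]
  set y₀ : C := ∑ j, t j • b j with hy₀
  have y1 : ((y₀ : Y) : V) ∉ LinearMap.range N := fun e => t0 (by
    have := (Submodule.disjoint_def.1 hC.disjoint) _ e y₀.2
    exact funext (Fintype.linearIndependent_iff.1 b.linearIndependent t (Subtype.ext this)))
  have y2 : cN g N₀ (n v₀ (y₀ : Y)) = 0 := (hm.mem_perp_iff' hr).1 fun z hz => by
    obtain ⟨d, hd, c', hc', e⟩ := Submodule.mem_sup.1
      (hC.sup_eq_top.ge (Submodule.mem_top (x := (⟨z, hz⟩ : Y))))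
    have e1 : z = d + ∑ i, b.repr ⟨c', hc'⟩ i • y i := by
      have := congrArg (fun z : C => ((z : Y) : V)) (b.sum_repr ⟨c', hc'⟩)
      simp only [Submodule.coe_sum, Submodule.coe_smul] at this
      rw [this]
      exact (congrArg Subtype.val e).symm
    have e2 : ∀ i, P.B (y i) (n v₀ (y₀ : Y)) = 0 := fun i => by
      have := congrFun t1 i
      simp only [Matrix.mulVec, dotProduct, Matrix.sum_apply, Matrix.smul_apply, Matrix.of_apply,
        smul_eq_mul, Pi.zero_apply] at this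
      rw [← this, n2, hy₀]
      simp only [Submodule.coe_sum, Submodule.coe_smul, map_sum, map_smul, LinearMap.sum_apply,
        LinearMap.smul_apply, smul_eq_mul, y]
      exact Finset.sum_congr rfl fun k _ => mul_comm _ _
    rw [e1, map_add, LinearMap.add_apply, n1, n3 (d : V) hd]
    simp [e2]
  obtain ⟨k, hk, ek⟩ := (h.tf.has_op_eu hw v1 (c := 0) (by simpa using v2)).mono h.hM
  replace ek : ∀ z, k z = z + n v₀ z := fun z => by simp [ek, op_eu, n0, hε, add_sub_assoc]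
  have k1 := M.mul_mem (M.mul_mem (M.inv_mem hm.mem) hk) hm.mem
  have k2 : ∀ d ∈ LinearMap.range N, d ∈ Y → k d ∈ Y := fun d a1 a2 => by simp [ek, n3 d a1, a2]
  have k3 : cN g N₀ (k (y₀ : Y)) = 0 := by
    obtain ⟨z, hz⟩ := (y₀ : Y).2
    rw [ek, map_add, y2, ← hz, hm.sq_cN hr, add_zero]
  by_cases hH : g⁻¹ * k * g ∈ T.TG ⊓ EG P
  swap
  · have a1 := hm.of_le k1 hH hm.hN₀ hm.hN₀ (by
      rw [← LinearEquiv.finrank_map_eq g⁻¹]
      refine Submodule.finrank_mono ?_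
      rintro _ ⟨d, ⟨a1, a2⟩, rfl⟩
      refine ⟨mem_range_cN.1 a2, mem_range_cN.2 ?_⟩
      have : k⁻¹ d = d := by rw [le_inv_apply, LinearEquiv.symm_apply_eq, ek, n3 d a1, add_zero]
      rw [mul_inv_rev, mul_inv_rev, inv_inv, le_mul_apply, le_mul_apply]
      change g⁻¹ (k⁻¹ (g (g⁻¹ d))) ∈ _
      rw [le_apply_inv, this]
      exact mem_range_cN.1 a2)
    refine y1 (hm.mem_of hk hH k2 (y₀ : Y).2 (mem_range_cN.2 (a1.mem_self hr
      (mem_range_cN.2 ?_) ?_)))
    · simpa using mem_range_cN.1 (y₀ : Y).2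
    · rw [show N₀ (g⁻¹ (k (y₀ : Y))) = 0 by simpa [cN_apply] using k3]
      exact Submodule.zero_mem _
  by_cases hv₀w : v₀ ∈ F ∙ w
  · have a1 : v₀ = (x none * θ) • w + ((∑ i, (x (some (i, false)) + x (some (i, true)) * θ) • bE i :
        E) : W) := by
      rw [hv₀, Fintype.sum_option, Fintype.sum_prod_type, Submodule.coe_sum, mul_smul]
      congr 1
      refine Finset.sum_congr rfl fun i _ => ?_
      rw [Fintype.sum_bool, add_comm, Submodule.coe_smul, add_smul, mul_smul]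
    obtain ⟨a, ha⟩ := Submodule.mem_span_singleton.1 hv₀w
    set z : E := ∑ i, (x (some (i, false)) + x (some (i, true)) * θ) • bE i with hz
    have a2 : z = 0 := by
      have a3 := congrArg (PW.B w') (ha.trans a1)
      have a4 : PW.B w' w = 1 := by rw [PW.symm, hw', hε]; simp
      simp only [map_add, map_smul, a4, show PW.B w' z = 0 from z.2.2, smul_eq_mul] at a3
      rw [show a = x none * θ by linear_combination a3, a1] at ha
      exact Subtype.ext (by simpa using ha)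
    have a3 := Fintype.linearIndependent_iff.1 bE.linearIndependent _ (hz ▸ a2)
    have a4 : x none ≠ 0 := fun e => x2 (funext fun k => by
      have a5 : ∀ i, x (some (i, true)) = 0 := fun i => by
        have := congrArg σ (a3 i)
        rw [map_add, map_mul, x1, x1, map_zero] at this
        exact (mul_eq_zero.1 (show x (some (i, true)) * (σ θ - θ) = 0 by
          linear_combination this - a3 i)).resolve_right (sub_ne_zero.2 hθ)
      rcases k with _ | ⟨i, _ | _⟩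
      · exact e
      · simpa [a5 i] using a3 i
      · exact a5 i)
    refine hm.symm.notMem (hr.p2 _ hm.symm.mem _ (ptRoots_mem h0 hw (hl _ (x1 none)) ?_)
      ⟨_, hH, fun z => ?_⟩)
    · rw [map_mul, x1, ← mul_sub]
      exact mul_ne_zero a4 (sub_ne_zero.2 hθ.symm)
    · simp only [le_mul_apply, ek, map_add, le_inv_apply_apply, cN_apply, inv_inv, n0, a1, a2,
        nS_apply, hε, ZeroMemClass.coe_zero, add_zero, cB_smul, cB, map_smul, LinearMap.smul_apply,
        LinearMap.id_apply, LinearMap.map_smulₛₗ, RingHom.id_apply, map_sub]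
      module
  obtain ⟨α, β, e'⟩ := hH.1
  obtain ⟨w₁, h₁, hw₁, c₁, hc₁, hc₁0, e₁⟩ := hm.hN₀
  have hX₁ := h.tf.range_pt h₁ hc₁0 e₁
  obtain ⟨u, hu⟩ : g⁻¹ (y₀ : Y) ∈ T.col w₁ := hX₁ ▸ mem_range_cN.1 (y₀ : Y).2
  replace hu : T.τ u w₁ = g⁻¹ (y₀ : Y) := hu
  have hu0 : u ≠ 0 := by
    rintro rfl
    exact y1 (by rw [← le_apply_inv g (y₀ : Y), ← hu]; simp)
  have b1 : PW.B w₁ (β w₁) = 0 := by
    have := e' u w₁
    rw [hu, le_mul_apply, le_mul_apply, le_apply_inv] at this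
    rw [cN_apply, this, e₁] at k3
    simpa [T.τ_eq_zero, h₁, hc₁0, hε, hu0] using k3
  have b2 : ∀ u, k (g (T.τ u w₁)) = g (T.τ (α u) (β w₁)) := fun u => by
    rw [← e', le_mul_apply, le_mul_apply, le_apply_inv]
  have b3 : ∀ z, N (n v₀ z) = 0 := fun z => (hN0 _).2 (by simp [n0, hww, v1])
  by_cases hβ : β w₁ ∈ F ∙ w₁
  · obtain ⟨a, ha⟩ := Submodule.mem_span_singleton.1 hβ
    have a1 : k (y₀ : Y) ∈ Y := by
      rw [← le_apply_inv g (y₀ : Y), ← hu, b2, ← ha]
      exact mem_range_cN.2 (hX₁ ▸ ⟨a • α u, by simp⟩)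
    have a2 : n v₀ (y₀ : Y) ∈ Y := by simpa [ek] using Y.sub_mem a1 (y₀ : Y).2
    obtain ⟨u', hu'⟩ := hX ▸ hm.mem_self hr a2 (by simp [b3])
    obtain ⟨φ, a3, a4⟩ := exists_dual_of_notMem_span hv₀w 1
    have a5 := congrArg (T.cW φ) hu'
    simp only [LinearMap.flip_apply, cW_τ, a3, a4, n0, map_sub, zero_smul, one_smul, zero_sub,
      zero_eq_neg] at a5
    exact y1 (hm.mem_self hr (y₀ : Y).2 (by simp [(hN0 _).2 a5]))
  have hD : LinearMap.range N ⊓ Y = ⊥ := eq_bot_iff.2 fun d hd => by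
    obtain ⟨a, ha⟩ : g⁻¹ d ∈ T.col w₁ := hX₁ ▸ mem_range_cN.1 hd.2
    replace ha : T.τ a w₁ = g⁻¹ d := ha
    have a1 := b2 a
    rw [ha, le_apply_inv, ek, n3 d hd.1, add_zero, ← le_apply_inv g d, ← ha] at a1
    obtain ⟨φ, a3, a4⟩ := exists_dual_of_notMem_span hβ 1
    have a5 := congrArg (T.cW φ) (g.injective a1)
    simp only [cW_τ, a3, a4, zero_smul, one_smul] at a5
    rw [← le_apply_inv g d, ← ha, show a = 0 by simpa using a5.symm]
    simp
  obtain ⟨u₁, μ, hu₁, hμ⟩ : ∃ (u₁ : U) (μ : F), u₁ ≠ 0 ∧ α u₁ = μ • u₁ := by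
    have a1 : ∀ z, k (k z) = z := fun z => by
      have : n v₀ (n v₀ z) = 0 := by
        simp [n0, hww, v1, PW.eq_zero_symm v1, PW.self_eq_zero v2]
      rw [ek, ek, map_add, this, add_zero, add_assoc, ← two_smul F, h2, zero_smul, add_zero]
    obtain ⟨φ, hφ⟩ := exists_dual_of_ne_zero (F := F) h₁ 1
    have a2 : ∀ u, φ (β (β w₁)) • α (α u) = u := fun u => by
      have := e' (α u) (β w₁)
      rw [← e', le_mul_apply, le_mul_apply, le_mul_apply, le_mul_apply, le_apply_inv, a1,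
        le_inv_apply_apply] at this
      simpa [hφ] using (congrArg (T.cW φ) this).symm
    obtain ⟨s, hs⟩ := exists_sq_eq_of_two_eq_zero h2 (φ (β (β w₁)))
    have hs0 : s ≠ 0 := by
      rintro rfl
      exact hu0 (by rw [← a2 u, ← hs]; simp)
    by_cases a3 : s • α u - u = 0
    · exact ⟨u, s⁻¹, hu0, by rw [eq_inv_smul_iff₀ hs0]; exact sub_eq_zero.1 a3⟩
    · refine ⟨_, s⁻¹, a3, ?_⟩
      rw [eq_inv_smul_iff₀ hs0, map_sub, map_smul, smul_sub, smul_smul, ← pow_two, hs, a2]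
      linear_combination (norm := module) h2 • (u - s • α u)
  have c1 : μ • β w₁ - w₁ ≠ 0 := fun e => hβ (by
    have hμ0 : μ ≠ 0 := by rintro rfl; exact h₁ (by simpa using e)
    exact Submodule.mem_span_singleton.2 ⟨μ⁻¹, by
      rw [eq_comm, eq_inv_smul_iff₀ hμ0]; exact sub_eq_zero.1 e⟩)
  have c2 : PW.q (μ • β w₁ - w₁) ∈ PW.Λ := h.tf.maxW _ (by
    have : PW.q (β w₁) ∈ PW.Λ := h.tf.sing_of_col h.nontriv fun a a' => by
      rw [← α.apply_symm_apply a, ← α.apply_symm_apply a', ← e', ← e', B_isom (h.isom k1),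
        h.tf.B_τ, PW.self_eq_zero hw₁, mul_zero]
    simp [b1, PW.eq_zero_symm b1, PW.self_eq_zero hw₁, PW.self_eq_zero this])
  have c3 := hm.of_le hm.mem hm.notMem hm.hN (ptRoots_mem c1 c2 hc hc0) (by rw [hD]; simp)
  have c4 : g (T.τ u₁ (μ • β w₁ - w₁)) = n v₀ (g (T.τ u₁ w₁)) := by
    have := b2 u₁
    rw [ek, hμ] at this
    simp only [map_sub, map_smul, LinearMap.smul_apply] at this ⊢
    rw [← this, add_sub_cancel_left]
  have c5 : g (T.τ u₁ (μ • β w₁ - w₁)) ∈ LinearMap.range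
      (cN g (T.nS (-(PW.ε * c) • LinearMap.id) (μ • β w₁ - w₁) (PW.B (μ • β w₁ - w₁)))) := by
    rw [mem_range_cN, le_inv_apply_apply, h.tf.range_pt c1 hc0 fun _ => rfl]
    exact T.τ_mem_col _ _
  have c6 := hm.max g hm.mem hm.notMem N hm.hN _ (ptRoots_mem c1 c2 hc hc0)
  rw [hD, finrank_bot, Nat.le_zero, Submodule.finrank_eq_zero] at c6
  have c7 := c6.le ⟨c3.mem_self hr c5 (by rw [c4, b3]; exact Submodule.zero_mem _), c5⟩
  rw [Submodule.mem_bot, g.map_eq_zero_iff, T.τ_eq_zero] at c7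
  exact c7.elim hu₁ c1

end Ctx

/-- Two unitary factors. -/
theorem TF.isMaximalIn_herm [Finite F] (h : TF T PU PW P) (hne : σ ≠ RingHom.id F)
    (hεU : PU.ε = 1) (hεW : PW.ε = 1) (hKU : IsoK PU 2) (hKW : IsoK PW 2) (hE : Extr PW)
    (ha : 2 ≤ finrank F U) (hab : finrank F U < finrank F W) (hb : 4 ≤ finrank F W)
    (hex : 3 ≤ finrank F U ∨ ∃ c : F, σ c = c ∧ c ≠ 0 ∧ c ≠ 1)
    (h2 : (2 : F) ≠ 0 ∨ finrank F U + 6 ≤ 2 * finrank F W) :
    Geo.IsMaximalIn (EG P) (T.TG ⊓ EG P) := by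
  obtain ⟨θ, hθ⟩ : ∃ θ, σ θ ≠ θ := by
    by_contra hc
    push Not at hc
    exact hne (RingHom.ext hc)
  have hl0 : θ - σ θ ≠ 0 := sub_ne_zero.2 hθ.symm
  refine h.isMaximalIn ⟨2, hKW, hb⟩ (by omega) hE ha fun M hM hne' => ?_
  have hG : Good (T.grpU M) := good_of_lambda hM.EG_le_grpU h.ndU h.maxU
    (by simpa using hKU ⊤ (by rwa [finrank_top])) (l := θ - σ θ)
    (by simpa [hεU] using PU.sub_mem θ) hl0
    (hex.imp_right fun ⟨c, h1, h2, h3⟩ => ⟨c * (θ - σ θ),
      by simpa [hεU, h1, mul_sub] using PU.sub_mem (c * θ), mul_ne_zero h2 hl0,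
      fun e => h3 (mul_right_cancel₀ hl0 (e.trans (one_mul _).symm))⟩) (Or.inl hne)
  have hr := hM.roots_pt_of_lt (hM.levF_scalar_of_ne hne fun a => hM.algF_scalar hG hne') hab
  by_cases h2' : (2 : F) = 0
  · exact hM.le_TG_of_herm h2' hne hεW hεU hr (h2.resolve_left (by simpa using h2'))
  · exact hM.le_TG_of_odd h2' hr ⟨_, by simpa [hεW] using PW.sub_mem θ, hl0⟩

end H11.Ten
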