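import Mathlib
import Cfsg.Agent.Base
import Cfsg.Agent.Lib.Tensor.FormIdent
import Cfsg.Agent.Lib.Tensor.Herm

/-!
Unitary tensor stabilisers in matrix form.
-/

set_option autoImplicit false
set_option linter.unusedSectionVars false

namespace H11.Ten

open Module Cfsg H97 H28 H11.U
open scoped Matrix MatrixGroups Kronecker

variable {F : Type*} [Field F] [Fintype F] {q : ℕ} [IsSq F q] {ι : Type} [Fintype ι]
  [DecidableEq ι] {n n₁ n₂ : ℕ}

/-- The sesquilinear map of a unitary form. -/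
def sesOf {f : (ι → F) → (ι → F) → F} (hf : Geo.IsUnitaryFormPow q f) :
    (ι → F) →ₛₗ[(cj q : F →+* F)] (ι → F) →ₗ[F] F :=
  LinearMap.mk₂'ₛₗ (cj q : F →+* F) (RingHom.id F) (fun x y => f y x)
    (fun x x' y => by
      rw [hf.herm y, hf.herm y x, hf.herm y x', hf.add_left]
      exact map_add (cj q) _ _)
    (fun c x y => by
      rw [hf.herm y, hf.herm y x, hf.smul_left, mul_pow]
      rfl)
    (fun x y y' => hf.add_left _ _ _) fun c x y => hf.smul_left _ _ _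

theorem sesOf_apply {f : (ι → F) → (ι → F) → F} (hf : Geo.IsUnitaryFormPow q f) (x y : ι → F) :
    sesOf hf x y = f y x := rfl

theorem sesOf_herm {f : (ι → F) → (ι → F) → F} (hf : Geo.IsUnitaryFormPow q f) (x y : ι → F) :
    cj q (sesOf hf x y) = sesOf hf y x := (hf.herm x y).symm

theorem sesOf_sep {f : (ι → F) → (ι → F) → F} (hf : Geo.IsUnitaryFormPow q f) :
    (sesOf hf).SeparatingLeft :=
  sep_of_nondeg fun v hv => (hf.nondegenerate v hv).symm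

/-- The unitary data of a hermitian form. -/
noncomputable abbrev hP {U : Type*} [AddCommGroup U] [Module F U]
    (B : U →ₛₗ[(cj q : F →+* F)] U →ₗ[F] F)
    (h : ∀ x y, cj q (B x y) = B y x) : PQ F U (cj q) :=
  PQ.ofHerm cj_cj (exists_trace_one cj_ne_id cj_cj).choose
    (exists_trace_one cj_ne_id cj_cj).choose_spec B h

theorem exists_tf_herm (h1 : 0 < n₁) (h2 : 0 < n₂) {e : Fin n ≃ Fin n₁ × Fin n₂} {P : GL (Fin n) F}
    {f₁ : (Fin n₁ → F) → (Fin n₁ → F) → F} {f₂ : (Fin n₂ → F) → (Fin n₂ → F) → F}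
    (hf₁ : Geo.IsUnitaryFormPow q f₁) (hf₂ : Geo.IsUnitaryFormPow q f₂)
    (hT : Geo.IsTensorFormStructure (fun x : F => x ^ q) (hermForm n F q) f₁ f₂ e P) :
    ∃ B₁ h₁ B₂ h₂, TF (tsOf e P) (hP (q := q) B₁ h₁) (hP B₂ h₂) (uP n F q) := by
  obtain ⟨c, hc, h⟩ := tensor_pure (σ := cj q) hT (sesOf hf₁) (fun _ _ => rfl) (sesOf hf₂)
    fun _ _ => rfl
  have hc' : cj q c = c := by
    have : Nonempty (Fin n₁) := ⟨⟨0, h1⟩⟩
    have : Nonempty (Fin n₂) := ⟨⟨0, h2⟩⟩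
    obtain ⟨u, hu⟩ := exists_ne (0 : Fin n₁ → F)
    obtain ⟨w, hw⟩ := exists_ne (0 : Fin n₂ → F)
    obtain ⟨u', hu'⟩ := (hf₁.nondegenerate u hu).1
    obtain ⟨w', hw'⟩ := (hf₂.nondegenerate w hw).1
    have a1 := cj_form (n := n) (q := q) ((tsOf e P).τ u w) ((tsOf e P).τ u' w')
    rw [h, h, map_mul, map_mul, show cj q (f₁ u u') = f₁ u' u from (hf₁.herm _ _).symm,
      show cj q (f₂ w w') = f₂ w' w from (hf₂.herm _ _).symm] at a1
    exact mul_right_cancel₀ hu' (mul_right_cancel₀ hw' a1)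
  exact ⟨c • sesOf hf₁, fun x y => by simp [hc', sesOf_herm], sesOf hf₂, sesOf_herm hf₂,
    tf_herm (sep_smul (sesOf_sep hf₁) hc) (sesOf_sep hf₂) uP_nd fun u w u' w' => h _ _ _ _⟩

theorem isMaximalIn_tensor_herm (h1 : 2 ≤ n₁) (h12 : n₁ < n₂) (h5 : 5 ≤ n₂)
    (hex : ¬ (n₁ = 2 ∧ q = 2)) (e : Fin n ≃ Fin n₁ × Fin n₂) (P : GL (Fin n) F)
    {f₁ : (Fin n₁ → F) → (Fin n₁ → F) → F} {f₂ : (Fin n₂ → F) → (Fin n₂ → F) → F}
    (hf₁ : Geo.IsUnitaryFormPow q f₁) (hf₂ : Geo.IsUnitaryFormPow q f₂)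
    (hT : Geo.IsTensorFormStructure (fun x : F => x ^ q) (hermForm n F q) f₁ f₂ e P) :
    Geo.IsMaximalIn (GU n F q ⊓ Geo.specialLinear (Fin n) F)
      (Geo.tensorProductSubgroup n₁ n₂ e P ⊓ (GU n F q ⊓ Geo.specialLinear (Fin n) F)) := by
  obtain ⟨B₁, h₁, B₂, h₂, h⟩ := exists_tf_herm (by omega) (by omega) hf₁ hf₂ hT
  have hn : n = n₁ * n₂ := by simpa using card_of_equiv e
  rw [SU_eq (by nlinarith), tensorProductSubgroup_eq, ← pull_inf]
  refine isMaximalIn_pull (h.isMaximalIn_herm cj_ne_id rfl rfl (isoK_herm cj_ne_id)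
    (isoK_herm cj_ne_id) (extr_of_five h.ndW (by simpa using h5)) (by simpa using h1)
    (by simpa using h12) (by simp; omega) ?_ (Or.inr (by simp; omega)))
  by_cases hq : q = 2
  · left
    have : n₁ ≠ 2 := fun e => hex ⟨e, hq⟩
    simp; omega
  · exact Or.inr (exists_fixed_ne hq 1)

end H11.Ten
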