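import Mathlib
import Cfsg.Agent.Base
import Cfsg.Agent.Lib.Tensor.OO1
import Cfsg.Agent.Lib.ExtFld.Form

/-!
Tensor products of orthogonal spaces with a factor of Witt index one, part 2: an overgroup of the
tensor stabiliser meets the unipotent radical of a column stabiliser in the obvious subgroup.
-/

set_option autoImplicit false
set_option linter.unusedSectionVars false

namespace H21.TO

open Module Cfsg H97 H28 H11.Ten

section Skew

variable {F U : Type*} [Field F] [AddCommGroup U] [Module F U] {P : PQ F U (RingHom.id F)}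
  [FiniteDimensional F U] (h : IsOrth P) (h3 : finrank F U = 3)
include h h3

theorem Skew.dec {u f x : U} (hu : P.B u u = 0) (hf : P.B f f = 0) (huf : P.B u f = 1)
    (hux : P.B u x = 0) (hfx : P.B f x = 0) (hx : P.B x x ≠ 0) {t : Module.End F U}
    (ht : Skew P t) : t = (P.B f (t x) / P.B x x) • wd P u x + (P.B u (t x) / P.B x x) • wd P f x +
      P.B f (t u) • wd P u f := by
  have e := expand h h3 hu hf huf hux hfx hx
  have a : ∀ y z, P.B y (t z) = -P.B z (t y) := fun y z => by rw [h.symm z, ht, neg_neg]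
  ext y
  conv_lhs => rw [e y, map_add, map_add, map_smul, map_smul, map_smul, e (t u), e (t f), e (t x)]
  simp only [ht.self h, a x u, a x f, a u f, LinearMap.add_apply, LinearMap.smul_apply, wd_apply]
  match_scalars <;> field_simp <;> ring

theorem skew_mem [Finite F] {Z : AddSubgroup (Module.End F U)}
    (hZ : ∀ γ ∈ EG P, ∀ t ∈ Z, ((γ : U →ₗ[F] U) ∘ₗ t ∘ₗ ((γ⁻¹ : U ≃ₗ[F] U) : U →ₗ[F] U)) ∈ Z)
    {t : Module.End F U} (ht : t ∈ Z) (hs : Skew P t) (h0 : t ≠ 0) {s : Module.End F U}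
    (hs' : Skew P s) : s ∈ Z := by
  have h2 := h.two
  have cj : ∀ u f x : U, P.B u u = 0 → P.B u f = 1 → P.B u x = 0 → P.B f x = 0 → ∀ a b e c : F,
      a • wd P u x + b • wd P f x + e • wd P u f ∈ Z →
      (c ^ 2 * b * P.B x x / 2 - c * e) • wd P u x - (c * b * P.B x x) • wd P u f ∈ Z := by
    intro u f x hu huf hux hfx a b e c hm
    obtain ⟨γ, hγ, eγ⟩ := has_ex h hu hux c
    convert Z.sub_mem (hZ γ hγ _ hm) hm using 1
    ext y
    simp only [LinearMap.sub_apply, LinearMap.smul_apply, LinearMap.add_apply, wd_apply,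
      LinearMap.comp_apply, LinearEquiv.coe_coe, map_add, map_smul, map_sub,
      B_isom_inv' (EG_le_isom hγ), eγ, ex_apply, hu, huf, hux, h.symm x u, h.symm x f, hfx,
      smul_eq_mul, RingHom.id_apply]
    match_scalars <;> field_simp <;> ring
  have key : ∀ u f x : U, P.B u u = 0 → P.B u f = 1 → P.B u x = 0 → P.B f x = 0 → P.B x x ≠ 0 →
      ∀ a b e : F, a • wd P u x + b • wd P f x + e • wd P u f ∈ Z → b ≠ 0 ∨ e ≠ 0 →
      ∀ c : F, c • wd P u x ∈ Z := by
    intro u f x hu huf hux hfx hx a b e hm hbe c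
    have k := fun c => cj u f x hu huf hux hfx a b e c hm
    by_cases hb : b = 0
    · have he := hbe.resolve_left (not_not.2 hb)
      convert k (-c / e) using 1
      simp [hb, he]
    · convert Z.sub_mem (Z.sub_mem (k (1 + c / (b * P.B x x))) (k 1)) (k (c / (b * P.B x x))) using 1
      match_scalars <;> field_simp <;> ring
  obtain ⟨u, hu0, hu⟩ := exists_sing h h3.ge
  obtain ⟨f, hf, huf⟩ := partner h hu0 hu
  obtain ⟨x, hux, hfx, hx⟩ := exists_x h h3.ge hu hf huf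
  have hfu := (h.symm f u).trans huf
  have e1 : (∀ c : F, c • wd P u x ∈ Z) ∧ ∀ c : F, c • wd P f x ∈ Z := by
    by_cases e : P.B f (t x) = 0
    · have a1 := key u f x hu huf hux hfx hx _ _ _ (hs.dec h h3 hu hf huf hux hfx hx ▸ ht) (by
        by_contra hc
        push Not at hc
        exact h0 (by rw [hs.dec h h3 hu hf huf hux hfx hx, hc.1, hc.2, e]; simp))
      exact ⟨a1, key f u x hf hfu hfx hux hx 0 1 0 (by simpa using a1 1) (Or.inl one_ne_zero)⟩
    · have a1 := key f u x hf hfu hfx hux hx _ _ _ (hs.dec h h3 hf hu hfu hfx hux hx ▸ ht)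
        (Or.inl (div_ne_zero e hx))
      exact ⟨key u f x hu huf hux hfx hx 0 1 0 (by simpa using a1 1) (Or.inl one_ne_zero), a1⟩
  rw [hs'.dec h h3 hu hf huf hux hfx hx]
  refine Z.add_mem (Z.add_mem (e1.1 _) (e1.2 _)) ?_
  convert Z.sub_mem (e1.1 (P.B f (s u) / 2)) (cj u f x hu huf hux hfx 0 (P.B f (s u) / P.B x x) 0 1
    (by simpa using e1.2 _)) using 1
  match_scalars <;> field_simp <;> ring

end Skew

variable {F U W V : Type*} [Field F] [AddCommGroup U] [Module F U] [AddCommGroup W]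
  [Module F W] [AddCommGroup V] [Module F V]

/-- `a ↦ a ⊗ 1`. -/
noncomputable def opL (T : TS F U W V) : Module.End F U →ₐ[F] Module.End F V :=
  AlgHom.ofLinearMap ⟨⟨fun a => T.op a LinearMap.id, fun _ _ => T.lext fun _ _ => by simp⟩,
    fun _ _ => T.lext fun _ _ => by simp⟩ (T.lext fun _ _ => by simp)
    fun _ _ => T.lext fun _ _ => by simp

/-- `b ↦ 1 ⊗ b`. -/
noncomputable def opR (T : TS F U W V) : Module.End F W →ₐ[F] Module.End F V := opL T.flip

@[simp] theorem opL_τ (T : TS F U W V) (a : Module.End F U) (u : U) (w : W) :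
    opL T a (T.τ u w) = T.τ (a u) w := T.op_τ _ _ u w

@[simp] theorem opR_τ (T : TS F U W V) (b : Module.End F W) (u : U) (w : W) :
    opR T b (T.τ u w) = T.τ u (b w) := opL_τ T.flip b w u

theorem opE_left (T : TS F U W V) {α : U ≃ₗ[F] U} {a : Module.End F U} (e : ∀ u, α u = a u) (x : V) :
    T.opE α 1 x = opL T a x :=
  LinearMap.congr_fun (T.lext (f := (T.opE α 1 : V →ₗ[F] V)) fun u w => by simp [e]) x

theorem opE_right (T : TS F U W V) {β : W ≃ₗ[F] W} {b : Module.End F W} (e : ∀ u, β u = b u) (x : V) :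
    T.opE 1 β x = opR T b x :=
  LinearMap.congr_fun (T.lext (f := (T.opE 1 β : V →ₗ[F] V)) fun u w => by simp [e]) x

variable [FiniteDimensional F U] [FiniteDimensional F W] [Finite F]

/-- The standing hypotheses. -/
structure St (T : TS F U W V) (PU : PQ F U (RingHom.id F)) (PW : PQ F W (RingHom.id F))
    (P : PQ F V (RingHom.id F)) (M : Subgroup (V ≃ₗ[F] V)) : Prop where
  tf : TF T PU PW P
  oU : IsOrth PU
  oW : IsOrth PW
  oV : IsOrth P
  dU : finrank F U = 3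
  dW : 3 ≤ finrank F W
  idx : Idx1 PW
  mu : ∃ μ : F, μ ≠ 0 ∧ μ ^ 2 ≠ 1
  le : T.TG ⊓ EG P ≤ M
  le' : M ≤ EG P
  ne : ¬ EG P ≤ M

namespace St

variable {T : TS F U W V} {PU : PQ F U (RingHom.id F)} {PW : PQ F W (RingHom.id F)}
  {P : PQ F V (RingHom.id F)} {M : Subgroup (V ≃ₗ[F] V)} (h : St T PU PW P M)
include h

theorem isom {g : V ≃ₗ[F] V} (hg : g ∈ M) : g ∈ P.Isom := EG_le_isom (h.le' hg)

theorem hasL {u x : U} (hu : PU.B u u = 0) (hx : PU.B u x = 0) (c : F) :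
    Has (T.TG ⊓ M) fun y => ex (opL T (wd PU u x)) c y := by
  obtain ⟨α, hα, e⟩ := has_ex h.oU hu hx c
  exact ⟨_, ⟨T.opE_mem α 1, h.le (h.tf.opU_mem hα)⟩, fun y => by rw [opE_left T e, map_ex]⟩

theorem hasR {w v : W} (hw : PW.B w w = 0) (hv : PW.B w v = 0) (c : F) :
    Has (T.TG ⊓ M) fun y => ex (opR T (wd PW w v)) c y := by
  obtain ⟨β, hβ, e⟩ := has_ex h.oW hw hv c
  exact ⟨_, ⟨T.opE_mem 1 β, h.le (h.tf.opW_mem hβ)⟩, fun y => by rw [opE_right T e, map_ex]⟩

theorem not_roots {w₀ : W} (h0 : w₀ ≠ 0) (hw₀ : PW.B w₀ w₀ = 0) :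
    ¬ ∀ a b, Has M (eu P (T.τ a w₀) (T.τ b w₀) 0) := fun hr => by
  have := T.finite
  have hs : ∀ u {w}, PW.B w w = 0 → P.q (T.τ u w) ∈ P.Λ := fun u w hw =>
    h.tf.singW u (h.oW.max w hw)
  have r1 : ∀ w, w ≠ 0 → PW.B w w = 0 → ∀ a b, Has M (eu P (T.τ a w) (T.τ b w) 0) := by
    intro w h1 hw a b
    obtain ⟨β, hβ, c, hc, e⟩ := exists_EG_point h.oW h.dW h.idx h0 h1 hw₀ hw
    have hm := h.le (h.tf.opW_mem hβ)
    have := has_eu_conj (hr (c⁻¹ • a) (c⁻¹ • b)) hm (h.isom hm)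
    simpa [e, smul_smul, hc] using this
  have r2 : ∀ w (hw : PW.B w w = 0), w ≠ 0 → ∀ u b, T.τ b w ∈ Wd P M (T.τ u w) (hs u hw) :=
    fun w hw h1 u b => ⟨by simp [h.tf.B_τ, hw], fun a => ⟨0, by
      rw [zero_sub, neg_mem_iff, ← LinearMap.smul_apply, ← map_smul]; exact hs _ hw,
      by rw [← LinearMap.smul_apply, ← map_smul]; exact r1 w h1 hw _ _⟩⟩
  have r3 : ∀ w (hw : PW.B w w = 0), w ≠ 0 → ∀ u b, PU.B u b = 0 → ∀ y,
      T.τ b y ∈ Wd P M (T.τ u w) (hs u hw) := by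
    intro w hw h1 u b hb y
    obtain ⟨f, hf, hwf⟩ := partner h.oW h1 hw
    refine (span_top h.oW.nd h.oW.max (Or.inr ⟨h.dW, h.oW.two⟩) (h.oW.max _ hw) (h.oW.max _ hf) hwf
      (L := (Wd P M (T.τ u w) (hs u hw)).comap (T.τ b)) (r2 w hw h1 u b)
      (fun v c a1 a2 a3 a4 => ?_)).ge Submodule.mem_top
    have a5 : PW.B v v = 2 * c := by rw [h.oW.self, sub_eq_zero.1 (h.oW.Λ_eq a3)]
    set w' := w - c • f - v with hw'
    have b1 : PW.B w' w' = 0 := by
      simp [hw', hw, hf, hwf, a1, a2, h.oW.symm v w, h.oW.symm v f, h.oW.symm f w, a5]; ring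
    have b2 : PW.B w' w = -c := by simp [hw', hw, h.oW.symm f w, hwf, h.oW.symm v w, a1]
    have b3 : w' ≠ 0 := fun e => a4 (by simpa [e] using b2)
    obtain ⟨a, e1, e2⟩ : ∃ a, PU.B b a = 0 ∧ a ∉ F ∙ u := by
      by_contra hc
      push Not at hc
      have i1 := Submodule.finrank_mono (show perp PU (F ∙ b) ≤ F ∙ u from fun a ha =>
        hc a (mem_perp_singleton.1 ha))
      have i2 := finrank_le_perp (P := PU) (F ∙ b)
      have i3 := finrank_span_singleton_le (F := F) b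
      have i4 := finrank_span_singleton_le (F := F) u
      have := h.dU
      omega
    obtain ⟨a', e3, e4⟩ := exists_perp_ne h.oU.nd e2 1
    obtain ⟨g, hg, eg⟩ := r1 w' b3 b1 a' b
    have i1 := Wd_apply (hx' := hs u hw) (r2 w hw h1 u a) hg (h.isom hg) (by
      rw [eg, eu_fix] <;> simp [h.tf.B_τ, h.oU.symm a' u, e3, h.oU.symm b u, hb])
    have i2 := (Wd P M _ _).smul_mem c⁻¹ ((Wd P M _ _).sub_mem i1 (r2 w hw h1 u a))
    simpa [eg, eu_apply, h.tf.B_τ, e1, h.oV.ε, b2, h.oU.symm a' a, e4, smul_smul, a4] using i2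
  have r4 : ∀ w (hw : PW.B w w = 0), w ≠ 0 → ∀ u b v, PW.B w v = 0 →
      T.τ b v ∈ Wd P M (T.τ u w) (hs u hw) := by
    intro w hw h1 u b v hv
    by_cases hb : PU.B u b = 0
    · exact r3 w hw h1 u b hb v
    obtain ⟨a, e1, e2, -⟩ := exists_ker_two h.dU.ge (PU.B b) (PU.B b)
    have e3 : a ∉ F ∙ u := fun e => by
      obtain ⟨c, rfl⟩ := Submodule.mem_span_singleton.1 e
      simp [h.oU.symm b u, hb] at e2
      simp [e2] at e1
    obtain ⟨a', e4, e5⟩ := exists_perp_ne h.oU.nd e3 1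
    obtain ⟨f, -, hwf⟩ := partner h.oW h1 hw
    obtain ⟨c, -, g, hg, eg⟩ := (r3 w hw h1 a b ((h.oU.symm _ _).trans e2) v).2 1
    have i1 := Wd_apply (hx' := hs u hw) (r3 w hw h1 u a' e4 f) hg (h.isom hg) (by
      rw [eg, eu_fix] <;> simp [h.tf.B_τ, hw, h.oW.symm v w, hv])
    have i2 := (Wd P M _ _).sub_mem ((Wd P M _ _).add_mem (r3 w hw h1 u a' e4 f)
      ((Wd P M _ _).smul_mem (P.B (T.τ b v) (T.τ a' f) - c) (r2 w hw h1 u a))) i1
    simpa [eg, eu_apply, h.tf.B_τ, h.oV.ε, hwf, e5] using i2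
  have r5 : ∀ w (hw : PW.B w w = 0), w ≠ 0 → ∀ u, u ≠ 0 → XLe P M (T.τ u w) := by
    intro w hw h1 u hu
    refine xle_of_Wd (hx := hs u hw) (fun z hz => ?_) fun l hl => by
      rw [h.oV.Λ_eq hl]; exact has_id.congr fun y => by rw [eu_zero]
    obtain ⟨u₀, e⟩ := exists_B_eq h.oU.nd hu 1
    have e1 : z = T.τ u₀ (T.cU (PU.B u) z) + (z - T.τ u₀ (T.cU (PU.B u) z)) := by simp
    rw [e1]
    refine Submodule.add_mem _ (r4 w hw h1 u _ _ ((h.tf.flip.B_left w u z).symm.trans hz)) ?_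
    have e2 : T.cU (PU.B u) (z - T.τ u₀ (T.cU (PU.B u) z)) = 0 := by simp [e]
    generalize z - T.τ u₀ (T.cU (PU.B u) z) = z' at e2
    rw [T.eq_sum (Module.finBasis F W) z']
    exact Submodule.sum_mem _ fun j _ => r3 w hw h1 u _ (by rw [T.cW_cU, e2, map_zero]) _
  obtain ⟨f, hf, hwf⟩ := partner h.oW h0 hw₀
  obtain ⟨u, hu0, hu⟩ := exists_sing h.oU h.dU.ge
  obtain ⟨u', -, e⟩ := partner h.oU hu0 hu
  exact h.ne (EG_le_of_xle h.oV.nd (hs u hw₀) (hs u' hf) (r5 _ hw₀ h0 u hu0)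
    (r5 _ hf (by rintro rfl; simp at hwf) u' (by rintro rfl; simp at e)) (by simp [h.tf.B_τ, e, hwf]))

theorem eq_one {w : W} (h0 : w ≠ 0) (hw : PW.B w w = 0) {k : V ≃ₗ[F] V} (hk : k ∈ M)
    (h1 : ∀ x, T.cB PW w x = 0 → k x = x) : k = 1 := by
  obtain ⟨f, hf, hwf⟩ := partner h.oW h0 hw
  let Z : AddSubgroup (Module.End F U) :=
    { carrier := {t | Has M fun x => x + T.τ (t (T.cB PW w x)) w}
      zero_mem' := has_id.congr fun x => by simp
      add_mem' := fun a b => (a.comp b).congr fun x => by simp [hw]; abel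
      neg_mem' := fun a => a.inv fun x => by simp [hw] }
  let t : Module.End F U := T.cB PW f ∘ₗ ((k : V →ₗ[F] V) - LinearMap.id) ∘ₗ T.τ.flip f
  have e : ∀ x, k x = x + T.τ (t (T.cB PW w x)) w := fun x => by
    obtain ⟨a, ha⟩ := h.tf.mem_col_of_cB (x := k (T.τ (T.cB PW w x) f) - T.τ (T.cB PW w x) f)
      (w := w) fun y hy => sep_right h.oU.nd fun u => by
        have := B_isom (h.isom hk) (T.τ u y) (T.τ (T.cB PW w x) f)
        rw [h1 _ (by simp [h.oW.symm w y, hy])] at this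
        rw [← h.tf.B_left, map_sub, this, sub_self]
    have e1 : t (T.cB PW w x) = a := by
      change T.cB PW f (k (T.τ _ f) - T.τ _ f) = a
      rw [← ha]; simp [h.oW.symm f w, hwf]
    have e2 := h1 (x - T.τ (T.cB PW w x) f) (by simp [hwf])
    rw [e1, show T.τ a w = _ from ha, map_sub] at *
    linear_combination (norm := module) e2
  by_contra hc
  refine h.not_roots h0 hw fun a b => ?_
  have := skew_mem h.oU h.dU (Z := Z) (fun γ hγ t ht => ?_) (t := t) ⟨k, hk, e⟩ (fun x y => ?_)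
    (fun e0 => hc (LinearEquiv.ext fun x => by simp [e, e0])) (skew_wd h.oU a b)
  · refine Has.congr this fun x => ?_
    simp [eu_apply, h.tf.B_left, h.oV.ε]; abel
  · refine (Has.conj ht (h.le (h.tf.opU_mem hγ))).congr fun x => ?_
    have := T.cB_opE γ⁻¹ (PW := PW) (β := 1) (Subgroup.one_mem _) w x
    rw [map_add, le_apply_inv, T.opE_inv, inv_one, TS.opE_τ]
    exact congrArg (fun z => x + T.τ (γ (t z)) w) this
  · have := B_isom (h.isom hk) (T.τ x f) (T.τ y f)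
    simp [e, h.tf.B_τ, hwf, hw, hf, h.oW.symm f w] at this
    linear_combination this

variable (T PW) in
/-- Acts trivially on the column of `w` and on its perp modulo the column. -/
def _root_.H21.TO.Lev (w : W) (k : V ≃ₗ[F] V) : Prop :=
  (∀ u, k (T.τ u w) = T.τ u w) ∧ ∀ x, T.cB PW w x = 0 → k x - x ∈ T.col w

theorem lev_comm {w : W} (h0 : w ≠ 0) (hw : PW.B w w = 0) {k k' : V ≃ₗ[F] V} (hk : k ∈ M)
    (hk' : k' ∈ M) (h1 : Lev T PW w k) (h2 : Lev T PW w k') : k * k' = k' * k := by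
  refine (inv_mul_eq_one.1 (h.eq_one h0 hw
    (M.mul_mem (M.inv_mem (M.mul_mem hk' hk)) (M.mul_mem hk hk')) fun x hx => ?_)).symm
  obtain ⟨a, ha⟩ := h1.2 x hx
  obtain ⟨b, hb⟩ := h2.2 x hx
  have e1 : k x = x + T.τ a w := by rw [show T.τ a w = _ from ha]; simp
  have e2 : k' x = x + T.τ b w := by rw [show T.τ b w = _ from hb]; simp
  have : (k * k') x = (k' * k) x := by
    simp only [le_mul_apply, e1, e2, map_add, h1.1, h2.1]; abel
  rw [le_mul_apply, this, le_inv_apply_apply]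

theorem lev_R {w v : W} (hw : PW.B w w = 0) (hv : PW.B w v = 0) {z : V ≃ₗ[F] V}
    (e : ∀ y, z y = ex (opR T (wd PW w v)) (1 : F) y) : Lev T PW w z := by
  refine ⟨fun u => by simp [e, ex_apply, hw, h.oW.symm v w, hv], fun x hx => ⟨T.cB PW v x, ?_⟩⟩
  have := T.eq_zero_of_ker (f := (z : V →ₗ[F] V) - LinearMap.id - T.τ.flip w ∘ₗ T.cB PW v)
    (φ := PW.B w) (fun u y hy => by simp [e, ex_apply, hy, hw, h.oW.symm v w, hv]) hx
  exact (sub_eq_zero.1 this).symm

theorem of_lev {w : W} (h0 : w ≠ 0) (hw : PW.B w w = 0) {k : V ≃ₗ[F] V} (hk : k ∈ M)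
    (h1 : Lev T PW w k) : ∃ v, PW.B w v = 0 ∧ ∀ y, k y = ex (opR T (wd PW w v)) (1 : F) y := by
  obtain ⟨f, hf, hwf⟩ := partner h.oW h0 hw
  have hfw := (h.oW.symm f w).trans hwf
  obtain ⟨μ, m0, m1⟩ := h.mu
  let s : W → Module.End F U := fun v => T.cB PW f ∘ₗ ((k : V →ₗ[F] V) - LinearMap.id) ∘ₗ T.τ.flip v
  have e1 : ∀ v, PW.B w v = 0 → ∀ u, k (T.τ u v) = T.τ u v + T.τ (s v u) w := fun v hv u => by
    obtain ⟨a, ha⟩ := h1.2 (T.τ u v) (by simp [hv])
    have : s v u = a := by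
      change T.cB PW f (k (T.τ u v) - T.τ u v) = a
      rw [← ha]; simp [hfw]
    rw [this, show T.τ a w = _ from ha]; simp
  have e2 : ∀ v, PW.B w v = 0 → ∀ u u', P.B (T.τ u v) (k (T.τ u' f)) =
      PU.B u u' * PW.B v f - PU.B (s v u) u' := fun v hv u u' => by
    have a1 := B_isom (h.isom hk) (T.τ u v) (T.τ u' f)
    have a2 := B_isom (h.isom hk) (T.τ (s v u) w) (T.τ u' f)
    rw [h1.1] at a2
    rw [e1 v hv, map_add, LinearMap.add_apply, a2, h.tf.B_τ, h.tf.B_τ, hwf] at a1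
    linear_combination a1
  have e3 : ∀ v, PW.B w v = 0 → ∀ u, PU.B u u = 0 → PU.B u (s v u) = 0 := fun v hv u hu => by
    by_cases hu0 : u = 0
    · simp [hu0]
    obtain ⟨u', hu', huu⟩ := partner h.oU hu0 hu
    obtain ⟨x, hux, -, hx⟩ := exists_x h.oU h.dU.ge hu hu' huu
    set N := opL T (wd PU u x) with hN
    set K : Module.End F V := (k : V →ₗ[F] V) with hK
    have hN3 : N * (N * N) = 0 := by rw [hN, ← map_mul, ← map_mul, wd_cube h.oU hu hux, map_zero]
    have a1 : ∀ c : F, K * (ex N c * K * ex N (-c)) = ex N c * K * ex N (-c) * K := fun c => by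
      obtain ⟨α, hα, eα⟩ := has_ex h.oU hu hux c
      have hm := h.le (h.tf.opU_mem hα)
      have b1 : ∀ y, T.opE α 1 y = ex N c y := fun y => by rw [opE_left T eα, map_ex]
      have b2 : ∀ y, (T.opE α 1)⁻¹ y = ex N (-c) y := fun y => by
        rw [le_inv_apply, LinearEquiv.symm_apply_eq, b1, ← Module.End.mul_apply,
          ex_mul h.oU.two hN3, add_neg_cancel, ex_zero]; rfl
      have := h.lev_comm h0 hw hk (M.mul_mem (M.mul_mem hm hk) (M.inv_mem hm)) h1
        ⟨fun a => by simp [le_mul_apply, T.opE_inv, h1.1], fun y hy => ?_⟩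
      · ext y
        simpa [le_mul_apply, b1, b2, hK] using LinearEquiv.congr_fun this y
      · have b3 := T.cB_opE α⁻¹ (PW := PW) (β := 1) (Subgroup.one_mem _) w y
        obtain ⟨a, ha⟩ := h1.2 ((T.opE α 1)⁻¹ y) (by
          rw [T.opE_inv, inv_one]; exact b3.trans (by rw [hy, map_zero]))
        refine ⟨α a, ?_⟩
        have := congrArg (T.opE α 1) ha
        rw [map_sub, le_apply_inv] at this
        exact (T.opE_τ α 1 a w).symm.trans this
    have a2 := (quartic h.oU.two m0 m1 (a1 := K * (N * K - K * N) - (N * K - K * N) * K)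
      (a2 := K * ((2⁻¹ : F) • (N * N * K + K * (N * N)) - N * K * N) -
        ((2⁻¹ : F) • (N * N * K + K * (N * N)) - N * K * N) * K)
      (a3 := (2⁻¹ : F) • (K * (N * K * (N * N) - N * N * K * N) -
        (N * K * (N * N) - N * N * K * N) * K))
      (a4 := (2⁻¹ * 2⁻¹ : F) • (K * (N * N * K * (N * N)) - N * N * K * (N * N) * K)) fun c => by
        have := a1 c
        simp only [ex, mul_add, add_mul, mul_sub, sub_mul, smul_mul_assoc, mul_smul_comm, mul_assoc,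
          mul_one, one_mul] at this ⊢
        linear_combination (norm := module) this).2.2
    have a3 : ∀ y, N (N y) = -PU.B x x • T.τ u (T.cU (PU.B u) y) := fun y =>
      LinearMap.congr_fun (T.lext (f := N * N) (g := -PU.B x x • T.τ u ∘ₗ T.cU (PU.B u))
        fun a b => by simp [hN, -wd_apply, wd_sq h.oU hu hux, smul_smul]) y
    have a4 := congrArg (P.B (T.τ u f)) (LinearMap.congr_fun
      (sub_eq_zero.1 ((smul_eq_zero.1 a2).resolve_left (by simp [h.oU.two]))) (T.τ u' f))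
    set b := T.cU (PU.B u) (k (T.τ u f)) with hb
    have a5 : ∀ y, PW.B y b = P.B (T.τ u y) (k (T.τ u f)) := fun y =>
      (h.tf.flip.B_left y u _).symm
    have a6 : PW.B w b = 0 := by rw [a5, ← h1.1, B_isom (h.isom hk), h.tf.B_τ, hu, zero_mul]
    have a7 : PU.B u (s b u) = 0 := by
      simpa [a3, huu, hK, ← hb, h.tf.B_τ, hu, hx, e1 b a6, hfw] using a4
    obtain ⟨c, hc⟩ := Submodule.mem_span_singleton.1 (h.idx w b h0 hw
      (by rw [a5, e2 b a6, hu, h.oU.symm, a7]; simp) a6)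
    have a8 := a5 v
    rw [e2 v hv, ← hc, hu, h.oU.symm] at a8
    simpa [h.oW.symm v w, hv] using a8
  have e4 : ∀ v, PW.B w v = 0 → ∃ c : F, s v = c • LinearMap.id := fun v hv => by
    refine scalar_of_sing h.oU h.dU.ge m0 m1 (fun x y => ?_) (e3 v hv)
    obtain ⟨z, hz, ez⟩ := h.hasR hw hv 1
    have a1 : Commute (k : Module.End F V) (ex (opR T (wd PW w v)) (1 : F)) := by
      ext y
      simpa [le_mul_apply, ez] using
        LinearEquiv.congr_fun (h.lev_comm h0 hw hk hz.2 h1 (h.lev_R hw hv ez)) y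
    have a2 : Commute (k : Module.End F V) (opR T (wd PW w v)) := by
      rw [← lg_ex (F := F) (N := opR T (wd PW w v)) (by
        rw [← map_mul, ← map_mul, wd_cube h.oW hw hv, map_zero])]
      have a3 := a1.sub_right (Commute.one_right _)
      exact a3.sub_right ((a3.mul_right a3).smul_right _)
    have a3 := congrArg (P.B (T.τ x f)) (LinearMap.congr_fun a2 (T.τ y f))
    have a4 : ∀ m, P.B (T.τ x f) (opR T (wd PW w v) m) = -P.B (T.τ x (wd PW w v f)) m := fun m =>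
      LinearMap.congr_fun (T.lext (f := P.B (T.τ x f) ∘ₗ opR T (wd PW w v))
        (g := -P.B (T.τ x (wd PW w v f))) fun a b => by
          simp [-wd_apply, h.tf.B_τ, skew_wd h.oW w v f b]) m
    have a5 := B_isom (h.isom hk) (T.τ x w) (T.τ y f)
    rw [h1.1] at a5
    simp [a4, hwf, e1 v hv, h1.1, e2 v hv, a5, h.tf.B_τ, hfw, h.oW.symm f v] at a3
    linear_combination a3
  obtain ⟨u, hu0, hu⟩ := exists_sing h.oU h.dU.ge
  obtain ⟨u', -, huu⟩ := partner h.oU hu0 hu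
  obtain ⟨v, hv⟩ := exists_repr_dual PW.σσ PW.B h.oW.nd
    (PU.B u ∘ₗ T.cB PW f ∘ₗ ((k : V →ₗ[F] V) - LinearMap.id) ∘ₗ T.τ u')
  replace hv : ∀ y, PW.B v y = PU.B u (s y u') := hv
  have hwv : PW.B w v = 0 := by
    rw [h.oW.symm, hv]
    change PU.B u (T.cB PW f (k (T.τ u' w) - T.τ u' w)) = 0
    simp [h1.1]
  obtain ⟨z, hz, ez⟩ := h.hasR hw hwv 1
  refine ⟨v, hwv, fun y => ?_⟩
  rw [← show z = k from inv_mul_eq_one.1 (h.eq_one h0 hw (M.mul_mem (M.inv_mem hz.2) hk)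
    fun x hx => ?_), ez]
  rw [le_mul_apply, le_inv_apply, LinearEquiv.symm_apply_eq]
  refine sub_eq_zero.1 (T.eq_zero_of_ker (f := (k : V →ₗ[F] V) - (z : V →ₗ[F] V)) (φ := PW.B w)
    (fun a y hy => ?_) hx)
  obtain ⟨c, hc⟩ := e4 y hy
  simp [e1 y hy, ez, ex_apply, hy, hw, hv y, h.oW.symm v w, hwv, hc, huu]

end St

end H21.TO
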