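import Mathlib
import Cfsg.Agent.Base
import Cfsg.Agent.Lib.Tensor.OO2

/-!
Tensor products of orthogonal spaces with a factor of Witt index one, part 3: column stabilisers
and the conjugates of an Eichler element of the factor that lie in the tensor stabiliser.
-/

set_option autoImplicit false
set_option linter.unusedSectionVars false

namespace H21.TO

open Module Cfsg H97 H28 H11.Ten

variable {F U W V : Type*} [Field F] [AddCommGroup U] [Module F U] [AddCommGroup W]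
  [Module F W] [AddCommGroup V] [Module F V]

theorem TG_eq {T : TS F U W V} {g : V ≃ₗ[F] V} (hg : g ∈ T.TG) {a : U → U} {b : W → W} {u₁ : U}
    {w₁ : W} (hu : u₁ ≠ 0) (hw : w₁ ≠ 0) (h1 : ∀ u, g (T.τ u w₁) = T.τ (a u) w₁)
    (h2 : ∀ y, g (T.τ u₁ y) = T.τ u₁ (b y)) (h3 : b w₁ = w₁) (u : U) (y : W) :
    g (T.τ u y) = T.τ (a u) (b y) := by
  obtain ⟨α, β, e⟩ := hg
  obtain ⟨ψ, hψ⟩ := exists_dual_of_ne_zero (F := F) hu 1
  obtain ⟨φ, hφ⟩ := exists_dual_of_ne_zero (F := F) hw 1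
  have e1 : ∀ y, ψ (α u₁) • β y = b y := fun y => by
    simpa [hψ] using congrArg (T.cU ψ) ((e u₁ y).symm.trans (h2 y))
  have e2 : φ (β w₁) • α u = a u := by
    simpa [hφ] using congrArg (T.cW φ) ((e u w₁).symm.trans (h1 u))
  have e3 : ψ (α u₁) * φ (β w₁) = 1 := by simpa [h3, hφ] using congrArg φ (e1 w₁)
  rw [e, ← e1, ← e2]
  simp [smul_smul, e3]

theorem coe_pow' (z : V ≃ₗ[F] V) (n : ℕ) :
    ((z ^ n : V ≃ₗ[F] V) : Module.End F V) = (z : Module.End F V) ^ n :=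
  map_pow (LinearEquiv.automorphismGroup.toLinearMapMonoidHom (R := F) (M := V)) z n

theorem nil_of_pow {p : ℕ} [Fact p.Prime] [CharP F p] [Nontrivial U] {a : Module.End F U}
    (h : a ^ p = 1) : IsNilpotent (a - 1) := by
  have := charP_of_injective_algebraMap (algebraMap F (Module.End F U)).injective p
  exact ⟨p, by rw [sub_pow_char_of_commute _ (Commute.one_right a), h, one_pow, sub_self]⟩

variable [FiniteDimensional F U] [FiniteDimensional F W] [Finite F]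
  {T : TS F U W V} {PU : PQ F U (RingHom.id F)} {PW : PQ F W (RingHom.id F)}
  {P : PQ F V (RingHom.id F)} {M : Subgroup (V ≃ₗ[F] V)}

theorem unip_form (h : TF T PU PW P) [Nontrivial U] [Nontrivial W] {z : V ≃ₗ[F] V} (hz : z ∈ T.TG)
    (hI : z ∈ P.Isom) (hp : z ^ ringChar F = 1) : ∃ (a : Module.End F U) (b : Module.End F W),
      (∀ u y, z (T.τ u y) = T.τ (a u) (b y)) ∧ IsNilpotent (a - 1) ∧ IsNilpotent (b - 1) ∧
      (∀ x y, PU.B (a x) (a y) = PU.B x y) ∧ ∀ x y, PW.B (b x) (b y) = PW.B x y := by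
  obtain ⟨α, β, e⟩ := hz
  have : Fact (ringChar F).Prime := ⟨CharP.char_is_prime F _⟩
  set p := ringChar F
  have e0 : ∀ {a : Module.End F U} {b : Module.End F W}, (∀ u y, z (T.τ u y) = T.τ (a u) (b y)) →
      ∀ u y, T.τ ((a ^ p) u) ((b ^ p) y) = T.τ u y := fun {a b} e u y => by
    have : ∀ n, (z ^ n) (T.τ u y) = T.τ ((a ^ n) u) ((b ^ n) y) := fun n => by
      induction n with
      | zero => rfl
      | succ n ih => rw [pow_succ', le_mul_apply, ih, e, pow_succ', pow_succ']; rfl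
    rw [← this, hp]; rfl
  obtain ⟨y₀, hy⟩ := exists_ne (0 : W)
  obtain ⟨u₀, hu⟩ := exists_ne (0 : U)
  have e1 := e0 (a := α) (b := β) e
  obtain ⟨φ, hφ⟩ := exists_dual_of_ne_zero (F := F) (u := ((β : Module.End F W) ^ p) y₀)
    (fun h0 => by simpa [h0, T.τ_eq_zero, hu, hy] using (e1 u₀ y₀).symm) 1
  have e2 : ∀ u, ((α : Module.End F U) ^ p) u = φ y₀ • u := fun u => by
    simpa [hφ] using congrArg (T.cW φ) (e1 u y₀)
  obtain ⟨μ, hμ⟩ := surjective_frobenius F p (φ y₀)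
  rw [frobenius_def] at hμ
  have h0 : μ ≠ 0 := by
    rintro rfl
    rw [zero_pow (Fact.out : p.Prime).ne_zero] at hμ
    simpa [e2, ← hμ, T.τ_eq_zero, hu, hy] using (e1 u₀ y₀).symm
  have e3 : ∀ u y, z (T.τ u y) = T.τ ((μ⁻¹ • (α : Module.End F U)) u)
      ((μ • (β : Module.End F W)) y) := fun u y => by simp [e, smul_smul, h0]
  have e4 : (μ⁻¹ • (α : Module.End F U)) ^ p = 1 := by
    ext u; simp [smul_pow, e2, ← hμ, smul_smul, h0]
  have e5 : (μ • (β : Module.End F W)) ^ p = 1 := LinearMap.ext fun y =>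
    T.τ_inj_right hu (by simpa [e4] using e0 e3 u₀ y)
  generalize μ⁻¹ • (α : Module.End F U) = a at e3 e4
  generalize μ • (β : Module.End F W) = b at e3 e5
  have e6 : ∀ u u' y y', PU.B (a u) (a u') * PW.B (b y) (b y') = PU.B u u' * PW.B y y' :=
    fun u u' y y' => by rw [← h.B_τ, ← e3, ← e3, B_isom hI, h.B_τ]
  obtain ⟨u₁, hu₁⟩ := exists_B_eq h.ndU hu 1
  obtain ⟨y₁, hy₁⟩ := exists_B_eq h.ndW hy 1
  have e7 : ∀ n y y', PU.B (a u₀) (a u₁) ^ n * PW.B ((b ^ n) y) ((b ^ n) y') = PW.B y y' := by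
    intro n
    induction n with
    | zero => simp
    | succ n ih =>
      intro y y'
      rw [pow_succ, pow_succ' b, mul_assoc, Module.End.mul_apply, Module.End.mul_apply, e6, hu₁,
        one_mul, ih]
  have e8 : PU.B (a u₀) (a u₁) = 1 := frobenius_inj F p (by
    simpa [e5, hy₁, frobenius_def] using e7 p y₀ y₁)
  have e9 : ∀ x y, PW.B (b x) (b y) = PW.B x y := fun x y => by simpa [e8] using e7 1 x y
  exact ⟨a, b, e3, nil_of_pow e4, nil_of_pow e5,
    fun x y => by simpa [e9, hy₁] using e6 x y y₀ y₁, e9⟩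

namespace St

variable (h : St T PU PW P M)
include h

theorem exR_perp {w v : W} (hw : PW.B w w = 0) (hv : PW.B w v = 0) {x : V} (hx : T.cB PW w x = 0) :
    ex (opR T (wd PW w v)) (1 : F) x = x + T.τ (T.cB PW v x) w := by
  have := T.eq_zero_of_ker
    (f := ex (opR T (wd PW w v)) (1 : F) - LinearMap.id - T.τ.flip w ∘ₗ T.cB PW v)
    (φ := PW.B w) (fun u y hy => by simp [ex_apply, hy, hw, h.oW.symm v w, hv]) hx
  rw [← sub_eq_iff_eq_add']
  exact sub_eq_zero.1 this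

theorem opR_cube {w v : W} (hw : PW.B w w = 0) (hv : PW.B w v = 0) :
    opR T (wd PW w v) * (opR T (wd PW w v) * opR T (wd PW w v)) = 0 := by
  rw [← map_mul, ← map_mul, wd_cube h.oW hw hv, map_zero]

theorem opR_sq {w v : W} (hw : PW.B w w = 0) (hv : PW.B w v = 0) (x : V) :
    opR T (wd PW w v) (opR T (wd PW w v) x) = T.τ (-PW.B v v • T.cB PW w x) w :=
  LinearMap.congr_fun (T.lext (f := opR T (wd PW w v) * opR T (wd PW w v))
    (g := T.τ.flip w ∘ₗ (-PW.B v v • T.cB PW w)) fun a b => by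
      simp [-wd_apply, wd_sq h.oW hw hv, smul_smul]) x

theorem skew_opR {b : Module.End F W} (hb : Skew PW b) : Skew P (opR T b) := fun x y => by
  have : P.B ∘ₗ opR T b = -(P.B.compl₂ (opR T b)) := T.lext fun u w => T.lext fun u' w' => by
    simp [h.tf.B_τ, hb w w']
  exact LinearMap.congr_fun₂ this x y

theorem mem_TG_of_stab {w : W} (h0 : w ≠ 0) (hw : PW.B w w = 0) {g : V ≃ₗ[F] V} (hg : g ∈ M)
    (h1 : ∀ u, g (T.τ u w) ∈ T.col w) : g ∈ T.TG := by
  obtain ⟨α, hα⟩ := T.exists_alpha h0 h1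
  have hI := h.isom hg
  have a1 : ∀ u, g⁻¹ (T.τ u w) = T.τ (α⁻¹ u) w := fun u => by
    rw [le_inv_apply, LinearEquiv.symm_apply_eq, hα, le_apply_inv]
  have a2 : ∀ x, T.cB PW w x = 0 → T.cB PW w (g x) = 0 := fun x hx =>
    sep_right h.oU.nd fun u => by rw [← h.tf.B_left, ← B_isom_inv hI, a1, h.tf.B_left, hx, map_zero]
  have a3 : ∀ v₀, PW.B w v₀ = 0 → ∃ v, ∀ x, T.cB PW w x = 0 →
      T.cB PW v₀ (g x) = α (T.cB PW v x) := fun v₀ hv₀ => by
    obtain ⟨z, hz, ez⟩ := h.hasR hw hv₀ 1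
    simp only at ez
    have b1 : ∀ x, T.cB PW w x = 0 → (g⁻¹ * z * g) x = x + T.τ (α⁻¹ (T.cB PW v₀ (g x))) w :=
      fun x hx => by
        rw [le_mul_apply, le_mul_apply, ez, h.exR_perp hw hv₀ (a2 x hx), map_add, a1,
          le_inv_apply_apply]
    obtain ⟨v, hv, ev⟩ := h.of_lev h0 hw (M.mul_mem (M.mul_mem (M.inv_mem hg) hz.2) hg)
      ⟨fun u => by rw [b1 _ (by simp [hw]), hα]; simp [h.oW.symm v₀ w, hv₀],
        fun x hx => by rw [b1 x hx, add_sub_cancel_left]; exact T.τ_mem_col _ _⟩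
    refine ⟨v, fun x hx => ?_⟩
    have := (b1 x hx).symm.trans ((ev x).trans (h.exR_perp hw hv hx))
    rw [← T.col_injective h0 (add_left_cancel this), le_apply_inv]
  obtain ⟨u₀, hu0, hu₀⟩ := exists_sing h.oU h.dU.ge
  obtain ⟨u₁, -, hu₁⟩ := partner h.oU hu0 hu₀
  obtain ⟨ψ, hψ⟩ := exists_dual_of_ne_zero (F := F) (u := α u₀) (by simpa using hu0) 1
  let β₀ : Module.End F W := T.cU ψ ∘ₗ (g : V →ₗ[F] V) ∘ₗ T.τ u₀
  have b0 : ∀ v y, PW.B v (β₀ y) = ψ (T.cB PW v (g (T.τ u₀ y))) := fun v y => (T.cW_cU _ _ _).symm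
  have b1 : ∀ y, PW.B w y = 0 → PW.B w (β₀ y) = 0 := fun y hy => by
    rw [b0, a2 _ (by simp [hy]), map_zero]
  have b2 : ∀ y, PW.B w y = 0 → ∀ u, g (T.τ u y) - T.τ (α u) (β₀ y) ∈ T.col w := fun y hy u =>
    h.tf.mem_col_of_cB fun v₀ hv₀ => by
      obtain ⟨v, hv⟩ := a3 v₀ ((h.oW.symm _ _).trans hv₀)
      simp [b0, hv _ (show T.cB PW w (T.τ _ y) = 0 by simp [hy]), hψ]
  have b3 : ∀ y y', PW.B w y = 0 → PW.B w y' = 0 → ∀ u u',
      PU.B (α u) (α u') * PW.B (β₀ y) (β₀ y') = PU.B u u' * PW.B y y' := fun y y' hy hy' u u' => by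
    obtain ⟨a, ha⟩ := b2 y hy u
    obtain ⟨a', ha'⟩ := b2 y' hy' u'
    have := B_isom hI (T.τ u y) (T.τ u' y')
    rw [eq_add_of_sub_eq ha.symm, eq_add_of_sub_eq ha'.symm] at this
    simpa [h.tf.B_τ, hw, b1 y' hy', h.oW.symm _ w, b1 y hy] using this
  obtain ⟨f, hf, hwf⟩ := partner h.oW h0 hw
  obtain ⟨x₀, c1, -, c2⟩ := exists_x h.oW h.dW hw hf hwf
  have hfw := (h.oW.symm f w).trans hwf
  set κ := PU.B (α u₀) (α u₁) with hκ
  have b4 : ∀ y y', PW.B w y = 0 → PW.B w y' = 0 → κ * PW.B (β₀ y) (β₀ y') = PW.B y y' :=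
    fun y y' hy hy' => by rw [b3 y y' hy hy', hu₁, one_mul]
  have hκ0 : κ ≠ 0 := fun e => c2 (by rw [← b4 x₀ x₀ c1 c1, e, zero_mul])
  have b5 : ∀ u u', PU.B (α u) (α u') = κ * PU.B u u' := fun u u' => mul_right_cancel₀ c2 (by
    linear_combination κ * b3 x₀ x₀ c1 c1 u u' - PU.B (α u) (α u') * b4 x₀ x₀ c1 c1)
  let π : Module.End F W := LinearMap.id - r1 PW f w - r1 PW w f
  have p0 : ∀ y, π y = y - PW.B w y • f - PW.B f y • w := fun _ => rfl
  have p1 : ∀ y, PW.B w (π y) = 0 := fun y => by simp [p0, hw, hwf]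
  let β : Module.End F W := κ⁻¹ • r1 PW f w + r1 PW w f + π ∘ₗ β₀ ∘ₗ π
  have p2 : ∀ y, β y = (κ⁻¹ * PW.B w y) • f + (PW.B f y - PW.B f (β₀ (π y))) • w + β₀ (π y) :=
    fun y => by
      change κ⁻¹ • (PW.B w y • f) + PW.B f y • w + π (β₀ (π y)) = _
      rw [p0 (β₀ _), b1 _ (p1 y)]
      module
  have p3 : ∀ y y', κ * PW.B (β y) (β y') = PW.B y y' := fun y y' => by
    have := b4 _ _ (p1 y) (p1 y')
    conv_rhs at this => simp [p0, hw, hf, hwf, hfw, h.oW.symm y w, h.oW.symm y f]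
    simp [p2, hw, hf, hwf, hfw, b1 _ (p1 _), h.oW.symm _ w, h.oW.symm (β₀ _) f]
    field_simp
    linear_combination this
  let β' : W ≃ₗ[F] W := LinearEquiv.ofInjectiveEndo β ((injective_iff_map_eq_zero _).2 fun y hy =>
    h.oW.nd y fun y' => by rw [← p3, hy]; simp)
  have p4 : ∀ y, β' y = β y := fun _ => rfl
  have p5 : β w = w := by simp [p2, p0, hw, hfw]
  have hI' : T.opE α β' ∈ P.Isom := h.tf.isom _ (T.opE_mem _ _) (h.tf.B_of_pure
    (f := (T.opE α β' : V →ₗ[F] V)) fun u y u' y' => by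
      simp only [LinearEquiv.coe_coe, TS.opE_τ, h.tf.B_τ, p4, b5]
      linear_combination PU.B u u' * p3 y y')
  have c3 : ∀ u, (T.opE α β')⁻¹ (T.τ (α u) w) = T.τ u w := fun u => by
    rw [le_inv_apply, LinearEquiv.symm_apply_eq, TS.opE_τ, p4, p5]
  have hL : Lev T PW w ((T.opE α β')⁻¹ * g) := ⟨fun u => by rw [le_mul_apply, hα, c3],
    fun x hx => by
      obtain ⟨a, ha⟩ : g x - T.opE α β' x ∈ T.col w := by
        rw [← Submodule.Quotient.mk_eq_zero]
        refine T.eq_zero_of_ker (f := (T.col w).mkQ ∘ₗ ((g : V →ₗ[F] V) - T.opE α β'))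
          (φ := PW.B w) (fun u y hy => (Submodule.Quotient.mk_eq_zero _).2 ?_) hx
        convert (T.col w).add_mem (b2 _ (p1 y) u) (T.τ_mem_col (PW.B f (β₀ (π y)) • α u) w) using 1
        have : y = π y + PW.B f y • w := by simp [p0, hy]
        change g (T.τ u y) - T.opE α β' (T.τ u y) = _
        rw [TS.opE_τ, p4, p2, hy]
        conv_lhs => enter [1]; rw [this]
        simp only [map_add, map_smul, hα, LinearMap.smul_apply]
        module
      refine ⟨α⁻¹ a, ?_⟩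
      have := congrArg ((T.opE α β')⁻¹ : V ≃ₗ[F] V) ha
      rw [map_sub, le_inv_apply_apply] at this
      rw [le_mul_apply, ← this, LinearMap.flip_apply, ← c3]
      simp⟩
  have hk := h.tf.mem_EG_of_unip (h.oW.max w hw) (P.Isom.mul_mem (P.Isom.inv_mem hI') hI) hL.1 hL.2
  have hM : T.opE α β' ∈ M := h.le ⟨T.opE_mem _ _, by
    simpa using (EG P).mul_mem (h.le' hg) ((EG P).inv_mem hk)⟩
  obtain ⟨v, hv, ev⟩ := h.of_lev h0 hw (M.mul_mem (M.inv_mem hM) hg) hL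
  simpa using T.TG.mul_mem (T.opE_mem α β') (((h.hasR hw hv 1).mono inf_le_left).mem ev)

theorem mem_TG_of_col {w w' : W} (h0 : w ≠ 0) (h0' : w' ≠ 0) (hw : PW.B w w = 0)
    (hw' : PW.B w' w' = 0) {g : V ≃ₗ[F] V} (hg : g ∈ M) (h1 : ∀ u, g (T.τ u w) ∈ T.col w') :
    g ∈ T.TG := by
  obtain ⟨β, hβ, c, -, e⟩ := exists_EG_point h.oW h.dW h.idx h0' h0 hw' hw
  have := h.mem_TG_of_stab h0 hw (M.mul_mem (h.le (h.tf.opW_mem hβ)) hg) fun u => by
    obtain ⟨a, ha⟩ := h1 u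
    exact ⟨c • a, by rw [le_mul_apply, ← ha]; simp [e]⟩
  exact (T.TG.mul_mem_cancel_left (T.opE_mem 1 β)).1 this

theorem free {w v : W} (h0 : w ≠ 0) (hw : PW.B w w = 0) (hv : PW.B w v = 0) {g z : V ≃ₗ[F] V}
    (hg : g ∈ M) (ez : ∀ y, z y = ex (opR T (wd PW w v)) (1 : F) y) (hz : g⁻¹ * z * g ∈ T.TG) :
    g ∈ T.TG ∨ ∃ a : Module.End F U, ∀ u y, (g⁻¹ * z * g) (T.τ u y) = T.τ (a u) y := by
  have : Nontrivial W := ⟨w, 0, h0⟩
  have : Nontrivial U := Module.nontrivial_of_finrank_pos (R := F) (by rw [h.dU]; omega)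
  obtain ⟨μ, m0, m1⟩ := h.mu
  have hN := h.opR_cube hw hv
  set N := opR T (wd PW w v) with hNd
  let N' : Module.End F V := (g.symm : V →ₗ[F] V) ∘ₗ N ∘ₗ (g : V →ₗ[F] V)
  have n1 : ∀ x, N (g x) = g (N' x) := fun x => (g.apply_symm_apply _).symm
  have n2 : N' * (N' * N') = 0 := LinearMap.ext fun x => g.injective (by
    simpa [← n1] using LinearMap.congr_fun hN (g x))
  have n3 : ∀ c : F, Has M fun x => ex N' c x := fun c =>
    (((h.hasR hw hv c).mono inf_le_right).conj (M.inv_mem hg)).congr fun x => by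
      rw [inv_inv, show ex N c (g x) = g (ex N' c x) from ex_comm (j := (g : V →ₗ[F] V)) n1 c x,
        le_inv_apply_apply]
  have n4 : ((g⁻¹ * z * g : V ≃ₗ[F] V) : Module.End F V) = ex N' (1 : F) := LinearMap.ext fun x => by
    change g⁻¹ (z (g x)) = _
    rw [ez, show ex N (1 : F) (g x) = g (ex N' (1 : F) x) from ex_comm (j := (g : V →ₗ[F] V)) n1 1 x,
      le_inv_apply_apply]
  have hM : g⁻¹ * z * g ∈ M := (n3 1).mem (LinearMap.congr_fun n4)
  obtain ⟨a, b, e, ha, hb, ia, ib⟩ := unip_form h.tf hz (h.isom hM) (LinearEquiv.toLinearMap_injective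
    (by rw [coe_pow', n4, ex_pow_char h.oW.two n2]; simp [ex_zero]; rfl))
  by_cases hb0 : b - 1 = 0
  · exact Or.inr ⟨a, fun u y => by rw [e, sub_eq_zero.1 hb0]; rfl⟩
  left
  obtain ⟨y₁, c1, c2⟩ := exists_ker_range hb hb0
  obtain ⟨u₁, c3, c4⟩ := exists_ker_of_nil ha
  set w₁ := (b - 1) y₁ with hw₁
  have c5 : b w₁ = w₁ := sub_eq_zero.1 c2
  have c6 : a u₁ = u₁ := sub_eq_zero.1 c4
  have c7 : PW.B w₁ w₁ = 0 := by
    have := ib y₁ w₁
    rw [c5] at this
    show PW.B (b y₁ - y₁) w₁ = 0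
    simp [this]
  replace e : ∀ u y, ex N' (1 : F) (T.τ u y) = T.τ (a u) (b y) := fun u y => n4 ▸ e u y
  have d1 : ∀ u, N' (T.τ u w₁) = T.τ (lg F a u) w₁ := fun u => by
    rw [← lg_ex (F := F) n2]
    exact lg_comm (j := T.τ.flip w₁) (fun x => by simpa [c5] using e x w₁) u
  have d2 : ∀ y, N' (T.τ u₁ y) = T.τ u₁ (lg F b y) := fun y => by
    rw [← lg_ex (F := F) n2]
    exact lg_comm (j := T.τ u₁) (fun x => by simpa [c6] using e u₁ x) y
  have d3 := fun u y => quartic h.oW.two m0 m1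
    (a1 := T.τ (lg F a u) y + T.τ u (lg F b y) - N' (T.τ u y))
    (a2 := T.τ (lg F a u) (lg F b y) + (2⁻¹ : F) • (T.τ (lg F a (lg F a u)) y +
      T.τ u (lg F b (lg F b y)) - N' (N' (T.τ u y))))
    (a3 := (2⁻¹ : F) • (T.τ (lg F a u) (lg F b (lg F b y)) + T.τ (lg F a (lg F a u)) (lg F b y)))
    (a4 := (2⁻¹ * 2⁻¹ : F) • T.τ (lg F a (lg F a u)) (lg F b (lg F b y))) fun c => by
      obtain ⟨k, hk, ek⟩ := n3 c
      have f1 : ∀ u, k (T.τ u w₁) = T.τ (ex (lg F a) c u) w₁ := fun u =>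
        (ek _).trans (ex_comm (j := T.τ.flip w₁) d1 c u)
      have := TG_eq (h.mem_TG_of_stab c1 c7 hk fun u => f1 u ▸ T.τ_mem_col _ _) c3 c1 f1
        (b := fun y => ex (lg F b) c y) (fun y => (ek _).trans (ex_comm (j := T.τ u₁) d2 c y))
        (by simp [ex_apply, lg_apply, c5]) u y
      simp only [ek, ex_apply, map_add, map_smul, LinearMap.add_apply, LinearMap.smul_apply] at this
      linear_combination (norm := module) -this
  have h2 := h.oW.two
  have d4 : ∀ u y, N' (T.τ u y) = T.τ (lg F a u) y + T.τ u (lg F b y) := fun u y =>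
    (sub_eq_zero.1 (d3 u y).1).symm
  have d5 : Skew PW (lg F b) := fun y y' => by
    obtain ⟨u', hu'⟩ := exists_B_eq h.oU.nd c3 1
    have i1 : ∀ m, PU.B u₁ (a m) = PU.B u₁ m := fun m => by rw [← ia u₁ m, c6]
    have i2 := h.skew_opR (skew_wd h.oW w v) (g (T.τ u₁ y)) (g (T.τ u' y'))
    rw [n1, n1, B_isom (h.isom hg), B_isom (h.isom hg), d2, d4] at i2
    simpa [h.tf.B_τ, hu', lg_apply a, i1] using i2
  obtain ⟨y₂, d6⟩ : ∃ y, lg F b (lg F b y) ≠ 0 := by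
    by_contra hc
    push Not at hc
    have := LinearMap.congr_fun (h.idx.eq_zero h.oW d5 hc) y₁
    rw [lg_apply, show b y₁ - y₁ = w₁ from rfl, c5] at this
    exact c1 (by simpa using this)
  have d7 : ∀ u, lg F a u = 0 := fun u => by
    have i1 : lg F a (lg F a u) = 0 := by simpa [h2, T.τ_eq_zero, d6] using (d3 u y₂).2.2
    simpa [h2, i1, T.τ_eq_zero, d6] using (d3 u y₂).2.1
  simp only [d7, map_zero, LinearMap.zero_apply, zero_add] at d4
  refine h.mem_TG_of_col d6 h0 ?_ hw hg fun u => ?_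
  · have := LinearMap.congr_fun n2 (T.τ u₁ y₂)
    simp only [Module.End.mul_apply, d4, LinearMap.zero_apply, T.τ_eq_zero, c3, false_or] at this
    rw [d5, this]; simp
  · rw [← d4, ← d4, ← n1, ← n1, h.opR_sq hw hv]
    exact T.τ_mem_col _ _

end St

end H21.TO
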