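import Mathlib
import Cfsg.Agent.Base
import Cfsg.Agent.Lib.Tensor.OO3
import Cfsg.Agent.Lib.Tensor.Core
import Cfsg.Agent.Lib.LowRows.TI

/-!
Orthogonal tensor factors: averaging over groups of Eichler transformations.
-/

set_option autoImplicit false
set_option linter.unusedSectionVars false

namespace H21.TO

open Module Cfsg H97 H28 H11.Ten

section W

variable {F W : Type*} [Field F] [AddCommGroup W] [Module F W]

variable (P : PQ F W (RingHom.id F)) in
/-- Eichler transformations with a non-singular direction. -/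
def RR : Set (W ≃ₗ[F] W) := {β | ∃ w v, w ≠ 0 ∧ P.B w w = 0 ∧ P.B w v = 0 ∧ P.B v v ≠ 0 ∧
  ∀ y, β y = ex (wd P w v) (1 : F) y}

variable (P : PQ F W (RingHom.id F)) in
/-- Large enough anisotropic subspaces. -/
def HE (d : ℕ) : Prop := ∀ w, w ≠ 0 → P.B w w = 0 → ∃ (r : ℕ) (c : (Fin r → F) →ₗ[F] W),
  (∀ a, P.B w (c a) = 0) ∧ (∀ a, a ≠ 0 → P.B (c a) (c a) ≠ 0) ∧ d < r * (Nat.card F - 1)

variable (P : PQ F W (RingHom.id F)) in
/-- The span of the maps `a ∧ b`. -/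
def sk : Submodule F (Module.End F W) := Submodule.span F {x | ∃ a b, x = wd P a b}

variable (P : PQ F W (RingHom.id F)) in
/-- A group of Eichler transformations. -/
structure Fam (w : W) {r : ℕ} (c : (Fin r → F) →ₗ[F] W) (ζ : (Fin r → F) → W ≃ₗ[F] W) : Prop where
  sing : P.B w w = 0
  perp : ∀ a, P.B w (c a) = 0
  mem : ∀ a, ζ a ∈ EG P
  app : ∀ a y, ζ a y = ex (wd P w (c a)) (1 : F) y

variable {P : PQ F W (RingHom.id F)} [FiniteDimensional F W] (h : IsOrth P)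
include h

theorem RR_sub : RR P ⊆ EG P := fun _ ⟨_, _, _, hw, hv, _, e⟩ => (has_ex h hw hv 1).mem e

theorem exists_fam {w : W} (hw : P.B w w = 0) {r : ℕ} {c : (Fin r → F) →ₗ[F] W}
    (hc : ∀ a, P.B w (c a) = 0) : ∃ ζ, Fam P w c ζ := by
  choose ζ h1 h2 using fun a => has_ex h hw (hc a) 1
  exact ⟨ζ, hw, hc, h1, h2⟩

theorem cN_wd {β : W ≃ₗ[F] W} (hβ : β ∈ P.Isom) (a b : W) :
    cN β (wd P a b) = wd P (β a) (β b) := by
  ext y; simp only [cN_apply, wd_apply, map_sub, map_smul, B_isom_inv' hβ]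

theorem skew_of_sk {x : Module.End F W} (hx : x ∈ sk P) : Skew P x := by
  induction hx using Submodule.span_induction with
  | mem _ hx => obtain ⟨a, b, rfl⟩ := hx; exact skew_wd h a b
  | zero => intro a b; simp
  | add x y _ _ hx hy => intro a b; simp [hx a b, hy a b]; ring
  | smul c x _ hx => intro a b; simp [hx a b]

theorem sing_span [Finite F] (h3 : 3 ≤ finrank F W) {L : Submodule F W}
    (hL : ∀ w, w ≠ 0 → P.B w w = 0 → w ∈ L) : L = ⊤ := by
  obtain ⟨w, h0, hw⟩ := exists_sing h h3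
  obtain ⟨f, hf, hwf⟩ := partner h h0 hw
  refine span_top h.nd h.max (Or.inr ⟨h3, h.two⟩) (h.max _ hw) (h.max _ hf) hwf (hL w h0 hw)
    fun v c a1 a2 a3 _ => hL _ (fun e => ?_) ?_
  · simpa [hf, a2, h.symm f w, hwf] using congrArg (P.B f) e
  · have a5 : P.B v v = 2 * c := by rw [h.self, sub_eq_zero.1 (h.Λ_eq a3)]
    simp [hw, hf, hwf, a1, a2, h.symm v w, h.symm v f, h.symm f w, a5]; ring

namespace Fam

variable {w : W} {r : ℕ} {c : (Fin r → F) →ₗ[F] W} {ζ : (Fin r → F) → W ≃ₗ[F] W} (f : Fam P w c ζ)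
include f

theorem app' (a : Fin r → F) (y : W) : ζ a y = y + (P.B (c a) y • w - P.B w y • c a) -
    (2⁻¹ * P.B w y * P.B (c a) (c a)) • w := by
  rw [f.app, ex_apply, wd_sq h f.sing (f.perp a), wd_apply]
  module

theorem add (a b : Fin r → F) : ζ (a + b) = ζ a * ζ b := LinearEquiv.ext fun y => by
  have := h.two
  simp only [le_mul_apply, f.app' h, map_add, map_sub, map_smul, LinearMap.add_apply, f.sing, f.perp,
    h.symm (c _) w, h.symm (c b) (c a), smul_eq_mul]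
  match_scalars <;> field_simp <;> ring

theorem zero : ζ 0 = 1 := by simpa using f.add h 0 0

theorem inv (a : Fin r → F) : (ζ a)⁻¹ = ζ (-a) :=
  inv_eq_of_mul_eq_one_right (by rw [← f.add h, add_neg_cancel, f.zero h])

omit h f in
theorem pd_c : (fun a => c a) ∈ PD (fun _ : Fin r => 1) W 1 :=
  PD.congr (PD.sum Finset.univ fun i _ => PD.coord i (c (Pi.single i 1))) fun a => by
    conv_lhs => rw [pi_eq_sum_univ' a]
    simp [Pi.single_apply]

omit f in
theorem pd_lin (y : W) :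
    (fun a => y + (P.B (c a) y • w - P.B w y • c a)) ∈ PD (fun _ : Fin r => 1) W 1 :=
  PD.add (PD.const y) (PD.map ((P.B.flip y).smulRight w - P.B w y • LinearMap.id) pd_c)

omit f h in
theorem pd_q {E : Type*} [AddCommGroup E] [Module F E] (e : E) :
    (fun a => P.B (c a) (c a) • e) ∈ PD (fun _ : Fin r => 1) E 2 := by
  have := PD.bil P.B (pd_c (c := c)) (pd_c (c := c))
  exact PD.map (LinearMap.toSpanSingleton F E e) this

theorem pd2 (y : W) : (fun a => ζ a y) ∈ PD (fun _ : Fin r => 1) W 2 := by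
  have := PD.sub (PD.mono one_le_two (pd_lin (w := w) (c := c) h y))
    (pd_q (P := P) (c := c) ((2⁻¹ * P.B w y) • w))
  exact PD.congr this fun a => by simp [f.app' h, smul_smul, mul_comm]

theorem pd1 {y : W} (hy : P.B w y = 0) : (fun a => ζ a y) ∈ PD (fun _ : Fin r => 1) W 1 :=
  PD.congr (pd_lin (w := w) (c := c) h y) fun a => by simp [f.app' h, hy]

theorem pd0 : (fun a => ζ a w) ∈ PD (fun _ : Fin r => 1) W 0 :=
  PD.congr (PD.const w) fun a => by simp [f.app' h, f.sing, h.symm (c a) w, f.perp]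

theorem pdE (s : F) : (fun a => (ζ (s • a) : Module.End F W)) ∈
    PD (fun _ : Fin r => 1) (Module.End F W) 2 := by
  let b := Module.finBasis F W
  have f' : Fam P w (s • c) fun a => ζ (s • a) := ⟨f.sing, fun a => by simp [f.perp],
    fun a => f.mem _, fun a y => by simp [f.app]⟩
  refine PD.congr (PD.sum Finset.univ fun i _ => PD.map ((LinearMap.smulRightₗ (b.coord i)))
    (f'.pd2 h (b i))) fun a => b.ext fun i => ?_
  simp [LinearMap.sum_apply, Finsupp.single_apply]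

theorem pd4 (x : Module.End F W) : (fun a => cN (ζ a) x) ∈
    PD (fun _ : Fin r => 1) (Module.End F W) 4 := by
  have h1 := PD.mul (f.pdE h 1) (PD.const (d := 0) x)
  have h2 := PD.mul h1 (f.pdE h (-1))
  exact PD.congr h2 fun a => by simp only [one_smul, neg_smul, ← f.inv h]; rfl

end Fam

/-- The bilinear map `∧`. -/
def wdL (P : PQ F W (RingHom.id F)) : W →ₗ[F] W →ₗ[F] Module.End F W :=
  LinearMap.mk₂ F (wd P) (fun _ _ _ => by ext; simp; module) (fun _ _ _ => by ext; simp; module)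
    (fun _ _ _ => by ext; simp; module) (fun _ _ _ => by ext; simp; module)

namespace Fam

variable {w : W} {r : ℕ} {c : (Fin r → F) →ₗ[F] W} {ζ : (Fin r → F) → W ≃ₗ[F] W} (f : Fam P w c ζ)
include f

theorem pw2 (y y' : W) : (fun a => cN (ζ a) (wd P y y')) ∈
    PD (fun _ : Fin r => 1) (Module.End F W) 2 := by
  have h1 := PD.bil (wdL P) (pd_lin (w := w) (c := c) h y) (pd_lin (w := w) (c := c) h y')
  have h2 := PD.add h1 (pd_q (P := P) (c := c)
    ((2⁻¹ * P.B w y') • wd P w y - (2⁻¹ * P.B w y) • wd P w y'))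
  refine PD.congr h2 fun a => ?_
  ext x
  simp [cN_wd h (EG_le_isom (f.mem a)), f.app' h, wdL]
  module

theorem pw1 (y : W) : (fun a => cN (ζ a) (wd P w y)) ∈
    PD (fun _ : Fin r => 1) (Module.End F W) 1 := by
  refine PD.congr (PD.map (wdL P w) (pd_lin (w := w) (c := c) h y)) fun a => ?_
  ext x
  simp [cN_wd h (EG_le_isom (f.mem a)), f.app' h, wdL, f.sing, h.symm (c a) w, f.perp]
  module

theorem pw1' {y y' : W} (hy : P.B w y = 0) (hy' : P.B w y' = 0) :
    (fun a => cN (ζ a) (wd P y y')) ∈ PD (fun _ : Fin r => 1) (Module.End F W) 1 := by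
  refine PD.congr (PD.add (PD.const (wd P y y')) (PD.map
    ((P.B.flip y).smulRight (wd P w y') - (P.B.flip y').smulRight (wd P w y)) (pd_c (c := c))))
    fun a => ?_
  ext x
  simp [cN_wd h (EG_le_isom (f.mem a)), f.app' h, hy, hy']
  module

end Fam

variable (P) in
/-- Vanishing in low degrees. -/
def Kill (d : ℕ) (G : Module.End F W →ₗ[F] W →ₗ[F] W →ₗ[F] F) : Prop :=
  ∀ w, w ≠ 0 → P.B w w = 0 → ∃ (r : ℕ) (c : (Fin r → F) →ₗ[F] W) (ζ : (Fin r → F) → W ≃ₗ[F] W),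
    Fam P w c ζ ∧ ∀ x y y' d₁ d₂ d₃, d₁ + d₂ + d₃ ≤ d →
      (fun a => cN (ζ a) x) ∈ PD (fun _ : Fin r => 1) (Module.End F W) d₁ →
      (fun a => ζ a y) ∈ PD (fun _ : Fin r => 1) W d₂ →
      (fun a => ζ a y') ∈ PD (fun _ : Fin r => 1) W d₃ → G x y y' = 0

variable [Finite F] (h3 : 3 ≤ finrank F W) {G : Module.End F W →ₗ[F] W →ₗ[F] W →ₗ[F] F}
include h3

theorem Kill.six (hG : Kill P 6 G) (x : Module.End F W) : G x = 0 := by
  refine LinearMap.ker_eq_top.1 (sing_span h h3 fun w h0 hw => LinearMap.ext fun y => ?_)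
  obtain ⟨r, c, ζ, f, k⟩ := hG w h0 hw
  exact k x w y 4 0 2 le_rfl (f.pd4 h x) (f.pd0 h) (f.pd2 h y)

theorem Kill.three (hG : Kill P 3 G) {x : Module.End F W} (hx : x ∈ sk P) : G x = 0 := by
  refine (Submodule.span_le.2 ?_ : sk P ≤ LinearMap.ker G) hx
  rintro _ ⟨a, b, rfl⟩
  refine LinearMap.ker_eq_top.1 (sing_span h h3 fun w h0 hw => LinearMap.ext fun y => ?_)
  obtain ⟨f, hf, hwf⟩ := partner h h0 hw
  have hfw := (h.symm f w).trans hwf
  obtain ⟨r, c, ζ, f₁, k₁⟩ := hG w h0 hw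
  obtain ⟨r', c', ζ', f₂, k₂⟩ := hG f (by rintro rfl; simp at hwf) hf
  have e1 := k₁ _ w (y - P.B w y • f) 2 0 1 le_rfl (f₁.pw2 h a b) (f₁.pd0 h)
    (f₁.pd1 h (by simp [hwf]))
  have e2 := fun y => k₁ _ w f 1 0 2 le_rfl (f₁.pw1 h y) (f₁.pd0 h) (f₁.pd2 h f)
  have e3 := fun y => k₂ _ w f 1 2 0 le_rfl (f₂.pw1 h y) (f₂.pd2 h w) (f₂.pd0 h)
  have e4 := k₁ _ w f 1 0 2 le_rfl (f₁.pw1' h (y := a - P.B w a • f) (y' := b - P.B w b • f)
    (by simp [hwf]) (by simp [hwf])) (f₁.pd0 h) (f₁.pd2 h f)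
  have e5 : wd P (a - P.B w a • f) (b - P.B w b • f) =
      wd P a b - P.B w a • wd P f b + P.B w b • wd P f a := by ext; simp; module
  simp [e5, e3] at e4
  simpa [e4] using e1

end W

variable {F U W V : Type*} [Field F] [AddCommGroup U] [Module F U] [AddCommGroup W]
  [Module F W] [AddCommGroup V] [Module F V] [FiniteDimensional F U] [FiniteDimensional F W]
  [Finite F] {T : TS F U W V} {PU : PQ F U (RingHom.id F)} {PW : PQ F W (RingHom.id F)}
  {P : PQ F V (RingHom.id F)}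

theorem cN_op (T : TS F U W V) (β : W ≃ₗ[F] W) (s : Module.End F U) (x : Module.End F W) :
    cN (T.opE 1 β) (T.op s x) = T.op s (cN β x) :=
  T.lext fun u w => by simp [cN_apply, T.opE_inv]

theorem van (h : TF T PU PW P) (hO : IsOrth PW) {d : ℕ} (hE : HE PW d) {x : Module.End F W}
    (hx : ∀ G, Kill PW d G → G x = 0) (𝒟 : Finset (Module.End F (Module.End F V)))
    (h1 : ∀ f ∈ 𝒟, ∀ β ∈ EG PW, act (T.opE 1 β) f ∈ 𝒟)
    (h2 : ∀ f ∈ 𝒟, ∀ β ∈ RR PW, act (T.opE 1 β) f ≠ f) (s : Module.End F U) :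
    (∑ f ∈ 𝒟, f) (T.op s x) = 0 := by
  classical
  have := Fintype.ofFinite F
  have := T.finite
  refine T.lext fun u y => h.nd _ fun z => ?_
  refine T.ind (p := fun z => P.B _ z = 0) z (by simp) (fun u' y' => ?_)
    fun _ _ a b => by rw [map_add, a, b, add_zero]
  let L : Module.End F V →ₗ[F] W →ₗ[F] W →ₗ[F] F :=
    LinearMap.llcomp F W V _ (P.B.compl₂ (T.τ u')) ∘ₗ LinearMap.lcomp F V (T.τ u)
  let G : Module.End F (Module.End F V) →ₗ[F] Module.End F W →ₗ[F] W →ₗ[F] W →ₗ[F] F :=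
    LinearMap.llcomp F _ _ _ L ∘ₗ LinearMap.lcomp F _
      (LinearMap.mulLeft F (T.inU s) ∘ₗ T.inW.toLinearMap)
  have hG : ∀ f x y y', G f x y y' = P.B (f (T.op s x) (T.τ u y)) (T.τ u' y') :=
    fun f x y y' => by rw [T.op_eq]; rfl
  rw [← hG, hx _ fun w h0 hw => ?_]
  · rfl
  obtain ⟨r, c, a1, a2, a3⟩ := hE w h0 hw
  obtain ⟨ζ, f⟩ := exists_fam hO hw a1
  refine ⟨r, c, ζ, f, fun x y y' d₁ d₂ d₃ hd b1 b2 b3 => ?_⟩
  simp only [map_sum, LinearMap.sum_apply]
  refine Low.sum_mem_of_free (fun a g => act (T.opE 1 (ζ (-a))) g)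
    (fun g => by rw [neg_zero, f.zero hO, T.opE_one_one, act_one])
    (fun a b g => by rw [neg_add, f.add hO, T.opE_one_mul, act_mul]) (fun g => G g x y y') ⊥ 𝒟
    (fun g hg a => h1 g hg _ (f.mem _)) (fun g hg a e => by_contra fun h0' => h2 g hg _
      ⟨w, c (-a), h0, hw, a1 _, a2 _ (neg_ne_zero.2 h0'), f.app _⟩ e) fun g _ => ?_
  refine Eq.trans (Finset.sum_congr rfl fun a _ => ?_) (PD.sum_eq_zero (d := d₁ + d₂ + d₃)
    (by simp; rw [Nat.card_eq_fintype_card] at a3; omega)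
    (PD.bil LinearMap.id (PD.bil (G g) b1 b2) b3))
  have hI := h.opE_isom (α := 1) (fun _ _ => rfl) (B_isom (EG_le_isom (f.mem a)))
  rw [hG, act_apply, ← f.inv hO, ← inv_one, ← T.opE_inv, inv_inv, cN_apply, inv_inv, B_isom_inv hI,
    cN_op]
  simp [hG]

end H21.TO
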