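import Mathlib
import Cfsg.Agent.Base
import Cfsg.Agent.Lib.Tensor.OO4
import Cfsg.Agent.Lib.Wr7.Form

/-!
Orthogonal tensor factors: the conjugates of the factors are factors.
-/

set_option autoImplicit false
set_option linter.unusedSectionVars false

namespace H21.TO

open Module Cfsg H97 H28 H11.Ten

theorem map_lg {F A B : Type*} [Field F] [Ring A] [Algebra F A] [Ring B] [Algebra F B]
    (φ : A →ₐ[F] B) (z : A) : φ (lg F z) = lg F (φ z) := by simp [lg]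

theorem lg_mem {F A : Type*} [Field F] [Ring A] [Algebra F A] {S : Subalgebra F A} {z : A}
    (h : z ∈ S) : lg F z ∈ S :=
  S.sub_mem (S.sub_mem h S.one_mem)
    (S.smul_mem (S.mul_mem (S.sub_mem h S.one_mem) (S.sub_mem h S.one_mem)) _)

section W

variable {F W : Type*} [Field F] [AddCommGroup W] [Module F W] {P : PQ F W (RingHom.id F)}
  [FiniteDimensional F W] (h : IsOrth P)
include h

theorem lg_RR {w v : W} (hw : P.B w w = 0) (hv : P.B w v = 0) {β : W ≃ₗ[F] W}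
    (e : ∀ y, β y = ex (wd P w v) (1 : F) y) : lg F (β : Module.End F W) = wd P w v := by
  rw [show (β : Module.End F W) = _ from LinearMap.ext e, lg_ex (wd_cube h hw hv)]

theorem wd_mul_self {w v : W} (hw : P.B w w = 0) (hv : P.B w v = 0) :
    wd P w v * wd P w v = -P.B v v • r1 P w w := by
  ext x; simp [-wd_apply, wd_sq h hw hv, smul_smul]

theorem exists_RR (h3 : 3 ≤ finrank F W) {w : W} (h0 : w ≠ 0) (hw : P.B w w = 0) :
    ∃ v, P.B w v = 0 ∧ P.B v v ≠ 0 ∧ ∃ β ∈ RR P, ∀ y, β y = ex (wd P w v) (1 : F) y := by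
  obtain ⟨f, hf, hwf⟩ := partner h h0 hw
  obtain ⟨v, a1, -, a2⟩ := exists_x h h3 hw hf hwf
  obtain ⟨β, -, e⟩ := has_ex h hw a1 1
  exact ⟨v, a1, a2, β, ⟨w, v, h0, hw, a1, a2, e⟩, e⟩

theorem top_of_r1 [Finite F] (h3 : 3 ≤ finrank F W) {S : Subalgebra F (Module.End F W)}
    (hS : ∀ w, w ≠ 0 → P.B w w = 0 → r1 P w w ∈ S) : S = ⊤ := by
  have a1 : ∀ w, w ≠ 0 → P.B w w = 0 → ∀ y, r1 P w y ∈ S := fun w h0 hw y => by
    obtain ⟨f, hf, hwf⟩ := partner h h0 hw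
    refine (span_top h.nd h.max (Or.inr ⟨h3, h.two⟩) (h.max _ hw) (h.max _ hf) hwf
      (L := S.toSubmodule.comap (LinearMap.smulRightₗ.flip w ∘ₗ P.B)) (hS w h0 hw)
      fun v c b1 b2 b3 b4 => ?_).ge Submodule.mem_top
    have a5 : P.B v v = 2 * c := by rw [h.self, sub_eq_zero.1 (h.Λ_eq b3)]
    have b5 : P.B w (w - c • f - v) = -c := by simp [hw, hwf, b1]
    refine mem_of_smul (S.mul_mem (hS w h0 hw) (hS (w - c • f - v) (fun e => b4 (by
      simpa [e] using b5)) ?_)) (neg_ne_zero.2 b4) fun z => by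
        simp only [LinearMap.comp_apply, LinearMap.flip_apply, LinearMap.smulRightₗ_apply,
          Module.End.mul_apply, r1_apply, map_smul, b5, smul_smul, mul_comm, smul_eq_mul,
          LinearMap.smulRight_apply]
    simp [hw, hf, hwf, b1, b2, h.symm v w, h.symm v f, h.symm f w, a5]; ring
  refine Subalgebra.toSubmodule_injective (Wr.eq_top_of_rank_one fun w φ => ?_)
  obtain ⟨y, hy⟩ := exists_repr_dual P.σσ P.B h.nd φ
  exact (sing_span h h3 (L := S.toSubmodule.comap (LinearMap.smulRightₗ φ)) fun w h0 hw =>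
    mem_of_eq (a1 w h0 hw y) fun z => by simp [hy]).ge Submodule.mem_top

theorem top_of_RR [Finite F] (h3 : 3 ≤ finrank F W) {S : Subalgebra F (Module.End F W)}
    (hS : ∀ β ∈ RR P, (β : Module.End F W) ∈ S) : S = ⊤ := top_of_r1 h h3 fun w h0 hw => by
  obtain ⟨v, a1, a2, β, hβ, e⟩ := exists_RR h h3 h0 hw
  have := lg_mem (hS β hβ)
  rw [lg_RR h hw a1 e] at this
  exact mem_of_smul (S.mul_mem this this) (neg_ne_zero.2 a2) fun z => by
    rw [wd_mul_self h hw a1]; rfl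

theorem Skew.pow {b : Module.End F W} (hb : Skew P b) {n : ℕ} (hn : Odd n) : Skew P (b ^ n) := by
  have : ∀ n x y, P.B ((b ^ n) x) y = (-1) ^ n * P.B x ((b ^ n) y) := fun n => by
    induction n with
    | zero => simp
    | succ n ih =>
      intro x y
      rw [pow_succ, Module.End.mul_apply, ih, hb, ← Module.End.mul_apply, ← pow_succ', pow_succ]
      ring
  intro x y
  simp [this, hn.neg_one_pow]

theorem Skew.of_central {b : Module.End F W} (hb : Skew P b) (hc : ∀ y, Commute b y) : b = 0 := by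
  obtain ⟨c, rfl⟩ := Wr.scalar_of_central hc
  refine LinearMap.ext fun x => h.nd _ fun y => (mul_eq_zero.1 ?_).resolve_left h.two
  have := hb x y
  simp only [LinearMap.smul_apply, map_smul, Module.End.one_apply, smul_eq_mul] at this ⊢
  linear_combination this

theorem exists_sing_ker [Finite F] (h3 : 3 ≤ finrank F W) {b : Module.End F W} (hb : Skew P b)
    (hn : IsNilpotent b) : ∃ w, w ≠ 0 ∧ P.B w w = 0 ∧ b w = 0 := by
  by_cases h0 : b = 0
  · obtain ⟨w, h1, h2⟩ := exists_sing h h3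
    exact ⟨w, h1, h2, by simp [h0]⟩
  · obtain ⟨y, h1, h2⟩ := exists_ker_range hn h0
    exact ⟨_, h1, by rw [hb, h2]; simp, h2⟩

theorem trace_wd (a b : W) : LinearMap.trace F W (wd P a b) = 0 := by
  rw [wd, map_sub, show r1 P a b = (P.B b).smulRight a from rfl,
    show r1 P b a = (P.B a).smulRight b from rfl, LinearMap.trace_smulRight,
    LinearMap.trace_smulRight, h.symm, sub_self]

end W

variable {F U W V : Type*} [Field F] [AddCommGroup U] [Module F U] [AddCommGroup W]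
  [Module F W] [AddCommGroup V] [Module F V] [FiniteDimensional F U] [FiniteDimensional F W]
  {PU : PQ F U (RingHom.id F)} {PW : PQ F W (RingHom.id F)} {P : PQ F V (RingHom.id F)}

theorem inW_inj (T : TS F U W V) [Nontrivial U] : Function.Injective T.inW := fun a b e => by
  obtain ⟨u, hu⟩ := exists_ne (0 : U)
  exact LinearMap.ext fun y => T.τ_inj_right hu (by simpa using LinearMap.congr_fun e (T.τ u y))

theorem B_inW {T : TS F U W V} (h : TF T PU PW P) {b b' : Module.End F W}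
    (hb : ∀ x y, PW.B (b x) y = PW.B x (b' y)) (x y : V) :
    P.B (T.inW b x) y = P.B x (T.inW b' y) := by
  have : P.B ∘ₗ T.inW b = P.B.compl₂ (T.inW b') := T.lext fun u w => T.lext fun u' w' => by
    simp [h.B_τ, hb w w']
  exact LinearMap.congr_fun₂ this x y

theorem inW_r1 (T : TS F U W V) (w y : W) (x : V) : T.inW (r1 PW w y) x = T.τ (T.cB PW y x) w :=
  T.inW_smulRight _ _ _

/-- A family of orthogonal tensor factors closed under `M`. -/
structure Fr (𝒪 : Set (TS F U W V)) (PU : PQ F U (RingHom.id F)) (PW : PQ F W (RingHom.id F))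
    (P : PQ F V (RingHom.id F)) (M : Subgroup (V ≃ₗ[F] V)) : Prop where
  tf : ∀ A ∈ 𝒪, TF A PU PW P
  oW : IsOrth PW
  dU : Nontrivial U
  dW : 3 ≤ finrank F W
  le : ∀ A ∈ 𝒪, ∀ β ∈ EG PW, A.opE 1 β ∈ M
  cl : ∀ A ∈ 𝒪, ∀ g ∈ M, A.map g ∈ 𝒪
  p1 : ∀ A ∈ 𝒪, ∀ B ∈ 𝒪, ∀ w w', w ≠ 0 → PW.B w w = 0 → A.col w ≤ B.col w' → B.Same A
  dich : ∀ A ∈ 𝒪, ∀ B ∈ 𝒪, ∀ β ∈ RR PW, A.opE 1 β ∈ B.TG →
    (∃ a, A.inW β = B.inU a) ∨ ∃ b, A.inW β = B.inW b

namespace Fr

variable [Finite F] {𝒪 : Set (TS F U W V)} {M : Subgroup (V ≃ₗ[F] V)} (h : Fr 𝒪 PU PW P M)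
  {A B : TS F U W V}
include h

theorem stab (hA : A ∈ 𝒪) {g : V ≃ₗ[F] V} (hg : g ∈ M) {w : W} (h0 : w ≠ 0) (hw : PW.B w w = 0)
    (e : ∀ u, g (A.τ u w) ∈ A.col w) : g ∈ A.TG :=
  h.p1 _ (h.cl A hA g hg) A hA w w h0 hw (by rintro _ ⟨u, rfl⟩; exact e u)

theorem col_sq (A : TS F U W V) {w v : W} (h0 : w ≠ 0) (hw : PW.B w w = 0) (hv : PW.B w v = 0)
    (hv' : PW.B v v ≠ 0) : LinearMap.range (A.inW (wd PW w v) * A.inW (wd PW w v)) = A.col w := by
  obtain ⟨f, -, hwf⟩ := partner h.oW h0 hw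
  rw [← map_mul, wd_mul_self h.oW hw hv, map_smul, LinearMap.range_smul _ _ (neg_ne_zero.2 hv')]
  refine le_antisymm ?_ ?_
  · rintro _ ⟨x, rfl⟩; exact ⟨_, (inW_r1 A w w x).symm⟩
  · rintro _ ⟨u, rfl⟩; exact ⟨A.τ u f, by simp [hwf]⟩

theorem same_of_eq (hA : A ∈ 𝒪) (hB : B ∈ 𝒪) {β : W ≃ₗ[F] W} (hβ : β ∈ RR PW)
    {b : Module.End F W} (e : A.inW β = B.inW b) : B.Same A := by
  have := h.dU
  obtain ⟨w, v, h0, hw, hv, hv', eβ⟩ := hβ
  have e1 := h.col_sq A h0 hw hv hv'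
  rw [← lg_RR h.oW hw hv eβ, map_lg, e, ← map_lg, ← map_mul] at e1
  obtain ⟨w', -, e2, -⟩ := B.col_eq_of_inW (x := lg F b * lg F b) (fun e0 => by
    obtain ⟨u, hu⟩ := exists_ne (0 : U)
    simpa [← e1, e0, A.τ_eq_zero, hu, h0] using A.τ_mem_col u w) (A.finrank_col h0).le e1.le
  exact h.p1 A hA B hB w w' h0 hw e2.ge

theorem free (hA : A ∈ 𝒪) (hB : B ∈ 𝒪) {β : W ≃ₗ[F] W} (hβ : β ∈ RR PW) (e : A.opE 1 β ∈ B.TG) :
    A.Same B ∨ A.Comm B := by
  rcases h.dich A hA B hB β hβ e with ⟨a, ha⟩ | ⟨b, hb⟩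
  swap
  · exact Or.inl (h.same_of_eq hA hB hβ hb).symm
  obtain ⟨w, v, h0, hw, hv, hv', eβ⟩ := hβ
  refine or_iff_not_imp_left.2 fun hs x y => ?_
  refine (top_of_RR h.oW h.dW (S := (Subalgebra.centralizer F {A.inW x}).comap B.inW)
    fun γ hγ => ?_).ge Algebra.mem_top _ rfl
  have c1 : Commute (B.inW γ) (A.inW (wd PW w v)) := by
    rw [← lg_RR h.oW hw hv eβ, map_lg, ha, ← map_lg]
    exact (B.commute_in _ _).symm
  rcases h.dich B hB A hA γ hγ (h.stab hA (h.le B hB γ (RR_sub h.oW hγ)) h0 hw fun u => by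
    obtain ⟨z, hz⟩ := (h.col_sq A h0 hw hv hv').ge (A.τ_mem_col u w)
    rw [← hz, ← h.col_sq A h0 hw hv hv']
    exact ⟨_, (LinearMap.congr_fun (c1.mul_right c1).eq z).symm⟩) with ⟨a', ha'⟩ | ⟨b, hb⟩
  · rintro _ rfl
    exact (ha' ▸ (A.commute_in a' x).symm : Commute _ (B.inW γ)).eq
  · exact (hs (h.same_of_eq hB hA hγ hb)).elim

theorem ident (hA : A ∈ 𝒪) {w v : W} (h0 : w ≠ 0) (hw : PW.B w w = 0) (hv : PW.B w v = 0)
    (hv' : PW.B v v ≠ 0) {ι : Type*} {T : ι → TS F U W V} (hT : ∀ i, T i ∈ 𝒪)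
    (hc : ∀ i j, i ≠ j → (T i).Comm (T j)) {J : Finset ι} {y : ι → Module.End F W}
    (e : A.inW (wd PW w v) = ∑ l ∈ J, (T l).inW (y l)) : ∃ l ∈ J, (T l).Same A := by
  classical
  have := h.dU
  have := A.finite
  have : Nontrivial W := ⟨w, 0, h0⟩
  have h2 := h.oW.two
  have : Fact (ringChar F).Prime := ⟨CharP.char_is_prime F _⟩
  have hp : Odd (ringChar F) := (Fact.out : (ringChar F).Prime).odd_of_ne_two fun e =>
    h2 ((ringChar.spec F 2).2 (by rw [e]))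
  choose y' hy' using fun l => exists_adj h.oW.nd (y l)
  set N := A.inW (wd PW w v) with hN
  have e1 : N = ∑ l ∈ J, (T l).inW ((2⁻¹ : F) • (y l - y' l)) := by
    have : ∑ l ∈ J, (T l).inW (y' l) = -N := LinearMap.ext fun b =>
      sub_eq_zero.1 (sep_right (h.tf A hA).nd fun a => by
        have := B_inW (h.tf A hA) (b' := -wd PW w v) (fun x y => by
          rw [skew_wd h.oW w v, LinearMap.neg_apply, map_neg]) a b
        simp only [← hN, e, map_neg, LinearMap.sum_apply, map_sum, B_inW (h.tf _ (hT _)) (hy' _),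
          map_sub, LinearMap.neg_apply] at this ⊢
        rw [this, sub_self])
    simp only [map_smul, map_sub, ← Finset.smul_sum, Finset.sum_sub_distrib, ← e, this]
    match_scalars; field_simp; ring
  obtain ⟨l, hl, hb⟩ : ∃ l ∈ J, (2⁻¹ : F) • (y l - y' l) ≠ 0 := by
    by_contra hc
    push Not at hc
    obtain ⟨u, hu⟩ := exists_ne (0 : U)
    have := (h.col_sq A h0 hw hv hv').ge (A.τ_mem_col u w)
    rw [← hN, e1, Finset.sum_eq_zero fun l hl => by rw [hc l hl, map_zero]] at this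
    simp [A.τ_eq_zero, hu, h0] at this
  have s1 : Skew PW ((2⁻¹ : F) • (y l - y' l)) := fun a b => by
    simp [hy' l a b, h.oW.symm (y' l a), ← hy' l b a, h.oW.symm (y l b)]; ring
  rw [← Finset.add_sum_erase _ _ hl] at e1
  generalize (2⁻¹ : F) • (y l - y' l) = b at hb s1 e1
  obtain ⟨α, hα⟩ := (T l).exists_inU fun x => Commute.sum_left _ _ _ fun m hm =>
    hc m l (Finset.mem_erase.1 hm).1 ((2⁻¹ : F) • (y m - y' m)) x
  rw [hα] at e1
  have k : ∀ {c : Module.End F W}, Skew PW c → (∀ x, Commute ((T l).inW c) ((T l).inW x)) → c = 0 :=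
    fun hc e => hc.of_central h.oW fun x => inW_inj (T l) (by simpa using (e x).eq)
  have n3 : N * (N * N) = 0 := by rw [hN, ← map_mul, ← map_mul, wd_cube h.oW hw hv, map_zero]
  obtain ⟨w₁, a1, a2, a3⟩ := exists_sing_ker h.oW h.dW s1 ⟨_, k (s1.pow h.oW hp) fun x => by
    have := (T l).nontrivial
    have := charP_of_injective_algebraMap (algebraMap F (Module.End F V)).injective (ringChar F)
    have e2 := add_pow_char_of_commute (ringChar F) ((T l).commute_in α b).symm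
    rw [← e1, pow_eq_zero_of_le (m := 3) (by
      have := (Fact.out : (ringChar F).Prime).two_le; obtain ⟨k, hk⟩ := hp; omega)
      (by rw [← n3, pow_three]), ← map_pow, ← map_pow] at e2
    rw [eq_neg_of_add_eq_zero_left e2.symm]
    exact ((T l).commute_in _ _).neg_left⟩
  obtain ⟨β, hβ, eβ⟩ := has_ex h.oW hw hv 1
  rcases h.free hA (hT l) ⟨w, v, h0, hw, hv, hv', eβ⟩ (h.stab (hT l) (h.le A hA β hβ) a1 a2
    fun u => ⟨ex α (1 : F) u, by
      change _ = A.inW β _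
      rw [show (β : Module.End F W) = _ from LinearMap.ext eβ, map_ex, ← hN]
      exact (ex_comm (j := (T l).τ.flip w₁) (fun x => by simp [e1, a3]) 1 u).symm⟩) with a4 | a4
  · exact ⟨l, hl, a4.symm⟩
  · refine (hb (k s1 fun x => ?_)).elim
    rw [eq_sub_of_add_eq e1.symm]
    exact (a4 _ x).sub_left ((T l).commute_in _ _)

theorem nofree (hE : HE PW 2) (A : TS F U W V) {ι : Type*} {T : ι → TS F U W V}
    (hc : ∀ i j, i ≠ j → (T i).Comm (T j)) {J : Finset ι} (hJ : J.Nonempty) :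
    ¬ ∀ β ∈ RR PW, ∀ j ∈ J, ∃ l ∈ J, l ≠ j ∧ (T l).Same ((T j).map (A.opE 1 β)) := fun H => by
  classical
  have := h.dU
  have := Fintype.ofFinite F
  obtain ⟨j, hj⟩ := hJ
  have : Nonempty ι := ⟨j⟩
  obtain ⟨w, h0, hw⟩ := exists_sing h.oW h.dW
  have : Nontrivial W := ⟨w, 0, h0⟩
  obtain ⟨r, c, a1, a2, a3⟩ := hE w h0 hw
  obtain ⟨ζ, f⟩ := exists_fam h.oW hw a1
  choose! l hl using fun a (ha : a ≠ 0) => H (ζ a) ⟨w, c a, h0, hw, a1 a, a2 a ha, f.app a⟩ j hj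
  choose! w' hw' using fun a (ha : a ≠ 0) => (hl a ha).2.2.col w
  have b1 : ∀ a b, a ≠ 0 → b ≠ 0 → l a = l b → a = b := fun a b ha hb e => by
    by_contra hab
    have h1 : -a + b ≠ 0 := fun e => hab (neg_add_eq_zero.1 e)
    have h2 := ((hl a ha).2.2.symm.trans (e ▸ (hl b hb).2.2)).map (A.opE 1 (ζ (-a)))
    rw [TS.map_map, TS.map_map, ← A.opE_one_mul, ← A.opE_one_mul, ← f.add h.oW, ← f.add h.oW,
      neg_add_cancel, f.zero h.oW, A.opE_one_one, TS.map_one] at h2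
    exact TS.not_comm_self (by have := h.dW; omega)
      ((hc j _ (hl _ h1).2.1.symm).of_same ((hl _ h1).2.2.trans h2.symm))
  have b2 : ∀ m, ∃ x : Module.End F W, x ≠ 0 ∧ ∀ a, a ≠ 0 → l a = m → x (w' a) = 0 := fun m => by
    by_cases e : ∃ a, a ≠ 0 ∧ l a = m
    · obtain ⟨a, ha, rfl⟩ := e
      obtain ⟨φ, c1, c2, -⟩ := exists_dual_two h.dW (w' a) (w' a)
      obtain ⟨y, hy⟩ := exists_apply_eq_one c1
      exact ⟨φ.smulRight w, fun e => h0 (by simpa [hy] using LinearMap.congr_fun e y),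
        fun b hb e => by simp [b1 b a hb ha e, c2]⟩
    · exact ⟨1, one_ne_zero, fun a ha e' => (e ⟨a, ha, e'⟩).elim⟩
  choose x hx using b2
  refine not_col_le hc (S := (Finset.univ.erase 0).image l) (j := j) (by
    simp only [Finset.mem_image, Finset.mem_erase, not_exists, not_and]
    exact fun a ha => (hl a ha.1).2.1) x (fun m => (hx m).1) h0 fun z hz => ?_
  have b3 := PD.sum_eq_zero (d := 2) (by simp; rw [Nat.card_eq_fintype_card] at a3; omega)
    (f.pdE h.oW 1)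
  have b4 := LinearMap.congr_fun (congrArg A.inW b3) z
  rw [map_sum, LinearMap.sum_apply, ← Finset.add_sum_erase _ _ (Finset.mem_univ 0), smul_zero,
    f.zero h.oW, show A.inW ((1 : W ≃ₗ[F] W) : Module.End F W) = 1 from map_one _, map_zero] at b4
  rw [show z = _ from eq_neg_of_add_eq_zero_left b4]
  refine Submodule.neg_mem _ (Submodule.sum_mem _ fun a ha => ?_)
  have ha0 := (Finset.mem_erase.1 ha).1
  refine Submodule.mem_iSup_of_mem (l a) (Submodule.mem_iSup_of_mem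
    (Finset.mem_image_of_mem l ha) ?_)
  obtain ⟨u, rfl⟩ := hz
  obtain ⟨u', hu'⟩ := (hw' a ha0).le ⟨u, rfl⟩
  rw [one_smul]
  change (T (l a)).inW _ (A.opE 1 (ζ a) ((T j).τ u w)) = 0
  rw [show A.opE 1 (ζ a) ((T j).τ u w) = _ from hu'.symm]
  simp [(hx (l a)).2 a ha0 rfl]

theorem main {ι : Type*} [Fintype ι] {T : ι → TS F U W V} (hT : ∀ i, T i ∈ 𝒪)
    (hc : ∀ i j, i ≠ j → (T i).Comm (T j)) (hall : ∀ A ∈ 𝒪, ¬ ∀ j, (T j).Comm A)
    {d : ℕ} (hd : 2 ≤ d) (hE : HE PW d) (𝔤 : Submodule F (Module.End F W))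
    (h𝔤 : ∀ x ∈ 𝔤, ∀ G, Kill PW d G → G x = 0) (𝒦 : Submodule F (Module.End F V))
    (h𝒦 : ∀ g ∈ M, ∀ a ∈ 𝒦, cN g a ∈ 𝒦)
    (hK : ∀ j, 𝒦 ≤ (T j).KK 𝔤 ⊔ ⨆ i, (T i).KK (𝔤 ⊓ LinearMap.ker (LinearMap.trace F W)))
    (hs : ∃ s, LinearMap.trace F U s = 1 ∧ ∀ j a b, (T j).op s (wd PW a b) ∈ 𝒦) :
    ∀ g ∈ M, ∀ i, ∃ j, (T j).Same ((T i).map g) := by
  have := h.dU
  obtain ⟨s, s1, s2⟩ := hs
  obtain ⟨w, h0, hw⟩ := exists_sing h.oW h.dW
  obtain ⟨v, a1, a2, -⟩ := exists_RR h.oW h.dW h0 hw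
  exact core (by have := h.dW; omega) hc (EG PW) (RR PW) (RR_sub h.oW) (fun i => h.le _ (hT i))
    (fun g hg i => hall _ (h.cl _ (hT i) g hg))
    (fun g hg i j β hβ => h.free (hT j) (h.cl _ (hT i) g hg) hβ) 𝔤 𝒦 h𝒦 hK
    (fun j 𝒟 _ b1 b2 s x hx => van (h.tf _ (hT j)) h.oW hE (h𝔤 x hx) 𝒟 b1 b2 s)
    (fun j => ⟨s, wd PW w v, s1, trace_wd h.oW w v, s2 j w v, fun g hg J y e =>
      h.ident (h.cl _ (hT j) g hg) h0 hw a1 a2 hT hc (by rw [TS.map_inW, e])⟩)
    fun g _ i J hJ => h.nofree (fun w h0 hw => by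
      obtain ⟨r, c, b1, b2, b3⟩ := hE w h0 hw
      exact ⟨r, c, b1, b2, by omega⟩) _ hc hJ

end Fr

end H21.TO
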