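import Mathlib
import Cfsg.Agent.Base
import Cfsg.Agent.Lib.Tensor.OO5

/-!
The tensor product of orthogonal spaces of dimensions three and four (minus type).
-/

set_option autoImplicit false
set_option linter.unusedSectionVars false

namespace H21.TO

open Module Cfsg H97 H28 H11.Ten

section W

variable {F W : Type*} [Field F] [AddCommGroup W] [Module F W] {P : PQ F W (RingHom.id F)}
  [FiniteDimensional F W] (h : IsOrth P)
include h

theorem he_one (h3 : 3 ≤ finrank F W) (hq : 5 ≤ Nat.card F) : HE P 3 := fun w h0 hw => by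
  obtain ⟨v, a1, a2, -⟩ := exists_RR h h3 h0 hw
  refine ⟨1, (LinearMap.proj 0).smulRight v, fun a => by simp [a1], fun a ha => ?_, by omega⟩
  have : a 0 ≠ 0 := fun e => ha (funext fun i => by rw [Subsingleton.elim i 0, e]; rfl)
  simp [this, a2]

theorem he_idx (hI : Idx1 P) (h4 : 4 ≤ finrank F W) {d : ℕ} (hd : d < 2 * (Nat.card F - 1)) :
    HE P d := fun w h0 hw => by
  obtain ⟨f, hf, hwf⟩ := partner h h0 hw
  have h1 := finrank_ker_dual (F := F) ⊤ (P.B w)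
  have h2 := finrank_ker_dual (⊤ ⊓ LinearMap.ker (P.B w)) (P.B f)
  rw [finrank_top] at h1
  obtain ⟨c, hc⟩ := exists_linearIndependent_of_le_finrank (R := F)
    (M := ↥(⊤ ⊓ LinearMap.ker (P.B w) ⊓ LinearMap.ker (P.B f) : Submodule F W)) (n := 2) (by omega)
  have h3 := fun a => (Fintype.linearCombination F c a).2
  refine ⟨2, Submodule.subtype _ ∘ₗ Fintype.linearCombination F c, fun a => (h3 a).1.2,
    fun a ha e => ha ?_, hd⟩
  obtain ⟨t, ht⟩ := Submodule.mem_span_singleton.1 (hI w _ h0 hw e (h3 a).1.2)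
  have h5 : t = 0 := by simpa [h.symm f w, hwf] using (congrArg (P.B f) ht).trans (h3 a).2
  exact hc.fintypeLinearCombination_injective (Subtype.ext (by simpa [h5] using ht.symm))

theorem idx1_of (h4 : finrank F W = 4)
    (hS : ∀ S : Submodule F W, (∀ x ∈ S, P.B x x = 0) → finrank F S ≠ 2) : Idx1 P :=
  fun w y h0 hw hy hwy => by_contra fun e => hS _ (fun x hx => by
    obtain ⟨_, a, _, b, rfl⟩ := Submodule.mem_sup.1 hx
    obtain ⟨a, rfl⟩ := Submodule.mem_span_singleton.1 a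
    obtain ⟨b, rfl⟩ := Submodule.mem_span_singleton.1 b
    simp [hw, hy, hwy, h.symm y w]) (finrank_span_sup_span h0 e)

end W

theorem ofQuad_orth {F V : Type*} [Field F] [AddCommGroup V] [Module F V] [FiniteDimensional F V]
    (h2 : (2 : F) ≠ 0) {Q : QuadraticForm F V} (hQ : (QuadraticMap.polarBilin Q).SeparatingLeft) :
    IsOrth (PQ.ofQuad Q) :=
  ⟨rfl, h2, hQ, fun u hu => ofQuad_q_mem.2 (by rw [ofQuad_B] at hu; simpa [h2] using hu)⟩

variable {F U W V : Type*} [Field F] [AddCommGroup U] [Module F U] [AddCommGroup W]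
  [Module F W] [AddCommGroup V] [Module F V] [FiniteDimensional F U] [FiniteDimensional F W]
  {PU : PQ F U (RingHom.id F)} {PW : PQ F W (RingHom.id F)} {P : PQ F V (RingHom.id F)}
  {T : TS F U W V} {M : Subgroup (V ≃ₗ[F] V)}

theorem tf_map (h : TF T PU PW P) (hO : IsOrth P) {g : V ≃ₗ[F] V} (hg : g ∈ P.Isom) :
    TF (T.map g) PU PW P :=
  have := T.finite
  { h with
    B_τ := fun u w u' w' => (B_isom hg _ _).trans (h.B_τ u w u' w')
    isom := fun _ _ => mem_isom hO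
    sing := fun u w e => hO.max _ ((B_isom hg _ _).trans ((h.B_τ u w u w).trans e)) }

theorem mem_map_TG {g z : V ≃ₗ[F] V} : z ∈ (T.map g).TG ↔ g⁻¹ * z * g ∈ T.TG := Wr.mem_TG_mapT T

theorem exists_not_rel [Finite F] (h : TF T PU PW P) (oU : IsOrth PU) (oW : IsOrth PW)
    (oV : IsOrth P) (dU : 3 ≤ finrank F U) (dW : 3 ≤ finrank F W) :
    ∃ g ∈ EG P, ¬ Wr.Rel (Wr.mapT T g) T := by
  have : Nontrivial U := Module.nontrivial_of_finrank_pos (R := F) (by omega)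
  obtain ⟨w, h0, hw⟩ := exists_sing oW dW
  obtain ⟨u, hu0, hu⟩ := exists_sing oU dU
  obtain ⟨f, hf, huf⟩ := partner oU hu0 hu
  obtain ⟨y, hy⟩ := exists_B_ne oW.nd h0
  obtain ⟨g, hg, e⟩ := has_eu_EG (P := P) (d := T.τ u w) (w := T.τ f w) (c := 0)
    (h.singW u (oW.max w hw)) (by simp [h.B_τ, hw]) (by simpa using h.singW f (oW.max w hw))
  refine ⟨g, hg, Wr.not_rel_of_lev (s := wd PU u f) h0 (φ := PW.B w) (fun e => hy (by simp [e])) hw
    (fun c hc => ?_) fun x => by simp [e, eu_apply, h.B_left, oV.ε, TS.cB]; abel⟩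
  have h1 := congrArg (PU.B f) (LinearMap.congr_fun hc u)
  have h2 := congrArg (PU.B u) (LinearMap.congr_fun hc f)
  simp [hu, hf, huf, oU.symm f u] at h1 h2
  exact oU.two (by linear_combination h1 - h2)

theorem St.fr [Finite F] (h : St T PU PW P M)
    (p1 : ∀ g ∈ M, ∀ w w', w ≠ 0 → PW.B w w = 0 → (∀ u, g (T.τ u w) ∈ T.col w') → g ∈ T.TG) :
    Fr {A | ∃ g ∈ M, A = T.map g} PU PW P M where
  tf := by rintro _ ⟨g, hg, rfl⟩; exact tf_map h.tf h.oV (h.isom hg)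
  oW := h.oW
  dU := Module.nontrivial_of_finrank_pos (R := F) (by rw [h.dU]; omega)
  dW := h.dW
  le := by
    rintro _ ⟨g, hg, rfl⟩ β hβ
    rw [TS.map_opE]
    exact M.mul_mem (M.mul_mem hg (h.le (h.tf.opW_mem hβ))) (M.inv_mem hg)
  cl := by rintro _ ⟨g, hg, rfl⟩ k hk; exact ⟨k * g, M.mul_mem hk hg, rfl⟩
  p1 := by
    rintro _ ⟨g, hg, rfl⟩ _ ⟨k, hk, rfl⟩ w w' h0 hw e
    simpa [TS.map_map] using (TS.same_map_iff.2 (p1 _ (M.mul_mem (M.inv_mem hk) hg) w w' h0 hw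
      fun u => TS.mem_map_col _ |>.1 (e ⟨u, rfl⟩))).map k
  dich := by
    rintro _ ⟨g, hg, rfl⟩ _ ⟨k, hk, rfl⟩ β ⟨w, v, h0, hw, hv, -, eβ⟩ e
    rw [mem_map_TG, TS.map_opE] at e
    rcases h.free h0 hw hv (M.mul_mem (M.inv_mem hg) hk) (z := T.opE 1 β)
      (fun y => by rw [opE_right T eβ, map_ex]) (by simpa [mul_assoc] using e) with h1 | ⟨a, ha⟩
    · exact Or.inr (TS.Same.inW (by
        simpa [TS.map_map] using ((TS.same_map_iff.2 h1).map g).symm) _)
    · refine Or.inl ⟨a, (T.map k).lext fun u y => ?_⟩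
      rw [TS.inU_τ, TS.map_τ, TS.map_τ, ← ha, TS.map_inW]
      simp [cN_apply, le_mul_apply, ← TS.opE_one_coe]

theorem St.col [Finite F] (h : St T PU PW P M) {g : V ≃ₗ[F] V} (hg : g ∈ M) (w w' : W) (h0 : w ≠ 0)
    (hw : PW.B w w = 0) (e : ∀ u, g (T.τ u w) ∈ T.col w') : g ∈ T.TG := by
  obtain ⟨u, hu0, hu⟩ := exists_sing h.oU h.dU.ge
  obtain ⟨f, -, huf⟩ := partner h.oU hu0 hu
  obtain ⟨α, hα⟩ := T.exists_alpha h0 e
  obtain ⟨u', hu'⟩ := exists_B_eq h.oU.nd ((map_ne_zero_iff α α.injective).2 hu0) 1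
  refine h.mem_TG_of_col h0 (fun e => by simpa [e, T.τ_eq_zero, hu0, h0] using hα u) hw ?_ hg e
  have := B_isom (h.isom hg) (T.τ u w) (T.τ (α.symm u') w)
  simpa [hα, h.tf.B_τ, hu', hw] using this

theorem isMaximalIn_34 [Finite F] (h : TF T PU PW P) (oU : IsOrth PU) (oW : IsOrth PW)
    (oV : IsOrth P) (dU : finrank F U = 3) (dW : finrank F W = 4) (hI : Idx1 PW)
    (hq : 5 ≤ Nat.card F) (hμ : ∃ μ : F, μ ≠ 0 ∧ μ ^ 2 ≠ 1) :
    Geo.IsMaximalIn (EG P) (T.TG ⊓ EG P) := by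
  have : Nontrivial U := Module.nontrivial_of_finrank_pos (R := F) (by omega)
  have : Nontrivial W := Module.nontrivial_of_finrank_pos (R := F) (by omega)
  refine isMaximalIn_of inf_le_right (fun hc => ?_) fun M h1 h2 ⟨g, hg, hg'⟩ => by_contra fun h3 => ?_
  · obtain ⟨g, hg, e⟩ := exists_not_rel h oU oW oV dU.ge (by omega)
    exact e (Or.inl (Wr.same_of_mem_TG (hc hg).1))
  have S : St T PU PW P M := ⟨h, oU, oW, oV, dU, by omega, hI, hμ, h1, h2, h3⟩
  have f := S.fr fun g hg => S.col hg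
  obtain ⟨s, hs⟩ := exists_tr_one (F := F) (V := U)
  refine (f.main (T := fun _ : Unit => T) (fun _ => ⟨1, M.one_mem, rfl⟩)
    (fun _ _ e => (e rfl).elim) (fun A hA e => ?_) (d := 6) (by omega)
    (he_idx oW hI dW.ge (by omega)) ⊤ (fun x _ G hG => hG.six oW (by omega) x) ⊤
    (fun _ _ _ _ => trivial) (fun _ => by rw [T.KK_top]; exact le_sup_left)
    ⟨s, hs, fun _ _ _ => trivial⟩ g hg ()).elim fun _ e => hg' ⟨e, h2 hg⟩
  obtain ⟨w, h0, hw⟩ := exists_sing oW (by omega)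
  obtain ⟨v, a1, a2, -⟩ := exists_RR oW (by omega) h0 hw
  have a3 := f.col_sq A h0 hw a1 a2
  obtain ⟨a, ha⟩ := T.exists_inU fun y => ((e () y _).mul_right (e () y (wd PW w v))).symm
  rw [ha] at a3
  obtain ⟨u, hu, a4, -⟩ := T.flip.col_eq_of_inW (x := a) (X := A.col w) (by
    rintro rfl
    obtain ⟨u, hu⟩ := exists_ne (0 : U)
    simpa [← a3, A.τ_eq_zero, hu, h0] using A.τ_mem_col u w) (by rw [A.finrank_col h0]; omega) a3.le
  have := T.flip.finrank_col hu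
  rw [a4, A.finrank_col h0] at this
  omega

section Matrix

variable {F : Type*} [Field F] [Fintype F] {ι : Type} [Fintype ι] [DecidableEq ι]

theorem isMaximalIn_tensor_34 (hodd : Odd (Fintype.card F)) (hq : 5 ≤ Fintype.card F)
    {Q : QuadraticForm F (ι → F)} (hQ : (QuadraticMap.polarBilin Q).SeparatingLeft)
    (e : ι ≃ Fin 3 × Fin 4) (P : GL ι F)
    {f₁ : (Fin 3 → F) → (Fin 3 → F) → F} {f₂ : (Fin 4 → F) → (Fin 4 → F) → F}
    (hf₁ : Geo.IsSymmetricForm f₁) (hf₂ : Geo.IsSymmetricForm f₂)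
    (h4 : ¬ Geo.IsPlusTypeOn (fun v : Fin 4 → F => f₂ v v) ⊤)
    (hT : Geo.IsTensorFormStructure id (QuadraticMap.polar Q) f₁ f₂ e P) :
    Geo.IsMaximalIn (Geo.omegaGL Q) (Geo.tensorProductSubgroup 3 4 e P ⊓ Geo.omegaGL Q) := by
  obtain ⟨c, hc, h⟩ := tensor_pure_bil hT hf₁.bilinear hf₂.bilinear
  have h2' := two_ne_zero_of_odd hodd
  have hS : ∀ x y, (c • bilOf hf₁.bilinear) x y = (c • bilOf hf₁.bilinear) y x := fun x y => by
    simp [bilOf_apply, hf₁.symm x y]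
  have hTF : TF (tsOf e P) _ _ (PQ.ofQuad Q) := tf_sym_sym (h2 := h2')
    (B₁ := c • bilOf hf₁.bilinear) (h₁ := hS) (h₂ := hf₂.symm)
    (sep_smul (sep_of_nondeg hf₁.nondegenerate) hc) (sep_of_nondeg hf₂.nondegenerate) hQ h
  have hO₂ := symP_orth (h2 := h2') (B := bilOf hf₂.bilinear) (hS := hf₂.symm) hTF.ndW
  rw [omegaGL_eq hQ (by rw [card_of_equiv e]; omega), tensorProductSubgroup_eq, ← pull_inf]
  exact isMaximalIn_pull (isMaximalIn_34 hTF (symP_orth hTF.ndU) hO₂ (ofQuad_orth h2' hQ) (by simp)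
    (by simp) (idx1_of hO₂ (by simp) fun S hS hS' => h4 ⟨S, le_top, hS, by simp [hS']⟩)
    (by rwa [Nat.card_eq_fintype_card]) (exists_sq_ne_one hodd (by omega)))

end Matrix

end H21.TO
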