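import Mathlib
import Cfsg.Agent.Base
import Cfsg.Agent.Lib.Tensor.HermIdent
import Cfsg.Agent.Lib.Tensor.Xtr

/-!
Unitary tensor stabilisers in matrix form, all dimensions.
-/

set_option autoImplicit false
set_option linter.unusedSectionVars false

namespace H11.Ten

open Module Cfsg H97 H28 H11.U
open scoped Matrix MatrixGroups Kronecker

variable {F : Type*} [Field F] [Fintype F] {q : ℕ} [IsSq F q] {n n₁ n₂ : ℕ}

theorem wp_hP {U : Type*} [AddCommGroup U] [Module F U] [FiniteDimensional F U]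
    {B : U →ₛₗ[(cj q : F →+* F)] U →ₗ[F] F} {h : ∀ x y, cj q (B x y) = B y x}
    (hB : B.SeparatingLeft) : WP (hP B h) :=
  ⟨hB, fun c (hc : c + 1 * _ = 0) => mem_traceZero.2 (by simpa using hc),
    Or.inl ⟨cj_ne_id, rfl, isoK_herm cj_ne_id⟩⟩

theorem isMaximalIn_tensor_herm' (h1 : 2 ≤ n₁) (h12 : n₁ < n₂)
    (hex : ¬ (n₁ = 2 ∧ q = 2)) (e : Fin n ≃ Fin n₁ × Fin n₂) (P : GL (Fin n) F)
    {f₁ : (Fin n₁ → F) → (Fin n₁ → F) → F} {f₂ : (Fin n₂ → F) → (Fin n₂ → F) → F}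
    (hf₁ : Geo.IsUnitaryFormPow q f₁) (hf₂ : Geo.IsUnitaryFormPow q f₂)
    (hT : Geo.IsTensorFormStructure (fun x : F => x ^ q) (hermForm n F q) f₁ f₂ e P) :
    Geo.IsMaximalIn (GU n F q ⊓ Geo.specialLinear (Fin n) F)
      (Geo.tensorProductSubgroup n₁ n₂ e P ⊓ (GU n F q ⊓ Geo.specialLinear (Fin n) F)) := by
  obtain ⟨B₁, h₁, B₂, h₂, h⟩ := exists_tf_herm (by omega) (by omega) hf₁ hf₂ hT
  have hn : n = n₁ * n₂ := by simpa using card_of_equiv e
  rw [SU_eq (by nlinarith), tensorProductSubgroup_eq, ← pull_inf]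
  refine isMaximalIn_pull (h.isMaximalIn_herm' cj_ne_id rfl (wp_hP h.ndU) (wp_hP h.ndW)
    (by simpa using h1) (by simpa using h12) ?_)
  by_cases hq : q = 2
  · left
    have : n₁ ≠ 2 := fun e => hex ⟨e, hq⟩
    simp; omega
  · exact Or.inr (exists_fixed_ne hq 1)

end H11.Ten
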