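import Mathlib
import Cfsg.Agent.Base
import Cfsg.Agent.Lib.Tensor.OO6

/-!
Orthogonal tensor factors, part 1: groups containing the orthogonal group of one factor.
-/

set_option autoImplicit false
set_option linter.unusedSectionVars false

namespace H21.TO

open Module Cfsg H97 H28 H11.Ten

section W

variable {F W : Type*} [Field F] [AddCommGroup W] [Module F W] {P : PQ F W (RingHom.id F)}
  [FiniteDimensional F W] (h : IsOrth P)
include h

theorem weyl {w f x : W} (hw : P.B w w = 0) (hf : P.B f f = 0) (hwf : P.B w f = 1)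
    (h1 : P.B w x = 0) (h2 : P.B f x = 0) (hx : P.B x x ≠ 0) :
    Has (EG P) fun y => y - (2 * P.B x y / P.B x x) • x - (P.B f y + 2 / P.B x x * P.B w y) • w -
      (P.B w y + P.B x x / 2 * P.B f y) • f := by
  have := h.two
  refine ((has_ex h hw h1 (2 / P.B x x)).comp ((has_ex h hf h2 1).comp
    (has_ex h hw h1 (2 / P.B x x)))).congr fun y => ?_
  simp only [ex_apply, wd_apply, map_add, map_sub, map_smul, smul_eq_mul, hw, hf, hwf, h1, h2,
    h.symm f w, h.symm x w, h.symm x f]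
  match_scalars <;> field_simp <;> ring

theorem pt_of_ne (h3 : 3 ≤ finrank F W) {w w' : W} (hw : P.B w w = 0) (hw' : P.B w' w' = 0)
    (e : P.B w w' ≠ 0) : ∃ β ∈ EG P, ∃ c : F, c ≠ 0 ∧ β w = c • w' := by
  obtain ⟨x, h1, h2, h4⟩ := exists_x h h3 hw (f := (P.B w w')⁻¹ • w') (by simp [hw']) (by simp [e])
  obtain ⟨β, hβ, e1⟩ := weyl h hw (by simp [hw']) (by simp [e]) h1 h2 h4
  exact ⟨β, hβ, -(P.B x x / 2 * (P.B w w')⁻¹), by simp [h4, h.two, e], by
    simp [e1, hw, h.symm x w, h1, h.symm w' w, e, smul_smul]⟩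

theorem pt_trans (h3 : 3 ≤ finrank F W) {w w' : W} (h0 : w ≠ 0) (h0' : w' ≠ 0)
    (hw : P.B w w = 0) (hw' : P.B w' w' = 0) : ∃ β ∈ EG P, ∃ c : F, c ≠ 0 ∧ β w = c • w' := by
  by_cases e : P.B w w' = 0
  swap; · exact pt_of_ne h h3 hw hw' e
  obtain ⟨y, h1, h2⟩ : ∃ y, P.B w y = 1 ∧ P.B w' y ≠ 0 := by
    obtain ⟨y, hy⟩ := exists_B_eq h.nd h0 1
    by_cases e1 : w' ∈ F ∙ w
    · obtain ⟨c, rfl⟩ := Submodule.mem_span_singleton.1 e1
      exact ⟨y, hy, by simpa [hy] using left_ne_zero_of_smul h0'⟩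
    obtain ⟨z, a1, a2⟩ := exists_perp_ne h.nd e1 (1 - P.B w' y)
    exact ⟨y + z, by simp [hy, a1], by simp [a2]⟩
  have a1 : P.B (y - (P.B y y / 2) • w) (y - (P.B y y / 2) • w) = 0 := by
    have := h.two
    simp [hw, h1, h.symm y w]; field_simp; ring
  obtain ⟨β, hβ, c, hc, e1⟩ := pt_of_ne h h3 hw a1 (by simp [h1, hw])
  obtain ⟨β', hβ', c', hc', e2⟩ := pt_of_ne h h3 a1 hw' (by
    rw [h.symm]; simpa [h.symm w' w, e] using h2)
  exact ⟨β' * β, (EG P).mul_mem hβ' hβ, c * c', mul_ne_zero hc hc', by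
    rw [le_mul_apply, e1, map_smul, e2, smul_smul]⟩

theorem EG_sim {g β : W ≃ₗ[F] W} {κ : F} (h0 : κ ≠ 0)
    (hg : ∀ x y, κ * P.B (g x) (g y) = P.B x y) (hβ : β ∈ EG P) : g * β * g⁻¹ ∈ EG P := by
  have : EG P ≤ (EG P).comap (MulAut.conj g).toMonoidHom := by
    refine EG_le fun d v c hd hv hc => ?_
    obtain ⟨k, -, e⟩ := has_eu_isom hd hv hc
    have a1 : ∀ x y, P.B x (g⁻¹ y) = κ * P.B (g x) y := fun x y => by rw [← hg, le_apply_inv]
    have a2 : ∀ x y, P.B (g x) (g y) = κ⁻¹ * P.B x y := fun x y => by rw [← hg x y]; field_simp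
    refine ⟨k, (has_eu_EG (d := g d) (w := κ • g v) (c := κ * c)
      (h.max _ (by rw [a2, P.self_eq_zero hd, mul_zero])) (by simp [a2, hv]) ?_).mem fun x => ?_, e⟩
    · have a3 := h.self (κ • g v)
      have := h.self v
      rw [sub_eq_zero.1 (h.Λ_eq hc), show P.q (κ • g v) = κ * P.q v from mul_left_cancel₀ h.two (by
        rw [← a3]; simp [a2, this]; field_simp), sub_self]
      exact P.Λ.zero_mem
    · change g (k (g⁻¹ x)) = _
      simp only [e, eu_apply, map_add, map_sub, map_smul, a1, le_apply_inv, h.ε,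
        LinearMap.smul_apply, RingHom.id_apply, smul_eq_mul]
      module
  exact this hβ

end W

variable {F U W V : Type*} [Field F] [AddCommGroup U] [Module F U] [AddCommGroup W]
  [Module F W] [AddCommGroup V] [Module F V] [FiniteDimensional F U] [FiniteDimensional F W]

/-- A group containing the orthogonal group of the second factor. -/
structure Sw (T : TS F U W V) (PU : PQ F U (RingHom.id F)) (PW : PQ F W (RingHom.id F))
    (P : PQ F V (RingHom.id F)) (M : Subgroup (V ≃ₗ[F] V)) : Prop where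
  tf : TF T PU PW P
  oU : IsOrth PU
  oW : IsOrth PW
  oV : IsOrth P
  dU : 3 ≤ finrank F U
  dW : 3 ≤ finrank F W
  le : ∀ β ∈ EG PW, T.opE 1 β ∈ M
  le' : M ≤ EG P

/-- The unipotent radical of a column stabiliser meets `M` in the obvious subgroup. -/
def OL (T : TS F U W V) (PW : PQ F W (RingHom.id F)) (M : Subgroup (V ≃ₗ[F] V)) : Prop :=
  ∀ w, w ≠ 0 → PW.B w w = 0 → ∀ k ∈ M, Lev T PW w k →
    ∃ v, PW.B w v = 0 ∧ ∀ y, k y = ex (opR T (wd PW w v)) (1 : F) y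

variable {T : TS F U W V} {PU : PQ F U (RingHom.id F)} {PW : PQ F W (RingHom.id F)}
  {P : PQ F V (RingHom.id F)} {M : Subgroup (V ≃ₗ[F] V)}

theorem St.sw [Finite F] (h : St T PU PW P M) : Sw T PU PW P M :=
  ⟨h.tf, h.oU, h.oW, h.oV, h.dU.ge, h.dW, fun _ hβ => h.le (h.tf.opW_mem hβ), h.le'⟩

theorem St.ol [Finite F] (h : St T PU PW P M) : OL T PW M := fun _ h0 hw _ hk => h.of_lev h0 hw hk

namespace Sw

variable (h : Sw T PU PW P M)
include h

theorem isom {g : V ≃ₗ[F] V} (hg : g ∈ M) : g ∈ P.Isom := EG_le_isom (h.le' hg)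

theorem ntU : Nontrivial U := Module.nontrivial_of_finrank_pos (R := F) (by have := h.dU; omega)

theorem ntW : Nontrivial W := Module.nontrivial_of_finrank_pos (R := F) (by have := h.dW; omega)

theorem map {g : V ≃ₗ[F] V} (hg : g ∈ M) : Sw (T.map g) PU PW P M :=
  { h with
    tf := tf_map h.tf h.oV (h.isom hg)
    le := fun β hβ => by
      rw [TS.map_opE]
      exact M.mul_mem (M.mul_mem hg (h.le β hβ)) (M.inv_mem hg) }

theorem hasR {w v : W} (hw : PW.B w w = 0) (hv : PW.B w v = 0) (c : F) :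
    ∃ β ∈ EG PW, ∀ y, T.opE 1 β y = ex (opR T (wd PW w v)) c y := by
  obtain ⟨β, hβ, e⟩ := has_ex h.oW hw hv c
  exact ⟨β, hβ, fun y => by rw [opE_right T e, map_ex]⟩

theorem exR_perp {w v : W} (hw : PW.B w w = 0) (hv : PW.B w v = 0) {x : V} (hx : T.cB PW w x = 0) :
    ex (opR T (wd PW w v)) (1 : F) x = x + T.τ (T.cB PW v x) w := by
  have := T.eq_zero_of_ker
    (f := ex (opR T (wd PW w v)) (1 : F) - LinearMap.id - T.τ.flip w ∘ₗ T.cB PW v)
    (φ := PW.B w) (fun u y hy => by simp [ex_apply, hy, hw, h.oW.symm v w, hv]) hx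
  rw [← sub_eq_iff_eq_add']
  exact sub_eq_zero.1 this

theorem cB_stab {w : W} {g : V ≃ₗ[F] V} (hI : g ∈ P.Isom) {α : U ≃ₗ[F] U}
    (hα : ∀ u, g (T.τ u w) = T.τ (α u) w) {x : V} (hx : T.cB PW w x = 0) : T.cB PW w (g x) = 0 :=
  sep_right h.oU.nd fun u => by
    rw [← h.tf.B_left, ← α.apply_symm_apply u, ← hα, B_isom hI, h.tf.B_left, hx, map_zero]

theorem dec (hO : OL T PW M) {w : W} (h0 : w ≠ 0) (hw : PW.B w w = 0) {g : V ≃ₗ[F] V}
    (hI : g ∈ P.Isom) (hg : ∀ β ∈ EG PW, g⁻¹ * T.opE 1 β * g ∈ M)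
    (h1 : ∀ u, g (T.τ u w) ∈ T.col w) : ∃ α β, ∃ κ : F, κ ≠ 0 ∧
      (∀ x y, κ * PW.B (β x) (β y) = PW.B x y) ∧ T.opE α β ∈ P.Isom ∧
        Lev T PW w ((T.opE α β)⁻¹ * g) := by
  obtain ⟨α, hα⟩ := T.exists_alpha h0 h1
  have a1 : ∀ u, g⁻¹ (T.τ u w) = T.τ (α⁻¹ u) w := fun u => by
    rw [le_inv_apply, LinearEquiv.symm_apply_eq, hα, le_apply_inv]
  have a2 : ∀ x, T.cB PW w x = 0 → T.cB PW w (g x) = 0 := fun x => h.cB_stab hI hα
  have a3 : ∀ v₀, PW.B w v₀ = 0 → ∃ v, ∀ x, T.cB PW w x = 0 →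
      T.cB PW v₀ (g x) = α (T.cB PW v x) := fun v₀ hv₀ => by
    obtain ⟨z, hz, ez⟩ := h.hasR hw hv₀ 1
    have b1 : ∀ x, T.cB PW w x = 0 → (g⁻¹ * T.opE 1 z * g) x =
        x + T.τ (α⁻¹ (T.cB PW v₀ (g x))) w := fun x hx => by
      rw [le_mul_apply, le_mul_apply, ez, h.exR_perp hw hv₀ (a2 x hx), map_add, a1,
        le_inv_apply_apply]
    obtain ⟨v, hv, ev⟩ := hO w h0 hw _ (hg z hz)
      ⟨fun u => by rw [b1 _ (by simp [hw]), hα]; simp [h.oW.symm v₀ w, hv₀],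
        fun x hx => by rw [b1 x hx, add_sub_cancel_left]; exact T.τ_mem_col _ _⟩
    refine ⟨v, fun x hx => ?_⟩
    have := (b1 x hx).symm.trans ((ev x).trans (h.exR_perp hw hv hx))
    rw [← T.col_injective h0 (add_left_cancel this), le_apply_inv]
  have := h.ntU
  obtain ⟨u₀, hu0⟩ := exists_ne (0 : U)
  obtain ⟨u₁, hu₁⟩ := exists_B_eq h.oU.nd hu0 1
  obtain ⟨ψ, hψ⟩ := exists_dual_of_ne_zero (F := F) (u := α u₀) (by simpa using hu0) 1
  let β₀ : Module.End F W := T.cU ψ ∘ₗ (g : V →ₗ[F] V) ∘ₗ T.τ u₀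
  have b0 : ∀ v y, PW.B v (β₀ y) = ψ (T.cB PW v (g (T.τ u₀ y))) := fun v y => (T.cW_cU _ _ _).symm
  have b1 : ∀ y, PW.B w y = 0 → PW.B w (β₀ y) = 0 := fun y hy => by
    rw [b0, a2 _ (by simp [hy]), map_zero]
  have b2 : ∀ y, PW.B w y = 0 → ∀ u, g (T.τ u y) - T.τ (α u) (β₀ y) ∈ T.col w := fun y hy u =>
    h.tf.mem_col_of_cB fun v₀ hv₀ => by
      obtain ⟨v, hv⟩ := a3 v₀ ((h.oW.symm _ _).trans hv₀)
      simp [b0, hv _ (show T.cB PW w (T.τ _ y) = 0 by simp [hy]), hψ]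
  have b3 : ∀ y y', PW.B w y = 0 → PW.B w y' = 0 → ∀ u u',
      PU.B (α u) (α u') * PW.B (β₀ y) (β₀ y') = PU.B u u' * PW.B y y' := fun y y' hy hy' u u' => by
    obtain ⟨a, ha⟩ := b2 y hy u
    obtain ⟨a', ha'⟩ := b2 y' hy' u'
    have := B_isom hI (T.τ u y) (T.τ u' y')
    rw [eq_add_of_sub_eq ha.symm, eq_add_of_sub_eq ha'.symm] at this
    simpa [h.tf.B_τ, hw, b1 y' hy', h.oW.symm _ w, b1 y hy] using this
  obtain ⟨f, hf, hwf⟩ := partner h.oW h0 hw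
  obtain ⟨x₀, c1, -, c2⟩ := exists_x h.oW h.dW hw hf hwf
  have hfw := (h.oW.symm f w).trans hwf
  set κ := PU.B (α u₀) (α u₁) with hκ
  have b4 : ∀ y y', PW.B w y = 0 → PW.B w y' = 0 → κ * PW.B (β₀ y) (β₀ y') = PW.B y y' :=
    fun y y' hy hy' => by rw [b3 y y' hy hy', hu₁, one_mul]
  have hκ0 : κ ≠ 0 := fun e => c2 (by rw [← b4 x₀ x₀ c1 c1, e, zero_mul])
  have b5 : ∀ u u', PU.B (α u) (α u') = κ * PU.B u u' := fun u u' => mul_right_cancel₀ c2 (by
    linear_combination κ * b3 x₀ x₀ c1 c1 u u' - PU.B (α u) (α u') * b4 x₀ x₀ c1 c1)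
  let π : Module.End F W := LinearMap.id - r1 PW f w - r1 PW w f
  have p0 : ∀ y, π y = y - PW.B w y • f - PW.B f y • w := fun _ => rfl
  have p1 : ∀ y, PW.B w (π y) = 0 := fun y => by simp [p0, hw, hwf]
  let β : Module.End F W := κ⁻¹ • r1 PW f w + r1 PW w f + π ∘ₗ β₀ ∘ₗ π
  have p2 : ∀ y, β y = (κ⁻¹ * PW.B w y) • f + (PW.B f y - PW.B f (β₀ (π y))) • w + β₀ (π y) :=
    fun y => by
      change κ⁻¹ • (PW.B w y • f) + PW.B f y • w + π (β₀ (π y)) = _
      rw [p0 (β₀ _), b1 _ (p1 y)]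
      module
  have p3 : ∀ y y', κ * PW.B (β y) (β y') = PW.B y y' := fun y y' => by
    have := b4 _ _ (p1 y) (p1 y')
    conv_rhs at this => simp [p0, hw, hf, hwf, hfw, h.oW.symm y w, h.oW.symm y f]
    simp [p2, hw, hf, hwf, hfw, b1 _ (p1 _), h.oW.symm _ w, h.oW.symm (β₀ _) f]
    field_simp
    linear_combination this
  let β' : W ≃ₗ[F] W := LinearEquiv.ofInjectiveEndo β ((injective_iff_map_eq_zero _).2 fun y hy =>
    h.oW.nd y fun y' => by rw [← p3, hy]; simp)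
  have p4 : ∀ y, β' y = β y := fun _ => rfl
  have p5 : β w = w := by simp [p2, p0, hw, hfw]
  have hI' : T.opE α β' ∈ P.Isom := h.tf.isom _ (T.opE_mem _ _) (h.tf.B_of_pure
    (f := (T.opE α β' : V →ₗ[F] V)) fun u y u' y' => by
      simp only [LinearEquiv.coe_coe, TS.opE_τ, h.tf.B_τ, p4, b5]
      linear_combination PU.B u u' * p3 y y')
  have c3 : ∀ u, (T.opE α β')⁻¹ (T.τ (α u) w) = T.τ u w := fun u => by
    rw [le_inv_apply, LinearEquiv.symm_apply_eq, TS.opE_τ, p4, p5]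
  refine ⟨α, β', κ, hκ0, p3, hI', fun u => by rw [le_mul_apply, hα, c3], fun x hx => ?_⟩
  obtain ⟨a, ha⟩ : g x - T.opE α β' x ∈ T.col w := by
    rw [← Submodule.Quotient.mk_eq_zero]
    refine T.eq_zero_of_ker (f := (T.col w).mkQ ∘ₗ ((g : V →ₗ[F] V) - T.opE α β'))
      (φ := PW.B w) (fun u y hy => (Submodule.Quotient.mk_eq_zero _).2 ?_) hx
    convert (T.col w).add_mem (b2 _ (p1 y) u) (T.τ_mem_col (PW.B f (β₀ (π y)) • α u) w) using 1
    have : y = π y + PW.B f y • w := by simp [p0, hy]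
    change g (T.τ u y) - T.opE α β' (T.τ u y) = _
    rw [TS.opE_τ, p4, p2, hy]
    conv_lhs => enter [1]; rw [this]
    simp only [map_add, map_smul, hα, LinearMap.smul_apply]
    module
  refine ⟨α⁻¹ a, ?_⟩
  have := congrArg ((T.opE α β')⁻¹ : V ≃ₗ[F] V) ha
  rw [map_sub, le_inv_apply_apply] at this
  rw [le_mul_apply, ← this, LinearMap.flip_apply, ← c3]
  simp

end Sw

end H21.TO
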