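import Mathlib
import Cfsg.Agent.Base
import Cfsg.Agent.Lib.Tensor.OW1

/-!
Orthogonal tensor factors, part 2: Eichler elements of one factor stabilising another
decomposition.
-/

set_option autoImplicit false
set_option linter.unusedSectionVars false

namespace H21.TO

open Module Cfsg H97 H28 H11.Ten

variable {F U W V : Type*} [Field F] [AddCommGroup U] [Module F U] [AddCommGroup W]
  [Module F W] [AddCommGroup V] [Module F V] [FiniteDimensional F U] [FiniteDimensional F W]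
  {A T : TS F U W V} {PU : PQ F U (RingHom.id F)} {PW : PQ F W (RingHom.id F)}
  {P : PQ F V (RingHom.id F)} {M : Subgroup (V ≃ₗ[F] V)}

theorem opR_eq (T : TS F U W V) (b : Module.End F W) : opR T b = T.inW b :=
  T.lext fun u w => by simp

theorem skew_inW (h : TF T PU PW P) {b : Module.End F W} (hb : Skew PW b) : Skew P (T.inW b) :=
  fun x y => by
    rw [B_inW h (b' := -b) (fun x y => by rw [hb]; simp)]; simp

theorem lt_rank {N : Module.End F V} {a : Module.End F U} {b : Module.End F W}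
    (e : ∀ u y, N (T.τ u y) = T.τ (a u) (b y) + T.τ (a u - u) y) (ha : IsNilpotent (a - 1))
    (ha0 : a - 1 ≠ 0) {y₁ y₂ : W} (h1 : b y₁ ∉ F ∙ y₁)
    (h2 : b y₂ ∉ Submodule.span F {y₁, y₂, b y₁})
    (h3 : Submodule.span F {y₁, y₂, b y₁, b y₂} ≠ ⊤) :
    2 * finrank F U < finrank F (LinearMap.range N) := by
  have := T.finite
  have hu : Function.Injective a := by
    have := (Module.End.isUnit_iff _).1 (ha.isUnit_add_one)
    rw [sub_add_cancel] at this
    exact this.1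
  obtain ⟨φ₁, a1, a2⟩ := exists_dual_of_notMem_span h1 1
  obtain ⟨φ₂, a3, a4⟩ := Submodule.exists_dual_map_eq_bot_of_notMem h2 inferInstance
  obtain ⟨φ, a5, a6⟩ := Submodule.exists_dual_map_eq_bot_of_lt_top h3.lt_top inferInstance
  have k : ∀ {S : Set W} {φ : Dual F W}, (Submodule.span F S).map φ = ⊥ → ∀ y ∈ S, φ y = 0 :=
    fun e y hy => (Submodule.mem_bot F).1 (e ▸ Submodule.mem_map_of_mem (Submodule.subset_span hy))
  let J : U × U →ₗ[F] V := N ∘ₗ (T.τ.flip y₁).coprod (T.τ.flip y₂)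
  have hJ : Function.Injective J := (injective_iff_map_eq_zero _).2 fun ⟨u, u'⟩ e0 => by
    have b1 := congrArg (T.cW φ₂) e0
    simp [J, e, k a4, a3] at b1
    obtain rfl : u' = 0 := hu (by simpa using b1)
    have b2 := congrArg (T.cW φ₁) e0
    simp [J, e, a1, a2] at b2
    exact Prod.ext (hu (by simpa using b2)) rfl
  have b1 := LinearMap.finrank_range_of_inj hJ
  rw [finrank_prod, ← two_mul] at b1
  rw [← b1]
  refine Submodule.finrank_lt_finrank_of_lt (lt_of_le_of_ne (LinearMap.range_comp_le_range _ _)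
    fun e0 => ha0 ?_)
  obtain ⟨y, hy⟩ := exists_apply_eq_one a5
  have b2 : ∀ u, φ (b y) • a u + (a u - u) = 0 := fun u => by
    obtain ⟨⟨u₁, u₂⟩, e1⟩ := e0.ge (LinearMap.mem_range_self N (T.τ u y))
    simpa [J, e, k a6, hy] using (congrArg (T.cW φ) e1).symm
  have : Nontrivial U := by
    by_contra hc
    exact ha0 (by have := not_nontrivial_iff_subsingleton.1 hc; exact Subsingleton.elim _ _)
  obtain ⟨u, b3, b4⟩ := exists_ker_of_nil ha
  have b5 : φ (b y) = 0 := by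
    simpa [show a u = u from sub_eq_zero.1 b4, b3] using b2 u
  exact LinearMap.ext fun u => by simpa [b5] using b2 u

variable [Finite F]

namespace Sw

variable (hA : Sw A PU PW P M) (h : Sw T PU PW P M)
include hA h

theorem unip {β : W ≃ₗ[F] W} {w v : W} (hw : PW.B w w = 0) (hv : PW.B w v = 0)
    (eβ : ∀ y, β y = ex (wd PW w v) (1 : F) y) (hz : A.opE 1 β ∈ T.TG) :
    ∃ (a : Module.End F U) (b : Module.End F W),
      (∀ u y, ex (A.inW (wd PW w v)) (1 : F) (T.τ u y) = T.τ (a u) (b y)) ∧ IsNilpotent (a - 1) ∧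
      IsNilpotent (b - 1) ∧ (∀ x y, PU.B (a x) (a y) = PU.B x y) ∧
      ∀ x y, PW.B (b x) (b y) = PW.B x y := by
  have := h.ntU
  have := h.ntW
  have e : (A.opE 1 β : Module.End F V) = ex (A.inW (wd PW w v)) (1 : F) := by
    rw [TS.opE_one_coe, show (β : Module.End F W) = _ from LinearMap.ext eβ, map_ex]
  rw [← e]
  exact unip_form h.tf hz (hA.isom (hA.le β ((has_ex h.oW hw hv 1).mem eβ)))
    (LinearEquiv.toLinearMap_injective (by
      rw [coe_pow', e, ex_pow_char h.oW.two (by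
        rw [← map_mul, ← map_mul, wd_cube h.oW hw hv, map_zero])]
      simp [ex_zero]; rfl))

theorem dich_rank (hk : 5 ≤ finrank F W ∨ (4 ≤ finrank F W ∧ Idx1 PW)) {β : W ≃ₗ[F] W}
    (hβ : β ∈ RR PW) (hz : A.opE 1 β ∈ T.TG) :
    (∃ a, A.inW β = T.inU a) ∨ ∃ b, A.inW β = T.inW b := by
  obtain ⟨w, v, h0, hw, hv, -, eβ⟩ := hβ
  obtain ⟨a, b, e, ha, hb, -, ib⟩ := hA.unip h hw hv eβ hz
  rw [← map_ex, ← show (β : Module.End F W) = _ from LinearMap.ext eβ] at e
  by_cases ha0 : a - 1 = 0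
  · exact Or.inr ⟨b, T.lext fun u y => by simp [e, sub_eq_zero.1 ha0]⟩
  refine Or.inl ⟨a, T.lext fun u y => ?_⟩
  suffices H : b - 1 = 0 by simp [e, sub_eq_zero.1 H]
  by_contra hb0
  have := h.ntU
  have := T.finite
  obtain ⟨n, rfl⟩ : ∃ n, b = n + 1 := ⟨b - 1, by simp⟩
  rw [add_sub_cancel_right] at hb hb0
  have key : ∀ y₁ y₂, n y₁ ∉ F ∙ y₁ → n y₂ ∉ Submodule.span F {y₁, y₂, n y₁} →
      Submodule.span F {y₁, y₂, n y₁, n y₂} = ⊤ := fun y₁ y₂ h1 h2 => by
    by_contra h3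
    refine (lt_rank (T := T) (N := A.inW β - 1) (fun u y => by simp [e]; abel) ha ha0 h1 h2 h3).not_ge ?_
    refine (Submodule.finrank_mono (t := A.col w ⊔ A.col v) ?_).trans
      ((finrank_sup_le' _ _).trans ?_)
    · rw [LinearMap.range_le_iff_comap]
      refine A.eq_top fun u y => Submodule.mem_sup.2 ⟨_, A.τ_mem_col ((PW.B v y -
        2⁻¹ * (PW.B v v * PW.B w y)) • u) w, _, A.τ_mem_col (-PW.B w y • u) v, ?_⟩
      simp [eβ, ex_apply, hw, hv, h.oW.symm v w]
      module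
    · rw [two_mul]; exact add_le_add (LinearMap.finrank_range_le _) (LinearMap.finrank_range_le _)
  obtain ⟨u₁, c3, c4⟩ := exists_ker_of_nil ha
  have n3 : ∀ y, n (n (n y)) = 0 := fun y => by
    have e1 : ∀ y, (A.inW β - 1) (T.τ u₁ y) = T.τ u₁ (n y) := fun y => by
      simp [e, show a u₁ = u₁ from sub_eq_zero.1 c4]
    have e2 : ((β : Module.End F W) - 1) * (((β : Module.End F W) - 1) *
        ((β : Module.End F W) - 1)) = 0 := LinearMap.ext fun y => by
      simp [eβ, ex_apply, hw, hv, h.oW.symm v w]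
    have e3 := LinearMap.congr_fun (congrArg A.inW e2) (T.τ u₁ y)
    simpa [-LinearMap.sub_apply, e1, T.τ_eq_zero, c3] using e3
  have dm : ∀ s : Finset W, Submodule.span F (s : Set W) = ⊤ → finrank F W ≤ s.card :=
    fun s hs => by rw [← finrank_top, ← hs]; exact finrank_span_finset_le_card s
  classical
  by_cases n2 : ∀ y, n (n y) = 0
  · have s1 : Skew PW n := fun x y => by
      have k : ∀ x y, PW.B (n x) y + PW.B x (n y) + PW.B (n x) (n y) = 0 := fun x y => by
        have := ib x y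
        simp at this
        linear_combination this
      have k1 := k x (n y)
      rw [n2, map_zero, map_zero] at k1
      linear_combination k x y - k1
    have h5 := hk.resolve_right fun e => hb0 (e.2.eq_zero h.oW s1 n2)
    obtain ⟨y₁, c1⟩ := DFunLike.ne_iff.1 hb0
    obtain ⟨y₂, c2⟩ : ∃ y, n y ∉ F ∙ n y₁ := by
      by_contra hc
      push Not at hc
      exact c1 (h.oW.eq_zero_of_rank_one s1 hc)
    refine absurd (key y₁ y₂ (fun e => ?_) fun e => ?_) fun e => ?_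
    rotate_left 2
    · have := dm {y₁, y₂, n y₁, n y₂} (by simpa using e)
      have := Finset.card_le_four (a := y₁) (b := y₂) (c := n y₁) (d := n y₂)
      omega
    · obtain ⟨c, hc⟩ := Submodule.mem_span_singleton.1 e
      have := congrArg n hc
      rw [map_smul, n2, smul_eq_zero] at this
      exact c1 (by simpa [this.resolve_right c1] using hc.symm)
    · obtain ⟨c, d, d', hc⟩ := Submodule.mem_span_triple.1 e
      have h6 := congrArg n hc
      simp only [map_add, map_smul, n2, smul_zero, add_zero] at h6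
      have h7 : d = 0 := by_contra fun h7 => c2 (Submodule.mem_span_singleton.2 ⟨-(d⁻¹ * c), by
        rw [← one_smul F (n y₂), ← inv_mul_cancel₀ h7]
        linear_combination (norm := module) -(d⁻¹ • h6)⟩)
      have h8 : c = 0 := (smul_eq_zero.1 (by simpa [h7] using h6)).resolve_right c1
      exact c2 (Submodule.mem_span_singleton.2 ⟨d', by simpa [h7, h8] using hc⟩)
  push Not at n2
  obtain ⟨y, hy⟩ := n2
  refine absurd (key y (n y) (fun e => ?_) fun e => ?_) fun e => ?_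
  rotate_left 2
  · have := dm {y, n y, n (n y)} (by simpa using e)
    have := Finset.card_le_three (a := y) (b := n y) (c := n (n y))
    omega
  · obtain ⟨c, hc⟩ := Submodule.mem_span_singleton.1 e
    have := congrArg (fun z => n (n z)) hc
    simp [n3, hy] at this
    simp [← hc, this] at hy
  · obtain ⟨c, d, d', hc⟩ := Submodule.mem_span_triple.1 e
    have h1 := congrArg (fun z => n (n z)) hc
    simp [n3, hy] at h1
    have h2 := congrArg n hc
    simp [n3, h1, ← add_smul, hy] at h2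
    simp [h1, ← add_smul, h2] at hc
    exact hy hc.symm

theorem dich_idx (hI : Idx1 PW) {μ : F} (m0 : μ ≠ 0) (m1 : μ ^ 2 ≠ 1)
    (st : ∀ w, w ≠ 0 → PW.B w w = 0 → ∀ k ∈ M, (∀ u, k (T.τ u w) ∈ T.col w) → k ∈ T.TG)
    {β : W ≃ₗ[F] W} (hβ : β ∈ RR PW) (hz : A.opE 1 β ∈ T.TG) :
    (∃ a, A.inW β = T.inU a) ∨ ∃ b, A.inW β = T.inW b := by
  obtain ⟨w, v, h0, hw, hv, -, eβ⟩ := hβ
  obtain ⟨a, b, e, ha, hb, ia, ib⟩ := hA.unip h hw hv eβ hz
  have := h.ntU
  rw [show (β : Module.End F W) = _ from LinearMap.ext eβ, map_ex]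
  have s1 := skew_inW hA.tf (skew_wd h.oW w v)
  have n3 : ∀ c : F, Has M fun x => ex (A.inW (wd PW w v)) c x := fun c => by
    obtain ⟨γ, hγ, eγ⟩ := hA.hasR hw hv c
    exact ⟨_, hA.le γ hγ, by simpa [opR_eq] using eγ⟩
  have n2 : A.inW (wd PW w v) * (A.inW (wd PW w v) * A.inW (wd PW w v)) = 0 := by
    rw [← map_mul, ← map_mul, wd_cube h.oW hw hv, map_zero]
  generalize A.inW (wd PW w v) = N' at e s1 n3 n2
  by_cases hb0 : b - 1 = 0
  · exact Or.inl ⟨a, T.lext fun u y => by simp [e, sub_eq_zero.1 hb0]⟩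
  obtain ⟨y₁, c1, c2⟩ := exists_ker_range hb hb0
  obtain ⟨u₁, c3, c4⟩ := exists_ker_of_nil ha
  set w₁ := (b - 1) y₁ with hw₁
  have c5 : b w₁ = w₁ := sub_eq_zero.1 c2
  have c6 : a u₁ = u₁ := sub_eq_zero.1 c4
  have c7 : PW.B w₁ w₁ = 0 := by
    have := ib y₁ w₁
    rw [c5] at this
    show PW.B (b y₁ - y₁) w₁ = 0
    simp [this]
  have d1 : ∀ u, N' (T.τ u w₁) = T.τ (lg F a u) w₁ := fun u => by
    rw [← lg_ex (F := F) n2]
    exact lg_comm (j := T.τ.flip w₁) (fun x => by simpa [c5] using e x w₁) u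
  have d2 : ∀ y, N' (T.τ u₁ y) = T.τ u₁ (lg F b y) := fun y => by
    rw [← lg_ex (F := F) n2]
    exact lg_comm (j := T.τ u₁) (fun x => by simpa [c6] using e u₁ x) y
  have d3 := fun u y => quartic h.oW.two m0 m1
    (a1 := T.τ (lg F a u) y + T.τ u (lg F b y) - N' (T.τ u y))
    (a2 := T.τ (lg F a u) (lg F b y) + (2⁻¹ : F) • (T.τ (lg F a (lg F a u)) y +
      T.τ u (lg F b (lg F b y)) - N' (N' (T.τ u y))))
    (a3 := (2⁻¹ : F) • (T.τ (lg F a u) (lg F b (lg F b y)) + T.τ (lg F a (lg F a u)) (lg F b y)))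
    (a4 := (2⁻¹ * 2⁻¹ : F) • T.τ (lg F a (lg F a u)) (lg F b (lg F b y))) fun c => by
      obtain ⟨k, hk, ek⟩ := n3 c
      have f1 : ∀ u, k (T.τ u w₁) = T.τ (ex (lg F a) c u) w₁ := fun u =>
        (ek _).trans (ex_comm (j := T.τ.flip w₁) d1 c u)
      have := TG_eq (st w₁ c1 c7 k hk fun u => f1 u ▸ T.τ_mem_col _ _) c3 c1 f1
        (b := fun y => ex (lg F b) c y) (fun y => (ek _).trans (ex_comm (j := T.τ u₁) d2 c y))
        (by simp [ex_apply, lg_apply, c5]) u y
      simp only [ek, ex_apply, map_add, map_smul, LinearMap.add_apply, LinearMap.smul_apply] at this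
      linear_combination (norm := module) -this
  have h2 := h.oW.two
  have d4 : ∀ u y, N' (T.τ u y) = T.τ (lg F a u) y + T.τ u (lg F b y) := fun u y =>
    (sub_eq_zero.1 (d3 u y).1).symm
  have d5 : Skew PW (lg F b) := fun y y' => by
    obtain ⟨u', hu'⟩ := exists_B_eq h.oU.nd c3 1
    have i1 : ∀ m, PU.B u₁ (a m) = PU.B u₁ m := fun m => by rw [← ia u₁ m, c6]
    have i2 := s1 (T.τ u₁ y) (T.τ u' y')
    rw [d2, d4] at i2
    simpa [h.tf.B_τ, hu', lg_apply a, i1] using i2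
  obtain ⟨y₂, d6⟩ : ∃ y, lg F b (lg F b y) ≠ 0 := by
    by_contra hc
    push Not at hc
    have := LinearMap.congr_fun (hI.eq_zero h.oW d5 hc) y₁
    rw [lg_apply, show b y₁ - y₁ = w₁ from rfl, c5] at this
    exact c1 (by simpa using this)
  have d7 : ∀ u, lg F a u = 0 := fun u => by
    have i1 : lg F a (lg F a u) = 0 := by simpa [h2, T.τ_eq_zero, d6] using (d3 u y₂).2.2
    simpa [h2, i1, T.τ_eq_zero, d6] using (d3 u y₂).2.1
  exact Or.inr ⟨ex (lg F b) (1 : F), by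
    rw [map_ex, show T.inW (lg F b) = N' from T.lext fun u y => by simp [d4, d7]]⟩

end Sw

theorem fr_of {𝒪 : Set (TS F U W V)} (hS : ∀ A ∈ 𝒪, Sw A PU PW P M) (hA : A ∈ 𝒪)
    (cl : ∀ A ∈ 𝒪, ∀ g ∈ M, A.map g ∈ 𝒪)
    (p1 : ∀ A ∈ 𝒪, ∀ B ∈ 𝒪, ∀ w w', w ≠ 0 → PW.B w w = 0 → A.col w ≤ B.col w' → B.Same A)
    (hk : 5 ≤ finrank F W ∨ (Idx1 PW ∧ (4 ≤ finrank F W ∨ ∃ μ : F, μ ≠ 0 ∧ μ ^ 2 ≠ 1))) :
    Fr 𝒪 PU PW P M where
  tf A hA := (hS A hA).tf
  oW := (hS A hA).oW
  dU := (hS A hA).ntU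
  dW := (hS A hA).dW
  le A hA := (hS A hA).le
  cl := cl
  p1 := p1
  dich A hA B hB β hβ e := by
    rcases hk with hk | ⟨hI, hk | ⟨μ, m0, m1⟩⟩
    · exact (hS A hA).dich_rank (hS B hB) (Or.inl hk) hβ e
    · exact (hS A hA).dich_rank (hS B hB) (Or.inr ⟨hk, hI⟩) hβ e
    · exact (hS A hA).dich_idx (hS B hB) hI m0 m1 (fun w h0 hw k hk e =>
        p1 _ (cl B hB k hk) B hB w w h0 hw (by rintro _ ⟨u, rfl⟩; exact e u)) hβ e

end H21.TO
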