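import Mathlib
import Cfsg.Agent.Base
import Cfsg.Agent.Lib.Tensor.OW2
import Cfsg.Agent.Lib.Wr7.Form

/-!
Orthogonal tensor factors, part 3: tensor powers; reduction of maximality to column stabilisers.
-/

set_option autoImplicit false
set_option linter.unusedSectionVars false

namespace H21.TO

open Module Cfsg H97 H28 H11.Ten

variable {F R W V : Type*} [Field F] [AddCommGroup R] [Module F R] [AddCommGroup W]
  [Module F W] [AddCommGroup V] [Module F V] [FiniteDimensional F R] [FiniteDimensional F W]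

theorem co_dec (T : TS F R W V) (x : Module.End F V) : x = ∑ j, ∑ m,
    T.inW (((finBasis F W).coord m).smulRight (finBasis F W j)) *
      T.inU (Wr.co T ((finBasis F W).coord j) (finBasis F W m) x) := T.lext fun r y => by
  conv_lhs => rw [← (finBasis F W).sum_repr y, T.eq_sum (finBasis F W) (x _)]
  simp [-Basis.sum_repr, LinearMap.sum_apply, Wr.co_apply]

theorem comm_co (T : TS F R W V) {x y : Module.End F V} (h1 : ∀ a, Commute y (T.inW a))
    (h2 : Commute y x) (φ : Dual F W) (u : W) : Commute y (T.inU (Wr.co T φ u x)) := by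
  have : T.inU (Wr.co T φ u x) = ∑ j, T.inW (φ.smulRight (finBasis F W j)) * x *
      T.inW (((finBasis F W).coord j).smulRight u) := T.lext fun r z => by
    conv_lhs => rw [← (finBasis F W).sum_repr z]
    simp [-Basis.sum_repr, LinearMap.sum_apply, Wr.co_apply, TS.inW_smulRight]
  rw [this]
  exact Commute.sum_right _ _ _ fun j _ => ((h1 _).mul_right h2).mul_right (h1 _)

variable {ι : Type*} [Fintype ι] [DecidableEq ι] {T : ι → TS F R W V}

theorem multi_ind (h : Wr.Multi T) (D : Finset ι → Submodule F (Module.End F V))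
    (h0 : (1 : Module.End F V) ∈ D ∅)
    (h1 : ∀ S i, i ∉ S → ∀ w (φ : Dual F W) c, (T i).inU c ∈ D S →
      (T i).inW (φ.smulRight w) * (T i).inU c ∈ D (insert i S))
    (S : Finset ι) {x : Module.End F V} (hx : ∀ l ∉ S, ∀ a, Commute ((T l).inW a) x) : x ∈ D S := by
  induction S using Finset.induction_on generalizing x with
  | empty =>
    obtain ⟨c, rfl⟩ := h.scalar fun i a => (hx i (by simp) a).symm
    exact Submodule.smul_mem _ c h0
  | insert i S hi ih =>
    rw [co_dec (T i) x]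
    refine Submodule.sum_mem _ fun j _ => Submodule.sum_mem _ fun m _ =>
      h1 S i hi _ _ _ (ih fun l hl a => ?_)
    by_cases e : l = i
    · exact e ▸ ((T l).commute_in _ _).symm
    · exact comm_co _ (h.comm l i e a) (hx l (by simp [e, hl]) a) _ _

variable (P : PQ F V (RingHom.id F)) in
/-- The skew endomorphisms. -/
def skS : Submodule F (Module.End F V) where
  carrier := {x | Skew P x}
  add_mem' ha hb x y := by simp [ha x y, hb x y]; ring
  zero_mem' x y := by simp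
  smul_mem' c a ha x y := by simp [ha x y]

variable {PR : PQ F R (RingHom.id F)} {PW : PQ F W (RingHom.id F)} {P : PQ F V (RingHom.id F)}

theorem Skew.cN {g : V ≃ₗ[F] V} (hg : g ∈ P.Isom) {a : Module.End F V} (ha : Skew P a) :
    Skew P (cN g a) := fun x y => by
  rw [cN_apply, cN_apply, ← B_isom_inv' hg, ha, B_isom_inv hg]

theorem skS_le (h : Wr.Multi T) (tf : ∀ i, TF (T i) PR PW P) (oW : IsOrth PW) [Nontrivial W]
    [Nonempty ι] : skS P ≤ ⨆ i, (T i).KK (sk PW ⊓ LinearMap.ker (LinearMap.trace F W)) := fun x hx => by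
  let K := fun S : Finset ι => ⨆ i ∈ S, (T i).KK (sk PW ⊓ LinearMap.ker (LinearMap.trace F W))
  obtain ⟨x', h1, h2⟩ := multi_ind h (fun S =>
    { carrier := {x | ∃ x', (∀ a b, P.B (x a) b = P.B a (x' b)) ∧ x - x' ∈ K S}
      add_mem' := fun ⟨a, h1, h2⟩ ⟨b, h3, h4⟩ => ⟨a + b, fun _ _ => by simp [h1, h3], by
        convert (K S).add_mem h2 h4 using 1; abel⟩
      zero_mem' := ⟨0, by simp, by simp⟩
      smul_mem' := fun c _ ⟨a, h1, h2⟩ => ⟨c • a, fun _ _ => by simp [h1], by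
        simpa [smul_sub] using (K S).smul_mem c h2⟩ }) ⟨1, fun _ _ => rfl, by simp⟩
    (fun S i hi w φ c ⟨y, h1, h2⟩ => by
      obtain ⟨b, hb⟩ := exists_repr_dual PW.σσ PW.B oW.nd φ
      obtain ⟨c', hc⟩ := exists_adj (tf i).ndU c
      obtain rfl : y = (T i).inU c' := LinearMap.ext fun z => sub_eq_zero.1
        (sep_right (tf i).nd fun a => by
          rw [map_sub, ← h1, sub_eq_zero]; exact B_inW (tf i).flip hc a z)
      rw [show φ.smulRight w = r1 PW w b from LinearMap.ext fun z => by simp [hb]]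
      refine ⟨(T i).inU c' * (T i).inW (r1 PW b w), fun a z => by
        rw [Module.End.mul_apply, B_inW (tf i) (b' := r1 PW b w) (fun x y => by
          simp [oW.symm x b, mul_comm]), h1]; rfl, ?_⟩
      have e : (T i).inW (r1 PW w b) * (T i).inU c - (T i).inU c' * (T i).inW (r1 PW b w) =
          (T i).op c' (wd PW w b) + (T i).inW (r1 PW w b) * ((T i).inU c - (T i).inU c') :=
        (T i).lext fun r z => by simp
      rw [e]
      refine Submodule.add_mem _ (Submodule.mem_iSup_of_mem i (Submodule.mem_iSup_of_mem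
        (Finset.mem_insert_self i S) (Submodule.subset_span
          ⟨_, _, ⟨Submodule.subset_span ⟨w, b, rfl⟩, trace_wd oW w b⟩, rfl⟩))) ?_
      refine (iSup₂_le fun l hl => Submodule.span_le.2 ?_ : K S ≤ (K (insert i S)).comap
        (LinearMap.mulLeft F ((T i).inW (r1 PW w b)))) h2
      rintro _ ⟨s, z, hz, rfl⟩
      obtain ⟨s', hs⟩ := (T l).exists_inU (h.comm i l (by rintro rfl; exact hi hl) (r1 PW w b))
      refine Submodule.mem_iSup_of_mem l (Submodule.mem_iSup_of_mem (Finset.mem_insert_of_mem hl)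
        (Submodule.subset_span ⟨s' * s, z, hz, ?_⟩))
      rw [LinearMap.mulLeft_apply, show (T i).inW _ = _ from hs, TS.op_eq, TS.op_eq, map_mul, mul_assoc])
    Finset.univ (x := x) (by simp)
  obtain ⟨i⟩ := ‹Nonempty ι›
  obtain rfl : x' = -x := LinearMap.ext fun z => sub_eq_zero.1
    (sep_right (tf i).nd fun a => by simp [← h1, hx a z])
  exact (Submodule.smul_mem_iff _ oW.two).1 (by simpa [K, ← two_smul F x] using h2)

/-- The standing hypotheses on a tensor power of an orthogonal space. -/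
structure Wo (T : ι → TS F R W V) (PR : PQ F R (RingHom.id F)) (PW : PQ F W (RingHom.id F))
    (P : PQ F V (RingHom.id F)) (π : Equiv.Perm ι →* (V ≃ₗ[F] V)) : Prop
    extends Wr.WF T PR PW P π where
  oR : IsOrth PR
  oW : IsOrth PW
  oV : IsOrth P
  dR : 3 ≤ finrank F R
  dW : 3 ≤ finrank F W

namespace Wo

variable [Finite F] [Nontrivial R] {π : Equiv.Perm ι →* (V ≃ₗ[F] V)} (h : Wo T PR PW P π)
  {M : Subgroup (V ≃ₗ[F] V)}
include h

theorem sw (h1 : Wr.WG T ⊓ EG P ≤ M) (h2 : M ≤ EG P) (i : ι) : Sw (T i) PR PW P M :=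
  ⟨h.tf i, h.oR, h.oW, h.oV, h.dR, h.dW,
    fun β hβ => h1 ⟨h.multi.opE_mem i β, ((h.tf i).opW_mem hβ).2⟩, h2⟩

theorem isMaximalIn_of [Nonempty ι] (hE : HE PW 3)
    (hk : 5 ≤ finrank F W ∨ (Idx1 PW ∧ (4 ≤ finrank F W ∨ ∃ μ : F, μ ≠ 0 ∧ μ ^ 2 ≠ 1)))
    (p1 : ∀ M, Wr.WG T ⊓ EG P ≤ M → M ≤ EG P → ¬ EG P ≤ M → ∀ i j, ∀ g ∈ M, ∀ w w', w ≠ 0 →
      PW.B w w = 0 → (∀ u, g ((T i).τ u w) ∈ (T j).col w') → (T j).Same ((T i).map g)) :
    Geo.IsMaximalIn (EG P) (Wr.WG T ⊓ EG P) := by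
  obtain ⟨i₀⟩ := ‹Nonempty ι›
  have hW := h.dW
  have : Nontrivial W := Module.nontrivial_of_finrank_pos (R := F) (by omega)
  refine H97.isMaximalIn_of inf_le_right (fun hc => ?_)
    fun M h1 h2 ⟨g, hg, hg'⟩ => by_contra fun h3 => hg' ⟨?_, h2 hg⟩
  · obtain ⟨g, hg, e⟩ := exists_not_rel (h.tf i₀) h.oR h.oW h.oV h.dR h.dW
    exact e (h.multi.rel_of_mem (hc hg).1 i₀ i₀)
  have f : Fr {A | ∃ i, ∃ g ∈ M, A = (T i).map g} PR PW P M := fr_of
    (by rintro _ ⟨i, g, hg, rfl⟩; exact (h.sw h1 h2 i).map hg) ⟨i₀, 1, M.one_mem, rfl⟩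
    (by rintro _ ⟨i, g, hg, rfl⟩ k hk; exact ⟨i, k * g, M.mul_mem hk hg, rfl⟩) (by
      rintro _ ⟨i, g, hg, rfl⟩ _ ⟨j, k, hk, rfl⟩ w w' h0 hw e
      simpa [TS.map_map] using (p1 M h1 h2 h3 i j _ (M.mul_mem (M.inv_mem hk) hg) w w' h0 hw
        fun u => TS.mem_map_col _ |>.1 (e ⟨u, rfl⟩)).map k) hk
  obtain ⟨u, hu0, hu⟩ := exists_sing h.oR h.dR
  obtain ⟨u', hu', huu⟩ := partner h.oR hu0 hu
  obtain ⟨x, -, -, hx⟩ := exists_x h.oR h.dR hu hu' huu
  refine h.multi.mem_WG (by omega) fun i j => ?_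
  obtain ⟨l, e⟩ := f.main (T := T) (fun i => ⟨i, 1, M.one_mem, rfl⟩) h.multi.comm (fun A _ e =>
    TS.not_comm_self (T := A) (by omega) fun a b => by
      obtain ⟨c, hc⟩ := h.multi.scalar fun j y => (e j y a).symm
      exact hc ▸ (Commute.one_left _).smul_left c) (d := 3) (by omega) hE (sk PW)
    (fun x hx G hG => hG.three h.oW hW hx) (skS P)
    (fun g hg a ha => Skew.cN (EG_le_isom (h2 hg)) ha)
    (fun j => (skS_le h.multi h.tf h.oW).trans le_sup_right)
    ⟨(PR.B x x)⁻¹ • r1 PR x x, by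
      rw [map_smul, show r1 PR x x = (PR.B x).smulRight x from rfl, LinearMap.trace_smulRight]
      simp [hx], fun j a b y z => by
      rw [TS.op_eq, Module.End.mul_apply, ((T j).commute_in _ _).eq, Module.End.mul_apply,
        ← skew_inW (h.tf j) (skew_wd h.oW a b)]
      exact B_inW (h.tf j).flip (fun y z => by simp [h.oR.symm y x, mul_comm]) _ _⟩ g hg i
  by_cases e1 : l = j
  · exact Or.inl (e1 ▸ e.inW)
  · exact Or.inr (Wr.Comm.of_same e.inW (h.multi.comm l j e1))

end Wo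

end H21.TO
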