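import Mathlib
import Cfsg.Agent.Base
import Cfsg.Agent.Lib.Tensor.HermIdent2
import Cfsg.Agent.Lib.Wr7.Form

/-!
Tensor powers of unitary spaces: the stabiliser of the decomposition is maximal.
-/

set_option autoImplicit false
set_option linter.unusedSectionVars false
set_option linter.unusedSimpArgs false

namespace H11.Ten

open Module Cfsg H97 H28 TS

section Abstract

variable {F U W V : Type*} [Field F] [AddCommGroup U] [Module F U] [AddCommGroup W]
  [Module F W] [AddCommGroup V] [Module F V] {σ : F →+* F} {PU : PQ F U σ}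
  {PW : PQ F W σ} {P : PQ F V σ} {M : Subgroup (V ≃ₗ[F] V)}
  [FiniteDimensional F U] [FiniteDimensional F W]

namespace TS

variable {T T' : TS F U W V}

theorem exists_alpha_eq [Nontrivial W] {g : V ≃ₗ[F] V} (h : ∀ a, cN g (T.inW a) = T'.inW a) :
    ∃ α : U ≃ₗ[F] U, ∀ u w, g (T.τ u w) = T'.τ (α u) w := by
  obtain ⟨w₀, h0⟩ := exists_ne (0 : W)
  obtain ⟨φ, hφ⟩ := exists_dual_of_ne_zero (F := F) h0 1
  have key : ∀ u w, g (T.τ u w) = T'.inW (φ.smulRight w) (g (T.τ u w₀)) := fun u w => by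
    simp [← h, cN_apply, hφ]
  obtain ⟨α, e⟩ := (T.map g).exists_alpha' T' (w := w₀) h0 (by
    rintro _ ⟨u, rfl⟩
    exact ⟨_, ((key u w₀).trans (T'.inW_smulRight _ _ _)).symm⟩)
  exact ⟨α, fun u w => by rw [key, ← map_τ, e]; simp [hφ]⟩

variable {g : V ≃ₗ[F] V} {α : U ≃ₗ[F] U} (e : ∀ u w, g (T.τ u w) = T'.τ (α u) w)
include e

theorem inv_of_eq (u : U) (w : W) : g.symm (T'.τ u w) = T.τ (α.symm u) w := by
  rw [LinearEquiv.symm_apply_eq, e]; simp

theorem cN_inU (s : Module.End F U) : cN g (T.inU s) = T'.inU (cN α s) :=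
  T'.lext fun u w => by simp [cN_apply, inv_of_eq e, e]

theorem levF_trans (hg : g ∈ M) {s : Module.End F U} (hs : s ∈ T.levF PW M) :
    cN α s ∈ T'.levF PW M := fun w y hw hy => by
  obtain ⟨-, k, hk, h⟩ := hs w y hw hy
  have h1 : ∀ y x, T.cB PW y (g.symm x) = α.symm (T'.cB PW y x) := fun y x =>
    LinearMap.congr_fun (T'.lext (f := T.cB PW y ∘ₗ g.symm)
      (g := α.symm ∘ₗ T'.cB PW y) fun u w => by simp [inv_of_eq e]) x
  exact ⟨fun u => by simp [PW.eq_zero_symm hy], g * k * g⁻¹,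
    M.mul_mem (M.mul_mem hg hk) (M.inv_mem hg), fun x hx => by
      rw [le_mul_apply, le_mul_apply, h _ (by rw [le_inv_apply, h1, hx, map_zero])]
      simp [e, h1, cN_apply]⟩

theorem algL_trans (hg : g ∈ M) {a : Module.End F U} (ha : a ∈ T.algL PW M) :
    cN α a ∈ T'.algL PW M := fun s hs => by
  have := levF_trans e hg (ha _ (levF_trans (g := g⁻¹) (α := α⁻¹) (inv_of_eq e) (M.inv_mem hg) hs))
  rwa [Wr.cN_mul, cN_cN_inv] at this

omit e in
theorem map_algL [Nontrivial W] (hg : g ∈ M) (h : ∀ a, cN g (T.inW a) = T'.inW a)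
    {x : Module.End F V} (hx : x ∈ (T.algL PW M).map T.inU) :
    cN g x ∈ (T'.algL PW M).map T'.inU := by
  obtain ⟨α, e⟩ := exists_alpha_eq h
  obtain ⟨a, ha, rfl⟩ := hx
  exact ⟨_, algL_trans e hg ha, (cN_inU e a).symm⟩

end TS

theorem TF.B_op {T : TS F U W V} (h : TF T PU PW P) {s s' : Module.End F U}
    {a a' : Module.End F W} (hs : ∀ x y, PU.B (s x) y = PU.B x (s' y))
    (ha : ∀ x y, PW.B (a x) y = PW.B x (a' y)) (x y : V) :
    P.B ((T.inU s * T.inW a) x) y = P.B x ((T.inU s' * T.inW a') y) :=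
  T.ind (p := fun x => P.B ((T.inU s * T.inW a) x) y = P.B x ((T.inU s' * T.inW a') y)) x (by simp)
    (fun u w => T.ind (p := fun y => P.B ((T.inU s * T.inW a) (T.τ u w)) y =
      P.B (T.τ u w) ((T.inU s' * T.inW a') y)) y (by simp)
        (fun u' w' => by simp [h.B_τ, hs, ha]) fun y y' hy hy' => by
          rw [map_add, map_add, map_add, hy, hy'])
    fun x x' hx hx' => by simp only [map_add, LinearMap.add_apply, hx, hx']

theorem eq_of_adj (hP : P.B.SeparatingLeft) {a b b' : Module.End F V}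
    (h : ∀ x y, P.B (a x) y = P.B x (b y)) (h' : ∀ x y, P.B (a x) y = P.B x (b' y)) : b = b' :=
  LinearMap.ext fun y => sub_eq_zero.1 (sep_right hP fun x => by rw [map_sub, ← h, h', sub_self])

theorem ext_of_xtr [Finite F] (hk : 2 ≤ finrank F W) {Y : Subgroup (W ≃ₗ[F] W)}
    (hX : Xtr Y (nilX PW)) (hG : Good Y) (T : TS F U W V) : Wr.Ext T Y :=
  Wr.ext_of_good hk hG fun A hA x hx hx' => by
    obtain ⟨s, h1, d, ⟨⟨h2, h3⟩, -⟩, h4⟩ := exists_pure hX (Z := A.toSubmodule) hA hx hx'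
    exact ⟨d, s, h2, fun hu => h2 (hu.mul_left_cancel (by simpa using h3)), h1,
      (T.commute_in s d).eq ▸ h4⟩

variable {ι : Type*} [Fintype ι] [DecidableEq ι] {T : ι → TS F U W V} [Nontrivial U]

theorem inU_inj [Nontrivial W] (T : TS F U W V) : Function.Injective T.inU := Wr.chi_injective T

/-- A non-scalar level yields a factor in the level algebra. -/
theorem exists_inW_mem [Finite F] (hm : Wr.Multi T) (cx : ∀ i, Cx (T i) PU PW P M)
    (hX : Xtr (EG PW) (nilX PW)) (hG : Good (EG PW)) {j : ι} {t : Module.End F U}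
    (ht : t ∈ (T j).zlev PW M) (ht' : ∀ c : F, t ≠ c • LinearMap.id) :
    ∃ i, i ≠ j ∧ ∀ a, (T i).inW a ∈ ((T j).algL PW M).map (T j).inU := by
  have hk := (cx j).two
  have : Nontrivial W := Module.nontrivial_of_finrank_pos (R := F) (by omega)
  have ns : ∀ {t : Module.End F U}, (∀ c : F, t ≠ c • LinearMap.id) →
      ∀ c : F, (T j).inU t ≠ c • 1 := fun h c e =>
    h c (inU_inj (T j) (by rw [map_smul, e]; exact congrArg _ (_root_.map_one _).symm))
  have hc : ∀ i, i ≠ j → ∀ γ a, cN ((T i).opE 1 γ) ((T j).inW a) = (T j).inW a :=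
    fun i hi γ a => Wr.cN_opE_of_comm _ _ (hm.comm j i hi.symm a)
  obtain ⟨i, hi⟩ : ∃ i, ¬ ∀ a, Commute ((T j).inU t) ((T i).inW a) := by
    by_contra h
    push Not at h
    exact (hm.scalar h).elim (ns ht')
  have hij : i ≠ j := by rintro rfl; exact hi ((T i).commute_in t)
  obtain ⟨s, hs, x₀, ⟨⟨a1, a2⟩, c, a3⟩, m, hm', e⟩ := exists_pure hX
    (Z := (Submodule.span F ((T j).zlev PW M : Set (Module.End F U))).map (T j).inU.toLinearMap)
    (by
      rintro γ hγ _ ⟨m, hm, rfl⟩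
      obtain ⟨α, e⟩ := exists_alpha_eq (hc i hij γ)
      refine ⟨_, span_zlev_conj (α := α) (mem_grpU.2 ?_) m hm, (cN_inU e m).symm⟩
      convert (cx i).opW γ hγ using 1
      exact LinearEquiv.toLinearMap_injective ((T j).lext fun u w => by simp [e]))
    ⟨t, Submodule.subset_span ht, rfl⟩ hi
  change (T j).inU m = _ at e
  obtain ⟨m', b1⟩ := exists_adj (cx j).tf.ndU m
  obtain ⟨s', b2⟩ := exists_adj (cx j).tf.ndU s
  let S := (LinearMap.range (LinearMap.mulRight F ((T i).inW x₀) ∘ₗ (T i).inU.toLinearMap)).comap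
    (T j).inU.toLinearMap
  have hS : ∀ a ∈ S, ∀ b ∈ S, a * b = 0 := by
    rintro a ⟨a', ha⟩ b ⟨b', hb⟩
    refine inU_inj (T j) ?_
    change (T i).inU _ * _ = (T j).inU _ at ha hb
    rw [map_mul, ← ha, ← hb, ← op_eq, ← op_eq, op_mul, a2, map_zero, op_eq, map_zero, mul_zero]
  obtain ⟨n, b3, b4, b5⟩ := (cx j).exists_nil hS hm' (by
    rintro rfl
    rw [map_zero, ← op_eq, eq_comm, op_eq_zero] at e
    exact e.elim hs a1) ⟨s, e.symm⟩ ⟨c • s', by
      change (T i).inU _ * _ = (T j).inU _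
      have := (cx j).tf.B_op b1 (a := 1) (a' := 1) fun _ _ => rfl
      simp only [_root_.map_one, mul_one, e] at this
      rw [eq_of_adj (cx j).tf.nd this ((cx i).tf.B_op b2 a3)]
      simp⟩ b1
  have b6 := hS n b5 n b5
  rcases hm.main hk (fun i => ext_of_xtr hk hX hG (T i)) (Finset.univ.erase j)
    (((T j).algL PW M).map (T j).inU) (fun i hi x hx => by
      obtain rfl : i = j := by simpa using hi
      obtain ⟨a, -, rfl⟩ := hx
      exact (T i).commute_in a)
    (fun i hi γ hγ x hx => map_algL ((cx i).opW γ hγ) (hc i (Finset.mem_erase.1 hi).1 γ) hx) with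
    h | ⟨i, hi, h⟩
  · obtain ⟨c, e⟩ := h _ ⟨n, (cx j).nil_mem_algL b3 (LinearMap.congr_fun b6), rfl⟩
    exact (ns (ne_smul_of_sq b4 b6) c e).elim
  · exact ⟨i, (Finset.mem_erase.1 hi).1, h⟩

theorem inW_mem_trans (hm : Wr.Multi T) (cx : ∀ i, Cx (T i) PU PW P M) (hne : σ ≠ RingHom.id F)
    (hk : 3 ≤ finrank F W) (hG : Good (EG PW)) {i j l : ι} (hij : i ≠ j) (hjl : j ≠ l)
    (hil : i ≠ l) (h1 : ∀ a, (T i).inW a ∈ ((T j).algL PW M).map (T j).inU)
    (h2 : ∀ a, (T j).inW a ∈ ((T l).algL PW M).map (T l).inU) (a : Module.End F W) :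
    (T i).inW a ∈ ((T l).algL PW M).map (T l).inU := by
  have : Nontrivial W := Module.nontrivial_of_finrank_pos (R := F) (by omega)
  set L := ((T l).algL PW M).map (T l).inU
  have wp := (cx i).wp
  obtain ⟨w, h0, hw⟩ := wp.exists_sing (by omega)
  obtain ⟨f, y, y', -, a2, a3, -, a5, -, a7⟩ := exists_perp_pair wp.nd hk h0 hw
  obtain ⟨θ, hθ⟩ := exists_ne_of_ne_id hne
  obtain ⟨⟨b1, b2⟩, -⟩ := r1_mem_nilX wp.nd h0 hw
  obtain ⟨s, hs, e⟩ := h1 (r1 PW w w)
  change (T j).inU s = _ at e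
  obtain ⟨s', b3⟩ := exists_adj (cx j).tf.ndU s
  have e' : (T j).inU s' = PW.ε • (T i).inW (r1 PW w w) := by
    have c1 := (cx j).tf.B_op b3 (a := 1) (a' := 1) fun _ _ => rfl
    have c2 := (cx i).tf.B_op (s := 1) (s' := 1) (a := r1 PW w w) (a' := PW.ε • r1 PW w w)
      (fun _ _ => rfl) fun x y => by
        simp [PW.symm x w, PW.σε, PW.σσ]; ring
    simp only [_root_.map_one, mul_one, one_mul, e] at c1 c2
    rw [eq_of_adj (cx j).tf.nd c1 c2, map_smul]
  obtain ⟨k, hk', e1⟩ := (cx j).comm_mem h0 hw a3 a5 (s₁ := θ • s) (s₁' := σ θ • s') (s₂ := 1)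
    (s₂' := 1) (Submodule.smul_mem _ _ ((cx j).algL_le hs)) (cx j).one_mem_levF
    (fun x y => by simp [b3]) (fun _ _ => rfl) w hw
  set t := (T i).inW (r1 PW w w)
  have c1 : ∀ b, Commute t ((T j).inW b) := hm.comm i j hij _
  have e2 : ∀ x, k x = x + ((PW.ε * (σ θ - θ)) • t * (T j).inW (r1 PW w w)) x := fun x => by
    rw [e1]
    change x + (T j).τ _ w = _
    rw [← inU_τ, ← inW_smulRight, PW.symm y y', a7]
    simp only [_root_.map_one, mul_one, one_smul, one_mul, map_sub, map_smul, e, e', PW.σε,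
      smul_mul_assoc]
    simp only [LinearMap.smul_apply, LinearMap.sub_apply, Module.End.mul_apply, r1]
    module
  have c2 : t * t = 0 := by rw [← map_mul, b2, map_zero]
  have c3 : ∀ b b', t * (T j).inW b * (t * (T j).inW b') = 0 := fun b b' => by
    rw [mul_assoc, ← mul_assoc _ t, ← (c1 b).eq, ← mul_assoc, ← mul_assoc, c2]; simp
  have c4 := map_algL (PW := PW) hk' (fun b => cN_of_commute (by
    rw [show (k : Module.End F V) = 1 + _ from LinearMap.ext e2, smul_mul_assoc]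
    exact (Commute.one_left _).add_left (((hm.comm i l hil _ b).mul_left
      (hm.comm j l hjl _ b)).smul_left _))) (h2 (r1 PW y' f))
  rw [Wr.cN_sq e2 (by simp [c3])] at c4
  have c5 := Wr.eq_top_of_ideal (S := L.toSubmodule.comap
    (LinearMap.mulLeft F t ∘ₗ (T j).inW.toLinearMap)) (fun b s hs => by
      change t * (T j).inW (b * s) ∈ L
      rw [map_mul, ← mul_assoc, (c1 _).eq, mul_assoc]
      exact L.mul_mem (h2 b) hs) (fun b s hs => by
      change t * (T j).inW (s * b) ∈ L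
      rw [map_mul, ← mul_assoc]
      exact L.mul_mem hs (h2 b)) (s := (PW.ε * (σ θ - θ)) • (r1 PW w w * r1 PW y' f -
        r1 PW y' f * r1 PW w w)) (by
      change t * (T j).inW _ ∈ L
      convert L.sub_mem c4 (h2 (r1 PW y' f)) using 1
      simp only [smul_mul_assoc, mul_smul_comm, mul_assoc t _ ((T j).inW _), ← map_mul, c3]
      rw [← mul_assoc, ← (c1 _).eq, mul_assoc, ← map_mul]
      simp [mul_sub, smul_sub]) fun h => by
    have := congrArg (PW.B y) (LinearMap.congr_fun h f)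
    simp [a2, a5, a7, PW.symm w f, PW.ε_ne_zero, sub_ne_zero.2 hθ] at this
  have c6 : (1 : Module.End F W) ∈ L.toSubmodule.comap
    (LinearMap.mulLeft F t ∘ₗ (T j).inW.toLinearMap) := c5 ▸ Submodule.mem_top
  exact (hG.top_of (C := L.comap (T i).inW) (ne_smul_of_sq b1 b2) fun γ hγ => by
    change (T i).inW _ ∈ L
    rw [← cN_opE_inW _ 1]
    exact map_algL ((cx i).opW γ hγ) (fun a => Wr.cN_opE_of_comm _ _ (hm.comm l i hil.symm a))
      (x := t) ((show t ∈ L by simpa using c6) :)).ge (Algebra.mem_top (x := a))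

theorem std_of_multi [Finite F] (hm : Wr.Multi T) (cx : ∀ i, Cx (T i) PU PW P M)
    (hne : σ ≠ RingHom.id F) (hk : 3 ≤ finrank F W) (hX : Xtr (EG PW) (nilX PW))
    (hG : Good (EG PW)) (hc : Wr.Cyc T M) (h : ¬ EG P ≤ M) (j : ι) : (T j).Std PW M :=
  (cx j).std_of_ne hne fun t ht => by
    have : Nontrivial W := Module.nontrivial_of_finrank_pos (R := F) (by omega)
    by_contra hs
    push Not at hs
    obtain ⟨i, hi, h1⟩ := exists_inW_mem hm cx hX hG ht hs
    have h2 := Wr.full_of_cyc (r := fun i j => ∀ a, (T i).inW a ∈ ((T j).algL PW M).map (T j).inU)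
      (fun i j l => inW_mem_trans hm cx hne hk hG) (fun i j l hij hjl hil h1 a => by
        obtain ⟨g, hg, e1, e2⟩ := hc i j l hij hjl hil
        exact (e1 a : cN g ((T i).inW a) = (T j).inW a) ▸ map_algL hg e2 (h1 a)) hi h1
    have h3 := Wr.eq_top_of_gen (T j) (S := (T j).algL PW M) fun A a1 a2 => hm.gen A fun i a => by
      by_cases hij : i = j
      · exact hij ▸ a1 a
      obtain ⟨s, hs, e⟩ := h2 i hij a
      exact (e : (T j).inU s = Wr.psi (T i) a) ▸ a2 s hs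
    exact h ((cx j).EG_le_of_top hk fun s => (cx j).algL_le (h3.ge Algebra.mem_top))

/-- Tensor powers of a unitary space. -/
theorem isMaximalIn_WG_herm [Finite F] [FiniteDimensional F V] [Nonempty ι]
    {π : Equiv.Perm ι →* (V ≃ₗ[F] V)} (h : Wr.WF T PU PW P π) (hne : σ ≠ RingHom.id F)
    (hε : PW.ε = 1) (wW : WP PW) (wV : WP P) (ha : 2 ≤ finrank F U) (hk : 3 ≤ finrank F W)
    (ht : 4 ≤ finrank F W ∨ ∃ c : F, σ c = c ∧ c ≠ 0 ∧ c ≠ 1) :
    Geo.IsMaximalIn (EG P) (Wr.WG T ⊓ EG P) := by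
  obtain ⟨i₀⟩ := ‹Nonempty ι›
  have rd := wW.rd (by omega) (ht.imp_right fun e => ⟨Or.inl hk, e⟩)
  refine isMaximalIn_of inf_le_right (fun hc => ?_) fun M h1 h2 ⟨g, hg, hg'⟩ => ?_
  · obtain ⟨w, h0, hw⟩ := wW.exists_sing (by omega)
    obtain ⟨u, hu⟩ := exists_ne (0 : U)
    obtain ⟨l, hl, hl0⟩ := wV.lam
    obtain ⟨k, hk, e⟩ := wV.has_nu ((h.tf i₀).singW u hw) hl
    refine Wr.not_rel_of_lev (s := l • r1 PU u u) (φ := PW.B w) h0 (fun e => h0 (wW.nd w
      (LinearMap.congr_fun e))) (PW.self_eq_zero hw) (fun c hc => ?_)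
      (fun x => by simp [e, (h.tf i₀).B_left, cB]) (h.multi.rel_of_mem (hc hk).1 i₀ i₀)
    obtain ⟨u', hu'⟩ := exists_notMem_span ha u
    obtain ⟨x, hx⟩ := exists_B_eq (h.tf i₀).ndU hu 1
    have c1 : c = 0 := by
      by_contra c0
      refine hu' ((Submodule.smul_mem_iff _ c0).1 ?_)
      rw [← show (l • r1 PU u u) u' = c • u' from LinearMap.congr_fun hc u']
      exact Submodule.smul_mem _ _ (Submodule.smul_mem _ _ (Submodule.mem_span_singleton_self u))
    simpa [c1, hx, hl0, hu] using LinearMap.congr_fun hc x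
  by_contra hc
  have cx : ∀ i, Cx (T i) PU PW P M := fun i => ⟨h.tf i, wW, fun β hβ =>
    h1 ⟨h.multi.opE_mem i β, ((h.tf i).opW_mem hβ).2⟩, h2.trans EG_le_isom,
    exists_ne 0, by omega, Or.inl hk⟩
  have hR := std_of_multi h.multi cx hne hk (wW.xtr (by omega) (ht.imp_right fun e =>
    ⟨Or.inl hne, e⟩)) rd.good (h.cyc wV.isoK (by rw [(T i₀).finrank_eq]; nlinarith) i₀ h1) hc
  have fam : Fam T M (EG PW) (ptΦ PW) PW.Λ := ⟨rd, h.multi.comm, fun i => (cx i).opW, by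
    rintro g hg i j _ ⟨w, h0, hw, rfl⟩ w' e
    exact (cx j).same ((cx i).map hg) (hR j) ((hR i).map hg) rd (ht.imp_right
      fun ⟨c, a1, a2, a3⟩ => by
        obtain ⟨a, rfl⟩ := exists_norm_eq hne PW.σσ a1
        exact ⟨a, right_ne_zero_of_mul a2, a3⟩) h0 hw e⟩
  refine hg' ⟨h.multi.mem_WG (by omega) fun i l => ?_, h2 hg⟩
  obtain ⟨j, e⟩ := fam.perm (fun g _ i e => not_comm_self (T := (T i).map g) (by omega) fun a b => by
    obtain ⟨c, e'⟩ := h.multi.scalar fun j x => (e j x a).symm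
    rw [e']
    exact (Commute.one_left _).smul_left c) (ht.elim
    (wW.van_u4 hne hε) fun ⟨c, a1, a2, a3⟩ => wW.van_u3 hne hε hk a1 a2 a3) g hg i
  exact Wr.Rel.of_same (T' := T j) e.inW (h.multi.rel_of_mem (Wr.WG T).one_mem j l)

end Abstract

open H11.U
open scoped Matrix MatrixGroups

theorem isMaximalIn_wreath_herm {F : Type*} [Field F] [Fintype F] {q : ℕ} [IsSq F q] {n k t : ℕ}
    (hk : 3 ≤ k) (ht : 2 ≤ t) (hex : ¬ (q = 2 ∧ k = 3)) (e : Fin n ≃ (Fin t → Fin k))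
    (P : GL (Fin n) F) {f₁ : (Fin k → F) → (Fin k → F) → F} (hf₁ : Geo.IsUnitaryFormPow q f₁)
    (hT : Geo.IsTensorPowerFormStructure (fun x : F => x ^ q) (hermForm n F q) f₁ e P) :
    Geo.IsMaximalIn (GU n F q ⊓ Geo.specialLinear (Fin n) F)
      (Geo.tensorWreathSubgroup k t e P ⊓ (GU n F q ⊓ Geo.specialLinear (Fin n) F)) := by
  obtain ⟨t, rfl⟩ : ∃ s, t = s + 1 := ⟨t - 1, by omega⟩
  have : NeZero k := ⟨by omega⟩
  obtain ⟨BR, hR, h⟩ := Wr.wf_herm hf₁ hT
  have h1 : k ≤ k ^ t := Nat.le_self_pow (by omega) k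
  have hn : n = k ^ t * k := by simpa [pow_succ] using Fintype.card_congr e
  rw [SU_eq (by nlinarith), Wr.wreath_eq, ← pull_inf]
  refine isMaximalIn_pull (isMaximalIn_WG_herm h cj_ne_id rfl (wp_hP (h.tf 0).ndW) (wp_hP uP_nd)
    (by rw [Wr.finrank_R]; omega) (by simpa using hk) ?_)
  by_cases hq : q = 2
  · left
    have : k ≠ 3 := fun e => hex ⟨hq, e⟩
    simp; omega
  · exact Or.inr (exists_fixed_ne hq 1)

end H11.Ten
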