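import Mathlib
import Cfsg.Agent.Base
import Cfsg.Agent.Lib.Tensor.OW3
import Cfsg.Agent.Lib.Tensor.WrU

/-!
Orthogonal tensor factors, part 4: the orthogonal factor itself.
-/

set_option autoImplicit false
set_option linter.unusedSectionVars false

namespace H21.TO

open Module Cfsg H97 H28 H11.Ten

variable {F W : Type*} [Field F] [AddCommGroup W] [Module F W]

variable (P : PQ F W (RingHom.id F)) in
/-- Either the field or the space is not too small. -/
def Rich : Prop := (∃ μ : F, μ ≠ 0 ∧ μ ^ 2 ≠ 1) ∨ ∀ w f y, P.B w w = 0 → P.B f f = 0 →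
  P.B w f = 1 → P.B w y = 0 → P.B f y = 0 → P.B y y ≠ 0 →
    ∃ x, P.B w x = 0 ∧ P.B f x = 0 ∧ P.B y x = 0 ∧ P.B x x = P.B y y

variable (P : PQ F W (RingHom.id F)) in
/-- The subspace is complemented by its perp. -/
def Spl (S : Submodule F W) : Prop := ∀ u, ∃ s ∈ S, u - s ∈ perp P S

variable (P : PQ F W (RingHom.id F)) in
/-- The reflection in `v`. -/
def rf (v : W) : Module.End F W := 1 - (2 / P.B v v) • r1 P v v

variable {P : PQ F W (RingHom.id F)}

@[simp] theorem rf_apply (v x : W) : rf P v x = x - (2 / P.B v v * P.B v x) • v := by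
  simp [rf, smul_smul]

variable [FiniteDimensional F W] (h : IsOrth P)
include h

theorem has_rf {v : W} (hv : P.B v v ≠ 0) : Has P.Isom (rf P v) :=
  (h.has_refl hv).congr fun x => by
    have := h.two
    have := h.q_ne hv
    rw [PQ.qrefl_apply, rf_apply, h.self v]
    match_scalars <;> field_simp

theorem rf_rf {v : W} (hv : P.B v v ≠ 0) (x : W) : rf P v (rf P v x) = x := by
  simp only [rf_apply, map_sub, map_smul, smul_eq_mul]
  match_scalars <;> field_simp <;> ring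

theorem cN_rf {v : W} (hv : P.B v v ≠ 0) {r : W ≃ₗ[F] W} (e : ∀ x, r x = rf P v x)
    (a : Module.End F W) : cN r a = rf P v * a * rf P v := by
  ext x
  rw [cN_apply, e, show r⁻¹ x = rf P v x by
    rw [le_inv_apply, LinearEquiv.symm_apply_eq, e, rf_rf h hv]]
  rfl

theorem Spl.exists {S : Submodule F W} (hS : Spl P S) (hd : finrank F S < finrank F W) :
    ∃ x ∈ perp P S, P.B x x ≠ 0 := by
  by_contra hc
  push Not at hc
  have := finrank_le_perp (P := P) S
  obtain ⟨z, hz, h0⟩ := Submodule.exists_mem_ne_zero_of_ne_bot (p := perp P S) fun e => by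
    rw [e, finrank_bot] at this; omega
  refine h0 (h.nd z fun u => ?_)
  obtain ⟨s, hs, hu⟩ := hS u
  have h1 := hc _ (Submodule.add_mem _ hz hu)
  have h2 := hc _ hu
  have h3 := (h.symm z s).trans (hz s hs)
  rw [map_add, map_add, LinearMap.add_apply, LinearMap.add_apply, hc z hz, h2,
    h.symm (u - s) z, map_sub, h3] at h1
  exact mul_left_cancel₀ h.two (by linear_combination h1)

theorem Spl.sup {S : Submodule F W} (hS : Spl P S) {x : W} (hx : x ∈ perp P S)
    (h0 : P.B x x ≠ 0) : Spl P (S ⊔ F ∙ x) := fun u => by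
  obtain ⟨s, hs, hu⟩ := hS u
  refine ⟨s + (P.B x u / P.B x x) • x, Submodule.add_mem_sup hs
    (Submodule.smul_mem _ _ (Submodule.mem_span_singleton_self x)), ?_⟩
  rw [perp_sup, ← sub_sub]
  exact ⟨Submodule.sub_mem _ hu (Submodule.smul_mem _ _ hx),
    mem_perp_singleton.2 (by simp [h.symm x s, hx s hs, h0])⟩

theorem spl_pair {w f : W} (hw : P.B w w = 0) (hf : P.B f f = 0) (hwf : P.B w f = 1) :
    Spl P ((F ∙ w) ⊔ F ∙ f) := fun u => by
  refine ⟨P.B f u • w + P.B w u • f, Submodule.add_mem_sup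
    (Submodule.smul_mem _ _ (Submodule.mem_span_singleton_self w))
    (Submodule.smul_mem _ _ (Submodule.mem_span_singleton_self f)), ?_⟩
  rw [perp_sup]
  exact ⟨mem_perp_singleton.2 (by simp [hw, hwf]),
    mem_perp_singleton.2 (by simp [hf, hwf, h.symm f w])⟩

theorem exists_x2 (h4 : 4 ≤ finrank F W) {w f y : W} (hw : P.B w w = 0) (hf : P.B f f = 0)
    (hwf : P.B w f = 1) (h1 : P.B w y = 0) (h2 : P.B f y = 0) (hy : P.B y y ≠ 0) :
    ∃ x, P.B w x = 0 ∧ P.B f x = 0 ∧ P.B y x = 0 ∧ P.B x x ≠ 0 ∧ (5 ≤ finrank F W →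
      ∃ x', P.B w x' = 0 ∧ P.B f x' = 0 ∧ P.B y x' = 0 ∧ P.B x x' = 0 ∧ P.B x' x' ≠ 0) := by
  have d := fun a : W => finrank_span_singleton_le (F := F) a
  have s1 := (spl_pair h hw hf hwf).sup h (x := y) (by
    rw [perp_sup]; exact ⟨mem_perp_singleton.2 h1, mem_perp_singleton.2 h2⟩) hy
  have d1 := finrank_sup_le' (F ∙ w) (F ∙ f)
  have d2 := finrank_sup_le' ((F ∙ w) ⊔ F ∙ f) (F ∙ y)
  obtain ⟨x, hx, a⟩ := s1.exists h (by have := d w; have := d f; have := d y; omega)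
  have hx' := hx
  simp only [perp_sup, Submodule.mem_inf, mem_perp_singleton] at hx'
  refine ⟨x, hx'.1.1, hx'.1.2, hx'.2, a, fun h5 => ?_⟩
  have d3 := finrank_sup_le' (((F ∙ w) ⊔ F ∙ f) ⊔ F ∙ y) (F ∙ x)
  obtain ⟨x', hx', a'⟩ := (s1.sup h hx a).exists h
    (by have := d w; have := d f; have := d y; have := d x; omega)
  simp only [perp_sup, Submodule.mem_inf, mem_perp_singleton] at hx'
  exact ⟨x', hx'.1.1.1, hx'.1.1.2, hx'.1.2, hx'.2, a'⟩

theorem rich_of (hk : 5 ≤ finrank F W ∨ (Idx1 P ∧ (4 ≤ finrank F W ∨ ∃ μ : F, μ ≠ 0 ∧ μ ^ 2 ≠ 1))) :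
    Rich P := by
  by_cases hμ : ∃ μ : F, μ ≠ 0 ∧ μ ^ 2 ≠ 1
  · exact Or.inl hμ
  refine Or.inr fun w f y hw hf hwf h1 h2 hy => ?_
  have key : ∀ a : F, a ≠ 0 → a = P.B y y ∨ a = -P.B y y := fun a ha => by
    push Not at hμ
    exact sq_eq_sq_iff_eq_or_eq_neg.1 ((hμ a ha).trans (hμ _ hy).symm)
  obtain ⟨x, a1, a2, a3, a4, a5⟩ := exists_x2 h (by rcases hk with h | ⟨-, h | h⟩ <;> [omega; omega;
    exact (hμ h).elim]) hw hf hwf h1 h2 hy
  rcases key _ a4 with e | e
  · exact ⟨x, a1, a2, a3, e⟩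
  rcases hk with h5 | ⟨hI, -⟩
  · obtain ⟨x', b1, b2, b3, b4, b5⟩ := a5 h5
    rcases key _ b5 with e' | e'
    · exact ⟨x', b1, b2, b3, e'⟩
    refine ⟨x + x', by simp [a1, b1], by simp [a2, b2], by simp [a3, b3], ?_⟩
    have := (key (2 * P.B y y) (mul_ne_zero h.two hy)).resolve_left fun e =>
      hy (by linear_combination e)
    simp [e, e', b4, h.symm x' x]
    linear_combination -this
  · obtain ⟨c, hc⟩ := Submodule.mem_span_singleton.1 (hI w (x + y) (by rintro rfl; simp at hwf) hw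
      (by simp [e, a3, h.symm x y]) (by simp [a1, h1]))
    exact (hy (by simpa [a3, h.symm y w, h1] using (congrArg (P.B y) hc).symm)).elim

theorem perp_le_of_ns (h3 : 3 ≤ finrank F W) {w f : W} (hw : P.B w w = 0) (hf : P.B f f = 0)
    (hwf : P.B w f = 1) {S : Submodule F W} (h0 : w ∈ S)
    (hS : ∀ y, P.B w y = 0 → P.B f y = 0 → P.B y y ≠ 0 → y ∈ S) {y : W} (hy : P.B w y = 0) :
    y ∈ S := by
  obtain ⟨x, a1, a2, a3⟩ := exists_x h h3 hw hf hwf
  rw [← S.sub_mem_iff_left (S.smul_mem (P.B f y) h0)]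
  have b1 : P.B w (y - P.B f y • w) = 0 := by simp [hy, hw]
  have b2 : P.B f (y - P.B f y • w) = 0 := by simp [h.symm f w, hwf]
  generalize y - P.B f y • w = v at b1 b2
  by_cases hv : P.B v v = 0
  swap; · exact hS v b1 b2 hv
  rcases self_add_or_sub h.two hv a3 with e | e
  · exact (S.add_mem_iff_left (hS x a1 a2 a3)).1 (hS _ (by simp [a1, b1]) (by simp [a2, b2]) e)
  · exact (S.sub_mem_iff_left (hS x a1 a2 a3)).1 (hS _ (by simp [a1, b1]) (by simp [a2, b2]) e)

theorem exists_ns_ne (h3 : 3 ≤ finrank F W) {w f : W} (hw : P.B w w = 0) (hf : P.B f f = 0)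
    (hwf : P.B w f = 1) {u : W} (hu : P.B w u = 0) (hu' : u ∉ F ∙ w) :
    ∃ z, P.B w z = 0 ∧ P.B f z = 0 ∧ P.B z z ≠ 0 ∧ P.B u z ≠ 0 := by
  by_contra hc
  push Not at hc
  exact hu' (mem_span_of_perp h.nd fun y => perp_le_of_ns h h3 hw hf hwf
    (S := LinearMap.ker (P.B u)) ((h.symm u w).trans hu) hc)

theorem weyl2 {w f x x' : W} (hw : P.B w w = 0) (hf : P.B f f = 0) (hwf : P.B w f = 1)
    (h1 : P.B w x = 0) (h2 : P.B f x = 0) (hx : P.B x x ≠ 0) (h1' : P.B w x' = 0)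
    (h2' : P.B f x' = 0) (hx' : P.B x' x' ≠ 0) : ∃ γ ∈ EG P, γ w = (P.B x x / P.B x' x') • w ∧
      ∀ y, P.B w y = 0 → P.B f y = 0 → γ y = rf P x' (rf P x y) := by
  obtain ⟨γ, hγ, e⟩ := (weyl h hw hf hwf h1' h2' hx').comp (weyl h hw hf hwf h1 h2 hx)
  have := h.two
  refine ⟨γ, hγ, ?_, fun y a1 a2 => ?_⟩
  · simp only [e, map_sub, map_smul, smul_eq_mul, hw, hf, hwf, h1, h2, h.symm f w, h.symm x w,
      h.symm x' w, h1', h2', h.symm x' f]
    match_scalars <;> field_simp <;> ring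
  · simp only [e, map_sub, map_smul, smul_eq_mul, hw, hf, hwf, h1, h2, h.symm f w, h.symm x w,
      h.symm x' w, h1', h2', h.symm x' f, a1, a2, rf_apply]
    match_scalars <;> field_simp <;> ring

theorem Rich.kil (hR : Rich P) {w f y : W} (hw : P.B w w = 0) (hf : P.B f f = 0)
    (hwf : P.B w f = 1) (h1 : P.B w y = 0) (h2 : P.B f y = 0) (hy : P.B y y ≠ 0) :
    ∃ γ ∈ EG P, ∃ μ ν : F, γ w = μ • w ∧ γ y = ν • y ∧ μ ≠ ν := by
  rcases hR with ⟨μ, m0, m1⟩ | hR
  · obtain ⟨γ, hγ, e1, e2⟩ := weyl2 h hw hf hwf (x := μ • y) (by simp [h1]) (by simp [h2])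
      (by simp [m0, hy]) h1 h2 hy
    refine ⟨γ, hγ, _, 1, e1, ?_, fun e => m1 ?_⟩
    · simp only [e2 y h1 h2, rf_apply, map_sub, map_smul, smul_eq_mul, LinearMap.smul_apply,
        RingHom.id_apply]
      match_scalars; field_simp; ring
    · simpa [hy, mul_div_assoc, sq] using e
  · obtain ⟨x, a1, a2, a3, a4⟩ := hR w f y hw hf hwf h1 h2 hy
    obtain ⟨γ, hγ, e1, e2⟩ := weyl2 h hw hf hwf h1 h2 hy a1 a2 (a4 ▸ hy)
    refine ⟨γ, hγ, _, -1, e1, ?_, fun e => h.two ?_⟩
    · simp only [e2 y h1 h2, rf_apply, map_sub, map_smul, smul_eq_mul, h.symm x y, a3]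
      match_scalars <;> field_simp <;> ring
    · rw [a4, div_self hy] at e; linear_combination e

theorem Rich.he [Finite F] (hR : Rich P) (h3 : 3 ≤ finrank F W) : HE P 3 := by
  classical
  have := Fintype.ofFinite F
  have h2 := h.two
  have hn : ∀ a : F, a ≠ 0 → a ≠ -a := fun a ha e => mul_ne_zero h2 ha (by linear_combination e)
  by_cases hμ : ∃ μ : F, μ ≠ 0 ∧ μ ^ 2 ≠ 1
  · obtain ⟨μ, m0, m1⟩ := hμ
    have m2 : μ ≠ 1 := fun e => m1 (by simp [e])
    have m3 : μ ≠ -1 := fun e => m1 (by simp [e])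
    refine he_one h h3 ?_
    rw [Nat.card_eq_fintype_card]
    refine le_trans (le_of_eq ?_) (Finset.card_le_univ {0, 1, -1, μ, -μ})
    rw [Finset.card_insert_of_notMem (by simp [m0, m0.symm]), Finset.card_insert_of_notMem (by
      simpa [hn 1, m2.symm, ← neg_eq_iff_eq_neg] using m3.symm), Finset.card_insert_of_notMem (by
        simp [m3.symm, m2.symm]), Finset.card_pair (hn μ m0)]
  intro w h0 hw
  obtain ⟨f, hf, hwf⟩ := partner h h0 hw
  obtain ⟨y, a1, a2, a3⟩ := exists_x h h3 hw hf hwf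
  obtain ⟨x, b1, -, b3, b4⟩ := hR.resolve_left hμ w f y hw hf hwf a1 a2 a3
  push Not at hμ
  refine ⟨2, (LinearMap.proj 0).smulRight x + (LinearMap.proj 1).smulRight y,
    fun a => by simp [a1, b1], fun a ha e => ha ?_, ?_⟩
  · have e1 : a 0 ^ 2 + a 1 ^ 2 = 0 := mul_right_cancel₀ a3 (by
      simp [b3, b4, h.symm x y] at e; linear_combination e)
    by_cases c0 : a 0 = 0 <;> by_cases c1 : a 1 = 0
    · ext i; fin_cases i <;> assumption
    · simp [c0, c1] at e1
    · simp [c0, c1] at e1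
    · rw [hμ _ c0, hμ _ c1] at e1; exact (h2 (by linear_combination e1)).elim
  · have : 3 ≤ Nat.card F := by
      rw [Nat.card_eq_fintype_card]
      refine le_trans (le_of_eq ?_) (Finset.card_le_univ {0, 1, -1})
      rw [Finset.card_insert_of_notMem (by simp), Finset.card_pair (hn 1 one_ne_zero)]
    omega

theorem cent_E (h3 : 3 ≤ finrank F W) {w : W} (h0 : w ≠ 0) (hw : P.B w w = 0) {a : Module.End F W}
    (ha : ∀ v, P.B w v = 0 → Commute a (wd P w v)) :
    ∃ (l : F) (y : W) (m : F), P.B w y = 0 ∧ a = l • 1 + wd P w y + m • r1 P w w := by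
  obtain ⟨f, hf, hwf⟩ := partner h h0 hw
  obtain ⟨x, a1, a2, a3⟩ := exists_x h h3 hw hf hwf
  have hfw := (h.symm f w).trans hwf
  have e1 : ∀ v, P.B w v = 0 → a v = P.B v f • a w - P.B v (a f) • w + P.B w (a f) • v :=
    fun v hv => by
      have := LinearMap.congr_fun (ha v hv).eq f
      simp only [Module.End.mul_apply, wd_apply, map_sub, map_smul, hwf, one_smul] at this
      linear_combination (norm := module) -this
  have e2 : a w = P.B w (a f) • w := by
    have := LinearMap.congr_fun (ha x a1).eq x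
    simp only [Module.End.mul_apply, wd_apply, map_sub, map_smul, a1, e1 x a1, h.symm x f, a2,
      map_add, h.symm x w, hw, smul_eq_mul] at this
    exact smul_right_injective _ a3 (by linear_combination (norm := module) this)
  refine ⟨P.B w (a f), P.B w (a f) • f - a f + P.B f (a f) • w, P.B f (a f), by simp [hw, hwf],
    LinearMap.ext fun z => ?_⟩
  have e3 := e1 (z - P.B w z • f) (by simp [hwf])
  rw [map_sub, map_smul, sub_eq_iff_eq_add] at e3
  simp only [e3, e2, LinearMap.add_apply, LinearMap.smul_apply, Module.End.one_apply, wd_apply,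
    r1_apply, map_sub, map_add, map_smul, LinearMap.sub_apply, smul_eq_mul, RingHom.id_apply, hf,
    h.symm z f, h.symm (a f) z]
  module

end H21.TO
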