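import Mathlib
import Cfsg.Agent.Base
import Cfsg.Agent.Lib.Tensor.OW4

/-!
Orthogonal tensor factors, part 5: extraction of pure tensors.
-/

set_option autoImplicit false
set_option linter.unusedSectionVars false

namespace H21.TO

open Module Cfsg H97 H28 H11.Ten

theorem ex_conj {F A : Type*} [Field F] [Ring A] [Algebra F A] (N a : A) (c : F) :
    ex N c * a * ex N (-c) - a = c • (N * a - a * N) +
      c ^ 2 • ((2⁻¹ : F) • (N * N * a + a * (N * N)) - N * a * N) +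
      c ^ 3 • (2⁻¹ : F) • (N * a * (N * N) - N * N * a * N) +
      c ^ 4 • (2⁻¹ * 2⁻¹ : F) • (N * N * a * (N * N)) := by
  simp only [ex, mul_add, add_mul, smul_mul_assoc, mul_smul_comm, mul_assoc, mul_one, one_mul]
  module

variable {F W : Type*} [Field F] [AddCommGroup W] [Module F W] {P : PQ F W (RingHom.id F)}
  [FiniteDimensional F W] (h : IsOrth P)
include h

theorem Rich.scalar [Finite F] (hR : Rich P) (h3 : 3 ≤ finrank F W)
    {s : Module.End F W} (hs : ∀ x y, P.B (s x) y = P.B x (s y))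
    (hz : ∀ u, P.B u u = 0 → P.B u (s u) = 0) : ∃ c : F, s = c • LinearMap.id := by
  rcases hR with ⟨μ, m0, m1⟩ | hR
  · exact scalar_of_sing h h3 m0 m1 hs hz
  by_contra hc
  push Not at hc
  obtain ⟨u₀, e1, e2⟩ := exists_sing h h3
  obtain ⟨u, hu, hsu⟩ := exists_sing_notMem h.nd h.max (Or.inr ⟨h3, h.two⟩) ⟨u₀, e1, h.max _ e2⟩ hc
  have hu := P.self_eq_zero hu
  obtain ⟨f, hf, huf⟩ := partner h (by rintro rfl; simp at hsu) hu
  have h2 := h.two
  have k0 : ∀ v, P.B u v = 0 → P.B f v = 0 → P.B v (s v) - P.B v v * P.B u (s f) =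
      2 * P.B f (s v) - P.B v v * P.B u (s v) := fun v a1 a2 => by
    have := hz (f - (2⁻¹ * P.B v v) • u - v) (by
      simp [hu, hf, huf, a1, a2, h.symm v u, h.symm v f, h.symm f u]
      field_simp; ring)
    simp only [map_sub, map_smul, LinearMap.sub_apply, LinearMap.smul_apply, smul_eq_mul, hz u hu,
      hz f hf, RingHom.id_apply, show P.B f (s u) = P.B u (s f) by rw [← hs, h.symm],
      show P.B v (s u) = P.B u (s v) by rw [← hs, h.symm],
      show P.B v (s f) = P.B f (s v) by rw [← hs, h.symm]] at this ⊢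
    field_simp at this
    exact mul_left_cancel₀ (mul_ne_zero h2 h2) (by linear_combination this)
  have k1 : ∀ v, P.B u v = 0 → P.B f v = 0 → 2 * P.B f (s v) = P.B v v * P.B u (s v) :=
    fun v a1 a2 => by
      have := k0 (-v) (by simp [a1]) (by simp [a2])
      simp only [map_neg, LinearMap.neg_apply, neg_neg] at this
      exact mul_left_cancel₀ h2 (by linear_combination this - k0 v a1 a2)
  refine hsu (mem_span_of_perp h.nd fun y => perp_le_of_ns h h3 hu hf huf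
    (S := LinearMap.ker (P.B (s u))) ((hs u u).trans (hz u hu)) fun v a1 a2 a3 => ?_)
  obtain ⟨x, b1, b2, b3, b4⟩ := hR u f v hu hf huf a1 a2 a3
  have c1 := k1 (v + x) (by simp [a1, b1]) (by simp [a2, b2])
  have c2 := k1 (v - x) (by simp [a1, b1]) (by simp [a2, b2])
  simp only [map_add, map_sub, LinearMap.add_apply, LinearMap.sub_apply, h.symm x v, b3, b4] at c1 c2
  exact (hs u v).trans (mul_left_cancel₀ (mul_ne_zero h2 a3) (by
    linear_combination 2 * k1 v a1 a2 - c1 - c2))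

theorem ex_neg {w v : W} (hw : P.B w w = 0) (hv : P.B w v = 0) (c : F) (x : W) :
    ex (wd P w v) c (ex (wd P w v) (-c) x) = x := by
  rw [← Module.End.mul_apply, ex_mul h.two (wd_cube h hw hv), add_neg_cancel, ex_zero]; rfl

theorem cN_ex {w v : W} (hw : P.B w w = 0) (hv : P.B w v = 0) {c : F} {β : W ≃ₗ[F] W}
    (e : ∀ y, β y = ex (wd P w v) c y) (a : Module.End F W) :
    cN β a = ex (wd P w v) c * a * ex (wd P w v) (-c) := by
  ext x
  rw [cN_apply, e, show β⁻¹ x = ex (wd P w v) (-c) x by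
    rw [le_inv_apply, LinearEquiv.symm_apply_eq, e, ex_neg h hw hv]]
  rfl

variable {E : Subalgebra F (Module.End F (Module.End F W))}
  (hE : ∀ γ ∈ EG P, (cA γ).toLinearMap ∈ E)
include hE

theorem exists_ev {w v : W} (hw : P.B w w = 0) (hv : P.B w v = 0) : ∃ φ ∈ E, ∀ a y, φ a y =
    -(P.B v v * P.B w (a y)) • w - (P.B v v * P.B w y) • a w - (2 : F) • wd P w v (a (wd P w v y)) +
      (2⁻¹ * P.B v v ^ 2 * P.B w y * P.B w (a w)) • w := by
  obtain ⟨φ, h1, h2⟩ := exists_delta hE (has_ex h hw hv 1) (ex_neg h hw hv 1)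
  obtain ⟨φ', h3, h4⟩ := exists_delta hE (has_ex h hw hv (-1)) (ex_neg h hw hv (-1))
  refine ⟨φ + φ', E.add_mem h1 h3, fun a y => ?_⟩
  have := h.two
  rw [LinearMap.add_apply, h2, h4, ex_conj, ex_conj, wd_mul_self h hw hv]
  simp only [LinearMap.add_apply, LinearMap.smul_apply, LinearMap.sub_apply, Module.End.mul_apply,
    r1_apply, map_smul, smul_eq_mul]
  match_scalars <;> field_simp <;> ring

theorem exists_four (hR : Rich P) (h3 : 3 ≤ finrank F W) {w : W} (h0 : w ≠ 0) (hw : P.B w w = 0) :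
    ∃ φ ∈ E, ∃ c : F, c ≠ 0 ∧ ∀ a, φ a = (c * P.B w (a w)) • r1 P w w := by
  obtain ⟨f, hf, hwf⟩ := partner h h0 hw
  obtain ⟨v, a1, a2, a3⟩ := exists_x h h3 hw hf hwf
  have h2 := h.two
  rcases hR with ⟨μ, m0, m1⟩ | hR
  · let L := LinearMap.mulLeft F (wd P w v)
    let R := LinearMap.mulRight F (wd P w v)
    have := (quartic h2 m0 m1 (a1 := E.toSubmodule.mkQ (L - R))
      (a2 := E.toSubmodule.mkQ ((2⁻¹ : F) • (L * L + R * R) - L * R))
      (a3 := E.toSubmodule.mkQ ((2⁻¹ : F) • (L * R * R - L * L * R)))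
      (a4 := E.toSubmodule.mkQ ((2⁻¹ * 2⁻¹ : F) • (L * L * R * R))) fun c => by
        obtain ⟨φ, b1, b2⟩ := exists_delta hE (has_ex h hw a1 c) (ex_neg h hw a1 c)
        simp only [← map_smul, ← map_add]
        refine (Submodule.Quotient.mk_eq_zero _).2 ?_
        refine (congrArg (· ∈ E) (LinearMap.ext fun a => ?_)).mp b1
        rw [b2, ex_conj]; simp [L, R, mul_assoc]).2.2
    refine ⟨_, (Submodule.Quotient.mk_eq_zero _).1 this, 2⁻¹ * 2⁻¹ * P.B v v ^ 2, by simp [h2, a3],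
      fun a => LinearMap.ext fun y => ?_⟩
    simp only [L, R, LinearMap.smul_apply, Module.End.mul_apply, LinearMap.mulLeft_apply,
      LinearMap.mulRight_apply, wd_sq h hw a1, map_smul, r1_apply]
    module
  obtain ⟨x, b1, b2, b3, b4⟩ := hR w f v hw hf hwf a1 a2 a3
  obtain ⟨φ, c1, c2⟩ := exists_ev h hE hw a1
  obtain ⟨φ', c3, c4⟩ := exists_ev h hE hw b1
  have c5 : ∀ a y, (φ - φ') a y = (2 : F) • wd P w x (a (wd P w x y)) -
      (2 : F) • wd P w v (a (wd P w v y)) := fun a y => by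
    simp only [LinearMap.sub_apply, c2, c4, b4]; abel
  refine ⟨(φ - φ') * (φ - φ'), E.mul_mem (E.sub_mem c1 c3) (E.sub_mem c1 c3), 8 * P.B v v ^ 2,
    mul_ne_zero (by rw [show (8 : F) = 2 ^ 3 by norm_num]; exact pow_ne_zero _ h2) (pow_ne_zero _ a3),
    fun a => LinearMap.ext fun y => ?_⟩
  rw [Module.End.mul_apply, c5, c5, c5]
  simp only [wd_apply, map_sub, map_smul, smul_eq_mul, hw, a1, b1, b3, b4, h.symm v w, h.symm x w,
    h.symm x v, LinearMap.smul_apply, r1_apply]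
  module

omit hE in
theorem xtr_orth [Finite F] (hR : Rich P) (h3 : 3 ≤ finrank F W) {Γ : Subgroup (W ≃ₗ[F] W)}
    (hE : EG P ≤ Γ) {w₀ : W} (h0 : w₀ ≠ 0) (hw₀ : P.B w₀ w₀ = 0)
    (hΓ : ∀ u, P.B w₀ u = 0 → u ∉ F ∙ w₀ → ∃ z, P.B w₀ z = 0 ∧ P.B z z ≠ 0 ∧ P.B u z ≠ 0 ∧
      Has Γ (rf P z)) : Xtr Γ {x | x ≠ 0 ∧ ¬ IsUnit x} := fun E hE' K x hx hx' => by
  have hE'' := fun γ hγ => hE' γ (hE hγ)
  have nu : ∀ a b, ¬ IsUnit (wd P a b) ∧ ¬ IsUnit (r1 P a a) := fun a b => by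
    obtain ⟨y, c1, c2, c3⟩ := exists_ker_two h3 (P.B a) (P.B b)
    constructor <;> exact fun e => c1 (((Module.End.isUnit_iff _).1 e).1 (by simp [c2, c3]))
  by_cases hc : ∃ w, P.B w w = 0 ∧ ∃ x ∈ K, P.B w (x w) ≠ 0
  · obtain ⟨w, hw, x, hx, e⟩ := hc
    have h0 : w ≠ 0 := by rintro rfl; simp at e
    obtain ⟨φ, a1, c, a2, a3⟩ := exists_four h hE'' hR h3 h0 hw
    have := (r1_mem_nilX h.nd h0 (h.max _ hw)).1.1
    exact ⟨φ, a1, _, ⟨this, (nu w w).2⟩, fun x _ => Submodule.mem_span_singleton.2 ⟨_, (a3 x).symm⟩,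
      x, hx, a3 x ▸ smul_ne_zero (mul_ne_zero a2 e) this⟩
  push Not at hc
  obtain ⟨w, hw, e⟩ := exists_sing_notMem h.nd h.max (Or.inr ⟨h3, h.two⟩) ⟨w₀, h0, h.max _ hw₀⟩ hx'
  obtain ⟨β, hβ, c, c0, e1⟩ := pt_trans h h3 h0 (by rintro rfl; simp at e) hw₀ (P.self_eq_zero hw)
  have hI := EG_le_isom hβ
  have k1 : ∀ x ∈ K, ∀ u, P.B u u = 0 → P.B u (cN β⁻¹ x u) = 0 := fun x hx u hu => by
    rw [cN_apply, B_isom_inv' hI, inv_inv]
    exact hc _ (by rw [B_isom hI, hu]) x hx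
  obtain ⟨z, z1, z2, z3, r, z4, z5⟩ := hΓ (cN β⁻¹ x w₀) (k1 x hx _ hw₀) fun e' => e (by
    obtain ⟨a, ha⟩ := Submodule.mem_span_singleton.1 e'
    have := congrArg β ha
    rw [cN_apply, le_apply_inv, inv_inv, map_smul, e1, map_smul, smul_comm] at this
    exact smul_right_injective _ c0 this ▸ Submodule.smul_mem _ _ (Submodule.mem_span_singleton_self w))
  obtain ⟨φ, a1, a2⟩ := exists_ev h hE'' hw₀ z1
  have k2 : ∀ x ∈ K, ((1 - (cA r).toLinearMap) * φ * (cA β⁻¹).toLinearMap) x =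
      (-2 * P.B (cN β⁻¹ x w₀) z) • wd P w₀ z := fun x hx => by
    obtain ⟨x', hx'⟩ := exists_adj h.nd (cN β⁻¹ x)
    obtain ⟨l, hl⟩ := hR.scalar h h3 (s := cN β⁻¹ x + x') (fun a b => by
      simp only [LinearMap.add_apply, map_add]
      rw [hx', h.symm (x' a), ← hx' b a, h.symm a (cN β⁻¹ x b), add_comm]) fun u hu => by
        simp [← hx', h.symm _ u, k1 x hx u hu]
    change φ (cN β⁻¹ x) - cN r (φ (cN β⁻¹ x)) = _
    have k3 := k1 x hx _ hw₀
    generalize cN β⁻¹ x = t at hx' hl k3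
    have k4 : ∀ a b, P.B a (t b) = l * P.B a b - P.B b (t a) := fun a b => by
      have := congrArg (P.B a) (LinearMap.congr_fun hl b)
      simp [← hx', h.symm (t a)] at this
      linear_combination this
    ext y
    simp only [cN_rf h z2 z5, Module.End.mul_apply, LinearMap.sub_apply, a2, rf_apply, map_sub,
      map_smul, map_add, wd_apply, smul_eq_mul, k3, hw₀, z1, h.symm z w₀, k4 w₀ y, k4 w₀ z,
      LinearMap.smul_apply, h.symm (t w₀) z, h.symm y (t w₀)]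
    have := h.two
    match_scalars <;> field_simp <;> ring
  have k5 : wd P w₀ z ≠ 0 := fun e => h0 (by simpa [z1, z2] using LinearMap.congr_fun e z)
  exact ⟨_, E.mul_mem (E.mul_mem (E.sub_mem E.one_mem (hE' r z4)) a1) (hE'' _ ((EG P).inv_mem hβ)),
    _, ⟨k5, (nu _ z).1⟩, fun x hx => Submodule.mem_span_singleton.2 ⟨_, (k2 x hx).symm⟩,
    x, hx, k2 x hx ▸ smul_ne_zero (by simp [h.two, z3]) k5⟩

end H21.TO
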