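import Mathlib
import Cfsg.Agent.Base
import Cfsg.Agent.Lib.Tensor.OW5
import Cfsg.Agent.Lib.Wr7.Sp2

/-!
Orthogonal tensor factors, part 6: coefficients, fixed points, twisted elements.
-/

set_option autoImplicit false
set_option linter.unusedSectionVars false

namespace H21.TO

open Module Cfsg H97 H28 H11.Ten

variable {F R W V : Type*} [Field F] [AddCommGroup R] [Module F R] [AddCommGroup W]
  [Module F W] [AddCommGroup V] [Module F V] [FiniteDimensional F R] [FiniteDimensional F W]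
  {PR : PQ F R (RingHom.id F)} {PW : PQ F W (RingHom.id F)} {P : PQ F V (RingHom.id F)}
  {M : Subgroup (V ≃ₗ[F] V)}

section One

variable (T : TS F R W V)

/-- The coefficients of an endomorphism in the second factor. -/
noncomputable def cf (ψ : Dual F (Module.End F R)) : Module.End F V →ₗ[F] Module.End F W :=
  T.endTS.cU ψ

@[simp] theorem cf_op (ψ : Dual F (Module.End F R)) (s : Module.End F R) (a : Module.End F W) :
    cf T ψ (T.inU s * T.inW a) = ψ s • a := T.endTS.cU_τ ψ s a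

theorem cf_inW (ψ : Dual F (Module.End F R)) (φ : Module.End F (Module.End F W))
    (x : Module.End F V) : cf T ψ (T.endTS.inW φ x) = φ (cf T ψ x) :=
  LinearMap.congr_fun (T.endTS.lext (f := T.endTS.cU ψ ∘ₗ T.endTS.inW φ)
    (g := φ ∘ₗ T.endTS.cU ψ) fun s x => by simp) x

theorem endTS_cA (β : W ≃ₗ[F] W) (x : Module.End F V) :
    T.endTS.inW (cA β).toLinearMap x = cN (T.opE 1 β) x :=
  LinearMap.congr_fun (T.endTS.lext (g := (cA (T.opE 1 β)).toLinearMap) fun s x => by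
    rw [TS.inW_τ]; simp [TS.endTS_τ, cA_apply, TS.cN_opE, cN_one]) x

theorem cf_comm {a : Module.End F W} {x : Module.End F V} (h : Commute x (T.inW a))
    (ψ : Dual F (Module.End F R)) : Commute (cf T ψ x) a := by
  have := LinearMap.congr_fun (T.endTS.lext
    (f := cf T ψ ∘ₗ (LinearMap.mulRight F (T.inW a) - LinearMap.mulLeft F (T.inW a)))
    (g := (LinearMap.mulRight F a - LinearMap.mulLeft F a) ∘ₗ cf T ψ) fun s b => by
      simp only [TS.endTS_τ, LinearMap.comp_apply, LinearMap.sub_apply, LinearMap.mulRight_apply,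
        LinearMap.mulLeft_apply, map_sub, cf_op]
      rw [mul_assoc, ← mul_assoc (T.inW a), ← (T.commute_in s a).eq, mul_assoc, ← map_mul,
        ← map_mul, cf_op, cf_op]
      simp) x
  simpa [h.eq, eq_comm (a := (0 : Module.End F W)), sub_eq_zero, commute_iff_eq] using this

theorem exists_pure' {φ : Module.End F (Module.End F W)} {x : Module.End F V} {x₀ : Module.End F W}
    (h : ∀ ψ, φ (cf T ψ x) ∈ F ∙ x₀) : ∃ s, T.endTS.inW φ x = T.inU s * T.inW x₀ ∧
      ∀ ψ, φ (cf T ψ x) = ψ s • x₀ := by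
  obtain ⟨s, hs⟩ := T.endTS.mem_col_of (w := x₀) (x := T.endTS.inW φ x) fun χ hχ =>
    (Module.forall_dual_apply_eq_zero_iff F _).1 fun ψ => by
      obtain ⟨c, e⟩ := Submodule.mem_span_singleton.1 (h ψ)
      rw [TS.cW_cU, show T.endTS.cU ψ _ = _ from cf_inW T ψ φ x, ← e, map_smul, hχ, smul_zero]
  exact ⟨s, hs.symm, fun ψ => by rw [← cf_inW, ← hs]; exact cf_op T ψ s x₀⟩

theorem dual_cf (ψ : Dual F (Module.End F R)) (φ : Dual F W) (x : Module.End F V) (b : W) :
    φ (cf T ψ x b) = ψ (Wr.co T φ b x) := by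
  refine T.endTS.ind (p := fun x => φ (cf T ψ x b) = ψ (Wr.co T φ b x)) x ?_ (fun s a => ?_)
    fun x y hx hy => ?_
  · simp [Wr.co]
  · rw [TS.endTS_τ, cf_op, show Wr.co T φ b _ = φ (a b) • s from LinearMap.ext fun r => by
      simp [Wr.co_apply]]
    simp [mul_comm]
  · simp [Wr.co, LinearMap.add_comp, LinearMap.comp_add, hx, hy]

variable (PW) in
/-- Symmetric in the second factor. -/
def SymAt (x : Module.End F V) : Prop := ∀ ψ a b, PW.B (cf T ψ x a) b = PW.B a (cf T ψ x b)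

variable {T}

theorem symAt_ww (h : IsOrth PW) (s : Module.End F R) (w : W) :
    SymAt PW T (T.inU s * T.inW (r1 PW w w)) := fun ψ a b => by
  simp [h.symm a w, mul_comm]

theorem symAt_of_comm [Finite F] (h : IsOrth PW) (h3 : 3 ≤ finrank F W) {x : Module.End F V}
    (hx : ∀ β ∈ EG PW, cN (T.opE 1 β) x = x) : SymAt PW T x := fun ψ a b => by
  obtain ⟨c, e⟩ := Wr.scalar_of_central (x := cf T ψ x) fun y =>
    (Subalgebra.mem_centralizer_iff F).1 ((top_of_RR h h3
      (S := Subalgebra.centralizer F {cf T ψ x}) fun β hβ => (Subalgebra.mem_centralizer_iff F).2 (by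
        rintro _ rfl
        exact cf_comm T (T.opE_one_coe β ▸ (Wr.commute_of_cN (hx β (RR_sub h hβ))).symm) ψ)).ge
          Algebra.mem_top) _ rfl
  simp [e]

theorem z_form (h : TF T PR PW P) (oW : IsOrth PW) {w : W} (h0 : w ≠ 0) (hw : PW.B w w = 0)
    {k : V ≃ₗ[F] V} (hk : k ∈ P.Isom) (h1 : ∀ x, T.cB PW w x = 0 → k x = x) :
    ∃ t, ∀ x, k x = x + (T.inU t * T.inW (r1 PW w w)) x := by
  obtain ⟨f, hf, hwf⟩ := partner oW h0 hw
  let t : Module.End F R := T.cB PW f ∘ₗ ((k : V →ₗ[F] V) - LinearMap.id) ∘ₗ T.τ.flip f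
  refine ⟨t, fun x => ?_⟩
  obtain ⟨a, ha⟩ := h.mem_col_of_cB (x := k (T.τ (T.cB PW w x) f) - T.τ (T.cB PW w x) f)
    (w := w) fun y hy => sep_right h.ndU fun u => by
      have := B_isom hk (T.τ u y) (T.τ (T.cB PW w x) f)
      rw [h1 _ (by simp [oW.symm w y, hy])] at this
      rw [← h.B_left, map_sub, this, sub_self]
  have e1 : t (T.cB PW w x) = a := by
    change T.cB PW f (k (T.τ _ f) - T.τ _ f) = a
    rw [← ha]; simp [oW.symm f w, hwf]
  have e2 := h1 (x - T.τ (T.cB PW w x) f) (by simp [hwf])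
  rw [Module.End.mul_apply, inW_r1, TS.inU_τ, e1, show T.τ a w = _ from ha]
  rw [map_sub] at e2
  linear_combination (norm := module) e2

theorem ww_mul (oW : IsOrth PW) {w : W} (hw : PW.B w w = 0) (s t : Module.End F R) :
    T.inU s * T.inW (r1 PW w w) * (T.inU t * T.inW (r1 PW w w)) = 0 :=
  T.lext fun u y => by simp [hw]

theorem ext_orth [Finite F] (h : IsOrth PW) (hR : Rich PW) (h3 : 3 ≤ finrank F W)
    {Γ : Subgroup (W ≃ₗ[F] W)} (hE : EG PW ≤ Γ) (hG : H11.Ten.Good Γ) {w₀ : W} (h0 : w₀ ≠ 0)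
    (hw₀ : PW.B w₀ w₀ = 0) (hΓ : ∀ u, PW.B w₀ u = 0 → u ∉ F ∙ w₀ →
      ∃ z, PW.B w₀ z = 0 ∧ PW.B z z ≠ 0 ∧ PW.B u z ≠ 0 ∧ Has Γ (rf PW z)) (T : TS F R W V) :
    Wr.Ext T Γ := Wr.ext_of_good (by omega) hG fun A hA x hx hx' => by
  obtain ⟨s, h1, d, ⟨h2, h3⟩, h4⟩ := TS.exists_pure (xtr_orth h hR h3 hE h0 hw₀ hΓ)
    (Z := A.toSubmodule) hA hx hx'
  exact ⟨d, s, h2, h3, h1, (T.commute_in s d).eq ▸ h4⟩

theorem invS_closure {S : Submodule F (Module.End F V)} {s : Set (W ≃ₗ[F] W)} [Finite F]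
    (h : ∀ γ ∈ s, ∀ x ∈ S, cN (T.opE 1 γ) x ∈ S) : Wr.InvS T (Subgroup.closure s) S := by
  have : Finite (Module.End F W) := Module.finite_of_finite F
  have : Finite (W ≃ₗ[F] W) := Finite.of_injective _ LinearEquiv.toLinearMap_injective
  intro γ hγ
  rw [← Subgroup.mem_toSubmonoid, Subgroup.closure_toSubmonoid_of_finite] at hγ
  induction hγ using Submonoid.closure_induction with
  | mem γ hγ => exact h γ hγ
  | one => intro x hx; rwa [TS.opE_one_one, cN_one]
  | mul a b _ _ ha hb => intro x hx; rw [TS.opE_one_mul, cN_mul]; exact ha _ (hb x hx)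

end One

variable {ι : Type*} [Fintype ι] [DecidableEq ι] {T : ι → TS F R W V}

theorem trace_r1 {U : Type*} [AddCommGroup U] [Module F U] [FiniteDimensional F U]
    (P : PQ F U (RingHom.id F)) (c : Module.End F U) (u v : U) :
    LinearMap.trace F U (c * wd P u v) = P.B v (c u) - P.B u (c v) := by
  rw [show c * wd P u v = (P.B v).smulRight (c u) - (P.B u).smulRight (c v) from
    LinearMap.ext fun y => by simp, map_sub, LinearMap.trace_smulRight, LinearMap.trace_smulRight]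

theorem eq_zero_of_sym (h : Wr.Multi T) (tf : ∀ i, TF (T i) PR PW P) (oW : IsOrth PW)
    (oV : IsOrth P) [Nontrivial W] [Nonempty ι] {x : Module.End F V} (hx : Skew P x)
    (hs : ∀ i, SymAt PW (T i) x) : x = 0 := by
  obtain ⟨i₀⟩ := ‹Nonempty ι›
  have := (T i₀).finite
  have key : skS P ≤ LinearMap.ker (LinearMap.trace F V ∘ₗ LinearMap.mulLeft F x) := by
    refine (skS_le h tf oW).trans (iSup_le fun i => Submodule.span_le.2 ?_)
    rintro _ ⟨s, a, ⟨ha, -⟩, rfl⟩
    have e := LinearMap.congr_fun ((T i).endTS.lext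
      (f := LinearMap.trace F V ∘ₗ LinearMap.mulRight F ((T i).op s a))
      (g := LinearMap.trace F W ∘ₗ LinearMap.mulRight F a ∘ₗ
        cf (T i) (LinearMap.trace F R ∘ₗ LinearMap.mulRight F s)) fun s' a' => by
          simp [TS.endTS_τ, -cf_op, cf_op (T i) _ s' a']
          rw [← TS.op_eq, TS.op_mul, TS.trace_op]) x
    refine e.trans ?_
    change LinearMap.trace F W (_ * a) = 0
    clear e
    induction ha using Submodule.span_induction with
    | mem _ ha => obtain ⟨u, v, rfl⟩ := ha; rw [trace_r1, ← hs i, oW.symm, sub_self]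
    | zero => simp
    | add _ _ _ _ h1 h2 => rw [mul_add, map_add, h1, h2, add_zero]
    | smul _ _ _ h1 => rw [mul_smul_comm, map_smul, h1, smul_zero]
  ext u
  refine sep_right oV.nd fun v => mul_left_cancel₀ oV.two ?_
  have := (trace_r1 P x u v).symm.trans (key (skew_wd oV u v))
  rw [oV.symm u, hx v u] at this
  linear_combination this

theorem exists_fix [Finite F] (h : Wr.Multi T) (oW : IsOrth PW) {w : W} (hw : PW.B w w = 0) (j : ι)
    {𝒮 : Set (Module.End F V)} {x₀ : Module.End F V} (h0 : x₀ ∈ 𝒮)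
    (h1 : ∀ l a, Commute x₀ ((T l).inW a))
    (hS : ∀ l, l ≠ j → ∀ β ∈ EG PW, ∀ x ∈ 𝒮, cN ((T l).opE 1 β) x ∈ 𝒮)
    (hp : (Nat.card 𝒮 : F) = 0) : ∃ x ∈ 𝒮, x ≠ x₀ ∧
      ∀ l, l ≠ j → ∀ v, PW.B w v = 0 → Commute x ((T l).inW (wd PW w v)) := by
  have := (T j).finite
  have : Finite (Module.End F V) := Module.finite_of_finite F
  have : Finite (V ≃ₗ[F] V) := Finite.of_injective _ LinearEquiv.toLinearMap_injective
  obtain ⟨p, hc⟩ := CharP.exists F
  have : Fact p.Prime := ⟨CharP.char_is_prime F p⟩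
  let s : Set (V ≃ₗ[F] V) := {g | ∃ l, l ≠ j ∧ ∃ v, PW.B w v = 0 ∧ ∃ β ∈ EG PW,
    (β : Module.End F W) = ex (wd PW w v) (1 : F) ∧ g = (T l).opE 1 β}
  have a1 : ∀ g ∈ Subgroup.closure s, cN g x₀ = x₀ ∧ ∀ x ∈ 𝒮, cN g x ∈ 𝒮 := fun g hg => by
    rw [← Subgroup.mem_toSubmonoid, Subgroup.closure_toSubmonoid_of_finite] at hg
    induction hg using Submonoid.closure_induction with
    | mem γ hγ =>
      obtain ⟨l, hl, v, -, β, hβ, -, rfl⟩ := hγ
      exact ⟨Wr.cN_opE_of_comm _ _ (h1 l), hS l hl β hβ⟩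
    | one => simp [cN_one]
    | mul a b _ _ ha hb => exact ⟨by rw [cN_mul, hb.1, ha.1], fun x hx => by
        rw [cN_mul]; exact ha.2 _ (hb.2 x hx)⟩
  have a2 : ∀ a ∈ s, ∀ b ∈ s, a * b = b * a := by
    rintro _ ⟨l, -, v, hv, β, -, e, rfl⟩ _ ⟨l', -, v', hv', β', -, e', rfl⟩
    refine LinearEquiv.toLinearMap_injective ?_
    change Commute ((T l).opE 1 β : Module.End F V) ((T l').opE 1 β')
    rw [TS.opE_one_coe, TS.opE_one_coe]
    by_cases hl : l = l'
    swap; · exact h.comm l l' hl _ _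
    have c : Commute (wd PW w v) (wd PW w v') := LinearMap.ext fun y => by
      simp [hw, hv, hv', oW.symm v w, oW.symm v' w, oW.symm v v', mul_comm]
    have c' : Commute (wd PW w v) (ex (wd PW w v') (1 : F)) :=
      ((Commute.one_right _).add_right (c.smul_right _)).add_right ((c.mul_right c).smul_right _)
    exact hl ▸ (e ▸ e' ▸ ((Commute.one_left _).add_left (c'.smul_left _)).add_left
      ((c'.mul_left c').smul_left _) : Commute (β : Module.End F W) β').map (T l).inW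
  have a3 : IsPGroup p (Subgroup.closure s) := fun ⟨g, hg⟩ => ⟨1, Subtype.ext (by
    change g ^ p ^ 1 = 1
    rw [pow_one]
    induction hg using Subgroup.closure_induction with
    | mem γ hγ =>
      obtain ⟨l, hl, v, hv, β, hβ, e, rfl⟩ := hγ
      refine LinearEquiv.toLinearMap_injective ?_
      rw [coe_pow', TS.opE_one_coe, e, ← map_pow, ex_pow_char oW.two (wd_cube oW hw hv)]
      simp [ex_zero]; rfl
    | one => simp
    | mul a b ha hb h1 h2 =>
      rw [(show Commute a b from Subgroup.closure_induction₂ (p := fun a b _ _ => Commute a b)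
        (fun a b ha hb => a2 a ha b hb) (by simp) (by simp) (fun _ _ _ _ _ _ => Commute.mul_left)
        (fun _ _ _ _ _ _ => Commute.mul_right) (fun _ _ _ _ => Commute.inv_left)
        (fun _ _ _ _ => Commute.inv_right) ha hb).mul_pow, h1, h2, one_mul]
    | inv a _ h1 => rw [inv_pow, h1, inv_one])⟩
  letI : MulAction (Subgroup.closure s) 𝒮 :=
    { smul := fun g x => ⟨cN g.1 x.1, (a1 g.1 g.2).2 _ x.2⟩
      one_smul := fun x => Subtype.ext (cN_one _)
      mul_smul := fun a b x => Subtype.ext (cN_mul _ _ _) }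
  obtain ⟨⟨x, hx⟩, b1, b2⟩ := a3.exists_fixed_point_of_prime_dvd_card_of_fixed_point 𝒮
    ((CharP.cast_eq_zero_iff F p _).1 hp) (a := ⟨x₀, h0⟩) fun g => Subtype.ext (a1 g.1 g.2).1
  refine ⟨x, hx, fun e => b2 (Subtype.ext e.symm), fun l hl v hv => ?_⟩
  obtain ⟨β, hβ, e⟩ := has_ex oW hw hv 1
  have b3 := (Wr.commute_of_cN (congrArg Subtype.val (b1 ⟨_, Subgroup.subset_closure
    ⟨l, hl, v, hv, β, hβ, LinearMap.ext e, rfl⟩⟩))).symm
  rw [← lg_RR oW hw hv e, map_lg, ← TS.opE_one_coe]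
  have a3 := b3.sub_right (Commute.one_right _)
  exact a3.sub_right ((a3.mul_right a3).smul_right _)

theorem card_eq_zero [Finite F] [FiniteDimensional F V] {Z : AddSubgroup (Module.End F V)}
    {x : Module.End F V} (hx : x ∈ Z) (h0 : x ≠ 0) : (Nat.card (Z : Set (Module.End F V)) : F) = 0 := by
  obtain ⟨p, hc⟩ := CharP.exists F
  have : Fact p.Prime := ⟨CharP.char_is_prime F p⟩
  rw [CharP.cast_eq_zero_iff F p, ← addOrderOf_eq_prime (p := p) (x := (⟨x, hx⟩ : Z)) (Subtype.ext (by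
    simp [← Nat.cast_smul_eq_nsmul F])) fun e => h0 (congrArg Subtype.val e)]
  exact addOrderOf_dvd_natCard _

theorem Wo.twist [Finite F] [Nontrivial R] {π : Equiv.Perm ι →* (V ≃ₗ[F] V)} (h : Wo T PR PW P π)
    {i j : ι} {γ : W ≃ₗ[F] W} (hγ : γ ∈ PW.Isom) :
    (T i).opE 1 γ * (T j).opE 1 γ⁻¹ ∈ Wr.WG T ⊓ EG P := by
  have := (T i).finite
  refine ⟨Subgroup.mul_mem _ (h.multi.opE_mem i _) (h.multi.opE_mem j _), ?_⟩
  have := h.oV.isoK.commutator_mem_EG h.oV.nd (by
    rw [(T i).finrank_eq]; nlinarith [h.dR, h.dW]) ((h.tf i).opE_isom (α := 1) (fun _ _ => rfl)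
      (B_isom hγ)) (h.isom (Equiv.swap i j))
  refine (congrArg (· ∈ EG P) ?_).mpr this
  rw [mul_assoc, mul_assoc, mul_right_inj, ← mul_assoc, TS.opE_inv, inv_one]
  refine LinearEquiv.toLinearMap_injective ?_
  simpa [Wr.opE_one_coe, Wr.cN_eq] using (h.perm (Equiv.swap i j) i (γ⁻¹ : W ≃ₗ[F] W)).symm

end H21.TO
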