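import Mathlib
import Cfsg.Agent.Base
import Cfsg.Agent.Lib.Tensor.OW6

/-!
Orthogonal tensor factors, part 7: column stabilisers.
-/

set_option autoImplicit false
set_option linter.unusedSectionVars false

namespace H21.TO

open Module Cfsg H97 H28 H11.Ten

variable {F R W V : Type*} [Field F] [AddCommGroup R] [Module F R] [AddCommGroup W]
  [Module F W] [AddCommGroup V] [Module F V] [FiniteDimensional F R] [FiniteDimensional F W]
  {PR : PQ F R (RingHom.id F)} {PW : PQ F W (RingHom.id F)} {P : PQ F V (RingHom.id F)}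
  {M : Subgroup (V ≃ₗ[F] V)}

section One

variable {T : TS F R W V} {w f : W} {k k' : V ≃ₗ[F] V}

theorem Lev.mul (hw : PW.B w w = 0) (h : Lev T PW w k) (h' : Lev T PW w k') :
    Lev T PW w (k * k') := ⟨fun u => by rw [le_mul_apply, h'.1, h.1], fun x hx => by
  obtain ⟨a, ha⟩ := h'.2 x hx
  rw [le_mul_apply, eq_add_of_sub_eq ha.symm, map_add, add_sub_assoc]
  exact Submodule.add_mem _ ⟨a, (h.1 a).symm⟩ (h.2 x hx)⟩

theorem Lev.inv (h : Lev T PW w k) : Lev T PW w k⁻¹ :=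
  ⟨fun u => by rw [le_inv_apply, LinearEquiv.symm_apply_eq, h.1], fun x hx => by
    obtain ⟨a, ha⟩ := h.2 x hx
    refine ⟨-a, k.injective ?_⟩
    rw [map_sub, le_apply_inv, LinearMap.flip_apply, h.1, ← neg_sub, ← ha]; simp⟩

theorem Lev.conj (h : Lev T PW w k) {g : V ≃ₗ[F] V} {α : R ≃ₗ[F] R}
    (h1 : ∀ u, g (T.τ u w) = T.τ (α u) w) (h2 : ∀ x, T.cB PW w x = 0 → T.cB PW w (g⁻¹ x) = 0) :
    Lev T PW w (g * k * g⁻¹) := ⟨fun u => by
      rw [← α.apply_symm_apply u, ← h1, le_mul_apply, le_inv_apply_apply, le_mul_apply, h.1],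
    fun x hx => by
      obtain ⟨a, ha⟩ := h.2 _ (h2 x hx)
      exact ⟨α a, by rw [LinearMap.flip_apply, ← h1, show T.τ a w = _ from ha, map_sub,
        le_apply_inv]; rfl⟩⟩

theorem Lev.eq (h : Lev T PW w k) (hfw : PW.B f w = 1) {x : V} (hx : T.cB PW w x = 0) :
    k x = x + T.τ (T.cB PW f (k x - x)) w := by
  obtain ⟨a, ha⟩ := h.2 x hx
  rw [← ha, LinearMap.flip_apply, TS.cB_τ, hfw, one_smul, show T.τ a w = _ from ha, add_sub_cancel]

theorem opE_mul (T : TS F R W V) (α α' : R ≃ₗ[F] R) (β β' : W ≃ₗ[F] W) :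
    T.opE α β * T.opE α' β' = T.opE (α * α') (β * β') :=
  LinearEquiv.toLinearMap_injective (T.lext fun u y => by simp)

theorem cB_opE_inv {γ : W ≃ₗ[F] W} (hγ : γ ∈ PW.Isom) {μ : F} (e : γ w = μ • w) (α : R ≃ₗ[F] R)
    {x : V} (hx : T.cB PW w x = 0) : T.cB PW w ((T.opE α γ)⁻¹ x) = 0 := by
  have := T.cB_opE α hγ w ((T.opE α γ)⁻¹ x)
  rw [le_apply_inv, e, TS.cB_smul, LinearMap.smul_apply, hx, smul_zero] at this
  simpa using this.symm

variable (T PW) in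
/-- The level of a unipotent element. -/
noncomputable def lv (f : W) (k : V ≃ₗ[F] V) : W →ₗ[F] Module.End F R :=
  LinearMap.llcomp F R V R (T.cB PW f ∘ₗ ((k : V →ₗ[F] V) - LinearMap.id)) ∘ₗ T.τ.flip

theorem Lev.lv (h : Lev T PW w k) (hfw : PW.B f w = 1) {y : W} (hy : PW.B w y = 0) (u : R) :
    k (T.τ u y) = T.τ u y + T.τ (lv PW T f k y u) w := h.eq hfw (by simp [hy])

theorem Sw.split (h : Sw T PR PW P M) (hL : Lev T PW w k) (hw : PW.B w w = 0) (hf : PW.B f f = 0)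
    (hwf : PW.B w f = 1) (hs : ∀ y, PW.B w y = 0 → PW.B f y = 0 → PW.B y y ≠ 0 →
      lv PW T f k y ∈ F ∙ (1 : Module.End F R)) : ∃ v, PW.B w v = 0 ∧ ∃ γ ∈ EG PW,
      (∀ x, T.opE 1 γ x = ex (opR T (wd PW w v)) (1 : F) x) ∧
        ∀ x, T.cB PW w x = 0 → ((T.opE 1 γ)⁻¹ * k) x = x := by
  have e0 : lv PW T f k w = 0 := LinearMap.ext fun u => by simp [lv, hL.1]
  have e2 : ∀ y, PW.B w y = 0 → lv PW T f k y ∈ F ∙ (1 : Module.End F R) := fun y =>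
    perp_le_of_ns h.oW h.dW hw hf hwf (S := (F ∙ (1 : Module.End F R)).comap (lv PW T f k))
      (by rw [Submodule.mem_comap, e0]; exact zero_mem _) hs
  have := h.ntU
  obtain ⟨u₀, hu₀⟩ := exists_ne (0 : R)
  obtain ⟨ψ, hψ⟩ := exists_dual_of_ne_zero (F := F) hu₀ 1
  obtain ⟨v, hv⟩ := exists_repr_dual PW.σσ PW.B h.oW.nd (ψ ∘ₗ (lv PW T f k).flip u₀)
  have hwv : PW.B w v = 0 := by rw [h.oW.symm, hv]; simp [e0]
  obtain ⟨γ, hγ, e⟩ := h.hasR hw hwv 1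
  refine ⟨v, hwv, γ, hγ, e, fun x hx => ?_⟩
  rw [le_mul_apply, le_inv_apply, LinearEquiv.symm_apply_eq, e, h.exR_perp hw hwv hx]
  refine sub_eq_zero.1 (T.eq_zero_of_ker (f := (k : V →ₗ[F] V) -
    (LinearMap.id + T.τ.flip w ∘ₗ T.cB PW v)) (φ := PW.B w) (fun u y hy => ?_) hx)
  obtain ⟨c, hc⟩ := Submodule.mem_span_singleton.1 (e2 y hy)
  simp [hL.lv ((h.oW.symm f w).trans hwf) hy, hv, ← hc, hψ]

theorem Sw.dec2 (h : Sw T PR PW P M) (hR : Rich PW) (hO : OL T PW M) (h0 : w ≠ 0)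
    (hw : PW.B w w = 0) {g : V ≃ₗ[F] V} (hI : g ∈ P.Isom)
    (hg : ∀ β ∈ EG PW, g⁻¹ * T.opE 1 β * g ∈ M) (h1 : ∀ u, g (T.τ u w) ∈ T.col w) :
    ∃ α β, (∀ γ ∈ EG PW, β * γ * β⁻¹ ∈ EG PW) ∧ ∃ z ∈ P.Isom, (∀ x, T.cB PW w x = 0 → z x = x) ∧
      g = T.opE α β * z := by
  obtain ⟨α, β, κ, κ0, a1, a2, a3⟩ := h.dec hO h0 hw hI hg h1
  set k := (T.opE α β)⁻¹ * g with hk
  obtain ⟨f, hf, hwf⟩ := partner h.oW h0 hw
  have hfw := (h.oW.symm f w).trans hwf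
  obtain ⟨v, -, γ, hγ, -, e⟩ := h.split a3 hw hf hwf fun y b1 b2 b3 => by
    obtain ⟨γ, hγ, μ, ν, c1, c2, c3⟩ := hR.kil h.oW hw hf hwf b1 b2 b3
    have μ0 : μ ≠ 0 := by rintro rfl; exact h0 (by simpa using c1)
    obtain ⟨v, hv, ev⟩ := hO w h0 hw (k⁻¹ * (T.opE 1 γ * k * (T.opE 1 γ)⁻¹)) (by
      have := M.mul_mem (hg _ (EG_sim h.oW κ0 a1 hγ)) (M.inv_mem (h.le γ hγ))
      rw [show T.opE 1 (β * γ * β⁻¹) = T.opE α β * T.opE 1 γ * (T.opE α β)⁻¹ by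
        simp [TS.opE_inv, opE_mul]] at this
      simpa [hk, mul_assoc] using this) (a3.inv.mul hw (a3.conj
        (α := LinearEquiv.smulOfNeZero F R μ μ0) (fun u => by simp [c1, Units.smul_def])
        fun x => cB_opE_inv (EG_le_isom hγ) c1 1))
    refine Submodule.mem_span_singleton.2 ⟨(μ - ν)⁻¹ * (ν * PW.B v y), LinearMap.ext fun u => ?_⟩
    have := congrArg k (ev (T.opE 1 γ (T.τ u y)))
    rw [le_mul_apply k⁻¹, le_apply_inv, le_mul_apply (_ * k), le_mul_apply _ k, le_inv_apply_apply,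
      h.exR_perp hw hv (by simp [c2, b1])] at this
    simp only [a3.lv hfw b1, map_add, TS.opE_τ, c1, c2, map_smul, a3.1, TS.cB_τ, LinearEquiv.coe_one,
      id_eq, LinearMap.smul_apply] at this
    refine smul_right_injective _ (sub_ne_zero.2 c3) (T.col_injective h0 ?_)
    simp only [LinearMap.smul_apply, smul_smul, mul_inv_cancel_left₀ (sub_ne_zero.2 c3), map_smul,
      LinearMap.flip_apply, Module.End.one_apply]
    linear_combination (norm := module) -this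
  exact ⟨α, β * γ, fun δ hδ => by
    simpa [mul_assoc] using EG_sim h.oW κ0 a1
      ((EG PW).mul_mem ((EG PW).mul_mem hγ hδ) ((EG PW).inv_mem hγ)), (T.opE 1 γ)⁻¹ * k,
    P.Isom.mul_mem (P.Isom.inv_mem (h.isom (h.le γ hγ))) (P.Isom.mul_mem (P.Isom.inv_mem a2) hI), e,
    by rw [← mul_one α, ← opE_mul, hk]; group⟩

theorem cent_τ (oW : IsOrth PW) (h3 : 3 ≤ finrank F W) (hw : PW.B w w = 0) (hwf : PW.B w f = 1)
    {a : Module.End F V} (ha : ∀ v, PW.B w v = 0 → Commute a (T.inW (wd PW w v))) {y : W}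
    (h1 : PW.B w y = 0) (r : R) : a (T.τ r y) = T.τ (Wr.co T (PW.B f) w a r) y +
      T.τ ((Wr.co T (PW.B f) y a - PW.B f y • Wr.co T (PW.B f) w a) r) w := by
  refine sub_eq_zero.1 (T.eq_zero_of_cW fun φ => ?_)
  have : Wr.co T φ y a = φ y • Wr.co T (PW.B f) w a +
      φ w • (Wr.co T (PW.B f) y a - PW.B f y • Wr.co T (PW.B f) w a) := sub_eq_zero.1
    ((Module.forall_dual_apply_eq_zero_iff F _).1 fun ψ => by
      obtain ⟨l, y', m, e1, e2⟩ := cent_E oW h3 (by rintro rfl; simp at hwf) hw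
        fun v hv => cf_comm T (ha v hv) ψ
      simp [← dual_cf, e2, hw, h1, oW.symm f w, hwf, oW.symm y' w, e1]
      ring)
  rw [map_sub, ← Wr.co_apply, this]
  simp only [map_add, TS.cW_τ, LinearMap.add_apply, LinearMap.smul_apply, sub_self]

theorem symAt_of_co (oW : IsOrth PW) (h3 : 3 ≤ finrank F W) (hw : PW.B w w = 0) (hf : PW.B f f = 0)
    (hwf : PW.B w f = 1) {a : Module.End F V} (ha : ∀ v, PW.B w v = 0 → Commute a (T.inW (wd PW w v)))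
    (h : ∀ y, PW.B w y = 0 → PW.B f y = 0 → PW.B y y ≠ 0 → Wr.co T (PW.B f) y a = 0) :
    SymAt PW T a := fun ψ => by
  obtain ⟨l, y', m, e1, e2⟩ := cent_E oW h3 (by rintro rfl; simp at hwf) hw
    fun v hv => cf_comm T (ha v hv) ψ
  obtain ⟨c, rfl⟩ : ∃ c : F, c • w = y' := Submodule.mem_span_singleton.1 (by_contra fun e => by
    obtain ⟨y, b1, b2, b3, b4⟩ := exists_ns_ne oW h3 hw hf hwf e1 e
    have := dual_cf T ψ (PW.B f) a y
    simp [h y b1 b2 b3, e2, b1, b2, oW.symm f w, hwf, b4] at this)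
  intro x y
  simp [e2, oW.symm x w]; ring

theorem inU_co (T : TS F R W V) (φ : Dual F W) (u : W) (x : Module.End F V) :
    T.inU (Wr.co T φ u x) = ∑ j, T.inW (φ.smulRight (finBasis F W j)) * x *
      T.inW (((finBasis F W).coord j).smulRight u) := T.lext fun r z => by
  conv_lhs => rw [← (finBasis F W).sum_repr z]
  simp [-Basis.sum_repr, LinearMap.sum_apply, Wr.co_apply, TS.inW_smulRight]

theorem co_mul_zero {x y : Module.End F V} (h1 : ∀ a, Commute y (T.inW a)) (φ : Dual F W) (u : W) :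
    (x * y = 0 → T.inU (Wr.co T φ u x) * y = 0) ∧ (y * x = 0 → y * T.inU (Wr.co T φ u x) = 0) := by
  rw [inU_co, Finset.sum_mul, Finset.mul_sum]
  constructor <;> refine fun e => Finset.sum_eq_zero fun j _ => ?_
  · rw [mul_assoc, ← (h1 _).eq, ← mul_assoc, mul_assoc _ x, e, mul_zero, zero_mul]
  · rw [← mul_assoc, ← mul_assoc, (h1 _).eq, mul_assoc _ y, e, mul_zero, zero_mul]

variable (T PW P M w) in
/-- The conjugates of the factor by the centre of the unipotent radical that lie in `M`. -/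
def ZS : Set (Module.End F V) := {x | ∃ z ∈ P.Isom, (∀ v, z v = v + x v) ∧
  (∀ v, T.cB PW w v = 0 → x v = 0) ∧ ∀ β ∈ EG PW, z⁻¹ * T.opE 1 β * z ∈ M}

theorem ZS_form (h : Sw T PR PW P M) (h0 : w ≠ 0) (hw : PW.B w w = 0) {x : Module.End F V}
    (hx : x ∈ ZS PW P M T w) : Skew P x ∧ ∃ t, x = T.inU t * T.inW (r1 PW w w) := by
  obtain ⟨z, hz, e, h1, -⟩ := hx
  obtain ⟨t, ht⟩ := z_form h.tf h.oW h0 hw hz fun v hv => by rw [e, h1 v hv, add_zero]
  obtain rfl : x = _ := LinearMap.ext fun v => add_left_cancel ((e v).symm.trans (ht v))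
  exact ⟨skew_of_isom (LinearMap.congr_fun (ww_mul h.oW hw t t)) ⟨z, hz, e⟩, t, rfl⟩

theorem ZS_map {T' : TS F R W V} (h : Sw T PR PW P M) (h0 : w ≠ 0) (hw : PW.B w w = 0)
    {g z₀ : V ≃ₗ[F] V} (hg : g ∈ M) (h1 : z₀ ∈ P.Isom) (h2 : ∀ v, T'.cB PW w v = 0 → z₀ v = v)
    (h3 : ∀ v, T'.cB PW w v = 0 ↔ T.cB PW w (g⁻¹ v) = 0)
    (h4 : ∀ β ∈ EG PW, ∃ β' ∈ EG PW, z₀⁻¹ * T'.opE 1 β * z₀ = g * T.opE 1 β' * g⁻¹)
    {x : Module.End F V} (hx : x ∈ ZS PW P M T w) :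
    (z₀ : Module.End F V) - 1 + cN g x ∈ ZS PW P M T' w := by
  obtain ⟨-, t, ht⟩ := ZS_form h h0 hw hx
  obtain ⟨z, hz, e, a1, a2⟩ := hx
  have hI := h.isom hg
  refine ⟨z₀ * (g * z * g⁻¹), P.Isom.mul_mem h1 (P.Isom.mul_mem (P.Isom.mul_mem hI hz)
    (P.Isom.inv_mem hI)), fun v => ?_, fun v hv => by
      simp [h2 v hv, cN_apply, -LinearEquiv.coe_inv, a1 _ ((h3 v).1 hv)], fun β hβ => ?_⟩
  · have := h2 (g (x (g⁻¹ v))) ((h3 _).2 (by simp [ht, inW_r1, hw]))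
    simp [e, cN_apply, -LinearEquiv.coe_inv, this, le_apply_inv]; abel
  · obtain ⟨β', b1, b2⟩ := h4 β hβ
    have := M.mul_mem (M.mul_mem hg (a2 β' b1)) (M.inv_mem hg)
    convert this using 1
    rw [show T'.opE 1 β = z₀ * (g * T.opE 1 β' * g⁻¹) * z₀⁻¹ by rw [← b2]; group]; group

end One

end H21.TO
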