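import Mathlib
import Cfsg.Agent.Base
import Cfsg.Agent.Lib.Tensor.OW7

/-!
Orthogonal tensor factors, part 8: a column determines its tensor structure.
-/

set_option autoImplicit false
set_option linter.unusedSectionVars false

namespace H21.TO

open Module Cfsg H97 H28 H11.Ten

theorem sum_maps {A : Type*} [AddCommMonoid A] {S S' : Set A} [Fintype S] [Fintype S'] {f f' : A → A}
    (hf : Function.Injective f) (hf' : Function.Injective f') (h : ∀ x ∈ S, f x ∈ S')
    (h' : ∀ x ∈ S', f' x ∈ S) : ∑ x : S, f x = ∑ x : S', (x : A) :=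
  Fintype.sum_bijective (fun x : S => (⟨f x, h x x.2⟩ : S')) ((Fintype.bijective_iff_injective_and_card
    _).2 ⟨fun _ _ e => Subtype.ext (hf (congrArg Subtype.val e)), le_antisymm
      (Fintype.card_le_of_injective (fun x : S => (⟨f x, h x x.2⟩ : S'))
        fun _ _ e => Subtype.ext (hf (congrArg Subtype.val e)))
      (Fintype.card_le_of_injective (fun x : S' => (⟨f' x, h' x x.2⟩ : S))
        fun _ _ e => Subtype.ext (hf' (congrArg Subtype.val e)))⟩) _ _ fun _ => rfl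

variable {F R W V : Type*} [Field F] [AddCommGroup R] [Module F R] [AddCommGroup W]
  [Module F W] [AddCommGroup V] [Module F V] [FiniteDimensional F R] [FiniteDimensional F W]
  {PR : PQ F R (RingHom.id F)} {PW : PQ F W (RingHom.id F)} {P : PQ F V (RingHom.id F)}
  {M : Subgroup (V ≃ₗ[F] V)} {ι : Type*} [Fintype ι] [DecidableEq ι] {T : ι → TS F R W V}
  {π : Equiv.Perm ι →* (V ≃ₗ[F] V)}

theorem comm_inv {g : V ≃ₗ[F] V} {a : Module.End F V} (h : Commute (g : Module.End F V) a) :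
    Commute ((g⁻¹ : V ≃ₗ[F] V) : Module.End F V) a :=
  Wr.commute_of_cN (by conv_lhs => rw [← cN_of_commute h, cN_inv_cN])

theorem cB_of_comm {A : TS F R W V} {g : V ≃ₗ[F] V} (h : ∀ a, Commute (g : Module.End F V) (A.inW a))
    {w : W} (h0 : w ≠ 0) (v : V) : A.cB PW w v = 0 ↔ A.cB PW w (g v) = 0 := by
  have := LinearMap.congr_fun (h (r1 PW w w)).eq v
  simp only [Module.End.mul_apply, inW_r1, LinearEquiv.coe_coe] at this
  rw [← or_iff_left h0 (a := A.cB PW w v = 0), ← A.τ_eq_zero,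
    ← or_iff_left h0 (a := A.cB PW w (g v) = 0), ← A.τ_eq_zero, ← this, g.map_eq_zero_iff]

variable (T PR PW P π M) in
/-- An overgroup of the wreath product. -/
structure Wm [Nontrivial R] : Prop extends Wo T PR PW P π where
  rich : Rich PW
  le : Wr.WG T ⊓ EG P ≤ M
  le' : M ≤ EG P

namespace Wm

variable [Finite F] [Nontrivial R] (h : Wm PR PW P M T π) {w : W}
include h

theorem s (i : ι) : Sw (T i) PR PW P M := h.sw h.le h.le' i

theorem comm {i j : ι} (hij : i ≠ j) (β : W ≃ₗ[F] W) (a : Module.End F W) :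
    Commute ((T i).opE 1 β : Module.End F V) ((T j).inW a) :=
  (T i).opE_one_coe β ▸ h.multi.comm i j hij _ a

theorem ZS_conj (h0 : w ≠ 0) (hw : PW.B w w = 0) {l j : ι} (hl : l ≠ j) {β : W ≃ₗ[F] W}
    (hβ : β ∈ EG PW) {x : Module.End F V} (hx : x ∈ ZS PW P M (T j) w) :
    cN ((T l).opE 1 β) x ∈ ZS PW P M (T j) w := by
  simpa [Module.End.one_eq_id] using ZS_map (h.s j) h0 hw ((h.s l).le β hβ) P.Isom.one_mem (fun _ _ => rfl)
    (cB_of_comm (fun a => comm_inv (h.comm hl β a)) h0) (fun γ hγ => ⟨γ, hγ, by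
      rw [inv_one, one_mul, mul_one, eq_mul_inv_iff_mul_eq]
      exact LinearEquiv.toLinearMap_injective
        ((T j).opE_one_coe γ ▸ (h.comm hl β γ).symm : Commute ((T j).opE 1 γ : Module.End F V) _)⟩) hx

variable (hO : ∀ i, OL (T i) PW M)
include hO

theorem fixz (h0 : w ≠ 0) (hw : PW.B w w = 0) {j : ι} {x : Module.End F V}
    (hx : x ∈ ZS PW P M (T j) w)
    (hc : ∀ l, l ≠ j → ∀ v, PW.B w v = 0 → Commute x ((T l).inW (wd PW w v))) : x = 0 := by
  have := (h.s j).ntW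
  have : Nonempty ι := ⟨j⟩
  obtain ⟨sk, t, ht⟩ := ZS_form (h.s j) h0 hw hx
  obtain ⟨z, hz, e, -, a2⟩ := hx
  refine eq_zero_of_sym h.multi h.tf h.oW h.oV sk fun l => ?_
  by_cases hl : l = j
  · exact hl ▸ ht ▸ symAt_ww h.oW t w
  obtain ⟨f, hf, hwf⟩ := partner h.oW h0 hw
  have hfw := (h.oW.symm f w).trans hwf
  refine symAt_of_co h.oW h.dW hw hf hwf (hc l hl) fun y b1 b2 b3 => ?_
  obtain ⟨β, hβ, c, c0, eβ⟩ := pt_of_ne h.oW h.dW hw hf (by simp [hwf])
  have hg := a2 β hβ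
  obtain ⟨γ, hγ⟩ := (T l).exists_inU (h.comm (Ne.symm hl) β)
  have e0 : ∀ v, z ((z⁻¹ * (T j).opE 1 β * z) v) = (T l).inU γ (z v) := fun v => by
    rw [← hγ]; simp
  have c1 : ∀ v, PW.B w v = 0 → Commute ((z⁻¹ * (T j).opE 1 β * z : V ≃ₗ[F] V) : Module.End F V)
      ((T l).inW (wd PW w v)) := fun v hv => by
    have : Commute (z : Module.End F V) ((T l).inW (wd PW w v)) :=
      (show (z : Module.End F V) = 1 + x from LinearMap.ext e) ▸
        (Commute.one_left _).add_left (hc l hl v hv)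
    exact ((comm_inv this).mul_left (h.comm (Ne.symm hl) β _)).mul_left this
  generalize z⁻¹ * (T j).opE 1 β * z = g at hg e0 c1
  have c2 := fun y hy => cent_τ h.oW h.dW hw hwf c1 (y := y) hy
  have c3 := fun y hy => cent_τ h.oW h.dW hw hwf (hc l hl) (y := y) hy
  obtain ⟨α, β', -, z', -, d1, d2⟩ := (h.s l).dec2 h.rich (hO l) h0 hw ((h.s l).isom hg)
    (fun δ hδ => M.mul_mem (M.mul_mem (M.inv_mem hg) ((h.s l).le δ hδ)) hg) fun u =>
      (c2 w hw u : g _ = _) ▸ Submodule.add_mem _ ((T l).τ_mem_col _ _) ((T l).τ_mem_col _ _)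
  have d3 : ∀ r, g ((T l).τ r y) = (T l).τ (α r) (β' y) := fun r => by
    rw [d2, le_mul_apply, d1 _ (by simp [b1]), TS.opE_τ]
  replace c2 := And.intro (c2 w hw) (c2 y b1)
  replace c3 := And.intro (c3 w hw) (c3 y b1)
  generalize Wr.co (T l) (PW.B f) w (g : Module.End F V) = g₀ at c2
  generalize Wr.co (T l) (PW.B f) y (g : Module.End F V) = g₁ at c2
  have d4 := fun r => congrArg ((T l).cB PW y) ((d3 r).symm.trans (c2.2 r))
  have d5 := fun r => congrArg ((T l).cB PW f) ((d3 r).symm.trans (c2.2 r))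
  simp only [map_add, TS.cB_τ, b2, hfw, h.oW.symm y w, b1, zero_smul, add_zero, sub_zero, one_smul,
    zero_add] at d4 d5
  have d6 : PW.B y (β' y) ≠ 0 := fun e => by
    obtain ⟨r, hr⟩ := exists_ne (0 : R)
    have := c2.1 r
    simp [hfw, show g₀ r = 0 by simpa [e, b3] using (d4 r).symm, TS.τ_eq_zero, hr, h0] at this
  have d7 : ∀ r, g₁ r = (PW.B f (β' y) / PW.B y (β' y) * PW.B y y) • g₀ r := fun r => by
    rw [mul_smul, ← d4, ← d5, smul_smul, div_mul_cancel₀ _ d6]
  generalize PW.B f (β' y) / PW.B y (β' y) * PW.B y y = lam at d7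
  set x₀ := Wr.co (T l) (PW.B f) w x
  set s := Wr.co (T l) (PW.B f) y x
  have d8 := fun r => e0 ((T l).τ r y)
  simp only [show ∀ r, g ((T l).τ r y) = _ from c2.2, b2, zero_smul, sub_zero, d7, map_add, e,
    c3.1, c3.2, hfw, one_smul, sub_self, TS.inU_τ, LinearMap.zero_apply, map_zero] at d8
  have e1 : (1 + x₀) * g₀ = γ * (1 + x₀) := LinearMap.ext fun r => smul_right_injective _ b3 (by
    simpa [h.oW.symm y w, b1] using congrArg ((T l).cB PW y) (d8 r))
  have e2 : s * g₀ + lam • ((1 + x₀) * g₀) = γ * s := LinearMap.ext fun r => by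
    simpa [hfw, b2, add_left_comm] using congrArg ((T l).cB PW f) (d8 r)
  rw [e1] at e2
  replace e1 := congrArg (T l).inU e1
  replace e2 := congrArg (T l).inU e2
  simp only [map_mul, map_add, map_one, map_smul, ← hγ, TS.opE_one_coe] at e1 e2
  have k1 : ∀ u, (T l).inU (Wr.co (T l) (PW.B f) u x) * (T j).inW (r1 PW w f) = 0 ∧
      (T j).inW (r1 PW w f) * (T l).inU (Wr.co (T l) (PW.B f) u x) =
        (T l).inU (Wr.co (T l) (PW.B f) u x) := fun u => by
    refine ⟨(co_mul_zero (h.multi.comm j l (Ne.symm hl) _) _ u).1 (ht ▸ (T j).lext fun r z => by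
      simp [hw]), ?_⟩
    have := (co_mul_zero (x := x) (h.multi.comm j l (Ne.symm hl) (1 - r1 PW w f)) (PW.B f) u).2
      (ht ▸ (T j).lext fun r z => by simp [hfw])
    rw [show Wr.psi (T j) = (T j).inW from rfl, map_sub, map_one, sub_mul, one_mul] at this
    exact (sub_eq_zero.1 this).symm
  obtain ⟨k2, k3⟩ := k1 w
  obtain ⟨k4, k5⟩ := k1 y
  change (T l).inU x₀ * _ = 0 at k2
  change _ * (T l).inU x₀ = (T l).inU x₀ at k3
  change (T l).inU s * _ = 0 at k4
  change _ * (T l).inU s = (T l).inU s at k5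
  have k6 : (T j).inW (r1 PW w w) * (T j).inW β * (T j).inW (r1 PW w f) = c • (T j).inW (r1 PW w f) :=
    (T j).lext fun r z => by simp [eβ, hwf, smul_smul, mul_comm]
  have k7 : (T j).inW (r1 PW w w) * (T j).inW (r1 PW w f) = 0 := (T j).lext fun r z => by simp [hw]
  have k8 : (T j).inW (r1 PW w f) ≠ 0 := fun e => by
    obtain ⟨r, hr⟩ := exists_ne (0 : R)
    simpa [hfw, TS.τ_eq_zero, hr, h0] using LinearMap.congr_fun e ((T j).τ r w)
  refine inU_inj (T l) ?_
  rw [map_zero]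
  generalize (T l).inU x₀ = X at *
  generalize (T l).inU s = S at *
  generalize (T j).inW (r1 PW w f) = E at *
  generalize (T j).inW (r1 PW w w) = N at *
  have m1 : N * S = 0 := by rw [← k5, ← mul_assoc, k7, zero_mul]
  have m2 := congrArg (fun a => N * a * E) e2
  simp only [mul_add, add_mul, mul_smul_comm, smul_mul_assoc, ← mul_assoc, m1, mul_one] at m2
  simp only [mul_assoc _ X E, mul_assoc _ S E, k2, k4, k6, smul_smul] at m2
  have m3 : lam = 0 := by simpa [k8, c0] using m2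
  have m4 := congrArg (N * ·) e2
  simp only [m3, zero_smul, add_zero, ← mul_assoc, m1, zero_mul] at m4
  rw [← k5, ← mul_assoc, k6, smul_mul_assoc, k5] at m4
  simpa [c0] using m4.symm

theorem key (h0 : w ≠ 0) (hw : PW.B w w = 0) {i j : ι} {g : V ≃ₗ[F] V} (hg : g ∈ M)
    (e : ∀ u, g ((T i).τ u w) ∈ (T j).col w) : ∃ x₀, (x₀ = 0 → (T j).Same ((T i).map g)) ∧
      ∀ x ∈ ZS PW P M (T i) w, x₀ + cN g x ∈ ZS PW P M (T j) w := by
  have := (h.s j).ntW
  set s := π (Equiv.swap i j)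
  have e1 : ∀ a, cN s ((T i).inW a) = (T j).inW a := fun a =>
    (h.perm (Equiv.swap i j) i a).trans (by rw [Equiv.swap_apply_left]; rfl)
  obtain ⟨α₀, e2⟩ := TS.exists_alpha_eq e1
  have e3 : ∀ β, s⁻¹ * (T j).opE 1 β * s = (T i).opE 1 β := fun β =>
    LinearEquiv.toLinearMap_injective ((T i).lext fun u y => by simp [e2, TS.inv_of_eq e2])
  have e4 : ((T i).map g).col w = (T j).col w := TS.col_eq_of_le h0 (by
    rintro _ ⟨u, rfl⟩; exact e u)
  have hI := (h.s i).isom hg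
  obtain ⟨α, β, a1, z, a2, a3, a4⟩ := (h.s j).dec2 h.rich (hO j) h0 hw (g := s * g⁻¹)
    (P.Isom.mul_mem (h.isom _) (P.Isom.inv_mem hI)) (fun β hβ => by
      have := M.mul_mem (M.mul_mem hg ((h.s i).le β hβ)) (M.inv_mem hg)
      rw [← e3] at this
      simpa [mul_assoc] using this) fun u => by
      obtain ⟨a, ha⟩ := (TS.mem_map_col _).1 (e4.ge ((T j).τ_mem_col u w))
      exact ⟨α₀ a, by rw [le_mul_apply, ← ha]; exact (e2 a w).symm⟩
  refine ⟨(z : Module.End F V) - 1, fun e0 => ?_, fun x => ZS_map (h.s i) h0 hw hg a2 a3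
    (fun v => ?_) fun γ hγ => ⟨_, a1 γ hγ, ?_⟩⟩
  · refine ⟨α⁻¹ * α₀, β⁻¹, fun u y => (s * g⁻¹).injective ?_⟩
    conv_rhs => rw [a4, show z = 1 from LinearEquiv.toLinearMap_injective (sub_eq_zero.1 e0)]
    simp [e2]
  · rw [← (h.tf j).mem_perp_col, ← e4, (tf_map (h.tf i) h.oV hI).mem_perp_col]
    exact ((T i).map_cW g _ v).congr_left
  · rw [← e3, show (T j).opE 1 (β * γ * β⁻¹) = (T j).opE α β * (T j).opE 1 γ * ((T j).opE α β)⁻¹ by
      simp [TS.opE_inv, opE_mul], show z = ((T j).opE α β)⁻¹ * (s * g⁻¹) by rw [a4]; group]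
    group

theorem p1 (i j : ι) (g : V ≃ₗ[F] V) (hg : g ∈ M) (w w' : W) (h0 : w ≠ 0) (hw : PW.B w w = 0)
    (e : ∀ u, g ((T i).τ u w) ∈ (T j).col w') : (T j).Same ((T i).map g) := by
  classical
  have := (h.s j).ntW
  have : Nonempty ι := ⟨j⟩
  have := (T j).finite
  have : Finite (Module.End F V) := Module.finite_of_finite F
  obtain ⟨α, hα⟩ := ((T i).map g).exists_alpha' (T j) (w := w') h0 (by rintro _ ⟨u, rfl⟩; exact e u)
  obtain ⟨u, hu⟩ := exists_ne (0 : R)
  have h0' : w' ≠ 0 := by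
    rintro rfl
    simpa [TS.τ_eq_zero, hu, h0] using hα u
  obtain ⟨u', hu'⟩ := exists_B_eq h.oR.nd hu 1
  have hw' : PW.B w' w' = 0 := by
    have := B_isom ((h.s i).isom hg) ((T i).τ (α.symm u) w) ((T i).τ (α.symm u') w)
    rw [← TS.map_τ, ← TS.map_τ, hα, hα, (h.tf j).B_τ, (h.tf i).B_τ] at this
    simpa [hu', hw] using this
  obtain ⟨β, hβ, c, c0, eβ⟩ := pt_trans h.oW h.dW h0' h0 hw' hw
  have hg' := M.mul_mem ((h.s j).le β hβ) hg
  have e' : ∀ u, ((T j).opE 1 β * g) ((T i).τ u w) = (T j).τ (c • α u) w := fun u => by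
    rw [le_mul_apply, ← TS.map_τ, hα]; simp [eβ]
  obtain ⟨x₀, a1, a2⟩ := h.key hO h0 hw hg' fun u => e' u ▸ (T j).τ_mem_col _ _
  obtain ⟨x₁, -, a3⟩ := h.key hO h0 hw (M.inv_mem hg') (i := j) (j := i) fun u =>
    ⟨α.symm (c⁻¹ • u), by
      rw [le_inv_apply, LinearEquiv.eq_symm_apply, LinearMap.flip_apply, e']; simp [c0]⟩
  have b0 := fun i => Fintype.ofFinite (ZS PW P M (T i) w)
  have b1 : ∀ j, ∑ x : ZS PW P M (T j) w, (x : Module.End F V) = 0 := fun j =>
    eq_zero_of_sym h.multi h.tf h.oW h.oV (Submodule.sum_mem (skS P) fun x _ =>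
      (ZS_form (h.s j) h0 hw x.2).1) fun l => by
      by_cases hl : l = j
      · choose t ht using fun x : ZS PW P M (T j) w => (ZS_form (h.s j) h0 hw x.2).2
        simp only [ht, ← Finset.sum_mul, ← map_sum, hl]
        exact symAt_ww h.oW _ w
      refine symAt_of_comm h.oW h.dW fun β hβ => ?_
      rw [← cA_apply, map_sum]
      exact sum_maps (Wr.cN_injective _) (Wr.cN_injective _) (fun _ => h.ZS_conj h0 hw hl hβ)
        fun _ => h.ZS_conj h0 hw hl hβ
  have b2 := sum_maps ((add_right_injective x₀).comp (Wr.cN_injective _))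
    ((add_right_injective x₁).comp (Wr.cN_injective _)) a2 a3
  simp only [Function.comp, Finset.sum_add_distrib, ← cA_apply, ← map_sum, b1, map_zero, add_zero,
    Finset.sum_const, Finset.card_univ, ← Nat.cast_smul_eq_nsmul F, ← Nat.card_eq_fintype_card] at b2
  have b3 := a1 ((smul_eq_zero.1 b2).resolve_left fun hp => by
    obtain ⟨x, c1, c2, c3⟩ := exists_fix h.multi h.oW hw i (𝒮 := ZS PW P M (T i) w) (x₀ := 0) ⟨1, P.Isom.one_mem, by simp,
      by simp, fun β hβ => by simpa using (h.s i).le β hβ⟩ (fun _ _ => Commute.zero_left _)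
      (fun l hl β hβ x => h.ZS_conj h0 hw hl hβ) hp
    exact c2 (h.fixz hO h0 hw c1 c3))
  have := (TS.same_map_iff.2 ((T j).opE_mem 1 β⁻¹)).trans (b3.map ((T j).opE 1 β⁻¹))
  rwa [TS.map_map, ← mul_assoc, opE_mul, inv_mul_cancel, mul_one, TS.opE_one_one, one_mul] at this

end Wm

end H21.TO
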