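import Mathlib
import Cfsg.Agent.Base
import Cfsg.Agent.Lib.Tensor.OW8

/-!
Orthogonal tensor factors, part 9: levels.
-/

set_option autoImplicit false
set_option linter.unusedSectionVars false

namespace H21.TO

open Module Cfsg H97 H28 H11.Ten

variable {F R W V : Type*} [Field F] [AddCommGroup R] [Module F R] [AddCommGroup W]
  [Module F W] [AddCommGroup V] [Module F V] [FiniteDimensional F R] [FiniteDimensional F W]
  {PR : PQ F R (RingHom.id F)} {PW : PQ F W (RingHom.id F)} {P : PQ F V (RingHom.id F)}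
  {M : Subgroup (V ≃ₗ[F] V)} {T : TS F R W V}

theorem cN_r1 {β : W ≃ₗ[F] W} (hβ : β ∈ PW.Isom) (a b : W) :
    cN β (r1 PW a b) = r1 PW (β a) (β b) := by
  ext y; simp only [cN_apply, r1_apply, map_smul, B_isom_inv' hβ]

theorem levF_tw {β : W ≃ₗ[F] W} (hβ : β ∈ PW.Isom) :
    (T.map (T.opE 1 β)).levF PW M = T.levF PW M := by
  have e1 : ∀ y, (T.map (T.opE 1 β)).cB PW y = T.cB PW (β y) := fun y =>
    (T.map (T.opE 1 β)).lext fun u w => by rw [TS.cB_τ]; simp [B_isom hβ]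
  have e2 : ∀ w n, (T.map (T.opE 1 β)).HasN PW M w n ↔ T.HasN PW M (β w) n := fun w n => by
    simp [TS.HasN, e1]
  ext s
  refine ⟨fun h w y hw hy => ?_, fun h w y hw hy => ?_⟩
  · have := h (β⁻¹ w) (β⁻¹ y) (isom_q (PW.Isom.inv_mem hβ) hw)
      (by rw [B_isom (PW.Isom.inv_mem hβ), hy])
    rwa [e2, e1, le_apply_inv, le_apply_inv] at this
  · rw [e2, e1]
    exact h _ _ (isom_q hβ hw) (by rw [B_isom hβ, hy])

theorem inU_tw (β : W ≃ₗ[F] W) : (T.map (T.opE 1 β)).inU = T.inU :=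
  AlgHom.ext fun s => (T.map (T.opE 1 β)).lext fun u w => by rw [TS.inU_τ]; simp

theorem algL_tw [Nontrivial W] {g : V ≃ₗ[F] V} (hg : g ∈ M) {β : W ≃ₗ[F] W} (hβ : β ∈ PW.Isom)
    (e : ∀ a, cN g (T.inW a) = cN (T.opE 1 β) (T.inW a)) {x : Module.End F V}
    (hx : x ∈ (T.algL PW M).map T.inU) : cN g x ∈ (T.algL PW M).map T.inU := by
  have := TS.map_algL (T' := T.map (T.opE 1 β)) hg (fun a => by rw [e, TS.map_inW]) hx
  rwa [inU_tw, show (T.map (T.opE 1 β)).algL PW M = T.algL PW M from SetLike.ext fun a => by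
    change (∀ s ∈ _, _ ∈ _) ↔ _
    rw [levF_tw hβ]; rfl] at this

theorem levF_tw' [Nontrivial W] {g : V ≃ₗ[F] V} (hg : g ∈ M) {β : W ≃ₗ[F] W} (hβ : β ∈ PW.Isom)
    (e : ∀ a, cN g (T.inW a) = cN (T.opE 1 β) (T.inW a)) {s : Module.End F R}
    (hs : s ∈ T.levF PW M) : ∃ s' ∈ T.levF PW M, cN g (T.inU s) = T.inU s' := by
  obtain ⟨α, e⟩ := TS.exists_alpha_eq (T' := T.map (T.opE 1 β)) fun a => by rw [e, TS.map_inW]
  exact ⟨_, levF_tw (T := T) (M := M) hβ ▸ TS.levF_trans e hg hs, by rw [TS.cN_inU e, inU_tw]⟩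

theorem Lev.hasN {w f : W} {k : V ≃ₗ[F] V} (hk : k ∈ M) (h : Lev T PW w k) (hfw : PW.B f w = 1) :
    T.HasN PW M w (T.cB PW f ∘ₗ ((k : V →ₗ[F] V) - LinearMap.id)) :=
  ⟨fun u => by simp [h.1], k, hk, fun _ => h.eq hfw⟩

namespace Sw

variable (h : Sw T PR PW P M)
include h

theorem not_roots [Finite F] (hne : ¬ EG P ≤ M) {w₀ : W} (h0 : w₀ ≠ 0) (hw₀ : PW.B w₀ w₀ = 0) :
    ¬ ∀ a b, Has M (eu P (T.τ a w₀) (T.τ b w₀) 0) := fun hr => by
  have := T.finite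
  have hs : ∀ u {w}, PW.B w w = 0 → P.q (T.τ u w) ∈ P.Λ := fun u w hw =>
    h.tf.singW u (h.oW.max w hw)
  have r1 : ∀ w, w ≠ 0 → PW.B w w = 0 → ∀ a b, Has M (eu P (T.τ a w) (T.τ b w) 0) := by
    intro w h1 hw a b
    obtain ⟨β, hβ, c, hc, e⟩ := pt_trans h.oW h.dW h0 h1 hw₀ hw
    have hm := h.le β hβ
    have := has_eu_conj (hr (c⁻¹ • a) (c⁻¹ • b)) hm (h.isom hm)
    simpa [e, smul_smul, hc] using this
  have r2 : ∀ w (hw : PW.B w w = 0), w ≠ 0 → ∀ u b, T.τ b w ∈ Wd P M (T.τ u w) (hs u hw) :=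
    fun w hw h1 u b => ⟨by simp [h.tf.B_τ, hw], fun a => ⟨0, by
      rw [zero_sub, neg_mem_iff, ← LinearMap.smul_apply, ← map_smul]; exact hs _ hw,
      by rw [← LinearMap.smul_apply, ← map_smul]; exact r1 w h1 hw _ _⟩⟩
  have r3 : ∀ w (hw : PW.B w w = 0), w ≠ 0 → ∀ u b, PR.B u b = 0 → ∀ y,
      T.τ b y ∈ Wd P M (T.τ u w) (hs u hw) := by
    intro w hw h1 u b hb y
    obtain ⟨f, hf, hwf⟩ := partner h.oW h1 hw
    refine (span_top h.oW.nd h.oW.max (Or.inr ⟨h.dW, h.oW.two⟩) (h.oW.max _ hw) (h.oW.max _ hf) hwf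
      (L := (Wd P M (T.τ u w) (hs u hw)).comap (T.τ b)) (r2 w hw h1 u b)
      (fun v c a1 a2 a3 a4 => ?_)).ge Submodule.mem_top
    have a5 : PW.B v v = 2 * c := by rw [h.oW.self, sub_eq_zero.1 (h.oW.Λ_eq a3)]
    set w' := w - c • f - v with hw'
    have b1 : PW.B w' w' = 0 := by
      simp [hw', hw, hf, hwf, a1, a2, h.oW.symm v w, h.oW.symm v f, h.oW.symm f w, a5]; ring
    have b2 : PW.B w' w = -c := by simp [hw', hw, h.oW.symm f w, hwf, h.oW.symm v w, a1]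
    have b3 : w' ≠ 0 := fun e => a4 (by simpa [e] using b2)
    obtain ⟨a, e1, e2⟩ : ∃ a, PR.B b a = 0 ∧ a ∉ F ∙ u := by
      by_contra hc
      push Not at hc
      have i1 := Submodule.finrank_mono (show perp PR (F ∙ b) ≤ F ∙ u from fun a ha =>
        hc a (mem_perp_singleton.1 ha))
      have i2 := finrank_le_perp (P := PR) (F ∙ b)
      have i3 := finrank_span_singleton_le (F := F) b
      have i4 := finrank_span_singleton_le (F := F) u
      have := h.dU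
      omega
    obtain ⟨a', e3, e4⟩ := exists_perp_ne h.oU.nd e2 1
    obtain ⟨g, hg, eg⟩ := r1 w' b3 b1 a' b
    have i1 := Wd_apply (hx' := hs u hw) (r2 w hw h1 u a) hg (h.isom hg) (by
      rw [eg, eu_fix] <;> simp [h.tf.B_τ, h.oU.symm a' u, e3, h.oU.symm b u, hb])
    have i2 := (Wd P M _ _).smul_mem c⁻¹ ((Wd P M _ _).sub_mem i1 (r2 w hw h1 u a))
    simpa [eg, eu_apply, h.tf.B_τ, e1, h.oV.ε, b2, h.oU.symm a' a, e4, smul_smul, a4] using i2
  have r4 : ∀ w (hw : PW.B w w = 0), w ≠ 0 → ∀ u b v, PW.B w v = 0 →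
      T.τ b v ∈ Wd P M (T.τ u w) (hs u hw) := by
    intro w hw h1 u b v hv
    by_cases hb : PR.B u b = 0
    · exact r3 w hw h1 u b hb v
    obtain ⟨a, e1, e2, -⟩ := exists_ker_two h.dU (PR.B b) (PR.B b)
    have e3 : a ∉ F ∙ u := fun e => by
      obtain ⟨c, rfl⟩ := Submodule.mem_span_singleton.1 e
      simp [h.oU.symm b u, hb] at e2
      simp [e2] at e1
    obtain ⟨a', e4, e5⟩ := exists_perp_ne h.oU.nd e3 1
    obtain ⟨f, -, hwf⟩ := partner h.oW h1 hw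
    obtain ⟨c, -, g, hg, eg⟩ := (r3 w hw h1 a b ((h.oU.symm _ _).trans e2) v).2 1
    have i1 := Wd_apply (hx' := hs u hw) (r3 w hw h1 u a' e4 f) hg (h.isom hg) (by
      rw [eg, eu_fix] <;> simp [h.tf.B_τ, hw, h.oW.symm v w, hv])
    have i2 := (Wd P M _ _).sub_mem ((Wd P M _ _).add_mem (r3 w hw h1 u a' e4 f)
      ((Wd P M _ _).smul_mem (P.B (T.τ b v) (T.τ a' f) - c) (r2 w hw h1 u a))) i1
    simpa [eg, eu_apply, h.tf.B_τ, h.oV.ε, hwf, e5] using i2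
  have r5 : ∀ w (hw : PW.B w w = 0), w ≠ 0 → ∀ u, u ≠ 0 → XLe P M (T.τ u w) := by
    intro w hw h1 u hu
    refine xle_of_Wd (hx := hs u hw) (fun z hz => ?_) fun l hl => by
      rw [h.oV.Λ_eq hl]; exact has_id.congr fun y => by rw [eu_zero]
    obtain ⟨u₀, e⟩ := exists_B_eq h.oU.nd hu 1
    have e1 : z = T.τ u₀ (T.cU (PR.B u) z) + (z - T.τ u₀ (T.cU (PR.B u) z)) := by simp
    rw [e1]
    refine Submodule.add_mem _ (r4 w hw h1 u _ _ ((h.tf.flip.B_left w u z).symm.trans hz)) ?_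
    have e2 : T.cU (PR.B u) (z - T.τ u₀ (T.cU (PR.B u) z)) = 0 := by simp [e]
    generalize z - T.τ u₀ (T.cU (PR.B u) z) = z' at e2
    rw [T.eq_sum (Module.finBasis F W) z']
    exact Submodule.sum_mem _ fun j _ => r3 w hw h1 u _ (by rw [T.cW_cU, e2, map_zero]) _
  obtain ⟨f, hf, hwf⟩ := partner h.oW h0 hw₀
  obtain ⟨u, hu0, hu⟩ := exists_sing h.oU h.dU
  obtain ⟨u', -, e⟩ := partner h.oU hu0 hu
  exact hne (EG_le_of_xle h.oV.nd (hs u hw₀) (hs u' hf) (r5 _ hw₀ h0 u hu0)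
    (r5 _ hf (by rintro rfl; simp at hwf) u' (by rintro rfl; simp at e)) (by simp [h.tf.B_τ, e, hwf]))

theorem cB_key {w y : W} (hw : PW.B w w = 0) (hy : PW.B w y = 0) {n : V →ₗ[F] R}
    (h1 : ∀ u, n (T.τ u w) = 0) {k : V ≃ₗ[F] V} (hk : k ∈ M)
    (e : ∀ x, T.cB PW w x = 0 → k x = x + T.τ (n x) w) {s' : Module.End F R}
    (a : ∀ x z, PR.B (n (T.τ x y)) z = PR.B x (s' z)) (x : V) :
    T.cB PW y (k x - x) = -s' (T.cB PW w x) := by
  rw [← sub_eq_zero]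
  refine sep_right h.tf.ndU fun u => ?_
  have e1 := B_isom (h.isom hk) (T.τ u y) x
  rw [e _ (by simp [hy]), map_add, LinearMap.add_apply, h.tf.B_left, h.tf.B_left, h.tf.B_left,
    h.tf.cB_apply (h.isom hk) (TS.HasN.fix (h.oW.max _ hw) h1 e), a] at e1
  simp only [map_sub, map_neg]
  linear_combination e1

theorem has_comm {w : W} (hw : PW.B w w = 0) {n₁ n₂ : V →ₗ[F] R} (a₁ : ∀ u, n₁ (T.τ u w) = 0)
    (a₂ : ∀ u, n₂ (T.τ u w) = 0) {k₁ k₂ : V ≃ₗ[F] V} (hk₁ : k₁ ∈ M) (hk₂ : k₂ ∈ M)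
    (e₁ : ∀ x, T.cB PW w x = 0 → k₁ x = x + T.τ (n₁ x) w)
    (e₂ : ∀ x, T.cB PW w x = 0 → k₂ x = x + T.τ (n₂ x) w) :
    Has M fun x => x + T.τ (n₁ (k₂ x - x) - n₂ (k₁ x - x)) w := by
  have f₁ := TS.HasN.fix (h.oW.max _ hw) a₁ e₁
  have f₂ := TS.HasN.fix (h.oW.max _ hw) a₂ e₂
  refine ⟨(k₂ * k₁)⁻¹ * (k₁ * k₂), M.mul_mem (M.inv_mem (M.mul_mem hk₂ hk₁)) (M.mul_mem hk₁ hk₂),
    fun x => ?_⟩
  rw [le_mul_apply, le_inv_apply, LinearEquiv.symm_apply_eq]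
  have c1 := e₁ (k₂ x - x) (by rw [map_sub, h.tf.cB_apply (h.isom hk₂) f₂, sub_self])
  have c2 := e₂ (k₁ x - x) (by rw [map_sub, h.tf.cB_apply (h.isom hk₁) f₁, sub_self])
  rw [map_sub, sub_eq_iff_eq_add] at c1 c2
  simp only [le_mul_apply, map_add, f₁, f₂, c1, c2]
  rw [map_sub T.τ (n₁ _), LinearMap.sub_apply]
  abel

theorem comm_mem {w : W} (h0 : w ≠ 0) (hw : PW.B w w = 0) {s₁ s₂ s₁' s₂' : Module.End F R}
    (hs₁ : s₁ ∈ T.levF PW M) (hs₂ : s₂ ∈ T.levF PW M) (a₁ : ∀ x y, PR.B (s₁ x) y = PR.B x (s₁' y))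
    (a₂ : ∀ x y, PR.B (s₂ x) y = PR.B x (s₂' y)) :
    Has M fun x => x + (T.inU (s₂ * s₁' - s₁ * s₂') * T.inW (r1 PW w w)) x := by
  obtain ⟨y, h1, h2, -⟩ := exists_RR h.oW h.dW h0 hw
  obtain ⟨n₁, k₁, hk₁, e₁⟩ := hs₁ w y (h.oW.max _ hw) h1
  obtain ⟨n₂, k₂, hk₂, e₂⟩ := hs₂ w ((PW.B y y)⁻¹ • y) (h.oW.max _ hw) (by simp [h1])
  refine (h.has_comm hw n₁ n₂ hk₁ hk₂ e₁ e₂).congr fun x => ?_
  rw [LinearMap.comp_apply, LinearMap.comp_apply,
    h.cB_key hw h1 n₂ hk₂ e₂ (s' := s₂') (fun x z => by simp [a₂, h2]),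
    h.cB_key hw (by simp [h1]) n₁ hk₁ e₁ (s' := s₁') (fun x z => by simp [a₁, h2])]
  simp [inW_r1]
  abel

theorem one_mem : (1 : Module.End F R) ∈ T.levF PW M := fun w y hw hy => by
  obtain ⟨β, hβ, e⟩ := h.hasR (PW.self_eq_zero hw) hy 1
  exact ⟨fun u => by simp [h.oW.symm y w, hy], _, h.le β hβ, fun x hx => by
    rw [e, h.exR_perp (PW.self_eq_zero hw) hy hx]; rfl⟩

theorem hasN_op {w w' : W} {n : V →ₗ[F] R} (hn : T.HasN PW M w' n) {β : W ≃ₗ[F] W}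
    (hβ : β ∈ EG PW) {c : F} (c0 : c ≠ 0) (e : β w = c • w') :
    T.HasN PW M w (c⁻¹ • n ∘ₗ T.opE 1 β) := by
  convert hn.conj (w := w) (h.le β hβ) (α := LinearEquiv.smulOfNeZero F R c c0)
    (fun u => by simp [e, Units.smul_def]) fun x hx => by
      have := T.cB_opE 1 (EG_le_isom hβ) w x
      rw [e, TS.cB_smul, hx] at this
      simpa [c0] using this
  ext x
  simp [Units.smul_def]

theorem mem_levF {w : W} (h0 : w ≠ 0) (hw : PW.B w w = 0) {s : Module.End F R}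
    (hs : ∀ y, PW.B w y = 0 → T.HasN PW M w (s ∘ₗ T.cB PW y)) : s ∈ T.levF PW M :=
  fun w' y hw' hy => by
  by_cases h0' : w' = 0
  · exact ⟨fun u => by simp [h0'], 1, M.one_mem, fun x _ => by simp [h0']⟩
  obtain ⟨β, hβ, c, c0, e⟩ := pt_trans h.oW h.dW h0' h0 (PW.self_eq_zero hw') hw
  have hI := EG_le_isom hβ
  convert h.hasN_op (hs (c • β y) (by
    have := B_isom hI w' y
    simpa [e, hy] using this)) hβ c0 e
  ext x
  simp [TS.cB_smul, T.cB_opE 1 hI, c0]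

theorem hasN_smul {w : W} (h0 : w ≠ 0) (hw : PW.B w w = 0) {n : V →ₗ[F] R}
    (hn : T.HasN PW M w n) (c : F) : T.HasN PW M w (c • n) := by
  obtain ⟨f, hf, hwf⟩ := partner h.oW h0 hw
  obtain ⟨x, a1, a2, a3⟩ := exists_x h.oW h.dW hw hf hwf
  have hq := h.oW.max _ hw
  have key : ∀ a : F, T.HasN PW M w (a ^ 2 • n) := fun a => by
    by_cases a0 : a = 0
    · simpa [a0] using T.hasN_zero w
    obtain ⟨γ, hγ, e1, e2⟩ := weyl2 h.oW hw hf hwf a1 a2 a3 (x' := a • x) (by simp [a1])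
      (by simp [a2]) (by simp [a0, a3])
    refine (h.hasN_op hn hγ (by simp [a0, a3]) e1).congr hq fun v hv => sub_eq_zero.1
      (T.eq_zero_of_ker (f := a ^ 2 • n - _) (fun u y hy => ?_) hv)
    have e3 := e2 (y - PW.B f y • w) (by simp [hy, hw]) (by simp [h.oW.symm f w, hwf])
    rw [show rf PW (a • x) = rf PW x from LinearMap.ext fun z => by
      simp only [rf_apply, map_smul, LinearMap.smul_apply, smul_eq_mul, RingHom.id_apply]
      match_scalars <;> field_simp, rf_rf h.oW a3, map_sub, map_smul, e1, sub_eq_iff_eq_add] at e3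
    simp [e3, hn.1, a3, sq, mul_div_assoc]
  have := h.oW.two
  convert (key ((c + 1) / 2)).add hq ((key ((c - 1) / 2)).neg hq) using 1
  match_scalars; field_simp; ring

theorem mem_algL {w f : W} (hw : PW.B w w = 0) (hwf : PW.B w f = 1) {s : Module.End F R}
    (h2 : s * s = 0) (hs : Has M fun x => x + (T.inU s * T.inW (wd PW w f)) x) :
    s ∈ T.algL PW M := fun t ht => by
  have hfw := (h.oW.symm f w).trans hwf
  have h3 : ∀ u, s (s u) = 0 := LinearMap.congr_fun h2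
  obtain ⟨g, hg, e⟩ := hs
  let α : R ≃ₗ[F] R := LinearEquiv.ofLinear (1 - s) (1 + s) (LinearMap.ext fun u => by simp [h3])
    (LinearMap.ext fun u => by simp [h3])
  have e1 : ∀ x, g⁻¹ x = x - (T.inU s * T.inW (wd PW w f)) x := fun x => by
    rw [le_inv_apply, LinearEquiv.symm_apply_eq, e]
    have : T.inU s * T.inW (wd PW w f) * (T.inU s * T.inW (wd PW w f)) = 0 :=
      T.lext fun u y => by simp [h3]
    simp [-Module.End.mul_apply, ← Module.End.mul_apply _ (_ * _), this]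
  have e2 : ∀ x, T.cB PW w x = 0 → T.inW (wd PW w f) x = T.τ (T.cB PW f x) w := fun x hx => by
    simp [wd, inW_r1, hx]
  have : (1 + s) * t ∈ T.levF PW M := h.mem_levF (by rintro rfl; simp at hwf) hw fun y hy =>
    ((ht w y (h.oW.max _ hw) hy).conj (M.inv_mem hg) (α := α) (fun u => by simp [e1, α, hw, hfw])
      fun x hx => by simp [e1, e2 x hx, hx, hw]).congr (h.oW.max _ hw) fun x hx => by
        simp [α, -LinearEquiv.coe_inv, e1, e2 x hx, h.oW.symm y w, hy]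
  simpa [add_mul] using Submodule.sub_mem _ this ht

theorem not_top [Finite F] (hne : ¬ EG P ≤ M) : ¬ ∀ s, s ∈ T.levF PW M := fun ht => by
  obtain ⟨w, h0, hw⟩ := exists_sing h.oW h.dW
  refine h.not_roots hne h0 hw fun a b => (h.comm_mem h0 hw (ht (r1 PR b a)) h.one_mem
    (s₁' := r1 PR a b) (s₂' := 1) (fun x y => by simp [h.oU.symm x a, h.oU.symm x b, mul_comm])
    fun _ _ => rfl).congr fun x => ?_
  simp [eu_apply, h.tf.B_left, h.oV.ε, inW_r1]; abel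

end Sw

end H21.TO
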