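import Mathlib
import Cfsg.Agent.Base
import Cfsg.Agent.Lib.Tensor.OW9

/-!
Orthogonal tensor factors, part 10: the centre of the unipotent radical meets `M` trivially.
-/

set_option autoImplicit false
set_option linter.unusedSectionVars false

namespace H21.TO

open Module Cfsg H97 H28 H11.Ten

variable {F R W V : Type*} [Field F] [AddCommGroup R] [Module F R] [AddCommGroup W]
  [Module F W] [AddCommGroup V] [Module F V] [FiniteDimensional F R] [FiniteDimensional F W]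
  {PR : PQ F R (RingHom.id F)} {PW : PQ F W (RingHom.id F)} {P : PQ F V (RingHom.id F)}
  {M : Subgroup (V ≃ₗ[F] V)} {ι : Type*} [Fintype ι] [DecidableEq ι] {T : ι → TS F R W V}
  {π : Equiv.Perm ι →* (V ≃ₗ[F] V)}

theorem odd_conj (h : IsOrth PW) {w f y : W} (hf : PW.B f f = 0)
    (hwf : PW.B w f = 1) (b1 : PW.B w y = 0) (b2 : PW.B f y = 0) (b3 : PW.B y y ≠ 0)
    {β β' r : W ≃ₗ[F] W} (hβ : β ∈ PW.Isom) (hβ' : β' ∈ PW.Isom) (hr : r ∈ PW.Isom)
    (e : ∀ x, β x = ex (wd PW f y) (1 : F) x)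
    (e' : ∀ x, β' x = ex (wd PW f y) (-1 : F) x) (er : ∀ x, r x = rf PW y x) {l m : F} {y' : W} :
    ((1 + (cA r).toLinearMap) * ((cA β).toLinearMap - (cA β').toLinearMap))
      (l • 1 + wd PW w y' + m • r1 PW w w) = (4 * PW.B y' y) • wd PW w f := by
  change (cA β _ - cA β' _) + cA r (cA β _ - cA β' _) = _
  have := h.two
  simp only [map_add, map_sub, map_smul, map_one]
  simp only [cA_apply, cN_wd h hβ, cN_wd h hβ', cN_wd h hr, cN_r1 hβ, cN_r1 hβ', cN_r1 hr, e, e', er,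
    ex_apply, wd_apply, rf_apply, map_add, map_sub, map_smul, smul_eq_mul, hf, hwf, b1, b2,
    h.symm f w, h.symm y w, h.symm y f, h.symm y' y]
  ext x
  simp only [LinearMap.add_apply, LinearMap.sub_apply, LinearMap.smul_apply, wd_apply, r1_apply,
    Module.End.one_apply, map_add, map_sub, map_smul, smul_eq_mul, RingHom.id_apply]
  match_scalars <;> field_simp <;> ring

namespace Wm

variable [Finite F] [Nontrivial R] (h : Wm PR PW P M T π) {w : W}
  (hμ : 4 ≤ finrank F W ∨ ∃ μ : F, μ ≠ 0 ∧ μ ^ 2 ≠ 1)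
include h

theorem tw {i j : ι} {γ : W ≃ₗ[F] W} (hγ : γ ∈ PW.Isom) : (T i).opE 1 γ * (T j).opE 1 γ⁻¹ ∈ M :=
  h.le (h.twist hγ)

theorem cN_tw {i j : ι} (hij : i ≠ j) (γ γ' : W ≃ₗ[F] W) (a : Module.End F W) :
    cN ((T i).opE 1 γ * (T j).opE 1 γ') ((T j).inW a) = cN ((T j).opE 1 γ') ((T j).inW a) := by
  rw [cN_mul, TS.cN_opE_inW, cN_of_commute (h.comm hij _ _)]

include hμ

theorem ext (i : ι) : Wr.Ext (T i) PW.Isom := by
  obtain ⟨w, h0, hw⟩ := exists_sing h.oW h.dW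
  obtain ⟨f, hf, hwf⟩ := partner h.oW h0 hw
  refine ext_orth h.oW h.rich h.dW EG_le_isom (h.oW.good_isom ⟨w, h0, h.oW.max _ hw⟩ h.dW hμ) h0 hw
    (fun u a1 a2 => ?_) _
  obtain ⟨z, b1, -, b3, b4⟩ := exists_ns_ne h.oW h.dW hw hf hwf a1 a2
  exact ⟨z, b1, b3, b4, has_rf h.oW b3⟩

omit hμ in
theorem alg_trans {i j l : ι} (hij : i ≠ j) (hjl : j ≠ l) (hil : i ≠ l)
    (h1 : ∀ a, (T i).inW a ∈ ((T j).algL PW M).map (T j).inU)
    (h2 : ∀ a, (T j).inW a ∈ ((T l).algL PW M).map (T l).inU) (a : Module.End F W) :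
    (T i).inW a ∈ ((T l).algL PW M).map (T l).inU := by
  have := (h.s i).ntW
  set L := ((T l).algL PW M).map (T l).inU
  have key : ∀ u v, (T i).inW (wd PW u v) ∈ L := fun u v => by
    obtain ⟨w, h0, hw⟩ := exists_sing h.oW h.dW
    obtain ⟨f, -, hwf⟩ := partner h.oW h0 hw
    obtain ⟨s, hs, e⟩ := h1 (r1 PW v u)
    obtain ⟨s', -, e'⟩ := h1 (r1 PW u v)
    change (T j).inU s = _ at e
    change (T j).inU s' = _ at e'
    obtain ⟨y, hy, e1⟩ := (h.s j).comm_mem h0 hw (by simpa using hs 1 (h.s j).one_mem) (h.s j).one_mem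
      (s₁ := s) (s₁' := s') (s₂' := 1) (Wr.adj_chi (h.tf j) fun x y => by
        change P.B ((T j).inU s x) y = P.B x ((T j).inU s' y)
        rw [e, e']
        exact B_inW (h.tf i) (fun x y => by simp [h.oW.symm x u, mul_comm]) x y) fun _ _ => rfl
    rw [one_mul, mul_one, map_sub, e, e', ← map_sub] at e1
    change ∀ x, _ = x + ((T i).inW (wd PW u v) * _) x at e1
    set a := wd PW u v
    have c1 : ∀ b, Commute ((T i).inW a) ((T j).inW b) := h.multi.comm i j hij a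
    have c2 := TS.map_algL (PW := PW) hy (fun b => cN_of_commute (by
      rw [show (y : Module.End F V) = 1 + _ from LinearMap.ext e1]
      exact (Commute.one_left _).add_left ((h.multi.comm i l hil a b).mul_left
        (h.multi.comm j l hjl _ b)))) (h2 (r1 PW f w))
    have c3 : r1 PW w w * r1 PW w w = 0 := by ext; simp [hw]
    have c4 : r1 PW f w * r1 PW w w = 0 := by ext; simp [hw]
    have c5 : r1 PW w w * r1 PW f w = r1 PW w w := by ext; simp [hwf]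
    rw [Wr.cN_sq e1 (by
      rw [mul_assoc, ← mul_assoc ((T j).inW _), ← (c1 _).eq, mul_assoc, ← map_mul, c3]; simp),
      mul_assoc, ← map_mul, c5, ← mul_assoc, ← (c1 _).eq, mul_assoc ((T i).inW a), ← map_mul, c4,
      mul_assoc, ← mul_assoc ((T j).inW _), ← (c1 _).eq, mul_assoc, ← map_mul, c3] at c2
    have c6 := Wr.eq_top_of_ideal (S := L.toSubmodule.comap
      (LinearMap.mulLeft F ((T i).inW a) ∘ₗ (T j).inW.toLinearMap)) (fun b s hs => by
        change (T i).inW a * (T j).inW (b * s) ∈ L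
        rw [map_mul, ← mul_assoc, (c1 _).eq, mul_assoc]
        exact L.mul_mem (h2 b) hs) (fun b s hs => by
        change (T i).inW a * (T j).inW (s * b) ∈ L
        rw [map_mul, ← mul_assoc]
        exact L.mul_mem hs (h2 b)) (s := r1 PW w w)
      (by simpa using L.sub_mem c2 (h2 (r1 PW f w))) (r1_mem_nilX h.oW.nd h0 (h.oW.max _ hw)).1.1
    simpa using (c6.ge Submodule.mem_top : (1 : Module.End F W) ∈ _)
  refine (top_of_r1 h.oW h.dW (S := L.comap (T i).inW) fun w h0 hw => ?_).ge Algebra.mem_top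
  obtain ⟨v, a1, a2, -⟩ := exists_RR h.oW h.dW h0 hw
  have := (L.comap (T i).inW).smul_mem (mul_mem (key w v) (key w v) :
    wd PW w v * wd PW w v ∈ L.comap (T i).inW) (-PW.B v v)⁻¹
  rwa [wd_mul_self h.oW hw a1, smul_smul, inv_mul_cancel₀ (neg_ne_zero.2 a2), one_smul] at this

variable (hne : ¬ EG P ≤ M)
include hne

theorem algL_scalar (j : ι) : ∀ s ∈ (T j).algL PW M, ∃ c : F, s = c • LinearMap.id := by
  have := (h.s j).ntW
  have := (T j).finite
  have hW := h.dW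
  rcases h.multi.main (by omega) (h.ext hμ) (Finset.univ.erase j) (((T j).algL PW M).map (T j).inU)
    (fun i hi x hx => by
      obtain rfl : i = j := by simpa using hi
      obtain ⟨a, -, rfl⟩ := hx
      exact (T i).commute_in a) (fun i hi γ hγ x hx => by
      have := algL_tw (h.tw (i := i) hγ) (PW.Isom.inv_mem hγ)
        (h.cN_tw (Finset.mem_erase.1 hi).1 _ _) hx
      obtain ⟨a, -, rfl⟩ := hx
      exact (congrArg (cN _) (Wr.cN_opE_of_comm _ _ ((T j).commute_in a))).symm.trans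
        (cN_mul _ _ _).symm ▸ this) with h1 | ⟨i, hi, h1⟩
  · exact fun s hs => (h1 _ ⟨s, hs, rfl⟩).imp fun c => Wr.scalar_of_chi
  have h2 := Wr.full_of_cyc (r := fun i j => ∀ a, (T i).inW a ∈ ((T j).algL PW M).map (T j).inU)
    (fun i j l => h.alg_trans) (fun i j l hij hjl hil h1 a => by
      obtain ⟨g, hg, e1, e2⟩ := h.cyc h.oV.isoK (by
        rw [(T i).finrank_eq]; nlinarith [h.dR]) i h.le i j l hij hjl hil
      exact (e1 a : cN g ((T i).inW a) = (T j).inW a) ▸ TS.map_algL hg e2 (h1 a))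
    (Finset.mem_erase.1 hi).1 h1
  have h3 := Wr.eq_top_of_gen (T j) (S := (T j).algL PW M) fun A a1 a2 => h.multi.gen A fun i a => by
    by_cases hij : i = j
    · exact hij ▸ a1 a
    obtain ⟨s, hs, e⟩ := h2 i hij a
    exact (e : (T j).inU s = Wr.psi (T i) a) ▸ a2 s hs
  exact ((h.s j).not_top hne fun s => by
    simpa using h3.ge (Algebra.mem_top (x := s)) 1 (h.s j).one_mem).elim

theorem z_zero (h0 : w ≠ 0) (hw : PW.B w w = 0) (j : ι) {t : Module.End F R}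
    (ht : Has M fun x => x + ((T j).inU t * (T j).inW (r1 PW w w)) x) : t = 0 := by
  have := (h.s j).ntW
  have := (T j).finite
  have : Nonempty ι := ⟨j⟩
  let Z : AddSubgroup (Module.End F V) :=
    { carrier := {x | (∃ t, x = (T j).inU t * (T j).inW (r1 PW w w)) ∧ Has M fun v => v + x v}
      zero_mem' := ⟨⟨0, by simp⟩, has_id.congr fun x => by simp⟩
      add_mem' := by
        rintro _ _ ⟨⟨a, rfl⟩, ha⟩ ⟨⟨b, rfl⟩, hb⟩
        exact ⟨⟨a + b, by simp [add_mul]⟩, (ha.comp hb).congr fun x => by simp [inW_r1, hw]; abel⟩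
      neg_mem' := by
        rintro _ ⟨⟨a, rfl⟩, ha⟩
        exact ⟨⟨-a, by simp⟩, ha.inv fun x => by simp [inW_r1, hw]⟩ }
  have a1 : ∀ g ∈ M, ∀ l, l ≠ j → ∀ β : W ≃ₗ[F] W, (∀ x ∈ Z, cN g x = cN ((T l).opE 1 β) x) →
      ∀ x ∈ Z, cN ((T l).opE 1 β) x ∈ Z := fun g hg l hl β e x hx => by
    refine ⟨?_, e x hx ▸ (hx.2.conj hg).congr fun v => by simp [cN_apply]⟩
    obtain ⟨⟨a, rfl⟩, -⟩ := hx
    obtain ⟨α, e⟩ := TS.exists_alpha_eq fun a => cN_of_commute (h.comm hl β a)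
    exact ⟨_, by rw [Wr.cN_mul, TS.cN_inU e, cN_of_commute (h.comm hl β _)]⟩
  have a2 := fun l hl β hβ => a1 _ ((h.s l).le β hβ) l hl β fun _ _ => rfl
  have hr := (r1_mem_nilX h.oW.nd h0 (h.oW.max _ hw)).1.1
  by_contra t0
  obtain ⟨x, hx, x0, hc⟩ := exists_fix h.multi h.oW hw j (𝒮 := Z) (x₀ := 0) Z.zero_mem
    (fun _ _ => Commute.zero_left _) a2 (card_eq_zero (Z := Z) ⟨⟨t, rfl⟩, ht⟩ (by
      rw [← TS.op_eq, ne_eq, TS.op_eq_zero, not_or]; exact ⟨t0, hr⟩))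
  obtain ⟨f, hf, hwf⟩ := partner h.oW h0 hw
  have hfw := (h.oW.symm f w).trans hwf
  obtain ⟨⟨t, ht⟩, hx'⟩ := id hx
  refine x0 (eq_zero_of_sym h.multi h.tf h.oW h.oV (skew_of_isom (ht ▸ LinearMap.congr_fun
    (ww_mul h.oW hw t t)) (hx'.mono fun _ => (h.s j).isom)) fun l => ?_)
  by_cases hl : l = j
  · exact hl ▸ ht ▸ symAt_ww h.oW t w
  refine symAt_of_co h.oW h.dW hw hf hwf (hc l hl) fun y b1 b2 b3 =>
    (Module.forall_dual_apply_eq_zero_iff F _).1 fun ψ => ?_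
  obtain ⟨β, hβ, e⟩ := has_ex h.oW hf b2 1
  obtain ⟨β', hβ', e'⟩ := has_ex h.oW hf b2 (-1)
  obtain ⟨r, hr, er⟩ := has_rf h.oW b3
  have c1 : ∀ ψ, ((1 + (cA r).toLinearMap) * ((cA β).toLinearMap - (cA β').toLinearMap))
      (cf (T l) ψ x) = (4 * ψ (Wr.co (T l) (PW.B f) y x)) • wd PW w f := fun ψ => by
    obtain ⟨l', y', m, e1, e2⟩ := cent_E h.oW h.dW h0 hw fun v hv => cf_comm (T l) (hc l hl v hv) ψ
    rw [← dual_cf, e2, odd_conj h.oW hf hwf b1 b2 b3 (EG_le_isom hβ) (EG_le_isom hβ') hr e e' er]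
    simp [b1, b2, hfw]
  obtain ⟨s, c2, c3⟩ := exists_pure' (T l) fun ψ => c1 ψ ▸ Submodule.smul_mem _ _
    (Submodule.mem_span_singleton_self _)
  have c4 : (T l).inU s * (T l).inW (wd PW w f) ∈ Z := by
    have c5 := Z.sub_mem (a2 l hl β hβ x hx) (a2 l hl β' hβ' x hx)
    rw [← c2, map_mul, map_add, map_sub, map_one, Module.End.mul_apply, LinearMap.add_apply,
      LinearMap.sub_apply, endTS_cA, endTS_cA, endTS_cA]
    refine Z.add_mem c5 (a1 _ (h.tw (i := l) (j := j) hr) l hl r ?_ _ c5)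
    rintro _ ⟨⟨a, rfl⟩, -⟩
    rw [cN_mul, TS.cN_opE, cN_one, cN_r1 (PW.Isom.inv_mem hr), show r⁻¹ w = w by
      rw [le_inv_apply, LinearEquiv.symm_apply_eq, er]; simp [h.oW.symm y w, b1]]
  have c5 : s * s = 0 := by
    obtain ⟨⟨a, e⟩, -⟩ := c4
    have := ww_mul (T := T j) h.oW hw a a
    rw [← e, ← TS.op_eq, TS.op_mul, TS.op_eq_zero] at this
    exact this.resolve_right fun e => h0 (by simpa [hw, hfw] using LinearMap.congr_fun e w)
  have c6 : s = 0 := by_contra fun s0 =>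
    (h.algL_scalar hμ hne l s ((h.s l).mem_algL hw hwf c5 c4.2)).elim (ne_smul_of_sq s0 c5)
  have := congrArg (PW.B f) (LinearMap.congr_fun ((c1 ψ).symm.trans (c3 ψ)) w)
  have h4 : (4 : F) ≠ 0 := by rw [show (4 : F) = 2 * 2 by norm_num]; simp [h.oW.two]
  simpa [c6, hw, hfw, h4] using this

theorem levF_scalar (j : ι) : ∀ s ∈ (T j).levF PW M, ∃ c : F, s = c • LinearMap.id := by
  have := (h.s j).ntW
  have hW := h.dW
  obtain ⟨w, h0, hw⟩ := exists_sing h.oW h.dW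
  have a1 : ∀ s ∈ (T j).levF PW M, ∀ x y, PR.B (s x) y = PR.B x (s y) := fun s hs => by
    obtain ⟨s', e⟩ := exists_adj h.oR.nd s
    have := h.z_zero hμ hne h0 hw j ((h.s j).comm_mem h0 hw hs (h.s j).one_mem e (s₂' := 1)
      fun _ _ => rfl)
    rw [one_mul, mul_one, sub_eq_zero] at this
    exact this ▸ e
  intro s hs
  refine (h.multi.scalar_of_comm (by omega) (h.ext hμ) (Finset.univ.erase j)
    (D := (T j).inU '' ((T j).levF PW M)) ?_ ?_ ?_ _ ⟨s, hs, rfl⟩).imp fun c => Wr.scalar_of_chi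
  · rintro _ ⟨a, ha, rfl⟩ _ ⟨b, hb, rfl⟩
    rw [← map_mul, ← map_mul, sub_eq_zero.1 (h.z_zero hμ hne h0 hw j
      ((h.s j).comm_mem h0 hw ha hb (a1 a ha) (a1 b hb)))]
  · rintro i hi _ ⟨a, -, rfl⟩
    obtain rfl : i = j := by simpa using hi
    exact (T i).commute_in a
  · rintro i hi γ hγ _ ⟨a, ha, rfl⟩
    obtain ⟨s', b1, b2⟩ := levF_tw' (h.tw (i := i) hγ) (PW.Isom.inv_mem hγ)
      (h.cN_tw (Finset.mem_erase.1 hi).1 _ _) ha
    rw [cN_mul, Wr.cN_opE_of_comm _ _ ((T j).commute_in a)] at b2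
    exact ⟨s', b1, b2.symm⟩

theorem ol_of {j : ι} (hs : ∀ w f, PW.B w w = 0 → PW.B f f = 0 → PW.B w f = 1 → ∀ k ∈ M,
    Lev (T j) PW w k → ∀ y, PW.B w y = 0 → PW.B f y = 0 → PW.B y y ≠ 0 →
      lv PW (T j) f k y ∈ F ∙ (1 : Module.End F R)) : OL (T j) PW M := fun w h0 hw k hk hL => by
  obtain ⟨f, hf, hwf⟩ := partner h.oW h0 hw
  obtain ⟨v, hv, γ, hγ, e1, e2⟩ := (h.s j).split hL hw hf hwf (hs w f hw hf hwf k hk hL)
  have hM := M.mul_mem (M.inv_mem ((h.s j).le γ hγ)) hk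
  obtain ⟨t, ht⟩ := z_form (h.tf j) h.oW h0 hw ((h.s j).isom hM) e2
  refine ⟨v, hv, fun y => ?_⟩
  have := ht y
  rw [h.z_zero hμ hne h0 hw j ⟨_, hM, ht⟩, le_mul_apply, le_inv_apply,
    LinearEquiv.symm_apply_eq] at this
  simpa [e1] using this

theorem ol (hk : finrank F W = 3 ∨ 5 ≤ finrank F W) (j : ι) : OL (T j) PW M :=
  h.ol_of hμ hne fun w f hw hf hwf k hk' hL y b1 b2 b3 => by
    have h0 : w ≠ 0 := by rintro rfl; simp at hwf
    have hq := h.oW.max _ hw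
    have hn := hL.hasN hk' ((h.oW.symm f w).trans hwf)
    obtain ⟨c, e⟩ := h.levF_scalar hμ hne j (lv PW (T j) f k y) (by
      rcases hk with h3 | h5
      · refine (h.s j).mem_levF h0 hw fun y' hy' => ((h.s j).hasN_smul h0 hw hn (PW.B y' y)).congr hq
          fun x hx => sub_eq_zero.1 ((T j).eq_zero_of_ker (f := lv PW (T j) f k y ∘ₗ (T j).cB PW y' -
            PW.B y' y • _) (fun u z hz => ?_) hx)
        rw [expand h.oW h3 hw hf hwf b1 b2 b3 z]
        simp [hz, lv, hL.1, h.oW.symm y' w, hy', smul_smul, mul_comm, b2]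
      · exact Wr.Cx.comp_mem ⟨h.tf j, (h.s j).le, fun _ => (h.s j).isom, ⟨3, h.oW.isoK, h5⟩, h.dW,
          extr_of_five h.oW.nd h5, exists_ne 0⟩ h0 hq b1 hn)
    exact Submodule.mem_span_singleton.2 ⟨c, e.symm⟩

end Wm

end H21.TO
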