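import Mathlib
import Cfsg.Agent.Base
import Cfsg.Agent.Lib.Tensor.OW10

/-!
Tensor powers of orthogonal spaces: the stabiliser of the decomposition is maximal.
-/

set_option autoImplicit false
set_option linter.unusedSectionVars false

namespace H21.TO

open Module Cfsg H97 H28 H11.Ten

section

variable {F R W V : Type*} [Field F] [AddCommGroup R] [Module F R] [AddCommGroup W]
  [Module F W] [AddCommGroup V] [Module F V] [FiniteDimensional F R] [FiniteDimensional F W]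
  {PR : PQ F R (RingHom.id F)} {PW : PQ F W (RingHom.id F)} {P : PQ F V (RingHom.id F)}
  {ι : Type*} [Fintype ι] [DecidableEq ι] {T : ι → TS F R W V} {π : Equiv.Perm ι →* (V ≃ₗ[F] V)}
  [Finite F] [Nontrivial R] [Nonempty ι]

theorem Wo.isMaximalIn_ol (h : Wo T PR PW P π)
    (hk : 5 ≤ finrank F W ∨ (Idx1 PW ∧ (4 ≤ finrank F W ∨ ∃ μ : F, μ ≠ 0 ∧ μ ^ 2 ≠ 1)))
    (hO : ∀ M, Wm PR PW P M T π → ¬ EG P ≤ M → ∀ j, OL (T j) PW M) :
    Geo.IsMaximalIn (EG P) (Wr.WG T ⊓ EG P) :=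
  have hR := rich_of h.oW hk
  h.isMaximalIn_of (hR.he h.oW h.dW) hk fun M h1 h2 h3 =>
    Wm.p1 ⟨h, hR, h1, h2⟩ (hO M ⟨h, hR, h1, h2⟩ h3)

theorem Wo.isMaximalIn (h : Wo T PR PW P π)
    (hk : 5 ≤ finrank F W ∨ (finrank F W = 3 ∧ ∃ μ : F, μ ≠ 0 ∧ μ ^ 2 ≠ 1)) :
    Geo.IsMaximalIn (EG P) (Wr.WG T ⊓ EG P) :=
  h.isMaximalIn_ol (hk.imp_right fun e => ⟨idx1_of_three h.oW e.1, Or.inr e.2⟩) fun _ h1 h2 =>
    h1.ol (hk.imp (by omega) (·.2)) h2 (hk.symm.imp_left (·.1))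

end

variable {F : Type*} [Field F] [Fintype F] {κ : Type} [Fintype κ] [DecidableEq κ] {k t : ℕ}

theorem wreath_orth_of (hodd : Odd (Fintype.card F)) (hk : 3 ≤ k) (ht : 2 ≤ t)
    {Q : QuadraticForm F (κ → F)} (hQ : (QuadraticMap.polarBilin Q).SeparatingLeft)
    (e : κ ≃ (Fin t → Fin k)) (P : GL κ F) {f₁ : (Fin k → F) → (Fin k → F) → F}
    (hf₁ : Geo.IsSymmetricForm f₁)
    (hT : Geo.IsTensorPowerFormStructure id (QuadraticMap.polar Q) f₁ e P)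
    (h : ∀ (s : ℕ) [Nontrivial ((Fin s → Fin k) → F)]
      (T : Fin (s + 1) → TS F ((Fin s → Fin k) → F) (Fin k → F) (κ → F)) PR π,
      Wo T PR (symP (two_ne_zero_of_odd hodd) (bilOf hf₁.bilinear) hf₁.symm) (PQ.ofQuad Q) π →
        Geo.IsMaximalIn (EG (PQ.ofQuad Q)) (Wr.WG T ⊓ EG (PQ.ofQuad Q))) :
    Geo.IsMaximalIn (Geo.omegaGL Q) (Geo.tensorWreathSubgroup k t e P ⊓ Geo.omegaGL Q) := by
  obtain ⟨t, rfl⟩ : ∃ s, t = s + 1 := ⟨t - 1, by omega⟩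
  have : NeZero k := ⟨by omega⟩
  have h2 := two_ne_zero_of_odd hodd
  obtain ⟨BR, hR, w⟩ := Wr.wf_sym h2 hQ hf₁ hT
  have h1 : k ≤ k ^ t := Nat.le_self_pow (by omega) k
  have hn : Fintype.card κ = k ^ t * k := by simpa [pow_succ] using Fintype.card_congr e
  rw [omegaGL_eq hQ (by nlinarith), Wr.wreath_eq, ← pull_inf]
  exact isMaximalIn_pull (h t _ _ _ ⟨w, symP_orth (w.tf 0).ndU, symP_orth (w.tf 0).ndW,
    ofQuad_orth h2 hQ, by rw [Wr.finrank_R]; omega, by simpa using hk⟩)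

theorem isMaximalIn_wreath_orth (hodd : Odd (Fintype.card F))
    (hk : 5 ≤ k ∨ (k = 3 ∧ Fintype.card F ≠ 3)) (ht : 2 ≤ t)
    {Q : QuadraticForm F (κ → F)} (hQ : (QuadraticMap.polarBilin Q).SeparatingLeft)
    (e : κ ≃ (Fin t → Fin k)) (P : GL κ F) {f₁ : (Fin k → F) → (Fin k → F) → F}
    (hf₁ : Geo.IsSymmetricForm f₁)
    (hT : Geo.IsTensorPowerFormStructure id (QuadraticMap.polar Q) f₁ e P) :
    Geo.IsMaximalIn (Geo.omegaGL Q) (Geo.tensorWreathSubgroup k t e P ⊓ Geo.omegaGL Q) :=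
  wreath_orth_of hodd (by omega) ht hQ e P hf₁ hT fun _ _ _ _ _ h => h.isMaximalIn
    (hk.imp (by simp) fun e => ⟨by simp [e.1], exists_sq_ne_one hodd e.2⟩)

end H21.TO
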