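import Mathlib
import Cfsg.Agent.Base
import Cfsg.Agent.Lib.Tensor.OW11

/-!
Orthogonal tensor factors, part 12: four-dimensional factors of minus type.
-/

set_option autoImplicit false
set_option linter.unusedSectionVars false

namespace H21.TO

open Module Cfsg H97 H28 H11.Ten

variable {F R W V : Type*} [Field F] [AddCommGroup R] [Module F R] [AddCommGroup W]
  [Module F W] [AddCommGroup V] [Module F V] [FiniteDimensional F R] [FiniteDimensional F W]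
  {PR : PQ F R (RingHom.id F)} {PW : PQ F W (RingHom.id F)} {P : PQ F V (RingHom.id F)}
  {M : Subgroup (V ≃ₗ[F] V)}

variable (PW) in
/-- A standard basis of a four-dimensional space. -/
structure B4 (w f x y : W) : Prop where
  ww : PW.B w w = 0
  ff : PW.B f f = 0
  wf : PW.B w f = 1
  wx : PW.B w x = 0
  fx : PW.B f x = 0
  wy : PW.B w y = 0
  fy : PW.B f y = 0
  xy : PW.B x y = 0
  xx : PW.B x x ≠ 0
  yy : PW.B y y ≠ 0
  fw : PW.B f w = 1
  xw : PW.B x w = 0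
  xf : PW.B x f = 0
  yw : PW.B y w = 0
  yf : PW.B y f = 0
  yx : PW.B y x = 0
  exp : ∀ z, z = PW.B f z • w + PW.B w z • f + (PW.B x z / PW.B x x) • x + (PW.B y z / PW.B y y) • y

theorem B4.swap {w f x y : W} (b : B4 PW w f x y) : B4 PW w f y x :=
  ⟨b.ww, b.ff, b.wf, b.wy, b.fy, b.wx, b.fx, b.yx, b.yy, b.xx, b.fw, b.yw, b.yf, b.xw, b.xf, b.xy,
    fun z => (b.exp z).trans (add_right_comm _ _ _)⟩

theorem B4.ne {w f x y : W} (b : B4 PW w f x y) : w ≠ 0 := fun e => by simpa [e] using b.wf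

theorem exists_b4 (h : IsOrth PW) (h4 : finrank F W = 4) {w f x : W} (hw : PW.B w w = 0)
    (hf : PW.B f f = 0) (hwf : PW.B w f = 1) (h1 : PW.B w x = 0) (h2 : PW.B f x = 0)
    (hx : PW.B x x ≠ 0) : ∃ y, B4 PW w f x y := by
  obtain ⟨y, a1, a2, a3, a4, -⟩ := exists_x2 h h4.ge hw hf hwf h1 h2 hx
  have b1 := (h.symm f w).trans hwf
  have b2 := (h.symm x w).trans h1
  have b3 := (h.symm x f).trans h2
  have b4 := (h.symm y w).trans a1
  have b5 := (h.symm y f).trans a2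
  have b6 := (h.symm y x).trans a3
  refine ⟨y, hw, hf, hwf, h1, h2, a1, a2, a3, hx, a4, b1, b2, b3, b4, b5, b6, fun z => ?_⟩
  have li : LinearIndependent F ![w, f, x, y] := by
    rw [Fintype.linearIndependent_iff]
    intro g hg i
    have e1 := congrArg (PW.B w) hg
    have e2 := congrArg (PW.B f) hg
    have e3 := congrArg (PW.B x) hg
    have e4 := congrArg (PW.B y) hg
    simp [Fin.sum_univ_four, hw, hf, hwf, h1, h2, hx, a1, a2, a3, a4, b1, b2, b3, b4, b5, b6]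
      at e1 e2 e3 e4
    fin_cases i <;> simp [e1, e2, e3, e4]
  have ht := li.span_eq_top_of_card_eq_finrank' (by simp [h4])
  obtain ⟨c, rfl⟩ := (Submodule.mem_span_range_iff_exists_fun F).1 (ht ▸ Submodule.mem_top : z ∈ _)
  simp [Fin.sum_univ_four, *]

variable (PW) in
/-- The maps `w ∧ v` with `v` orthogonal to `w`. -/
def nn (w : W) : Submodule F (Module.End F W) := (LinearMap.ker (PW.B w)).map (wdL PW w)

section One

variable {T : TS F R W V} {w f x y : W}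

theorem KK_nn (h : IsOrth PW) (hw : PW.B w w = 0) {X : Module.End F V} (hX : X ∈ T.KK (nn PW w)) :
    (∀ u, X (T.τ u w) = 0) ∧ ∀ v, T.cB PW w v = 0 → X v ∈ T.col w := by
  induction hX using Submodule.span_induction with
  | mem _ hX =>
    obtain ⟨s, _, ⟨v, hv, rfl⟩, rfl⟩ := hX
    exact ⟨fun u => by simp [wdL, hw, h.symm v w, show PW.B w v = 0 from hv], fun z hz =>
      ⟨s (T.cB PW v z), by simp [TS.op_eq, wdL, wd, inW_r1, hz]⟩⟩
  | zero => simp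
  | add _ _ _ _ h1 h2 => exact ⟨by simp [h1.1, h2.1], fun v hv => add_mem (h1.2 v hv) (h2.2 v hv)⟩
  | smul _ _ _ h1 => exact ⟨by simp [h1.1], fun v hv => Submodule.smul_mem _ _ (h1.2 v hv)⟩

theorem B4.form (b : B4 PW w f x y) {X : Module.End F V} (hX : X ∈ T.KK (nn PW w)) :
    ∃ s t, X = T.inU s * T.inW (wd PW w x) + T.inU t * T.inW (wd PW w y) := by
  induction hX using Submodule.span_induction with
  | mem _ hX =>
    obtain ⟨s, _, ⟨v, hv, rfl⟩, rfl⟩ := hX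
    refine ⟨(PW.B x v / PW.B x x) • s, (PW.B y v / PW.B y y) • s, T.lext fun u z => ?_⟩
    conv_lhs => rw [b.exp v]
    simp [wdL, show PW.B w v = 0 from hv]
    module
  | zero => exact ⟨0, 0, by simp⟩
  | add _ _ _ _ h1 h2 =>
    obtain ⟨s, t, rfl⟩ := h1
    obtain ⟨s', t', rfl⟩ := h2
    exact ⟨s + s', t + t', by simp [add_mul]; abel⟩
  | smul c _ _ h1 => obtain ⟨s, t, rfl⟩ := h1; exact ⟨c • s, c • t, by simp⟩

theorem mem_KK {v : W} (hv : PW.B w v = 0) (s : Module.End F R) :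
    T.inU s * T.inW (wd PW w v) ∈ T.KK (nn PW w) :=
  Submodule.subset_span ⟨s, _, ⟨v, hv, rfl⟩, (T.op_eq _ _).symm⟩

/-- The levels at `w`. -/
def Sw.LL (h : Sw T PR PW P M) (h0 : w ≠ 0) (hw : PW.B w w = 0) : Submodule F (Module.End F V) where
  carrier := {X | X ∈ T.KK (nn PW w) ∧ ∃ k ∈ M, ∀ v, T.cB PW w v = 0 → k v = v + X v}
  zero_mem' := ⟨zero_mem _, 1, M.one_mem, by simp⟩
  add_mem' := fun ⟨a1, k, a2, a3⟩ ⟨b1, k', b2, b3⟩ => ⟨add_mem a1 b1, k * k', M.mul_mem a2 b2,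
    fun v hv => by
      obtain ⟨u, hu⟩ := (KK_nn h.oW hw b1).2 v hv
      rw [le_mul_apply, b3 v hv, a3 _ (by simp [hv, ← hu, hw])]
      simp [← hu, (KK_nn h.oW hw a1).1]; abel⟩
  smul_mem' := fun c X ⟨a1, k, a2, a3⟩ => ⟨Submodule.smul_mem _ c a1, by
    obtain ⟨f, -, hwf⟩ := partner h.oW h0 hw
    have e : ∀ v, T.cB PW w v = 0 → X v = T.τ (T.cB PW f (X v)) w := fun v hv => by
      obtain ⟨u, hu⟩ := (KK_nn h.oW hw a1).2 v hv
      simp [← hu, h.oW.symm f w, hwf]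
    obtain ⟨-, k', b1, b2⟩ := h.hasN_smul h0 hw (n := T.cB PW f ∘ₗ X) ⟨fun u => by
      simp [(KK_nn h.oW hw a1).1], k, a2, fun v hv => by rw [a3 v hv, e v hv]; simp [← e v hv]⟩ c
    exact ⟨k', b1, fun v hv => by simp [b2 v hv, ← e v hv]⟩⟩

theorem Sw.LL_conj (h : Sw T PR PW P M) (h0 : w ≠ 0) (hw : PW.B w w = 0) {g : V ≃ₗ[F] V}
    (hg : g ∈ M) (e : ∀ a, Commute (g : Module.End F V) (T.inW a)) {X : Module.End F V}
    (hX : X ∈ h.LL h0 hw) : cN g X ∈ h.LL h0 hw := by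
  have := h.ntW
  obtain ⟨α, e'⟩ := TS.exists_alpha_eq fun a => cN_of_commute (e a)
  obtain ⟨a1, k, a2, a3⟩ := hX
  refine ⟨(Submodule.span_le (p := (T.KK (nn PW w)).comap (cA g).toLinearMap)).2 ?_ a1,
    _, M.mul_mem (M.mul_mem hg a2) (M.inv_mem hg), fun v hv => by
      rw [le_mul_apply, le_mul_apply, a3 _ ((cB_of_comm (fun a => comm_inv (e a)) h0 v).1 hv),
        map_add, le_apply_inv]; rfl⟩
  rintro _ ⟨s, _, ⟨v, hv, rfl⟩, rfl⟩
  change cN _ (T.op s (wd PW w v)) ∈ T.KK (nn PW w)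
  rw [TS.op_eq, Wr.cN_mul, TS.cN_inU e', cN_of_commute (e _)]
  exact mem_KK hv _

theorem Sw.mem_LL (h : Sw T PR PW P M) (h0 : w ≠ 0) (hw : PW.B w w = 0) {v : W}
    (hv : PW.B w v = 0) : T.inW (wd PW w v) ∈ h.LL h0 hw := by
  obtain ⟨β, hβ, e⟩ := h.hasR hw hv 1
  exact ⟨by simpa using mem_KK (T := T) hv 1, _, h.le β hβ, fun z hz => by
    rw [e, h.exR_perp hw hv hz]; simp [wd, inW_r1, hz]⟩

theorem Sw.LL_comm (h : Sw T PR PW P M) (b : B4 PW w f x y) {s₁ t₁ s₂ t₂ s₁' t₁' s₂' t₂' : Module.End F R}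
    (h1 : T.inU s₁ * T.inW (wd PW w x) + T.inU t₁ * T.inW (wd PW w y) ∈ h.LL b.ne b.ww)
    (h2 : T.inU s₂ * T.inW (wd PW w x) + T.inU t₂ * T.inW (wd PW w y) ∈ h.LL b.ne b.ww)
    (a₁ : ∀ x y, PR.B (s₁ x) y = PR.B x (s₁' y)) (a₂ : ∀ x y, PR.B (s₂ x) y = PR.B x (s₂' y))
    (b₁ : ∀ x y, PR.B (t₁ x) y = PR.B x (t₁' y)) (b₂ : ∀ x y, PR.B (t₂ x) y = PR.B x (t₂' y)) :
    Has M fun v => v + (T.inU (PW.B x x • (s₂ * s₁' - s₁ * s₂') + PW.B y y • (t₂ * t₁' - t₁ * t₂')) *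
      T.inW (r1 PW w w)) v := by
  have key : ∀ {s t : Module.End F R} {k : V ≃ₗ[F] V}, (∀ v, T.cB PW w v = 0 → k v = v +
      (T.inU s * T.inW (wd PW w x) + T.inU t * T.inW (wd PW w y)) v) →
      (∀ u, (s ∘ₗ T.cB PW x + t ∘ₗ T.cB PW y) (T.τ u w) = 0) ∧ ∀ v, T.cB PW w v = 0 →
        k v = v + T.τ ((s ∘ₗ T.cB PW x + t ∘ₗ T.cB PW y) v) w := fun e =>
    ⟨fun u => by simp [b.xw, b.yw], fun v hv => by simp [e v hv, wd, inW_r1, hv]⟩
  obtain ⟨-, k₁, c1, e₁⟩ := h1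
  obtain ⟨-, k₂, c2, e₂⟩ := h2
  obtain ⟨n₁, e₁⟩ := key e₁
  obtain ⟨n₂, e₂⟩ := key e₂
  refine (h.has_comm b.ww n₁ n₂ c1 c2 e₁ e₂).congr fun v => ?_
  simp only [LinearMap.add_apply, LinearMap.comp_apply]
  rw [h.cB_key b.ww b.wx n₂ c2 e₂ (s' := PW.B x x • s₂') (fun _ _ => by simp [a₂, b.yx]),
    h.cB_key b.ww b.wy n₂ c2 e₂ (s' := PW.B y y • t₂') (fun _ _ => by simp [b₂, b.xy]),
    h.cB_key b.ww b.wx n₁ c1 e₁ (s' := PW.B x x • s₁') (fun _ _ => by simp [a₁, b.yx]),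
    h.cB_key b.ww b.wy n₁ c1 e₁ (s' := PW.B y y • t₁') (fun _ _ => by simp [b₁, b.xy])]
  simp [inW_r1]
  module

theorem skew_op (h : TF T PR PW P) {s : Module.End F R} (hs : ∀ x y, PR.B (s x) y = PR.B x (s y))
    {a : Module.End F W} (ha : Skew PW a) : Skew P (T.inU s * T.inW a) := fun u v => by
  rw [h.B_op hs (a' := -a) (fun x y => by simp [ha x y])]; simp

end One

end H21.TO
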