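import Mathlib
import Cfsg.Agent.Base
import Cfsg.Agent.Lib.Tensor.OW12

/-!
Orthogonal tensor factors, part 13: tensor powers of a four-dimensional space of minus type.
-/

set_option autoImplicit false
set_option linter.unusedSectionVars false

namespace H21.TO

open Module Cfsg H97 H28 H11.Ten

variable {F R W V : Type*} [Field F] [AddCommGroup R] [Module F R] [AddCommGroup W]
  [Module F W] [AddCommGroup V] [Module F V] [FiniteDimensional F R] [FiniteDimensional F W]
  {PR : PQ F R (RingHom.id F)} {PW : PQ F W (RingHom.id F)} {P : PQ F V (RingHom.id F)}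
  {M : Subgroup (V ≃ₗ[F] V)}

theorem ev_skew [Finite F] (h : IsOrth PW) (hR : Rich PW) (h3 : 3 ≤ finrank F W)
    {a : Module.End F W} (hz : ∀ u, PW.B u u = 0 → PW.B u (a u) = 0) {w v : W} (hw : PW.B w w = 0)
    (hv : PW.B w v = 0) (hv' : PW.B v v ≠ 0) (y : W) : -(PW.B v v * PW.B w (a y)) • w -
      (PW.B v v * PW.B w y) • a w - (2 : F) • wd PW w v (a (wd PW w v y)) +
      (2⁻¹ * PW.B v v ^ 2 * PW.B w y * PW.B w (a w)) • w = wd PW w (PW.B v v • rf PW v (a w)) y := by
  obtain ⟨a', ha⟩ := exists_adj h.nd a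
  obtain ⟨l, hl⟩ := hR.scalar h h3 (s := a + a') (fun p q => by
    simp only [LinearMap.add_apply, map_add]
    rw [ha, h.symm (a' p), ← ha q p, h.symm p (a q), add_comm]) fun u hu => by
      simp [← ha, h.symm _ u, hz u hu]
  have k4 : ∀ p q, PW.B p (a q) = l * PW.B p q - PW.B q (a p) := fun p q => by
    have := congrArg (PW.B p) (LinearMap.congr_fun hl q)
    simp [← ha, h.symm (a p)] at this
    linear_combination this
  have k5 : PW.B v (a v) = 2⁻¹ * l * PW.B v v := by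
    have := h.two
    field_simp; linear_combination k4 v v
  simp only [rf_apply, map_sub, map_smul, wd_apply, smul_eq_mul, hz w hw, k4 w y, k4 w v, k5, hv,
    LinearMap.smul_apply, LinearMap.sub_apply, h.symm (a w) y]
  have := h.two
  match_scalars <;> field_simp <;> ring

section One

variable {T : TS F R W V} {w f x y : W} {S : Submodule F (Module.End F W)} {X : Module.End F V}

theorem mem_KK_of_cf (h : ∀ ψ, cf T ψ X ∈ S) : X ∈ T.KK S := by
  rw [T.endTS.eq_sum' (finBasis F (Module.End F R)) X]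
  exact Submodule.sum_mem _ fun i _ => Submodule.subset_span ⟨_, _, h _, (T.op_eq _ _).symm⟩

theorem KK_co [Nontrivial W] {T' : TS F R W V} (hc : ∀ a b, Commute (T'.inW a) (T.inW b))
    (hX : X ∈ T.KK S) (φ : Dual F W) (u : W) : T'.inU (Wr.co T' φ u X) ∈ T.KK S := by
  rw [inU_co]
  refine Submodule.sum_mem _ fun j _ => ?_
  obtain ⟨a, ha⟩ := T.exists_inU (hc (φ.smulRight (finBasis F W j)))
  obtain ⟨b, hb⟩ := T.exists_inU (hc (((finBasis F W).coord j).smulRight u))
  rw [ha, hb]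
  refine (Submodule.span_le (p := (T.KK S).comap (LinearMap.mulRight F _ ∘ₗ LinearMap.mulLeft F _))).2
    ?_ hX
  rintro _ ⟨s, c, hc, rfl⟩
  exact Submodule.subset_span ⟨a * s * b, c, hc, T.lext fun r z => by simp⟩

variable (T) in
/-- The operators on the coefficients in the second factor that preserve `L`. -/
def stabA (L : Submodule F (Module.End F V)) : Subalgebra F (Module.End F (Module.End F W)) where
  carrier := {φ | ∀ a ∈ L, T.endTS.inW φ a ∈ L}
  mul_mem' ha hb x hx := by rw [map_mul]; exact ha _ (hb x hx)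
  add_mem' ha hb x hx := by rw [map_add]; exact L.add_mem (ha x hx) (hb x hx)
  algebraMap_mem' c x hx := by rw [AlgHom.commutes]; exact L.smul_mem c hx

theorem B4.eq_zero (b : B4 PW w f x y) (hI : Idx1 PW) (hX : X ∈ T.KK (nn PW w))
    (e : ∀ c, X * T.inU c * X = 0) : X = 0 := by
  obtain ⟨s, t, rfl⟩ := b.form hX
  have key : ∀ u (φ : Dual F R), φ (s u) = 0 ∧ φ (t u) = 0 := fun u φ => by
    have e1 := congrArg (φ ∘ₗ T.cB PW f) (LinearMap.congr_fun (e (φ.smulRight u)) (T.τ u f))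
    simp [b.xf, b.yf, b.wf, b.wx, b.wy, b.xy, b.yx, b.fw] at e1
    obtain ⟨c, hc⟩ := Submodule.mem_span_singleton.1 (hI w (φ (s u) • x + φ (t u) • y) b.ne b.ww
      (by simp [b.xy, b.yx]; linear_combination -e1) (by simp [b.wx, b.wy]))
    exact ⟨by simpa [b.xw, b.xy, b.xx] using congrArg (PW.B x) hc,
      by simpa [b.yw, b.yx, b.yy] using congrArg (PW.B y) hc⟩
  rw [show s = 0 from LinearMap.ext fun u => (forall_dual_apply_eq_zero_iff F _).1 fun φ => (key u φ).1,
    show t = 0 from LinearMap.ext fun u => (forall_dual_apply_eq_zero_iff F _).1 fun φ => (key u φ).2]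
  simp

end One

variable {ι : Type*} [Fintype ι] [DecidableEq ι] {T : ι → TS F R W V}
  {π : Equiv.Perm ι →* (V ≃ₗ[F] V)}

namespace Wm

variable [Finite F] [Nontrivial R] (h : Wm PR PW P M T π) {w f x y : W} {j l : ι}
include h

theorem ann {L : Submodule F (Module.End F V)}
    (hL : ∀ g ∈ M, (∀ a, Commute (g : Module.End F V) ((T j).inW a)) → ∀ X ∈ L, cN g X ∈ L)
    {a₁ a₂ : Module.End F W} {A B : Module.End F V}
    (h3 : ∀ s t, (T l).inU s * (T l).inW a₁ + (T l).inU t * (T l).inW a₂ ∈ L →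
      A * (T l).inU s = B * (T l).inU t) (c : Module.End F R) :
    ∀ s t, (T l).inU s * (T l).inW a₁ + (T l).inU t * (T l).inW a₂ ∈ L →
      A * (T j).inU c * (T l).inU s = B * (T j).inU c * (T l).inU t := by
  have := (h.s j).ntW
  let p := fun u : Module.End F V => ∀ s t, (T l).inU s * (T l).inW a₁ + (T l).inU t * (T l).inW a₂ ∈ L →
    A * u * (T l).inU s = B * u * (T l).inU t
  let 𝒜 : Subalgebra F (Module.End F V) :=
    { carrier := {a | ∀ u, p u → p (u * a)}
      mul_mem' := fun ha hb u hu => mul_assoc u _ _ ▸ hb _ (ha u hu)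
      add_mem' := fun ha hb u hu s t e => by
        simp only [mul_add, add_mul, ha u hu s t e, hb u hu s t e]
      algebraMap_mem' := fun c u hu s t e => by
        simp only [← Algebra.commutes, ← Algebra.smul_def, mul_smul_comm, smul_mul_assoc, hu s t e] }
  have a1 : ∀ i, i ≠ j → ∀ a, (T i).inW a ∈ 𝒜 := fun i hi a => by
    by_cases e : i = l
    · intro u hu s t hs
      simp only [e, ← mul_assoc]
      rw [mul_assoc _ _ ((T l).inU s), mul_assoc _ _ ((T l).inU t), ← ((T l).commute_in _ _).eq,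
        ← ((T l).commute_in _ _).eq, ← mul_assoc, ← mul_assoc, hu s t hs]
    refine (top_of_RR h.oW h.dW (S := 𝒜.comap (T i).inW) fun β hβ u hu s t hs => ?_).ge
      Algebra.mem_top
    obtain ⟨α, e'⟩ := TS.exists_alpha_eq fun a => cN_of_commute (h.comm e β a)
    have b1 := hL _ ((h.s i).le β (RR_sub h.oW hβ)) (h.comm hi β) _ hs
    rw [Wr.cN_add, Wr.cN_mul, Wr.cN_mul, TS.cN_inU e', TS.cN_inU e', cN_of_commute (h.comm e β _),
      cN_of_commute (h.comm e β _)] at b1
    have b2 := congrArg (· * ((T i).opE 1 β : Module.End F V)) (hu _ _ b1)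
    simp only [← TS.cN_inU e'] at b2
    simp only [Wr.cN_eq, mul_assoc, Wr.coe_inv_mul, mul_one] at b2
    simp only [mul_assoc]
    exact (T i).opE_one_coe β ▸ b2
  have a2 := Wr.eq_top_of_gen (T j) (S := 𝒜.comap (T j).inU) fun A' b1 b2 => h.multi.gen A' fun i a => by
    by_cases e : i = j
    · exact e ▸ b1 a
    obtain ⟨s, hs⟩ := (T j).exists_inU (h.multi.comm i j e a)
    exact (hs : Wr.psi (T i) a = Wr.chi (T j) s) ▸ b2 s (show (T j).inU s ∈ 𝒜 from hs ▸ a1 i e a)
  simpa using (a2.ge Algebra.mem_top : c ∈ _) 1 (by simpa [p] using h3)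

variable (hne : ¬ EG P ≤ M) (h4 : finrank F W = 4) (b : B4 PW w f x y)
include hne h4 b

theorem LL_sym {s t : Module.End F R} (hX : (T j).inU s * (T j).inW (wd PW w x) +
    (T j).inU t * (T j).inW (wd PW w y) ∈ (h.s j).LL b.ne b.ww) (u v : R) :
    PR.B (s u) v = PR.B u (s v) := by
  obtain ⟨s', e⟩ := exists_adj h.oR.nd s
  obtain ⟨t', e'⟩ := exists_adj h.oR.nd t
  have := h.z_zero (Or.inl h4.ge) hne b.ne b.ww j ((h.s j).LL_comm b (s₂ := 1) (t₂ := 0) (s₂' := 1)
    (t₂' := 0) hX (by simpa using (h.s j).mem_LL b.ne b.ww b.wx) e (fun _ _ => rfl) e' (by simp))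
  rw [e, show s' = s by simpa [b.xx, sub_eq_zero] using this]

theorem LL_skew {X : Module.End F V} (hX : X ∈ (h.s j).LL b.ne b.ww) : Skew P X := by
  obtain ⟨s, t, rfl⟩ := b.form hX.1
  exact (skS P).add_mem (skew_op (h.tf j) (h.LL_sym hne h4 b hX) (skew_wd h.oW _ _))
    (skew_op (h.tf j) (h.LL_sym hne h4 b.swap (by rwa [add_comm])) (skew_wd h.oW _ _))

theorem LL_mul {X Y : Module.End F V} (hX : X ∈ (h.s j).LL b.ne b.ww)
    (hY : Y ∈ (h.s j).LL b.ne b.ww) : X * Y = Y * X := by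
  obtain ⟨s, t, rfl⟩ := b.form hX.1
  obtain ⟨s', t', rfl⟩ := b.form hY.1
  have := h.z_zero (Or.inl h4.ge) hne b.ne b.ww j ((h.s j).LL_comm b hX hY (h.LL_sym hne h4 b hX)
    (h.LL_sym hne h4 b hY) (h.LL_sym hne h4 b.swap (by rwa [add_comm]))
    (h.LL_sym hne h4 b.swap (by rwa [add_comm])))
  refine (T j).lext fun u z => ?_
  have := congrArg (fun r => (T j).τ r w) (LinearMap.congr_fun this u)
  simp [b.xw, b.yw, b.ww, b.wx, b.wy, b.xy, b.yx] at this ⊢
  linear_combination (norm := module) PW.B w z • this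

omit hne h4 in
theorem scal {s t : Module.End F R} (hc : ∀ i, i ≠ j → ∀ a, Commute ((T i).inW a) ((T j).inU s *
    (T j).inW (wd PW w x) + (T j).inU t * (T j).inW (wd PW w y))) : ∃ c : F, s = c • LinearMap.id := by
  have := (h.s j).ntW
  obtain ⟨c, e⟩ := h.multi.scalar (x := (T j).inU s) fun i a => by
    by_cases e : i = j
    · exact e ▸ (T i).commute_in _ _
    have := comm_co (T j) (h.multi.comm i j e a) (hc i e a) (PW.B f) ((PW.B x x)⁻¹ • x)
    rw [show Wr.co _ _ _ _ = s from LinearMap.ext fun r => by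
      simp [Wr.co_apply, b.fw, b.wx, b.yx, b.xx]] at this
    exact this.symm
  exact ⟨c, Wr.scalar_of_chi e⟩

omit hne h4 in
theorem skew_of {X : Module.End F V} (hX : X ∈ (T j).KK (nn PW w))
    (hc : ∀ i, i ≠ j → ∀ a, Commute ((T i).inW a) X) : Skew P X := by
  obtain ⟨p, q, rfl⟩ := b.form hX
  obtain ⟨c, e⟩ := h.scal b hc
  obtain ⟨d, e'⟩ := h.scal b.swap (s := q) (t := p) fun i e a => by rw [add_comm]; exact hc i e a
  exact (skS P).add_mem (skew_op (h.tf j) (by simp [e]) (skew_wd h.oW _ _))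
    (skew_op (h.tf j) (by simp [e']) (skew_wd h.oW _ _))

variable (hI : Idx1 PW) (hl : l ≠ j)
include hI hl

theorem pure_zero {w' : W} (h0 : w' ≠ 0) (hw : PW.B w' w' = 0) {s : Module.End F R}
    (hs : (T l).inU s * (T l).inW (r1 PW w' w') ∈ (h.s j).LL b.ne b.ww) : s = 0 := by
  have := (h.s j).ntW
  obtain ⟨f', hf, hwf⟩ := partner h.oW h0 hw
  have hfw := (h.oW.symm f' w').trans hwf
  obtain ⟨β, hβ, c, c0, e⟩ := pt_of_ne h.oW h.dW hw hf (by simp [hwf])
  have a1 := KK_co (h.multi.comm l j hl) hs.1 (PW.B f') f'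
  rw [show Wr.co _ _ _ _ = s from LinearMap.ext fun r => by simp [Wr.co_apply, hwf, hfw]] at a1
  refine inU_inj (T l) ((b.eq_zero hI a1 fun c => ?_).trans (map_zero _).symm)
  simpa using h.ann (l := l) (fun g hg e X => (h.s j).LL_conj b.ne b.ww hg e) (a₁ := r1 PW w' w')
    (a₂ := 0) (A := (T l).inU s) (B := 0) (fun s' t' hs' => by
      have := h.LL_mul hne h4 b hs ((h.s j).LL_conj b.ne b.ww ((h.s l).le β hβ) (h.comm hl β) hs')
      rw [map_zero, mul_zero, add_zero, TS.cN_opE, cN_one, cN_r1 (EG_le_isom hβ), e] at this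
      rw [← map_mul, show s * s' = 0 from LinearMap.ext fun r => by
        simpa [hw, hfw, hwf, c0, TS.τ_eq_zero, h0] using LinearMap.congr_fun this ((T l).τ r w')]
      simp) c s 0 (by simpa using hs)

theorem pair_zero {w' f' x' y' : W} (b' : B4 PW w' f' x' y') {s t : Module.End F R}
    (hs : (T l).inU s * (T l).inW (wd PW w' x') + (T l).inU t * (T l).inW (wd PW w' y') ∈
      (h.s j).LL b.ne b.ww) :
    (T l).inU s * (T l).inW (wd PW w' x') + (T l).inU t * (T l).inW (wd PW w' y') = 0 := by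
  have := (h.s j).ntW
  have h2 := h.oW.two
  have a1 := KK_co (h.multi.comm l j hl) hs.1 (PW.B f') ((PW.B x' x')⁻¹ • x')
  have a2 := KK_co (h.multi.comm l j hl) hs.1 (PW.B f') ((PW.B y' y')⁻¹ • y')
  rw [show Wr.co _ _ _ _ = s from LinearMap.ext fun r => by
    simp [Wr.co_apply, b'.fw, b'.wx, b'.yx, b'.xx]] at a1
  rw [show Wr.co _ _ _ _ = t from LinearMap.ext fun r => by
    simp [Wr.co_apply, b'.fw, b'.wy, b'.xy, b'.yy]] at a2
  by_cases hi : ∃ i, i ≠ j ∧ i ≠ l
  swap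
  · push Not at hi
    have key : ∀ {s}, (T l).inU s ∈ (T j).KK (nn PW w) → ∀ v v' u u',
        P.B (((T l).inU s * (T l).inW (wd PW v v')) u) u' =
          P.B u (((T l).inU s * (T l).inW (wd PW v v')) u') := fun {s} hs v v' u u' => by
      rw [Module.End.mul_apply, h.skew_of b hs fun i e a => by
        rw [hi i e]; exact ((T l).commute_in _ _).symm,
        skew_inW (h.tf l) (skew_wd h.oW _ _), neg_neg, ((T l).commute_in s _).eq,
        Module.End.mul_apply]
    refine LinearMap.ext fun u => h.oV.nd _ fun v => mul_left_cancel₀ h2 ?_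
    have := h.LL_skew hne h4 b hs u v
    simp only [LinearMap.add_apply, map_add, key a1, key a2] at this ⊢
    linear_combination this
  obtain ⟨i, hij, hil⟩ := hi
  have a3 := h.ann (l := l) (fun g hg e X => (h.s j).LL_conj b.ne b.ww hg e) (a₁ := wd PW w' x')
    (a₂ := wd PW w' y') (A := PW.B x' x' • (T l).inU s) (B := PW.B y' y' • (T l).inU t)
    fun s' t' hs' => by
      obtain ⟨β, hβ, e⟩ := weyl h.oW b'.ww b'.ff b'.wf b'.wx b'.fx b'.xx
      have := h.LL_mul hne h4 b hs ((h.s j).LL_conj b.ne b.ww ((h.s l).le β hβ) (h.comm hl β) hs')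
      rw [Wr.cN_add, TS.cN_opE, TS.cN_opE, cN_one, cN_one, cN_wd h.oW (EG_le_isom hβ),
        cN_wd h.oW (EG_le_isom hβ), e, e, e] at this
      rw [smul_mul_assoc, smul_mul_assoc, ← map_mul, ← map_mul, ← map_smul, ← map_smul]
      refine congrArg _ (LinearMap.ext fun r => smul_right_injective _ (div_ne_zero b'.xx h2) ?_)
      have := congrArg ((T l).cB PW f') (LinearMap.congr_fun this ((T l).τ r w'))
      simp [b'.ww, b'.fw, b'.wx, b'.wy, b'.xw, b'.yw, b'.xy, b'.yx, b'.fx, b'.fy, b'.xx] at this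
      simp
      linear_combination (norm := module) -this
  obtain ⟨r, hr, er⟩ := has_rf h.oW b'.xx
  obtain ⟨α, e'⟩ := TS.exists_alpha_eq fun a => cN_of_commute (h.comm hil r⁻¹ a)
  have a4 := (h.s j).LL_conj b.ne b.ww (h.tw (i := i) (j := l) (PW.Isom.inv_mem hr))
    (fun a => (h.comm hij _ a).mul_left (h.comm hl _ a)) hs
  rw [cN_mul, Wr.cN_add, TS.cN_opE, TS.cN_opE, cN_one, cN_one, inv_inv, cN_wd h.oW hr, cN_wd h.oW hr,
    show wd PW (r w') (r x') = -wd PW w' x' from LinearMap.ext fun z => by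
      simp [er, b'.xw, b'.xx]; module,
    show wd PW (r w') (r y') = wd PW w' y' by simp [er, b'.xw, b'.xy], Wr.cN_add, Wr.cN_mul,
    Wr.cN_mul, TS.cN_inU e', TS.cN_inU e', cN_of_commute (h.comm hil _ _),
    cN_of_commute (h.comm hil _ _), map_neg, mul_neg, ← neg_mul, ← map_neg] at a4
  obtain ⟨γ, hγ⟩ := (T j).exists_inU fun a => comm_inv (h.comm hij r⁻¹ a)
  have a5 : ∀ c, PW.B x' x' • ((T l).inU s * (T j).inU c * (T l).inU s) = 0 ∧
      PW.B y' y' • ((T l).inU t * (T j).inU c * (T l).inU t) = 0 := fun c => by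
    have c1 := a3 c s t hs
    have c2 := congrArg (· * (((T i).opE 1 r⁻¹ : V ≃ₗ[F] V) : Module.End F V)) (a3 (c * γ) _ _ a4)
    simp only [map_neg, ← TS.cN_inU e', map_mul, ← hγ] at c2
    simp only [Wr.cN_eq, mul_assoc, Wr.coe_inv_mul, mul_one, mul_neg, neg_mul, smul_mul_assoc] at c1 c2 ⊢
    simp only [← mul_assoc (((_ : V ≃ₗ[F] V)⁻¹ : V ≃ₗ[F] V) : Module.End F V), Wr.coe_inv_mul,
      one_mul, c1] at c2
    have c3 := (smul_eq_zero.1 ((two_smul F _).trans (eq_neg_iff_add_eq_zero.1 c2.symm))).resolve_left h2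
    exact ⟨c1.trans c3, c3⟩
  rw [b.eq_zero hI a1 fun c => by simpa [b'.xx] using (a5 c).1,
    b.eq_zero hI a2 fun c => by simpa [b'.yy] using (a5 c).2]
  simp

theorem LL_commute {X : Module.End F V} (hX : X ∈ (h.s j).LL b.ne b.ww) (a : Module.End F W) :
    Commute ((T l).inW a) X := by
  have := (h.s j).ntW
  have hE : ∀ γ ∈ EG PW, (cA γ).toLinearMap ∈ stabA (T l) ((h.s j).LL b.ne b.ww) := fun γ hγ Y hY => by
    rw [endTS_cA]; exact (h.s j).LL_conj b.ne b.ww ((h.s l).le γ hγ) (h.comm hl γ) hY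
  have a1 : ∀ ψ u, PW.B u u = 0 → PW.B u (cf (T l) ψ X u) = 0 := fun ψ u hu => by
    by_cases h0 : u = 0
    · simp [h0]
    obtain ⟨φ, c1, c, c2, c3⟩ := exists_four h.oW hE h.rich h.dW h0 hu
    obtain ⟨s, d1, d2⟩ := exists_pure' (T l) (x := X) fun ψ => c3 _ ▸ Submodule.smul_mem _ _
      (Submodule.mem_span_singleton_self _)
    have := (c3 _).symm.trans (d2 ψ)
    simpa [h.pure_zero hne h4 b hI hl h0 hu (d1 ▸ c1 X hX), c2,
      (r1_mem_nilX h.oW.nd h0 (h.oW.max _ hu)).1.1] using this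
  have a2 : ∀ ψ, ∃ c : F, cf (T l) ψ X = c • LinearMap.id := fun ψ => by_contra fun hc => by
    obtain ⟨u, hu, e⟩ := exists_sing_notMem h.oW.nd h.oW.max (Or.inr ⟨h.dW, h.oW.two⟩)
      ⟨w, b.ne, h.oW.max _ b.ww⟩ (not_exists.1 hc)
    replace hu := PW.self_eq_zero hu
    obtain ⟨f', hf, hwf⟩ := partner h.oW (by rintro rfl; simp at e) hu
    obtain ⟨x', c1, c2, c3⟩ := exists_x h.oW h.dW hu hf hwf
    obtain ⟨y', b'⟩ := exists_b4 h.oW h4 hu hf hwf c1 c2 c3
    obtain ⟨φ, d1, d2⟩ := exists_ev h.oW hE hu c1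
    have d3 : ∀ ψ, φ (cf (T l) ψ X) = wd PW u (PW.B x' x' • rf PW x' (cf (T l) ψ X u)) := fun ψ =>
      LinearMap.ext fun z => (d2 _ z).trans (ev_skew h.oW h.rich h.dW (a1 ψ) hu c1 c3 z)
    obtain ⟨s, t, d4⟩ := b'.form (T := T l) (X := (T l).endTS.inW φ X) (mem_KK_of_cf fun ψ =>
      ⟨_, by simp [a1 ψ u hu, c1], ((cf_inW _ _ _ _).trans (d3 ψ)).symm⟩)
    have d5 := congrArg (cf (T l) ψ) (d4.trans (h.pair_zero hne h4 b hI hl b' (d4 ▸ d1 X hX)))
    have d6 := congrArg (rf PW x') (LinearMap.congr_fun (((cf_inW _ _ _ _).trans (d3 ψ)).symm.trans d5) f')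
    rw [wd_apply, hwf, one_smul, map_sub, map_smul, map_smul (rf PW x'), rf_rf h.oW c3,
      show rf PW x' u = u by simp [b'.xw], map_zero, LinearMap.zero_apply, map_zero] at d6
    exact e ((Submodule.smul_mem_iff _ c3).1 (Submodule.mem_span_singleton.2 ⟨_, sub_eq_zero.1 d6⟩))
  obtain ⟨s, hs, -⟩ := exists_pure' (T l) (φ := 1) (x := X) (x₀ := 1) fun ψ =>
    Submodule.mem_span_singleton.2 ((a2 ψ).imp fun _ => Eq.symm)
  rw [show X = (T l).inU s by simpa using hs]
  exact ((T l).commute_in _ _).symm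

omit b hl in
theorem ol_four : OL (T j) PW M :=
  h.ol_of (Or.inl h4.ge) hne fun w f hw hf hwf k hk hL x b1 b2 b3 => by
    obtain ⟨y, b⟩ := exists_b4 h.oW h4 hw hf hwf b1 b2 b3
    obtain ⟨c, e⟩ := h.scal b (j := j) (s := (PW.B x x)⁻¹ • lv PW (T j) f k x)
      (t := (PW.B y y)⁻¹ • lv PW (T j) f k y) fun i hi => h.LL_commute hne h4 b hI hi
        ⟨add_mem (mem_KK b.wx _) (mem_KK b.wy _), k, hk, fun v hv => sub_eq_zero.1
          ((T j).eq_zero_of_ker (f := (k : V →ₗ[F] V) - (LinearMap.id + _)) (fun u z hz => by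
            have : lv PW (T j) f k w = 0 := LinearMap.ext fun u => by simp [lv, hL.1]
            rw [LinearMap.sub_apply, LinearEquiv.coe_coe, hL.lv b.fw hz]
            conv_lhs => enter [1, 2]; rw [b.exp z]
            simp [this, hz]
            module) hv)⟩
    exact (Submodule.smul_mem_iff _ (inv_ne_zero b3)).1 (Submodule.mem_span_singleton.2 ⟨c, e.symm⟩)

end Wm

theorem isMaximalIn_wreath_four {F : Type*} [Field F] [Fintype F] {κ : Type} [Fintype κ]
    [DecidableEq κ] {t : ℕ} (hodd : Odd (Fintype.card F)) (ht : 2 ≤ t)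
    {Q : QuadraticForm F (κ → F)} (hQ : (QuadraticMap.polarBilin Q).SeparatingLeft)
    (e : κ ≃ (Fin t → Fin 4)) (P : GL κ F) {f₁ : (Fin 4 → F) → (Fin 4 → F) → F}
    (hf₁ : Geo.IsSymmetricForm f₁) (h4 : ¬ Geo.IsPlusTypeOn (fun v : Fin 4 → F => f₁ v v) ⊤)
    (hT : Geo.IsTensorPowerFormStructure id (QuadraticMap.polar Q) f₁ e P) :
    Geo.IsMaximalIn (Geo.omegaGL Q) (Geo.tensorWreathSubgroup 4 t e P ⊓ Geo.omegaGL Q) :=
  wreath_orth_of hodd (by omega) ht hQ e P hf₁ hT fun _ _ _ _ _ h =>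
    have hI := idx1_of h.oW (by simp) fun S hS hS' => h4 ⟨S, le_top, hS, by simp [hS']⟩
    h.isMaximalIn_ol (Or.inr ⟨hI, Or.inl (by simp)⟩) fun _ h1 h2 _ => h1.ol_four h2 (by simp) hI

end H21.TO
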